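import Cfsg.Agent.Lib.H05.Isolated

/-!
# Isolated involutions: counting in the conjugacy class
-/

set_option autoImplicit false

namespace Cfsg.Agent.H05

open Cfsg

variable {G : Type*} [Group G]

/-- Product of two distinct conjugates of an isolated involution does not commute with it. -/
theorem iso_prod_not_comm [Finite G] {z : G} (hz : IsIsolatedInvolution z) (g h : G)
    (hne : g * z * g⁻¹ ≠ h * z * h⁻¹) : ¬ Commute (g * z * g⁻¹ * (h * z * h⁻¹)) z := by
  intro hc
  have hzz := iso_mul_self hz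
  set s := g * z * g⁻¹ with hs
  set t := h * z * h⁻¹ with ht
  have hss : s * s = 1 := iso_mul_self (iso_conj hz g)
  have htt : t * t = 1 := iso_mul_self (iso_conj hz h)
  have hsi : s⁻¹ = s := inv_eq_of_mul_eq_one_left hss
  have hti : t⁻¹ = t := inv_eq_of_mul_eq_one_left htt
  have hx_odd : Odd (orderOf (s * t)) := iso_odd hz g h
  have hsx : s * (s * t) * s⁻¹ = (s * t)⁻¹ := by
    rw [hsi, mul_inv_rev, hsi, hti]
    calc s * (s * t) * s = (s * s) * t * s := by group
      _ = t * s := by rw [hss, one_mul]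
  have hzx : z * (s * t) * z⁻¹ = s * t := by
    have : (s * t) * z = z * (s * t) := hc
    rw [← this]; group
  have hu_odd : Odd (orderOf (s * z)) := iso_odd_aux hz g
  have hux : (s * z) * (s * t) * (s * z)⁻¹ = (s * t)⁻¹ := by
    calc (s * z) * (s * t) * (s * z)⁻¹ = s * (z * (s * t) * z⁻¹) * s⁻¹ := by group
      _ = (s * t)⁻¹ := by rw [hzx, hsx]
  obtain ⟨m, hm⟩ := hu_odd
  have h1 := odd_pow_conj_inv hux m
  rw [← hm, pow_orderOf_eq_one] at h1
  simp only [one_mul, inv_one, mul_one] at h1
  have hxx : (s * t) * (s * t) = 1 := by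
    nth_rewrite 1 [h1]; group
  have := eq_one_of_sq_of_odd hx_odd hxx
  apply hne
  have h3 : s = t⁻¹ := eq_inv_of_mul_eq_one_left this
  rw [h3, hti]

/-- Uniqueness of the midpoint. -/
theorem midpoint_unique [Finite G] {y : G} (hy : IsIsolatedInvolution y) (a b : G)
    (hab : (a * y * a⁻¹) * y * (a * y * a⁻¹) = (b * y * b⁻¹) * y * (b * y * b⁻¹)) :
    a * y * a⁻¹ = b * y * b⁻¹ := by
  by_contra hne
  apply iso_prod_not_comm hy a b hne
  set s := a * y * a⁻¹ with hs
  set t := b * y * b⁻¹ with ht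
  have hss : s * s = 1 := iso_mul_self (iso_conj hy a)
  have htt : t * t = 1 := iso_mul_self (iso_conj hy b)
  unfold Commute SemiconjBy
  calc s * t * y = s * t * y * (t * t) := by rw [htt, mul_one]
    _ = s * (t * y * t) * t := by group
    _ = s * (s * y * s) * t := by rw [hab]
    _ = (s * s) * y * s * t := by group
    _ = y * (s * t) := by rw [hss, one_mul]; group

/-- Existence of the midpoint: a conjugate `x` of `z` with `x z x = g z g⁻¹`. -/
theorem exists_reflection [Finite G] {z : G} (hz : IsIsolatedInvolution z) (g : G) :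
    ∃ h : G, (h * z * h⁻¹) * z * (h * z * h⁻¹) = g * z * g⁻¹ := by
  have hzz := iso_mul_self hz
  obtain ⟨k, hk, hodd, hinv, hkz, hkk⟩ := exists_midpoint hz g
  obtain ⟨l, hl, hll⟩ := sqrt_of_odd hodd
  have hinvl : z * l * z⁻¹ = l⁻¹ := by
    obtain ⟨n, rfl⟩ := hl
    have h2 := conj_zpow (a := z) (b := k) (i := n)
    rw [hinv, inv_zpow] at h2
    simpa using h2.symm
  have h1 : l * z * l⁻¹ = k * z := by
    rw [conj_eq_of_inv hinvl, hll]
  refine ⟨l, ?_⟩
  rw [h1]
  calc k * z * z * (k * z) = k * (z * z) * k * z := by group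
    _ = (k * k) * z := by rw [hzz, mul_one]
    _ = g * z * g⁻¹ := by rw [hkk, mul_assoc, hzz, mul_one]

/-- `|G| = |C_G(z)| |z^G|`. -/
theorem card_class_mul [Finite G] (z : G) :
    Nat.card G = Nat.card (Subgroup.centralizer ({z} : Set G)) * Nat.card {y : G // ∃ g : G, g * z * g⁻¹ = y} := by
  set C := Subgroup.centralizer ({z} : Set G) with hC
  have h1 : Nat.card G = Nat.card (G ⧸ C) * Nat.card C :=
    Subgroup.card_eq_card_quotient_mul_card_subgroup C
  have h2 : Nat.card (G ⧸ C) = Nat.card {y : G // ∃ g : G, g * z * g⁻¹ = y} := by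
    refine Nat.card_congr (Equiv.ofBijective
      (fun q => Quotient.liftOn' q (fun g => (⟨g * z * g⁻¹, g, rfl⟩ : {y : G // ∃ g : G, g * z * g⁻¹ = y})) ?_) ?_)
    · intro a b hab
      rw [QuotientGroup.leftRel_apply, hC, Subgroup.mem_centralizer_singleton_iff] at hab
      apply Subtype.ext
      show a * z * a⁻¹ = b * z * b⁻¹
      have : z * (a⁻¹ * b) = (a⁻¹ * b) * z := hab.symm
      calc a * z * a⁻¹ = a * (z * (a⁻¹ * b)) * b⁻¹ * a * a⁻¹ := by group
        _ = a * ((a⁻¹ * b) * z) * b⁻¹ * a * a⁻¹ := by rw [this]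
        _ = b * z * b⁻¹ := by group
    · constructor
      · intro p q
        induction p using QuotientGroup.induction_on with | _ a => ?_
        induction q using QuotientGroup.induction_on with | _ b => ?_
        intro hpq
        have hab : a * z * a⁻¹ = b * z * b⁻¹ := congrArg Subtype.val hpq
        rw [QuotientGroup.eq, hC, Subgroup.mem_centralizer_singleton_iff]
        have : a⁻¹ * b * z * (a⁻¹ * b)⁻¹ = z := by
          calc a⁻¹ * b * z * (a⁻¹ * b)⁻¹ = a⁻¹ * (b * z * b⁻¹) * a := by group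
            _ = a⁻¹ * (a * z * a⁻¹) * a := by rw [hab]
            _ = z := by group
        calc a⁻¹ * b * z = a⁻¹ * b * z * (a⁻¹ * b)⁻¹ * (a⁻¹ * b) := by group
          _ = z * (a⁻¹ * b) := by rw [this]
      · rintro ⟨y, g, rfl⟩
        exact ⟨QuotientGroup.mk g, rfl⟩
  rw [h1, h2, mul_comm]

/-- `C_K(e)` is in bijection with `z^G ∩ C(e)` for `e` commuting with `z`. -/
theorem card_inv_commute [Finite G] {z : G} (hz : IsIsolatedInvolution z) (e : G) (hez : Commute e z) :
    Nat.card {k : G // Odd (orderOf k) ∧ z * k * z⁻¹ = k⁻¹ ∧ Commute k e} =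
      Nat.card {y : G // (∃ g : G, g * z * g⁻¹ = y) ∧ Commute y e} := by
  have hzz := iso_mul_self hz
  refine Nat.card_congr (Equiv.ofBijective
    (fun k => ⟨k.1 * z * k.1⁻¹, ⟨k.1, rfl⟩, ?_⟩) ?_)
  · obtain ⟨k, hk1, hk2, hk3⟩ := k
    exact ((hk3.mul_left hez.symm).mul_left hk3.inv_left)
  · constructor
    · rintro ⟨k, hk1, hk2, hk3⟩ ⟨k', hk1', hk2', hk3'⟩ h
      have h' : k * z * k⁻¹ = k' * z * k'⁻¹ := congrArg Subtype.val h
      rw [conj_eq_of_inv hk2, conj_eq_of_inv hk2'] at h'
      apply Subtype.ext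
      exact odd_sqrt_unique hk1 hk1' (mul_right_cancel h')
    · rintro ⟨y, ⟨g, rfl⟩, hy⟩
      obtain ⟨k, hk, hodd, hinv, hkz, hkk⟩ := exists_midpoint hz g
      have hc : Commute (k * k) e := by
        rw [hkk]
        exact hy.mul_left hez.symm
      have hke : Commute k e := by
        -- `k` is a power of `k * k`
        obtain ⟨m, hm⟩ := hodd
        have : (k * k) ^ (m + 1) = k := by
          rw [← pow_two, ← pow_mul]
          have : 2 * (m + 1) = orderOf k + 1 := by omega
          rw [this, pow_succ, pow_orderOf_eq_one, one_mul]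
        rw [← this]
        exact hc.pow_left _
      refine ⟨⟨k, hodd, hinv, hke⟩, ?_⟩
      apply Subtype.ext
      exact hkz

theorem commute_conj_conj {a b : G} (h : Commute a b) (c : G) :
    Commute (c * a * c⁻¹) (c * b * c⁻¹) := by
  unfold Commute SemiconjBy at h ⊢
  calc c * a * c⁻¹ * (c * b * c⁻¹) = c * (a * b) * c⁻¹ := by group
    _ = c * (b * a) * c⁻¹ := by rw [h]
    _ = c * b * c⁻¹ * (c * a * c⁻¹) := by group

theorem mid_of_commute {x y s : G} (hxx : x * x = 1) (hss : s * s = 1) (h : Commute y (s * x)) :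
    x * y * x = s * y * s := by
  have h1 : y * (s * x) = (s * x) * y := h
  calc x * y * x = (s * s) * x * y * x := by rw [hss, one_mul]
    _ = s * ((s * x) * y) * x := by group
    _ = s * (y * (s * x)) * x := by rw [h1]
    _ = s * y * s * (x * x) := by group
    _ = s * y * s := by rw [hxx, mul_one]

theorem commute_of_mid {x y s : G} (hxx : x * x = 1) (hss : s * s = 1) (h : x * y * x = s * y * s) :
    Commute y (s * x) := by
  unfold Commute SemiconjBy
  calc y * (s * x) = (s * s) * y * (s * x) := by rw [hss, one_mul]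
    _ = s * (s * y * s) * x := by group
    _ = s * (x * y * x) * x := by rw [h]
    _ = s * x * y * (x * x) := by group
    _ = s * x * y := by rw [hxx, mul_one]

/-- The key count: `|z^G| = |z^G ∩ C(s)| * |z^G ∩ C(s z)|`. -/
theorem card_class_eq [Finite G] {z : G} (hz : IsIsolatedInvolution z) (s : G) (hss : s * s = 1)
    (hsz : Commute s z) :
    Nat.card {y : G // ∃ g : G, g * z * g⁻¹ = y} =
      Nat.card {y : G // (∃ g : G, g * z * g⁻¹ = y) ∧ Commute y s} *
        Nat.card {y : G // (∃ g : G, g * z * g⁻¹ = y) ∧ Commute y (s * z)} := by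
  classical
  have hzz := iso_mul_self hz
  have hsi : s⁻¹ = s := inv_eq_of_mul_eq_one_left hss
  -- choice of conjugators in `C(s)`
  have hchoose : ∀ x : {y : G // (∃ g : G, g * z * g⁻¹ = y) ∧ Commute y s},
      ∃ c : G, Commute c s ∧ c * z * c⁻¹ = x.1 := by
    rintro ⟨x, ⟨g, rfl⟩, hx⟩
    -- apply the subgroup conjugacy
    obtain ⟨k, hk, -, -, hkz, -⟩ := exists_midpoint hz g
    refine ⟨k, ?_, hkz⟩
    obtain ⟨n, rfl⟩ := hk
    have : Commute (g * z * g⁻¹ * z) s := hx.mul_left hsz.symm
    exact this.zpow_left n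
  choose c hc1 hc2 using hchoose
  symm
  rw [← Nat.card_prod]
  refine Nat.card_congr (Equiv.ofBijective
    (fun p => ⟨c p.1 * p.2.1 * (c p.1)⁻¹, ?_⟩) ?_)
  · obtain ⟨x, b⟩ := p
    obtain ⟨⟨g, hg⟩, hb⟩ := b.2
    rw [← hg]
    exact ⟨c x * g, by group⟩
  · constructor
    · rintro ⟨x, ⟨b, hb1, hb2⟩⟩ ⟨x', ⟨b', hb1', hb2'⟩⟩ h
      simp only [Subtype.mk.injEq] at h
      -- `y` commutes with `s x`, `s x'`
      set y := c x * b * (c x)⁻¹ with hy
      have hsx : Commute y (s * x.1) := by
        have e : s * x.1 = c x * (s * z) * (c x)⁻¹ := by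
          rw [← hc2 x]
          have := (hc1 x).eq
          calc s * (c x * z * (c x)⁻¹) = (s * c x) * z * (c x)⁻¹ := by group
            _ = (c x * s) * z * (c x)⁻¹ := by rw [this]
            _ = c x * (s * z) * (c x)⁻¹ := by group
        rw [e, hy]
        exact commute_conj_conj hb2 (c x)
      have hsx' : Commute y (s * x'.1) := by
        have e : s * x'.1 = c x' * (s * z) * (c x')⁻¹ := by
          rw [← hc2 x']
          have := (hc1 x').eq
          calc s * (c x' * z * (c x')⁻¹) = (s * c x') * z * (c x')⁻¹ := by group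
            _ = (c x' * s) * z * (c x')⁻¹ := by rw [this]
            _ = c x' * (s * z) * (c x')⁻¹ := by group
        rw [e, h]
        exact commute_conj_conj hb2' (c x')
      have hxx : x.1 * x.1 = 1 := by
        obtain ⟨⟨g, hg⟩, -⟩ := x.2
        rw [← hg]; exact iso_mul_self (iso_conj hz g)
      have hxx' : x'.1 * x'.1 = 1 := by
        obtain ⟨⟨g, hg⟩, -⟩ := x'.2
        rw [← hg]; exact iso_mul_self (iso_conj hz g)
      have e1 := mid_of_commute hxx hss hsx
      have e2 := mid_of_commute hxx' hss hsx'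
      -- `y`, `x`, `x'` are all conjugates of `z`
      obtain ⟨⟨g, hg⟩, -⟩ := x.2
      obtain ⟨⟨g', hg'⟩, -⟩ := x'.2
      obtain ⟨g₀, hg₀⟩ := hb1
      have hy0 : y = (c x * g₀) * z * (c x * g₀)⁻¹ := by
        rw [hy, ← hg₀]; group
      have hyiso : IsIsolatedInvolution y := by
        rw [hy0]; exact iso_conj hz _
      have ex : x.1 = (g * (c x * g₀)⁻¹) * y * (g * (c x * g₀)⁻¹)⁻¹ := by
        rw [hy0, ← hg]; group
      have ex' : x'.1 = (g' * (c x * g₀)⁻¹) * y * (g' * (c x * g₀)⁻¹)⁻¹ := by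
        rw [hy0, ← hg']; group
      have hxeq : x.1 = x'.1 := by
        rw [ex, ex']
        apply midpoint_unique hyiso
        rw [← ex, ← ex', e1, e2]
      have hxeq' : x = x' := Subtype.ext hxeq
      subst hxeq'
      have hbb : b = b' := by
        have := mul_left_cancel (mul_right_cancel h)
        exact this
      subst hbb
      rfl
    · rintro ⟨y, g, rfl⟩
      set y := g * z * g⁻¹ with hy
      have hyiso : IsIsolatedInvolution y := iso_conj hz g
      obtain ⟨h, hh⟩ := exists_reflection hyiso s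
      set x := h * y * h⁻¹ with hx
      have hxiso : IsIsolatedInvolution x := iso_conj hyiso h
      have hxx : x * x = 1 := iso_mul_self hxiso
      have hyy : y * y = 1 := iso_mul_self hyiso
      -- `x` commutes with `s`
      have hxs : Commute x s := by
        set x₁ := s * x * s⁻¹ with hx₁
        have hx₁x₁ : x₁ * x₁ = 1 := iso_mul_self (iso_conj hxiso s)
        have e0 : x₁ * (s * y * s⁻¹) * x₁ = y := by
          calc x₁ * (s * y * s⁻¹) * x₁ = s * (x * y * x) * s⁻¹ := by rw [hx₁]; group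
            _ = s * (s * y * s⁻¹) * s⁻¹ := by rw [hh]
            _ = (s * s) * y * (s⁻¹ * s⁻¹) := by group
            _ = y := by rw [hsi, hss]; group
        have e1 : x₁ * y * x₁ = s * y * s⁻¹ := by
          calc x₁ * y * x₁ = x₁ * (x₁ * (s * y * s⁻¹) * x₁) * x₁ := by rw [e0]
            _ = (x₁ * x₁) * (s * y * s⁻¹) * (x₁ * x₁) := by group
            _ = s * y * s⁻¹ := by rw [hx₁x₁]; group
        have e2 : x₁ = x := by
          have h1 : x₁ = (s * h) * y * (s * h)⁻¹ := by rw [hx₁, hx]; group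
          have h2 : x = h * y * h⁻¹ := hx
          rw [h1, h2]
          apply midpoint_unique hyiso
          rw [← h1, ← h2, e1, hh]
        unfold Commute SemiconjBy
        have : s * x * s⁻¹ = x := e2
        calc x * s = s * x * s⁻¹ * s := by rw [this]
          _ = s * x := by group
      have hmid : x * y * x = s * y * s := by rw [hh, hsi]
      have hcom : Commute y (s * x) := commute_of_mid hxx hss hmid
      have hxcl : ∃ g' : G, g' * z * g'⁻¹ = x := ⟨h * g, by rw [hx, hy]; group⟩
      let X : {y : G // (∃ g : G, g * z * g⁻¹ = y) ∧ Commute y s} := ⟨x, hxcl, hxs⟩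
      have e3 : c X * (s * z) * (c X)⁻¹ = s * x := by
        have h1 := (hc1 X).eq
        have h2 : c X * z * (c X)⁻¹ = x := hc2 X
        calc c X * (s * z) * (c X)⁻¹ = (c X * s) * z * (c X)⁻¹ := by group
          _ = (s * c X) * z * (c X)⁻¹ := by rw [h1]
          _ = s * (c X * z * (c X)⁻¹) := by group
          _ = s * x := by rw [h2]
      have hbc : Commute ((c X)⁻¹ * y * c X) (s * z) := by
        have := commute_conj_conj hcom (c X)⁻¹
        rw [← e3] at this
        have e4 : (c X)⁻¹ * (c X * (s * z) * (c X)⁻¹) * ((c X)⁻¹)⁻¹ = s * z := by group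
        rw [e4] at this
        have e5 : (c X)⁻¹ * y * ((c X)⁻¹)⁻¹ = (c X)⁻¹ * y * c X := by group
        rwa [e5] at this
      refine ⟨⟨X, ⟨(c X)⁻¹ * y * c X, ⟨(c X)⁻¹ * g, ?_⟩, hbc⟩⟩, ?_⟩
      · rw [hy]; group
      · apply Subtype.ext
        show c X * ((c X)⁻¹ * y * c X) * (c X)⁻¹ = y
        group

end Cfsg.Agent.H05
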