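import Mathlib
import Cfsg.Agent.Lib.H08.Bender2

/-!
# Bender's lemma for maximal subgroups: subnormal self-centralizing subgroups of `F*`
-/

set_option autoImplicit false
set_option linter.style.haveILetI false
set_option linter.unusedSectionVars false

namespace Cfsg.Agent.H05.BMax

open Cfsg Cfsg.Agent.H05 Cfsg.Agent.H08.Bender Subgroup

variable {G : Type*} [Group G] [Finite G]

/-- The data. -/
structure Setup (A S B : Subgroup G) : Prop where
  hSF : S ≤ SS A
  hSsn : (S.subgroupOf (SS A)).IsSubnormal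
  hSC : SS A ⊓ centralizer (S : Set G) ≤ S
  hSB : S ≤ B

variable {A S B : Subgroup G}

theorem Setup.le_A (h : Setup A S B) : S ≤ A := h.hSF.trans (SS_le A)

theorem Setup.E_le (h : Setup A S B) : EE A ≤ S := by
  classical
  have hX : ((SS A).subgroupOf A).IsSubnormal := by
    have h1 : (SS A).subgroupOf A = generalizedFittingSubgroup A := by
      ext x
      rw [Subgroup.mem_subgroupOf]
      exact Subgroup.mem_map_iff_mem A.subtype_injective
    rw [h1]
    haveI := Agent.H07.generalizedFitting_normal A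
    exact Subgroup.Normal.isSubnormal inferInstance
  have hsn : (S.subgroupOf A).IsSubnormal := sn_extend h.hSF (SS_le A) h.hSsn hX
  rw [EE, Subgroup.map_le_iff_le_comap]
  refine sSup_le fun L hL => ?_
  intro l hl
  rw [Subgroup.mem_comap]
  rcases comp_le_or_comm hL.1 hL.2 hsn with h1 | h1
  · have := h1 hl
    rwa [Subgroup.mem_subgroupOf] at this
  · rw [comm_bot_iff] at h1
    apply h.hSC
    refine Subgroup.mem_inf.mpr ⟨EE_le_SS A ⟨l, comp_le_layer hL hl, rfl⟩, ?_⟩
    rw [Subgroup.mem_centralizer_iff]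
    intro s hs
    have h2 := h1 l hl ⟨s, h.le_A hs⟩ (by rwa [Subgroup.mem_subgroupOf])
    exact (congrArg Subtype.val h2).symm

theorem Setup.decomp (h : Setup A S B) {s : G} (hs : s ∈ S) : ∃ e ∈ EE A, ∃ n ∈ FF A, n ∈ S ∧ s = e * n := by
  have h1 := h.hSF hs
  rw [SS_eq] at h1
  obtain ⟨e, he, n, hn, rfl⟩ := mem_sup_of_commute (fun a ha b hb => comm_EE_FF ha hb) h1
  refine ⟨e, he, n, hn, ?_, rfl⟩
  have h2 : n = e⁻¹ * (e * n) := by group
  rw [h2]
  exact mul_mem (inv_mem (h.E_le he)) hs

/-- The centralizer property inside the Fitting subgroup. -/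
theorem Setup.C_N (h : Setup A S B) {x : G} (hx : x ∈ FF A) (hc : ∀ y ∈ FF A, y ∈ S → x * y = y * x) : x ∈ S := by
  apply h.hSC
  refine Subgroup.mem_inf.mpr ⟨FF_le_SS A hx, ?_⟩
  rw [Subgroup.mem_centralizer_iff]
  intro s hs
  obtain ⟨e, he, n, hn, hnS, rfl⟩ := h.decomp hs
  have h1 := comm_EE_FF he hx
  have h2 := hc n hn hnS
  calc e * n * x = e * (n * x) := by group
    _ = e * (x * n) := by rw [h2]
    _ = (e * x) * n := by group
    _ = x * (e * n) := by rw [h1]; group

/-- Coprime action centralizing a self-centralizing subgroup of a nilpotent group. -/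
theorem cop_cent (F : Subgroup G) (hF : Group.IsNilpotent F) {a : G}
    (ha : ∀ y ∈ F, a * y * a⁻¹ ∈ F) (hc : (orderOf a).Coprime (Nat.card F)) (X : Subgroup G) (hXF : X ≤ F)
    (hX : ∀ x ∈ X, a * x = x * a) (hself : ∀ y ∈ F, (∀ x ∈ X, y * x = x * y) → y ∈ X) :
    ∀ y ∈ F, a * y = y * a := by
  apply thompson_nil F hF ha hc X hXF
  intro y hyF hyN
  set u := y⁻¹ * (a * y * a⁻¹) with hu
  have huF : u ∈ F := mul_mem (inv_mem hyF) (ha y hyF)
  have huX : u ∈ X := by
    apply hself u huF
    intro x hx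
    have h1 : y * x * y⁻¹ ∈ X := (mem_normalizer_iff.mp hyN x).mp hx
    have h2 := hX _ h1
    have h3 := hX x hx
    have h4 : a⁻¹ * x = x * a⁻¹ := by
      rw [inv_mul_eq_iff_eq_mul, ← mul_assoc, h3]
      group
    calc y⁻¹ * (a * y * a⁻¹) * x = y⁻¹ * a * y * (a⁻¹ * x) := by group
      _ = y⁻¹ * a * y * (x * a⁻¹) := by rw [h4]
      _ = y⁻¹ * (a * (y * x * y⁻¹)) * y * a⁻¹ := by group
      _ = y⁻¹ * ((y * x * y⁻¹) * a) * y * a⁻¹ := by rw [h2]
      _ = x * (y⁻¹ * (a * y * a⁻¹)) := by group
  have hau := hX u huX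
  have hy : a * y * a⁻¹ = y * u := by rw [hu]; group
  have hk : ∀ k : ℕ, a ^ k * y * (a ^ k)⁻¹ = y * u ^ k := by
    intro k
    induction k with
    | zero => simp
    | succ k ih =>
      have h1 : a ^ (k + 1) * y * (a ^ (k + 1))⁻¹ = a * (a ^ k * y * (a ^ k)⁻¹) * a⁻¹ := by
        rw [pow_succ']
        group
      rw [h1, ih]
      have h2 : a * u ^ k * a⁻¹ = u ^ k := by
        have : Commute a (u ^ k) := (Commute.pow_right hau k)
        rw [this.eq]
        group
      calc a * (y * u ^ k) * a⁻¹ = (a * y * a⁻¹) * (a * u ^ k * a⁻¹) := by group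
        _ = y * u * u ^ k := by rw [hy, h2]
        _ = y * u ^ (k + 1) := by rw [pow_succ']; group
  have h1 := hk (orderOf a)
  rw [pow_orderOf_eq_one] at h1
  have h2 : u ^ orderOf a = 1 := by
    have h3 : y = y * u ^ orderOf a := by simpa using h1
    exact (mul_eq_left.mp h3.symm)
  have h3 : orderOf u ∣ orderOf a := orderOf_dvd_of_pow_eq_one h2
  have h4 : orderOf u ∣ Nat.card F := by
    have := Subgroup.orderOf_dvd_natCard F huF
    exact this
  have h5 : orderOf u = 1 := Nat.eq_one_of_dvd_coprimes hc h3 h4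
  have h6 : u = 1 := orderOf_eq_one_iff.mp h5
  rw [h6, mul_one] at hy
  rw [mul_inv_eq_iff_eq_mul] at hy
  exact hy

/-- An element of `A` in a `q`-group normalized by the layer centralizes the layer. -/
theorem cent_layer {q : ℕ} [hq : Fact q.Prime] (R : Subgroup G) (hRq : IsPGroup q R)
    (hRE : EE A ≤ normalizer (R : Set G)) {a : G} (haR : a ∈ R) (haM : a ∈ A) :
    ∀ e ∈ EE A, a * e = e * a := by
  haveI hLn := layer_normal (G := A)
  let ã : A := ⟨a, haM⟩
  let α : layer A ≃* layer A := MulAut.conjNormal ã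
  have hα : ∀ y : layer A, ((α y : layer A) : A) = ã * y * ã⁻¹ := fun y => by
    simp [α, MulAut.conjNormal_apply]
  have hperf : commutator (layer A) = ⊤ := by
    rw [_root_.commutator_def]
    have := layer_perfect (G := A)
    rw [eq_top_iff]
    rintro ⟨x, hx⟩ -
    rw [← this] at hx
    have h' : ((⁅(⊤ : Subgroup (layer A)), ⊤⁆ : Subgroup (layer A)).map (layer A).subtype) = ⁅layer A, layer A⁆ := by
      rw [Subgroup.map_commutator, ← MonoidHom.range_eq_map, Subgroup.range_subtype]
    rw [← h'] at hx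
    obtain ⟨y, hy, hyx⟩ := hx
    have : y = ⟨x, by rw [← this]; exact (by rw [← h']; exact ⟨y, hy, hyx⟩)⟩ := Subtype.ext hyx
    rw [← this]
    exact hy
  let D : Subgroup A := R.comap A.subtype ⊓ layer A
  have hDp : IsPGroup q D := by
    have h5 : IsPGroup q (R.comap A.subtype) := hRq.comap_of_injective _ (subtype_injective _)
    exact h5.to_le inf_le_left
  have hDcomm : ∀ L : Subgroup A, IsComponent L → ⁅L, D⁆ = ⊥ := by
    intro L hL
    apply comp_comm_solvable hL (solvable_of_pGroup hDp)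
    apply le_normalizer_of_conj
    intro g hg x hx
    have hgE : g ∈ layer A := comp_le_layer hL hg
    refine ⟨?_, (layer A).mul_mem ((layer A).mul_mem hgE hx.2) ((layer A).inv_mem hgE)⟩
    have hgN : (g : G) ∈ EE A := ⟨g, hgE, rfl⟩
    have := conj_mem_of_le_normalizer hRE hgN (hx.1 : (x : G) ∈ R)
    show ((g * x * g⁻¹ : A) : G) ∈ R
    simpa using this
  have hcent : ∀ x : layer A, α x * x⁻¹ ∈ center (layer A) := by
    intro x
    have h6 : ((α x * x⁻¹ : layer A) : A) ∈ D := by
      refine ⟨?_, (α x * x⁻¹).2⟩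
      show (((α x * x⁻¹ : layer A) : A) : G) ∈ R
      have hxN : (((x : A) : G)) ∈ EE A := ⟨x, x.2, rfl⟩
      have e1 : (((α x * x⁻¹ : layer A) : A) : G) = a * (((x : A) : G) * a⁻¹ * ((x : A) : G)⁻¹) := by
        simp only [Subgroup.coe_mul, Subgroup.coe_inv, hα]
        simp only [ã]
        group
      rw [e1]
      exact mul_mem haR (conj_mem_of_le_normalizer hRE hxN (inv_mem haR))
    rw [mem_center_iff]
    intro g
    apply Subtype.ext
    have hgc : ((g : layer A) : A) ∈ centralizer ({((α x * x⁻¹ : layer A) : A)} : Set A) := by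
      have hle : layer A ≤ centralizer ({((α x * x⁻¹ : layer A) : A)} : Set A) := by
        apply sSup_le
        intro L hL
        intro l hl
        rw [mem_centralizer_singleton_iff]
        exact comm_bot_iff.1 (hDcomm L hL) l hl _ h6
      exact hle g.2
    rw [mem_centralizer_singleton_iff] at hgc
    exact hgc
  have hfix := perfect_central_aut hperf α hcent
  rintro _ ⟨e, he, rfl⟩
  have h7 := hfix ⟨e, he⟩
  have h8 : (ã * e * ã⁻¹ : A) = e := by
    have := congrArg Subtype.val h7
    rwa [hα] at this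
  have h9 : ã * e = e * ã := by
    rw [mul_inv_eq_iff_eq_mul] at h8
    exact h8
  exact congrArg Subtype.val h9

/-- Part (a). -/
theorem part_a (h : Setup A S B) {q : ℕ} [hq : Fact q.Prime] (hqd : ¬ q ∣ Nat.card (fittingSubgroup A))
    (R : Subgroup G) (hRq : IsPGroup q R) (hRN : B ≤ normalizer (R : Set G)) : R ⊓ A = ⊥ := by
  classical
  rw [eq_bot_iff]
  rintro a ⟨haR, haM⟩
  rw [mem_bot]
  have hqF : ¬ q ∣ Nat.card (FF A) := by rwa [card_FF]
  have hFFn : A ≤ normalizer ((FF A : Subgroup G) : Set G) := by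
    haveI := Agent.H01.fitting_normal (G := A)
    exact norm_map _
  have hS : S ≤ normalizer (R : Set G) := h.hSB.trans hRN
  have h1 : ∀ y ∈ FF A, y ∈ S → a * y = y * a := by
    intro y hyF hyN
    have h2 : a * y * a⁻¹ * y⁻¹ ∈ FF A :=
      mul_mem (conj_mem_of_le_normalizer hFFn haM hyF) (inv_mem hyF)
    have h3 : a * y * a⁻¹ * y⁻¹ ∈ R := by
      have : a * y * a⁻¹ * y⁻¹ = a * (y * a⁻¹ * y⁻¹) := by group
      rw [this]
      exact mul_mem haR (conj_mem_of_le_normalizer hS hyN (inv_mem haR))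
    have h4 : a * y * a⁻¹ * y⁻¹ = 1 := by
      apply eq_one_of_orderOf_dvd hRq h3 hqF
      have := orderOf_dvd_natCard (⟨_, h2⟩ : FF A)
      rwa [Subgroup.orderOf_mk] at this
    rw [mul_inv_eq_one, mul_inv_eq_iff_eq_mul] at h4
    exact h4
  have h2 : ∀ y ∈ FF A, a * y = y * a := by
    apply cop_cent (FF A) (FF_nilpotent A) (fun y hy => conj_mem_of_le_normalizer hFFn haM hy)
      (order_coprime_of_pGroup hRq haR hqF) (FF A ⊓ S) inf_le_left
    · rintro x ⟨hx1, hx2⟩
      exact h1 x hx1 hx2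
    · intro y hy hc
      exact ⟨hy, h.C_N hy (fun z hz hzS => hc z ⟨hz, hzS⟩)⟩
  have h3 := cent_layer R hRq ((h.E_le.trans h.hSB).trans hRN) haR haM
  have h4 : a ∈ FF A := by
    apply mem_FF_of_comm haM
    have hle : SS A ≤ centralizer ({a} : Set G) := by
      rw [SS_eq]
      apply sup_le
      · intro e he
        rw [mem_centralizer_singleton_iff]
        exact (h3 e he).symm
      · intro e he
        rw [mem_centralizer_singleton_iff]
        exact (h2 e he).symm
    intro s hs
    have := hle hs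
    rw [mem_centralizer_singleton_iff] at this
    exact this.symm
  apply eq_one_of_orderOf_dvd hRq haR hqF
  have := orderOf_dvd_natCard (⟨_, h4⟩ : FF A)
  rwa [Subgroup.orderOf_mk] at this

theorem QP_PP_comm (N : Subgroup G) (q : ℕ) [hq : Fact q.Prime] {u v : G} (hu : u ∈ QP N q) (hv : v ∈ PP N q) :
    u * v = v * u := by
  obtain ⟨_, ⟨u', hu', rfl⟩, rfl⟩ := hu
  obtain ⟨_, ⟨v', hv', rfl⟩, rfl⟩ := hv
  haveI h1 : (pCore q (fittingSubgroup N)).Normal := Agent.H01.pCore_normal q
  haveI h2 : (pPrimeCore q (fittingSubgroup N)).Normal := pp_normal q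
  have hd : Disjoint (pCore q (fittingSubgroup N)) (pPrimeCore q (fittingSubgroup N)) := by
    rw [Subgroup.disjoint_def]
    intro x hx1 hx2
    exact eq_one_of_coprime_of_pGroup (Agent.H01.pCore_isPGroup q) hx1 (pp_order_coprime q hx2)
  have h3 := Subgroup.commute_of_normal_of_disjoint _ _ h1 h2 hd u' v' hu' hv'
  have h4 : ((u' : N) : G) * ((v' : N) : G) = ((v' : N) : G) * ((u' : N) : G) := by
    exact congrArg (fun z : fittingSubgroup N => ((z : N) : G)) h3
  exact h4

/-- A `p'`-element of `F(A)` lies in the `p'`-part. -/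
theorem mem_PP_of_coprime (N : Subgroup G) (q : ℕ) [hq : Fact q.Prime] {z : G} (hz : z ∈ FF N)
    (hc : (orderOf z).Coprime q) : z ∈ PP N q := by
  obtain ⟨u, hu, v, hv, rfl, huv⟩ := FF_decomp N q hz
  have hcomm : Commute u v := huv
  -- `u` is a power of `u * v`
  have h1 : u = 1 := by
    apply eq_one_of_coprime_of_pGroup (QP_isP N q) hu
    have h2 := PP_coprime N q hv
    -- (u v)^{o(v)} = u^{o(v)} and so on
    have h3 : (u * v) ^ (orderOf v) = u ^ (orderOf v) := by
      rw [hcomm.mul_pow, pow_orderOf_eq_one, mul_one]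
    have h4 : (u ^ orderOf v) ^ orderOf (u * v) = 1 := by
      rw [← h3, ← pow_mul, mul_comm, pow_mul, pow_orderOf_eq_one, one_pow]
    have h5 : orderOf u ∣ orderOf v * orderOf (u * v) := by
      apply orderOf_dvd_of_pow_eq_one
      rw [pow_mul, h4]
    obtain ⟨k, hk⟩ := (QP_isP N q) ⟨u, hu⟩
    have h6 : u ^ q ^ k = 1 := by simpa using congrArg Subtype.val hk
    have h7 : orderOf u ∣ q ^ k := orderOf_dvd_of_pow_eq_one h6
    have h8 : (q ^ k).Coprime (orderOf v * orderOf (u * v)) :=
      Nat.Coprime.pow_left k (Nat.Coprime.mul_right h2.symm hc.symm)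
    have h9 : orderOf u = 1 := Nat.eq_one_of_dvd_coprimes h8 h7 h5
    rw [h9]
    exact Nat.coprime_one_left q
  rw [h1, one_mul]
  exact hv

/-- Elements of `S` and the central part of `F(A)`. -/
theorem Setup.central_le (h : Setup A S B) {a : G} (haF : a ∈ FF A) (hac : ∀ f ∈ FF A, a * f = f * a) : a ∈ S := by
  apply h.C_N haF
  intro y hy _
  exact hac y hy

/-- Part (b): the first step, the part of `P` in `A`. -/
theorem step_A (h : Setup A S B) {p : ℕ} [hp : Fact p.Prime] (P : Subgroup G) (hP : IsPGroup p P)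
    (hPN : B ≤ normalizer (P : Set G)) {c : G} (hcP : c ∈ P) (hcA : c ∈ A) :
    (∀ e ∈ EE A, c * e = e * c) ∧ (∀ t ∈ PP A p, c * t = t * c) := by
  classical
  refine ⟨cent_layer P hP ((h.E_le.trans h.hSB).trans hPN) hcP hcA, ?_⟩
  have hTnil : Group.IsNilpotent (PP A p) := by
    haveI := FF_nilpotent A
    exact Subgroup.isNilpotent_of_ker_le_center (Subgroup.inclusion (partOf_le A _))
      (by rw [(MonoidHom.ker_eq_bot_iff _).mpr (Subgroup.inclusion_injective (partOf_le A _))]; exact bot_le)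
  have hTcard : ¬ p ∣ Nat.card (PP A p) := by
    have h1 : Nat.card (PP A p) = Nat.card (pPrimeCore p (fittingSubgroup A)) := by
      rw [PP, partOf, Subgroup.card_map_of_injective (subtype_injective _), Subgroup.card_map_of_injective (subtype_injective _)]
    rw [h1]
    intro h2
    have h3 := pp_coprime (G := fittingSubgroup A) p
    have h4 := Nat.dvd_gcd h2 (dvd_refl p)
    rw [h3.gcd_eq_one] at h4
    exact hp.out.one_lt.ne' (Nat.dvd_one.mp h4)
  have hS : S ≤ normalizer (P : Set G) := h.hSB.trans hPN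
  apply cop_cent (PP A p) hTnil (fun y hy => conj_mem_of_le_normalizer (PP_norm A p) hcA hy)
    (order_coprime_of_pGroup hP hcP hTcard) (PP A p ⊓ S) inf_le_left
  · rintro x ⟨hx1, hx2⟩
    have h2 : c * x * c⁻¹ * x⁻¹ ∈ PP A p :=
      mul_mem (conj_mem_of_le_normalizer (PP_norm A p) hcA hx1) (inv_mem hx1)
    have h3 : c * x * c⁻¹ * x⁻¹ ∈ P := by
      have : c * x * c⁻¹ * x⁻¹ = c * (x * c⁻¹ * x⁻¹) := by group
      rw [this]
      exact mul_mem hcP (conj_mem_of_le_normalizer hS hx2 (inv_mem hcP))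
    have h4 : c * x * c⁻¹ * x⁻¹ = 1 := eq_one_of_coprime_of_pGroup hP h3 (PP_coprime A p h2)
    rw [mul_inv_eq_one, mul_inv_eq_iff_eq_mul] at h4
    exact h4
  · intro y hy hc
    refine ⟨hy, h.C_N (partOf_le A _ hy) ?_⟩
    intro n hn hnS
    obtain ⟨u, v, hu, hv, hnuv, hk, hcv⟩ := exists_pow_decomp n hp.out
    have huS : u ∈ S := (zpowers_le.mpr hnS) hu
    have hvS : v ∈ S := (zpowers_le.mpr hnS) hv
    have huF : u ∈ FF A := (zpowers_le.mpr hn) hu
    have hvF : v ∈ FF A := (zpowers_le.mpr hn) hv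
    have huQ : u ∈ QP A p := pelem_mem_QP A p huF hk
    have hvP : v ∈ PP A p := mem_PP_of_coprime A p hvF hcv
    have h2 : y * u = u * y := (QP_PP_comm A p huQ hy).symm
    have h3 : y * v = v * y := hc v ⟨hvP, hvS⟩
    rw [hnuv]
    calc y * (u * v) = (y * u) * v := by group
      _ = u * (y * v) := by rw [h2]; group
      _ = u * (v * y) := by rw [h3]
      _ = u * v * y := by group

/-- Part (b), for `P` normalized by `B`. -/
theorem part_b [IsSimpleGroup G] (hA : IsCoatom A) (h : Setup A S B) {p : ℕ} [hp : Fact p.Prime]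
    (hpd : p ∣ Nat.card (fittingSubgroup A)) (P : Subgroup G) (hP : IsPGroup p P)
    (hPN : B ≤ normalizer (P : Set G)) :
    (∀ x ∈ P, ∀ e ∈ EE A, x * e = e * x) ∧ (∀ x ∈ P, ∀ t ∈ PP A p, x * t = t * x) := by
  classical
  obtain ⟨Z, hZne, hZp, hZF, hZc, hZn⟩ := exists_central_part A hpd
  have hZS : Z ≤ S := fun a ha => h.central_le (hZF ha) (hZc a ha)
  have hZN := normalizer_eq hA hZne (hZF.trans (FF_le A)) hZn
  have hS : S ≤ normalizer (P : Set G) := h.hSB.trans hPN
  have hZcS : ∀ a ∈ Z, ∀ x ∈ S, x * a = a * x := by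
    intro a ha x hx
    obtain ⟨e, he, n, hn, -, rfl⟩ := h.decomp hx
    have h1 := comm_EE_FF he (hZF ha)
    have h2 := hZc a ha n hn
    calc e * n * a = e * (n * a) := by group
      _ = e * (a * n) := by rw [h2]
      _ = (e * a) * n := by group
      _ = a * (e * n) := by rw [h1]; group
  -- the `A × B` lemma
  have hstepB : ∀ x ∈ S, (orderOf x).Coprime p →
      ((∀ c ∈ P, c ∈ A → x * c = c * x)) → ∀ k ∈ P, x * k = k * x := by
    intro x hx hxc hxA
    apply ab_lemma hP hZp hxc (fun a ha => hZcS a ha x hx) (hZS.trans hS) (hS hx)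
    intro c hc hcZ
    apply hxA c hc
    rw [← hZN]
    exact mem_normalizer_of_comm hcZ
  -- the layer centralizes `P`
  have hE : ∀ k ∈ P, ∀ e ∈ EE A, k * e = e * k := by
    intro k hk
    haveI hLn := layer_normal (G := A)
    have hperf : commutator (layer A) = ⊤ := by
      rw [_root_.commutator_def]
      have := layer_perfect (G := A)
      rw [eq_top_iff]
      rintro ⟨x, hx⟩ -
      rw [← this] at hx
      have h' : ((⁅(⊤ : Subgroup (layer A)), ⊤⁆ : Subgroup (layer A)).map (layer A).subtype) = ⁅layer A, layer A⁆ := by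
        rw [Subgroup.map_commutator, ← MonoidHom.range_eq_map, Subgroup.range_subtype]
      rw [← h'] at hx
      obtain ⟨y, hy, hyx⟩ := hx
      have : y = ⟨x, by rw [← this]; exact (by rw [← h']; exact ⟨y, hy, hyx⟩)⟩ := Subtype.ext hyx
      rw [← this]
      exact hy
    let ι : layer A →* G := A.subtype.comp (layer A).subtype
    let W : Subgroup (layer A) := (centralizer (P : Set G)).comap ι
    have hWmem : ∀ w : layer A, w ∈ W ↔ ∀ c ∈ P, c * ι w = ι w * c := by
      intro w
      rw [Subgroup.mem_comap, Subgroup.mem_centralizer_iff]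
      exact Iff.rfl
    have hιE : ∀ w : layer A, ι w ∈ EE A := fun w => ⟨w, w.2, rfl⟩
    haveI hW : W.Normal := by
      refine ⟨fun w hw g => ?_⟩
      rw [hWmem] at hw ⊢
      intro c hc
      have hg : ι g ∈ normalizer (P : Set G) := hS (h.E_le (hιE g))
      have h1 : (ι g)⁻¹ * c * ι g ∈ P := by
        have := conj_mem_of_le_normalizer hS (h.E_le (hιE g⁻¹)) hc
        simpa using this
      have h2 := hw _ h1
      rw [map_mul, map_mul, map_inv]
      calc c * (ι g * ι w * (ι g)⁻¹) = ι g * ((ι g)⁻¹ * c * ι g * ι w) * (ι g)⁻¹ := by group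
        _ = ι g * (ι w * ((ι g)⁻¹ * c * ι g)) * (ι g)⁻¹ := by rw [h2]
        _ = _ := by group
    have hWtop : W = ⊤ := by
      apply perfect_eq_top_of_coprime_mem (p := p) hperf W
      intro x hx
      rw [hWmem]
      intro c hc
      have hx' : (orderOf (ι x)).Coprime p := by
        have : orderOf (ι x) = orderOf x := by
          simp only [ι, MonoidHom.comp_apply, coe_subtype, Subgroup.orderOf_coe]
        rwa [this]
      have := hstepB (ι x) (h.E_le (hιE x)) hx' (fun c hc hcA => ((step_A h P hP hPN hc hcA).1 _ (hιE x)).symm) c hc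
      exact this.symm
    rintro _ ⟨e, he, rfl⟩
    have h1 : (⟨e, he⟩ : layer A) ∈ W := by rw [hWtop]; trivial
    rw [hWmem] at h1
    exact h1 k hk
  -- the small part of `T` centralizes `P`
  have hT₀ : ∀ k ∈ P, ∀ t ∈ PP A p, t ∈ S → k * t = t * k := by
    intro k hk t ht htS
    have := hstepB t htS (PP_coprime A p ht) (fun c hc hcA => ((step_A h P hP hPN hc hcA).2 t ht).symm) k hk
    exact this.symm
  -- `P` lies in `A` unless there is nothing to do
  by_cases hEb : EE A = ⊥
  · by_cases hTb : PP A p = ⊥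
    · constructor
      · intro x _ e he
        rw [hEb, Subgroup.mem_bot] at he
        rw [he, mul_one, one_mul]
      · intro x _ t ht
        rw [hTb, Subgroup.mem_bot] at ht
        rw [ht, mul_one, one_mul]
    · -- a prime dividing the order of `T`
      have hcardT : Nat.card (PP A p) ≠ 1 := by
        intro h1
        apply hTb
        exact Subgroup.card_eq_one.mp h1
      obtain ⟨q, hq, hqd⟩ := Nat.exists_prime_and_dvd hcardT
      haveI : Fact q.Prime := ⟨hq⟩
      have hqF : q ∣ Nat.card (fittingSubgroup A) := by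
        rw [← card_FF]
        exact hqd.trans (Subgroup.card_dvd_of_le (partOf_le A _))
      have hqp : q ≠ p := by
        rintro rfl
        obtain ⟨t, ht⟩ := exists_prime_orderOf_dvd_card' (G := PP A q) q hqd
        have h1 := PP_coprime A q t.2
        rw [Subgroup.orderOf_coe, ht] at h1
        have := Nat.gcd_self q
        rw [Nat.Coprime, this] at h1
        exact hq.one_lt.ne' h1
      obtain ⟨Z₁, hZ₁ne, hZ₁p, hZ₁F, hZ₁c, hZ₁n⟩ := exists_central_part A hqF
      have hZ₁T : Z₁ ≤ PP A p := by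
        intro a ha
        apply mem_PP_of_coprime A p (hZ₁F ha)
        exact order_coprime_of_pGroup hZ₁p ha (n := p) (fun h1 => hqp ((Nat.prime_dvd_prime_iff_eq hq hp.out).mp h1)) |>.symm.symm
      have hZ₁S : Z₁ ≤ S := fun a ha => h.central_le (hZ₁F ha) (hZ₁c a ha)
      have hZ₁N := normalizer_eq hA hZ₁ne (hZ₁F.trans (FF_le A)) hZ₁n
      have hPA : P ≤ A := by
        intro k hk
        rw [← hZ₁N]
        exact mem_normalizer_of_comm (fun b hb => hT₀ k hk b (hZ₁T hb) (hZ₁S hb))
      exact ⟨fun x hx => (step_A h P hP hPN hx (hPA hx)).1, fun x hx => (step_A h P hP hPN hx (hPA hx)).2⟩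
  · have hEN := normalizer_eq hA hEb (EE_le A) (by
      haveI := layer_normal (G := A)
      exact norm_map _)
    have hPA : P ≤ A := by
      intro k hk
      rw [← hEN]
      exact mem_normalizer_of_comm (hE k hk)
    exact ⟨fun x hx => (step_A h P hP hPN hx (hPA hx)).1, fun x hx => (step_A h P hP hPN hx (hPA hx)).2⟩

/-- A `p'`-element of `F*(A)` lies in `E(A) O_{p'}(F(A))`. -/
theorem coprime_mem (A : Subgroup G) (p : ℕ) [hp : Fact p.Prime] {z : G} (hz : z ∈ SS A) (hc : (orderOf z).Coprime p) :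
    z ∈ EE A ⊔ PP A p := by
  rw [SS_eq] at hz
  obtain ⟨e, he, n, hn, rfl⟩ := mem_sup_of_commute (fun a ha b hb => comm_EE_FF ha hb) hz
  obtain ⟨u, hu, v, hv, rfl, huv⟩ := FF_decomp A p hn
  have hcuv : Commute u v := huv
  have hue : Commute e u := comm_EE_FF he (partOf_le A _ hu)
  have hve : Commute e v := comm_EE_FF he (partOf_le A _ hv)
  have h1 : (e * (u * v)) ^ orderOf (e * (u * v)) = 1 := pow_orderOf_eq_one _
  set k := orderOf (e * (u * v)) with hk
  rw [(hue.mul_right hve).mul_pow, hcuv.mul_pow] at h1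
  have h2 : u ^ k ∈ EE A ⊔ PP A p := by
    have h3 : u ^ k = (e ^ k)⁻¹ * (v ^ k)⁻¹ := by
      have h4 := congrArg (fun w => (e ^ k)⁻¹ * w) h1
      simp only [mul_one, inv_mul_cancel_left] at h4
      rw [eq_mul_inv_iff_mul_eq]
      exact h4
    rw [h3]
    exact mul_mem (Subgroup.mem_sup_left (inv_mem (pow_mem he k))) (Subgroup.mem_sup_right (inv_mem (pow_mem hv k)))
  have hco : k.Coprime (orderOf u) := by
    obtain ⟨j, hj⟩ := (QP_isP A p) ⟨u, hu⟩
    have h6 : u ^ p ^ j = 1 := by simpa using congrArg Subtype.val hj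
    have h7 : orderOf u ∣ p ^ j := orderOf_dvd_of_pow_eq_one h6
    exact Nat.Coprime.coprime_dvd_right h7 (Nat.Coprime.pow_right j hc)
  obtain ⟨m, hm⟩ := exists_pow_eq_self_of_coprime hco
  have hu' : u ∈ EE A ⊔ PP A p := by
    rw [← hm]
    exact pow_mem h2 m
  exact mul_mem (Subgroup.mem_sup_left he) (mul_mem hu' (Subgroup.mem_sup_right hv))

/-- The statement. -/
theorem main [IsSimpleGroup G] (A : Subgroup G) (hA : IsCoatom A) (S : Subgroup G)
    (hSF : S ≤ (generalizedFittingSubgroup ↥A).map A.subtype)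
    (hSsn : (S.subgroupOf ((generalizedFittingSubgroup ↥A).map A.subtype)).IsSubnormal)
    (hSC : (generalizedFittingSubgroup ↥A).map A.subtype ⊓ Subgroup.centralizer (S : Set G) ≤ S)
    (B : Subgroup G) (hSB : S ≤ B) :
    (∀ q : ℕ, q.Prime → ¬ q ∣ Nat.card (fittingSubgroup ↥A) → (pCore q ↥B).map B.subtype ⊓ A = ⊥) ∧
    (∀ p : ℕ, p.Prime → p ∣ Nat.card (fittingSubgroup ↥A) → ∀ x ∈ (pCore p ↥B).map B.subtype,
      ∀ y ∈ (pResidual p ↥(generalizedFittingSubgroup ↥A)).map ((generalizedFittingSubgroup ↥A).subtype),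
        x * (A.subtype y) = (A.subtype y) * x) := by
  have h : Setup A S B := ⟨hSF, hSsn, hSC, hSB⟩
  constructor
  · intro q hq hqd
    haveI : Fact q.Prime := ⟨hq⟩
    haveI := Agent.H01.pCore_normal (G := B) q
    exact part_a h hqd _ ((Agent.H01.pCore_isPGroup q).map _) (norm_map _)
  · intro p hp hpd x hx y hy
    haveI : Fact p.Prime := ⟨hp⟩
    haveI := Agent.H01.pCore_normal (G := B) p
    obtain ⟨h1, h2⟩ := part_b hA h hpd _ ((Agent.H01.pCore_isPGroup p).map _) (norm_map _)
    have hle : EE A ⊔ PP A p ≤ centralizer ({x} : Set G) := by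
      apply sup_le
      · intro e he
        rw [mem_centralizer_singleton_iff]
        exact (h1 x hx e he).symm
      · intro e he
        rw [mem_centralizer_singleton_iff]
        exact (h2 x hx e he).symm
    have hmem : (A.subtype y) ∈ EE A ⊔ PP A p := by
      obtain ⟨g, hg, rfl⟩ := hy
      rw [pResidual] at hg
      induction hg using Subgroup.closure_induction with
      | mem g hg =>
        apply coprime_mem A p ⟨(g : A), g.2, rfl⟩
        have h3 : orderOf (A.subtype (g : A)) = orderOf g := by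
          simp only [coe_subtype, Subgroup.orderOf_coe]
        rw [h3]
        exact hg
      | one => simp
      | mul a b _ _ ha hb =>
        rw [map_mul, map_mul]
        exact mul_mem ha hb
      | inv a _ ha =>
        rw [map_inv, map_inv]
        exact inv_mem ha
    have h3 := hle hmem
    rw [mem_centralizer_singleton_iff] at h3
    exact h3.symm

end Cfsg.Agent.H05.BMax
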