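import Cfsg.Agent.Lib.H05.Sig3

/-!
# Balance in solvable groups
-/

set_option autoImplicit false
set_option linter.style.haveILetI false
set_option linter.unusedSectionVars false

namespace Cfsg.Agent.H05

open Subgroup Cfsg
open scoped commutatorElement

section
variable {H : Type*} [Group H] [Finite H] {p : ℕ} [hp : Fact p.Prime]

/-- Membership in the `p'`-core of a solvable group via a commuting `p`-element. -/
theorem mem_pp_of_comm (hsol : Group.IsSolvable H) {a x : H} (ha : IsPGroup p (zpowers a))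
    (hx : (orderOf x).Coprime p) (hxa : x * a = a * x)
    (hc : ∀ c : H, c * a = a * c → (orderOf ⁅x, c⁆).Coprime p) : x ∈ pPrimeCore p H := by
  haveI hOn := pp_normal (G := H) p
  set O := pPrimeCore p H with hO
  set f := QuotientGroup.mk' O with hf
  set Qb := pCore p (H ⧸ O) with hQb
  haveI hQbn : Qb.Normal := H01.pCore_normal p
  have hQbp : IsPGroup p Qb := H01.pCore_isPGroup p
  have hC : centralizer (Qb : Set (H ⧸ O)) ≤ Qb := selfcent_of_solvable hsol
  have hxb : (orderOf (f x)).Coprime p := Nat.Coprime.coprime_dvd_left (orderOf_map_dvd f x) hx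
  have hcopa : (orderOf a).Coprime (Nat.card O) := by
    have h1 : orderOf a = Nat.card (zpowers a) := (Nat.card_zpowers a).symm
    obtain ⟨n, hn⟩ := IsPGroup.iff_card.mp ha
    rw [h1, hn]
    exact Nat.Coprime.pow_left n (pp_coprime p).symm
  have hPb : IsPGroup p (zpowers (f a)) := by
    have : zpowers (f a) = (zpowers a).map f := (MonoidHom.map_zpowers f a).symm
    rw [this]
    exact ha.map f
  have hb := ab_lemma (Q := Qb) (P := zpowers (f a)) (x := f x) hQbp hPb hxb
    (by
      intro b hb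
      have h1 : f x * f a = f a * f x := by rw [← map_mul, ← map_mul, hxa]
      have h2 : zpowers (f a) ≤ centralizer ({f x} : Set (H ⧸ O)) := by
        apply Subgroup.zpowers_le.mpr
        rw [mem_centralizer_iff]
        intro w hw
        rw [Set.mem_singleton_iff.mp hw]
        exact h1
      exact mem_centralizer_iff.mp (h2 hb) (f x) rfl)
    (by rw [normalizer_eq_top]; exact le_top)
    (by rw [normalizer_eq_top]; trivial)
    (by
      intro c hcQ hcP
      obtain ⟨w, rfl⟩ := QuotientGroup.mk'_surjective O c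
      have h0 : f w * f a = f a * f w := hcP (f a) (mem_zpowers _)
      have h1 : w⁻¹ * (a * w * a⁻¹) ∈ O := by
        rw [← QuotientGroup.eq_one_iff, ← QuotientGroup.mk'_apply]
        have e1 : f (w⁻¹ * (a * w * a⁻¹)) = (f w)⁻¹ * (f a * f w * (f a)⁻¹) := by
          simp only [map_mul, map_inv]
        show f (w⁻¹ * (a * w * a⁻¹)) = 1
        rw [e1, ← h0]
        group
      obtain ⟨n, hn, hcomm⟩ := H06.exists_fixed_of_coset (N := O) (g := a) (w := w)
        (fun y hy => hOn.conj_mem y hy a) hcopa h1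
      have hfn : f n = 1 := by
        rw [hf, QuotientGroup.mk'_apply, QuotientGroup.eq_one_iff]
        exact hn
      have hfy : f (w * n) = f w := by rw [map_mul, hfn, mul_one]
      have h3 := hc (w * n) hcomm
      have h4 : f ⁅x, w * n⁆ ∈ Qb := by
        rw [map_commutatorElement, commutatorElement_def, hfy]
        exact mul_mem (hQbn.conj_mem _ hcQ (f x)) (Subgroup.inv_mem _ hcQ)
      have h5 := eq_one_of_coprime_of_pGroup hQbp h4
        (Nat.Coprime.coprime_dvd_left (orderOf_map_dvd f _) h3)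
      rw [map_commutatorElement, commutatorElement_eq_one_iff_mul_comm, hfy] at h5
      exact h5)
  have h2 : f x ∈ Qb := hC (by
    rw [mem_centralizer_iff]
    intro b hb'
    exact (hb b hb').symm)
  have h3 := eq_one_of_coprime_of_pGroup hQbp h2 hxb
  rw [hf, QuotientGroup.mk'_apply, QuotientGroup.eq_one_iff] at h3
  exact h3

end

section
variable {G : Type*} [Group G] [Finite G] {p : ℕ} [hp : Fact p.Prime]

theorem mem_cpc {a x : G} : x ∈ centralizerPPrimeCore p a ↔
    ∃ h : x ∈ centralizer ({a} : Set G), (⟨x, h⟩ : centralizer ({a} : Set G)) ∈ pPrimeCore p (centralizer ({a} : Set G)) := by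
  constructor
  · rintro ⟨y, hy, rfl⟩
    exact ⟨y.2, hy⟩
  · rintro ⟨h, h2⟩
    exact ⟨⟨x, h⟩, h2, rfl⟩

/-- Balance of the `p'`-core in solvable centralizers. -/
theorem cpc_balance {a b x : G} (ha : IsPGroup p (zpowers a)) (hab : a * b = b * a)
    (hsol : Group.IsSolvable (centralizer ({b} : Set G)))
    (hx : x ∈ centralizerPPrimeCore p a) (hxb : x ∈ centralizer ({b} : Set G)) :
    x ∈ centralizerPPrimeCore p b := by
  obtain ⟨hxa, hx2⟩ := mem_cpc.mp hx
  have hcab : a ∈ centralizer ({b} : Set G) := mem_centralizer_iff.mpr (by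
    intro y hy
    rw [Set.mem_singleton_iff.mp hy]
    exact hab.symm)
  have hord : (orderOf x).Coprime p := by
    have := pp_order_coprime p hx2
    rwa [Subgroup.orderOf_mk] at this
  have hxa' : x * a = a * x := (mem_centralizer_iff.mp hxa a rfl).symm
  refine mem_cpc.mpr ⟨hxb, ?_⟩
  apply mem_pp_of_comm (a := (⟨a, hcab⟩ : centralizer ({b} : Set G))) hsol
  · have h1 : zpowers (⟨a, hcab⟩ : centralizer ({b} : Set G)) ≤ ⊤ := le_top
    intro y
    obtain ⟨y, hy⟩ := y
    obtain ⟨k, rfl⟩ := mem_zpowers_iff.mp hy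
    obtain ⟨n, hn⟩ := ha ⟨a ^ k, zpow_mem_zpowers a k⟩
    refine ⟨n, ?_⟩
    apply Subtype.ext
    apply Subtype.ext
    have := congrArg Subtype.val hn
    simpa using this
  · rwa [Subgroup.orderOf_mk]
  · exact Subtype.ext hxa'
  · intro c hc
    have hc' : (c : G) * a = a * c := congrArg Subtype.val hc
    have hca : (c : G) ∈ centralizer ({a} : Set G) := mem_centralizer_iff.mpr (by
      intro y hy
      rw [Set.mem_singleton_iff.mp hy]
      exact hc'.symm)
    haveI hn := pp_normal (G := centralizer ({a} : Set G)) p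
    have h1 : ⁅(⟨x, hxa⟩ : centralizer ({a} : Set G)), (⟨c, hca⟩ : centralizer ({a} : Set G))⁆ ∈
        pPrimeCore p (centralizer ({a} : Set G)) := by
      rw [commutatorElement_def]
      have e : (⟨x, hxa⟩ : centralizer ({a} : Set G)) * ⟨c, hca⟩ * (⟨x, hxa⟩ : centralizer ({a} : Set G))⁻¹ * (⟨c, hca⟩ : centralizer ({a} : Set G))⁻¹ =
          (⟨x, hxa⟩ : centralizer ({a} : Set G)) * (⟨c, hca⟩ * (⟨x, hxa⟩ : centralizer ({a} : Set G))⁻¹ * (⟨c, hca⟩ : centralizer ({a} : Set G))⁻¹) := by group
      rw [e]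
      exact mul_mem hx2 (hn.conj_mem _ (Subgroup.inv_mem _ hx2) _)
    have h2 := pp_order_coprime p h1
    have e1 : orderOf ⁅(⟨x, hxa⟩ : centralizer ({a} : Set G)), (⟨c, hca⟩ : centralizer ({a} : Set G))⁆ = orderOf ⁅x, (c : G)⁆ := by
      rw [← Subgroup.orderOf_coe]
      rfl
    have e2 : orderOf ⁅(⟨x, hxb⟩ : centralizer ({b} : Set G)), c⁆ = orderOf ⁅x, (c : G)⁆ := by
      rw [← Subgroup.orderOf_coe]
      rfl
    rw [e2, ← e1]
    exact h2

/-- S1279. -/
theorem cpc_functor (A : Subgroup G) (hA : IsElementaryAbelian p A)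
    (hsolv : ∀ a ∈ A, a ≠ 1 → Group.IsSolvable (centralizer ({a} : Set G))) :
    IsSolvableSignalizerFunctor p A (fun a => centralizerPPrimeCore p a) := by
  have hcomm : ∀ a ∈ A, ∀ b ∈ A, a * b = b * a := by
    intro a ha b hb
    exact congrArg Subtype.val (hA.1.is_comm.comm ⟨a, ha⟩ ⟨b, hb⟩)
  have hle : ∀ a : G, centralizerPPrimeCore p a ≤ centralizer ({a} : Set G) := by
    intro a x hx
    exact (mem_cpc.mp hx).1
  refine ⟨⟨?_, ?_, ?_, ?_⟩, ?_⟩
  · intro a _ _
    exact hle a
  · intro a _ _ hd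
    have h1 : Nat.card (centralizerPPrimeCore p a) = Nat.card (pPrimeCore p (centralizer ({a} : Set G))) :=
      Subgroup.card_map_of_injective (centralizer ({a} : Set G)).subtype_injective
    have h2 := pp_coprime (G := centralizer ({a} : Set G)) p
    simp only at hd
    rw [h1] at hd
    exact (Nat.Prime.coprime_iff_not_dvd hp.out).mp h2.symm hd
  · intro a ha _ b hb x hx
    obtain ⟨hxa, hx2⟩ := mem_cpc.mp hx
    have hba : b ∈ centralizer ({a} : Set G) := mem_centralizer_iff.mpr (by
      intro y hy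
      rw [Set.mem_singleton_iff.mp hy]
      exact hcomm a ha b hb)
    haveI hn := pp_normal (G := centralizer ({a} : Set G)) p
    have h1 := hn.conj_mem _ hx2 ⟨b, hba⟩
    exact ⟨_, h1, rfl⟩
  · intro a ha _ b hb hb1 x hx
    obtain ⟨h1, h2⟩ := mem_inf.mp hx
    have hpa : IsPGroup p (zpowers a) := by
      intro y
      refine ⟨1, ?_⟩
      obtain ⟨y, hy⟩ := y
      obtain ⟨k, rfl⟩ := mem_zpowers_iff.mp hy
      apply Subtype.ext
      show (a ^ k) ^ p ^ 1 = 1
      rw [pow_one, ← zpow_natCast, ← zpow_mul, mul_comm, zpow_mul, zpow_natCast, hA.2 a ha, one_zpow]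
    exact cpc_balance hpa (hcomm a ha b hb) (hsolv b hb hb1) h1 h2
  · intro a ha ha1
    have h1 := hsolv a ha ha1
    exact Group.isSolvable_of_isSolvable_injective (f := inclusion (hle a)) (inclusion_injective (hle a))

end

end Cfsg.Agent.H05
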