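import Cfsg.Agent.Lib.H05.Conn

/-!
# 1-connectivity and the Sylow graph
-/

set_option autoImplicit false
set_option linter.style.haveILetI false
set_option linter.unusedSectionVars false

namespace Cfsg.Agent.H05

open Subgroup Cfsg MulAction Relation

section conn
variable {G : Type*} [Group G] [Finite G] {p : ℕ} [Fact p.Prime]

theorem ee_zpowers {z : G} (hz : orderOf z = p) :
    IsElementaryAbelian p (zpowers z) ∧ p ^ 1 ≤ Nat.card (zpowers z) := by
  refine ⟨⟨⟨⟨?_⟩⟩, ?_⟩, ?_⟩
  · rintro ⟨_, k, rfl⟩ ⟨_, l, rfl⟩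
    apply Subtype.ext
    show z ^ k * z ^ l = z ^ l * z ^ k
    rw [← zpow_add, ← zpow_add, add_comm]
  · rintro _ ⟨k, rfl⟩
    show (z ^ k) ^ p = 1
    rw [← zpow_natCast, ← zpow_mul, mul_comm, zpow_mul, zpow_natCast, ← hz, pow_orderOf_eq_one, one_zpow]
  · rw [Nat.card_zpowers, hz, pow_one]

theorem ee_pgroup {A : Subgroup G} (hA : IsElementaryAbelian p A) : IsPGroup p A := by
  intro a
  refine ⟨1, ?_⟩
  apply Subtype.ext
  show (a : G) ^ p ^ 1 = 1
  rw [pow_one]
  exact hA.2 a a.2

theorem ee_ne_bot {A : Subgroup G} (h : p ^ 1 ≤ Nat.card A) : A ≠ ⊥ := by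
  rintro rfl
  rw [Subgroup.card_bot, pow_one] at h
  exact absurd h (by have := (Fact.out : p.Prime).two_le; omega)

/-- the edge relation -/
abbrev KRel (p : ℕ) (G : Type*) [Group G] : Subgroup G → Subgroup G → Prop :=
  fun A B : Subgroup G => IsElementaryAbelian p A ∧ p ^ 1 ≤ Nat.card ↥A ∧ IsElementaryAbelian p B ∧
        p ^ 1 ≤ Nat.card ↥B ∧ ∀ a ∈ A, ∀ b ∈ B, a * b = b * a

theorem exists_ee_le {Q : Subgroup G} (hQ : IsPGroup p Q) (h1 : Q ≠ ⊥) :
    ∃ F : Subgroup G, F ≤ Q ∧ IsElementaryAbelian p F ∧ p ^ 1 ≤ Nat.card F := by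
  haveI : Nontrivial Q := Q.nontrivial_iff_ne_bot.mpr h1
  obtain ⟨k, hk⟩ := IsPGroup.iff_card.mp hQ
  have hk0 : k ≠ 0 := by
    rintro rfl
    rw [pow_zero] at hk
    have := (Nat.card_eq_one_iff_unique.mp hk).1
    exact not_subsingleton _ this
  have hd : p ∣ Nat.card Q := by
    rw [hk]
    exact dvd_pow_self p hk0
  obtain ⟨z, hz⟩ := exists_prime_orderOf_dvd_card' p hd
  have hz' : orderOf (z : G) = p := by rw [Subgroup.orderOf_coe]; exact hz
  exact ⟨zpowers (z : G), Subgroup.zpowers_le.mpr z.2, (ee_zpowers hz').1, (ee_zpowers hz').2⟩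

/-- Two subgroups of a `p`-subgroup are connected through the centre. -/
theorem same_sylow (S : Sylow p G) {E E' : Subgroup G} (hE : E ≤ S) (hE' : E' ≤ S)
    (h1 : IsElementaryAbelian p E) (h2 : p ^ 1 ≤ Nat.card E) (h3 : IsElementaryAbelian p E')
    (h4 : p ^ 1 ≤ Nat.card E') : ReflTransGen (KRel p G) E E' := by
  have hS : (S : Subgroup G) ≠ ⊥ := by
    intro h
    apply ee_ne_bot h2
    rw [eq_bot_iff, ← h]
    exact hE
  haveI : Nontrivial (S : Subgroup G) := (S : Subgroup G).nontrivial_iff_ne_bot.mpr hS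
  haveI := S.2.center_nontrivial
  have hc : IsPGroup p (center (S : Subgroup G)) := S.2.to_subgroup _
  obtain ⟨k, hk⟩ := IsPGroup.iff_card.mp hc
  have hk0 : k ≠ 0 := by
    rintro rfl
    rw [pow_zero] at hk
    have := (Nat.card_eq_one_iff_unique.mp hk).1
    exact not_subsingleton _ this
  have hd : p ∣ Nat.card (center (S : Subgroup G)) := by
    rw [hk]
    exact dvd_pow_self p hk0
  obtain ⟨z, hz⟩ := exists_prime_orderOf_dvd_card' p hd
  have hz' : orderOf (((z : (S : Subgroup G))) : G) = p := by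
    rw [Subgroup.orderOf_coe, Subgroup.orderOf_coe]
    exact hz
  obtain ⟨h5, h6⟩ := ee_zpowers hz'
  have hzS : ∀ x ∈ (S : Subgroup G), ∀ y ∈ zpowers (((z : (S : Subgroup G))) : G), x * y = y * x := by
    intro x hx y hy
    have h7 : ∀ w : (S : Subgroup G), w * z = z * w := fun w => mem_center_iff.mp z.2 w
    have h8 : x * ((z : (S : Subgroup G)) : G) = ((z : (S : Subgroup G)) : G) * x :=
      congrArg Subtype.val (h7 ⟨x, hx⟩)
    have h9 : zpowers (((z : (S : Subgroup G))) : G) ≤ centralizer ({x} : Set G) := by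
      apply Subgroup.zpowers_le.mpr
      apply mem_centralizer_iff.mpr
      intro w hw
      rw [Set.mem_singleton_iff.mp hw]
      exact h8
    have := mem_centralizer_iff.mp (h9 hy) x rfl
    exact this
  refine ReflTransGen.trans (ReflTransGen.single (b := zpowers (((z : (S : Subgroup G))) : G)) ⟨h1, h2, h5, h6, ?_⟩)
    (ReflTransGen.single ⟨h5, h6, h3, h4, ?_⟩)
  · intro a ha b hb
    exact hzS a (hE ha) b hb
  · intro a ha b hb
    exact (hzS b (hE' hb) a ha).symm

theorem kconn_of_reach {S T : Sylow p G} (h : H14.sylowReach p G S T) :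
    ∀ {E E' : Subgroup G}, E ≤ S → E' ≤ T → IsElementaryAbelian p E → p ^ 1 ≤ Nat.card E →
      IsElementaryAbelian p E' → p ^ 1 ≤ Nat.card E' → ReflTransGen (KRel p G) E E' := by
  induction h with
  | refl =>
    intro E E' hE hE' h1 h2 h3 h4
    exact same_sylow S hE hE' h1 h2 h3 h4
  | tail _ hadj ih =>
    rename_i U V _
    intro E E' hE hE' h1 h2 h3 h4
    have hp : IsPGroup p ↥((U : Subgroup G) ⊓ (V : Subgroup G)) := U.2.to_le inf_le_left
    obtain ⟨F, hF, h5, h6⟩ := exists_ee_le hp hadj.2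
    exact (ih hE (hF.trans inf_le_left) h1 h2 h5 h6).trans
      (same_sylow V (hF.trans inf_le_right) hE' h5 h6 h3 h4)

theorem adj_or_eq {U V : Sylow p G} {B : Subgroup G} (h1 : B ≤ U) (h2 : B ≤ V) (hB : B ≠ ⊥) :
    H14.sylowReach p G U V := by
  by_cases he : U = V
  · rw [he]
    exact ReflTransGen.refl
  · refine ReflTransGen.single ⟨he, ?_⟩
    intro h
    apply hB
    rw [eq_bot_iff, ← h]
    exact le_inf h1 h2

theorem reach_of_kconn (S : Sylow p G) {E A : Subgroup G} (hE : E ≤ S) (hE1 : E ≠ ⊥)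
    (h : ReflTransGen (KRel p G) E A) : ∀ R : Sylow p G, A ≤ R → H14.sylowReach p G S R := by
  induction h with
  | refl =>
    intro R hR
    exact adj_or_eq hE hR hE1
  | tail _ hadj ih =>
    rename_i A B _
    intro R hR
    obtain ⟨h1, h2, h3, h4, h5⟩ := hadj
    have hle : A ≤ normalizer (B : Set G) := by
      intro a ha
      rw [mem_normalizer_iff]
      intro b
      constructor
      · intro hb
        rw [h5 a ha b hb, mul_inv_cancel_right]
        exact hb
      · intro hb
        have h6 := h5 a ha _ hb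
        have h7 : b = a * b * a⁻¹ := by
          have h9 : a * b * a⁻¹ * a = a * b := by group
          exact (mul_left_cancel (h6.trans h9)).symm
        rw [h7]
        exact hb
    have hsup : IsPGroup p ↥(A ⊔ B) := IsPGroup.to_sup_of_normal_right' (ee_pgroup h1) (ee_pgroup h3) hle
    obtain ⟨R', hR'⟩ := hsup.exists_le_sylow
    have h6 := ih R' (le_sup_left.trans hR')
    exact h6.trans (adj_or_eq (le_sup_right.trans hR') hR (ee_ne_bot h4))

/-- The Sylow graph is connected iff the commuting graph is. -/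
theorem chain_iff_kconn : IsSylowChainConnected p G ↔ IsKConnected p 1 G := by
  rw [H14.chainConnected_iff]
  constructor
  · intro h E E' h1 h2 h3 h4
    obtain ⟨S, hS⟩ := (ee_pgroup h1).exists_le_sylow
    obtain ⟨T, hT⟩ := (ee_pgroup h3).exists_le_sylow
    exact kconn_of_reach (h S T) hS hT h1 h2 h3 h4
  · intro h S T
    by_cases hS : (S : Subgroup G) = ⊥
    · have hc : Nat.card (T : Subgroup G) = Nat.card (S : Subgroup G) := by
        obtain ⟨g, rfl⟩ := MulAction.exists_smul_eq G S T
        exact Sylow.card_eq_multiplicity _ |>.trans (Sylow.card_eq_multiplicity _).symm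
      have hT : (T : Subgroup G) = ⊥ := by
        rw [hS, Subgroup.card_bot] at hc
        exact Subgroup.eq_bot_of_card_eq _ hc
      have : S = T := Sylow.ext (hS.trans hT.symm)
      rw [this]
      exact ReflTransGen.refl
    · have hT : (T : Subgroup G) ≠ ⊥ := by
        intro hT
        have hc : Nat.card (S : Subgroup G) = Nat.card (T : Subgroup G) := by
          obtain ⟨g, rfl⟩ := MulAction.exists_smul_eq G T S
          exact Sylow.card_eq_multiplicity _ |>.trans (Sylow.card_eq_multiplicity _).symm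
        rw [hT, Subgroup.card_bot] at hc
        exact hS (Subgroup.eq_bot_of_card_eq _ hc)
      obtain ⟨F, hF, h1, h2⟩ := exists_ee_le S.2 hS
      obtain ⟨F', hF', h3, h4⟩ := exists_ee_le T.2 hT
      exact reach_of_kconn S hF (ee_ne_bot h2) (h F F' h1 h2 h3 h4) T hF'

end conn

end Cfsg.Agent.H05
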