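import Cfsg.Agent.Lib.H05.Dih

/-!
# Dihedral 2-groups: the central involution, four-subgroups and index two subgroups
-/

set_option autoImplicit false
set_option linter.style.haveILetI false
set_option linter.unusedSectionVars false
set_option linter.unusedVariables false
set_option linter.unusedSimpArgs false

namespace Cfsg.Agent.H05

open Subgroup Cfsg DihedralGroup

section D

variable {n : ℕ} [hne : NeZero (2 ^ (n + 1))]

/-- Half of the modulus. -/
def halfZ (n : ℕ) : ZMod (2 ^ (n + 1)) := ((2 ^ n : ℕ) : ZMod (2 ^ (n + 1)))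

theorem halfZ_add : halfZ n + halfZ n = 0 := by
  unfold halfZ
  rw [← Nat.cast_add, ← two_mul, ← pow_succ']
  exact ZMod.natCast_self _

theorem halfZ_ne : halfZ n ≠ 0 := by
  unfold halfZ
  intro h
  rw [ZMod.natCast_eq_zero_iff] at h
  have h1 := (Nat.pow_dvd_pow_iff_le_right (x := 2) (by norm_num)).mp h
  omega

theorem neg_halfZ : - halfZ n = halfZ n := by
  rw [neg_eq_iff_add_eq_zero]
  exact halfZ_add

theorem add_self_eq (x : ZMod (2 ^ (n + 1))) (h : x + x = 0) : x = 0 ∨ x = halfZ n := by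
  have h1 : ((x.val + x.val : ℕ) : ZMod (2 ^ (n + 1))) = 0 := by
    rw [Nat.cast_add, ZMod.natCast_zmod_val, h]
  rw [ZMod.natCast_eq_zero_iff] at h1
  have h2 : 2 ^ n ∣ x.val := by
    have h1' : 2 * 2 ^ n ∣ 2 * x.val := by
      have h0 : 2 * 2 ^ n = 2 ^ (n + 1) := (pow_succ' 2 n).symm
      rw [h0, two_mul]
      exact h1
    exact (Nat.mul_dvd_mul_iff_left (by norm_num)).mp h1'
  obtain ⟨c, hc⟩ := h2
  have h3 : x.val < 2 ^ (n + 1) := ZMod.val_lt x
  have h4 : c < 2 := by
    rw [hc, pow_succ'] at h3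
    have hp : 0 < 2 ^ n := by positivity
    by_contra h5
    have h6 : 2 ≤ c := by omega
    have h7 : 2 ^ n * 2 ≤ 2 ^ n * c := Nat.mul_le_mul_left _ h6
    omega
  have h5 : x = ((x.val : ℕ) : ZMod (2 ^ (n + 1))) := (ZMod.natCast_zmod_val x).symm
  interval_cases c
  · left
    rw [h5, hc]
    simp
  · right
    rw [h5, hc]
    simp [halfZ]

/-- The central involution. -/
def zD (n : ℕ) : DihedralGroup (2 ^ (n + 1)) := r (halfZ n)

theorem zD_mul_r (i : ZMod (2 ^ (n + 1))) : zD n * r i = r (halfZ n + i) := by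
  unfold zD
  rw [DihedralGroup.r_mul_r]

theorem zD_mul_sr (i : ZMod (2 ^ (n + 1))) : zD n * sr i = sr (i + halfZ n) := by
  unfold zD
  rw [DihedralGroup.r_mul_sr, sub_eq_add_neg, neg_halfZ]

theorem sr_mul_zD (i : ZMod (2 ^ (n + 1))) : sr i * zD n = sr (i + halfZ n) := by
  unfold zD
  rw [DihedralGroup.sr_mul_r]

theorem zD_central (x : DihedralGroup (2 ^ (n + 1))) : zD n * x = x * zD n := by
  rcases x with i | i
  · rw [zD_mul_r]
    unfold zD
    rw [DihedralGroup.r_mul_r]
    exact congrArg r (add_comm _ _)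
  · rw [zD_mul_sr, sr_mul_zD]

theorem zD_mul_self : zD n * zD n = 1 := by
  unfold zD
  rw [DihedralGroup.r_mul_r, halfZ_add]
  rfl

theorem zD_ne : zD n ≠ 1 := by
  intro h
  have h1 : (r (halfZ n) : DihedralGroup (2 ^ (n + 1))) = r 0 := h
  exact halfZ_ne (DihedralGroup.r.inj h1)

theorem sr_ne_one (i : ZMod (2 ^ (n + 1))) : (sr i : DihedralGroup (2 ^ (n + 1))) ≠ 1 := by
  intro h
  cases h

theorem sr_sq (i : ZMod (2 ^ (n + 1))) : (sr i : DihedralGroup (2 ^ (n + 1))) * sr i = 1 :=
  DihedralGroup.sr_mul_self i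

theorem r_sq_eq (i : ZMod (2 ^ (n + 1))) (h : (r i : DihedralGroup (2 ^ (n + 1))) * r i = 1) :
    i = 0 ∨ i = halfZ n := by
  rw [DihedralGroup.r_mul_r] at h
  exact add_self_eq i (DihedralGroup.r.inj h)

/-- Involutions of a dihedral 2-group. -/
theorem inv_cases (x : DihedralGroup (2 ^ (n + 1))) (h : x * x = 1) (h1 : x ≠ 1) :
    x = zD n ∨ ∃ i, x = sr i := by
  rcases x with i | i
  · left
    rcases r_sq_eq i h with h2 | h2
    · exfalso
      rw [h2] at h1
      exact h1 rfl
    · rw [h2]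
      rfl
  · exact Or.inr ⟨i, rfl⟩

/-- The four-subgroup through a reflection. -/
def kleinD (i : ZMod (2 ^ (n + 1))) : Subgroup (DihedralGroup (2 ^ (n + 1))) where
  carrier := {x | x = 1 ∨ x = zD n ∨ x = sr i ∨ x = sr (i + halfZ n)}
  one_mem' := Or.inl rfl
  mul_mem' := by
    intro a b ha hb
    have hH : i + halfZ n + halfZ n = i := by rw [add_assoc, halfZ_add, add_zero]
    have e1 : (sr i : DihedralGroup (2 ^ (n + 1))) * sr (i + halfZ n) = zD n := by
      unfold zD
      rw [DihedralGroup.sr_mul_sr]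
      congr 1
      ring
    have e2 : (sr (i + halfZ n) : DihedralGroup (2 ^ (n + 1))) * sr i = zD n := by
      unfold zD
      rw [DihedralGroup.sr_mul_sr, sub_add_cancel_left, neg_halfZ]
    rcases ha with rfl | rfl | rfl | rfl
    · rwa [one_mul]
    · rcases hb with rfl | rfl | rfl | rfl
      · rw [mul_one]; exact Or.inr (Or.inl rfl)
      · rw [zD_mul_self]; exact Or.inl rfl
      · rw [zD_mul_sr]; exact Or.inr (Or.inr (Or.inr rfl))
      · rw [zD_mul_sr, hH]; exact Or.inr (Or.inr (Or.inl rfl))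
    · rcases hb with rfl | rfl | rfl | rfl
      · rw [mul_one]; exact Or.inr (Or.inr (Or.inl rfl))
      · rw [sr_mul_zD]; exact Or.inr (Or.inr (Or.inr rfl))
      · rw [sr_sq]; exact Or.inl rfl
      · rw [e1]; exact Or.inr (Or.inl rfl)
    · rcases hb with rfl | rfl | rfl | rfl
      · rw [mul_one]; exact Or.inr (Or.inr (Or.inr rfl))
      · rw [sr_mul_zD, hH]; exact Or.inr (Or.inr (Or.inl rfl))
      · rw [e2]; exact Or.inr (Or.inl rfl)
      · rw [sr_sq]; exact Or.inl rfl
  inv_mem' := by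
    rintro a (rfl | rfl | rfl | rfl)
    · left
      simp
    · right; left
      unfold zD
      rw [DihedralGroup.inv_r, neg_halfZ]
    · right; right; left
      rw [DihedralGroup.inv_sr]
    · right; right; right
      rw [DihedralGroup.inv_sr]

theorem mem_kleinD (i : ZMod (2 ^ (n + 1))) (x : DihedralGroup (2 ^ (n + 1))) :
    x ∈ kleinD i ↔ x = 1 ∨ x = zD n ∨ x = sr i ∨ x = sr (i + halfZ n) := Iff.rfl

theorem sq_of_mem_kleinD (i : ZMod (2 ^ (n + 1))) (x : DihedralGroup (2 ^ (n + 1))) (hx : x ∈ kleinD i) : x * x = 1 := by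
  rcases hx with rfl | rfl | rfl | rfl
  · simp
  · exact zD_mul_self
  · exact sr_sq _
  · exact sr_sq _

theorem card_kleinD (i : ZMod (2 ^ (n + 1))) : Nat.card (kleinD i) = 4 := by
  classical
  have h1 : ((kleinD i : Subgroup (DihedralGroup (2 ^ (n + 1)))) : Set (DihedralGroup (2 ^ (n + 1)))) =
      (({1, zD n, sr i, sr (i + halfZ n)} : Finset (DihedralGroup (2 ^ (n + 1)))) : Set (DihedralGroup (2 ^ (n + 1)))) := by
    ext x
    simp [mem_kleinD]
  have h2 : Nat.card (kleinD i) = (({1, zD n, sr i, sr (i + halfZ n)} : Finset (DihedralGroup (2 ^ (n + 1)))) : Set (DihedralGroup (2 ^ (n + 1)))).ncard := by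
    rw [← h1]
    rfl
  rw [h2, Set.ncard_coe_finset]
  have ha : (sr i : DihedralGroup (2 ^ (n + 1))) ∉ ({sr (i + halfZ n)} : Finset (DihedralGroup (2 ^ (n + 1)))) := by
    simp only [Finset.mem_singleton]
    intro h
    have h3 := DihedralGroup.sr.inj h
    have h4 : halfZ n = 0 := by
      have : i + 0 = i + halfZ n := by rw [add_zero]; exact h3
      exact (add_left_cancel this).symm
    exact halfZ_ne h4
  have hb : zD n ∉ ({sr i, sr (i + halfZ n)} : Finset (DihedralGroup (2 ^ (n + 1)))) := by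
    simp only [Finset.mem_insert, Finset.mem_singleton]
    unfold zD
    rintro (h | h) <;> cases h
  have hc : (1 : DihedralGroup (2 ^ (n + 1))) ∉ ({zD n, sr i, sr (i + halfZ n)} : Finset (DihedralGroup (2 ^ (n + 1)))) := by
    simp only [Finset.mem_insert, Finset.mem_singleton]
    rintro (h | h | h)
    · exact zD_ne h.symm
    · exact sr_ne_one _ h.symm
    · exact sr_ne_one _ h.symm
  rw [Finset.card_insert_of_notMem hc, Finset.card_insert_of_notMem hb, Finset.card_insert_of_notMem ha, Finset.card_singleton]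

theorem isKlein_kleinD (i : ZMod (2 ^ (n + 1))) : IsKleinFour (kleinD i) := by
  refine ⟨card_kleinD i, ?_⟩
  have hn : Nontrivial (kleinD i) := by
    exact (Finite.one_lt_card_iff_nontrivial).mp (by rw [card_kleinD i]; norm_num)
  apply exponent_two_of _ hn
  rintro ⟨x, hx⟩
  apply Subtype.ext
  show x ^ 2 = 1
  rw [pow_two]
  exact sq_of_mem_kleinD i x hx

theorem sq_of_klein {A : Type*} [Group A] (h : IsKleinFour A) (x : A) : x * x = 1 := by
  rw [← pow_two, ← h.exponent_two]
  exact Monoid.pow_exponent_eq_one x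

/-- Four-subgroups of a dihedral 2-group. -/
theorem klein_D (V : Subgroup (DihedralGroup (2 ^ (n + 1)))) (hV : IsKleinFour V) : ∃ i, V = kleinD i := by
  classical
  have hsq : ∀ x ∈ V, x * x = 1 := fun x hx => congrArg Subtype.val (sq_of_klein hV ⟨x, hx⟩)
  have hz2 : orderOf (zD n) = 2 := orderOf_eq_prime (by rw [pow_two]; exact zD_mul_self) zD_ne
  have hrefl : ∃ i, (sr i : DihedralGroup (2 ^ (n + 1))) ∈ V := by
    by_contra hno
    push Not at hno
    have hle : V ≤ zpowers (zD n) := by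
      intro x hx
      rcases x with l | l
      · rcases r_sq_eq l (hsq _ hx) with h | h
        · rw [h]
          exact Subgroup.one_mem _
        · rw [h]
          exact mem_zpowers _
      · exact absurd hx (hno l)
    have h1 := Subgroup.card_le_of_le hle
    rw [Nat.card_zpowers, hz2, hV.card_four] at h1
    omega
  obtain ⟨i, hi⟩ := hrefl
  refine ⟨i, Subgroup.eq_of_le_of_card_ge ?_ ?_⟩
  · intro x hx
    rcases x with l | l
    · rcases r_sq_eq l (hsq _ hx) with h | h
      · left
        rw [h]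
        rfl
      · right; left
        rw [h]
        rfl
    · have h1 := hsq _ (V.mul_mem hx hi)
      rw [DihedralGroup.sr_mul_sr] at h1
      rcases r_sq_eq _ h1 with h | h
      · right; right; left
        have h2 : l = i := (sub_eq_zero.mp h).symm
        rw [h2]
      · right; right; right
        have h2 : l = i + halfZ n := by
          have h3 : i = halfZ n + l := sub_eq_iff_eq_add.mp h
          rw [h3, add_comm (halfZ n) l, add_assoc, halfZ_add, add_zero]
        rw [h2]
  · rw [card_kleinD, hV.card_four]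

/-- The parity map. -/
def par (n : ℕ) : ZMod (2 ^ (n + 1)) →+* ZMod 2 := ZMod.castHom (dvd_pow_self 2 (Nat.succ_ne_zero n)) (ZMod 2)

theorem par_zero_iff (x : ZMod (2 ^ (n + 1))) : par n x = 0 ↔ ∃ l, x = l + l := by
  constructor
  · intro h
    have h1 : par n x = ((x.val : ℕ) : ZMod 2) := by
      unfold par
      rw [ZMod.castHom_apply, ZMod.natCast_val]
    rw [h1, ZMod.natCast_eq_zero_iff] at h
    obtain ⟨c, hc⟩ := h
    refine ⟨((c : ℕ) : ZMod (2 ^ (n + 1))), ?_⟩
    rw [← Nat.cast_add, ← two_mul, ← hc, ZMod.natCast_zmod_val]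
  · rintro ⟨l, rfl⟩
    rw [map_add]
    exact CharTwo.add_self_eq_zero _

theorem par_half (hn : 1 ≤ n) : par n (halfZ n) = 0 := by
  rw [par_zero_iff]
  refine ⟨((2 ^ (n - 1) : ℕ) : ZMod (2 ^ (n + 1))), ?_⟩
  unfold halfZ
  rw [← Nat.cast_add, ← two_mul, ← pow_succ']
  congr 2
  omega

theorem par_one : par n 1 = 1 := map_one _

/-- Index two subgroups of a dihedral 2-group. -/
def Mc (c : ZMod 2) : Subgroup (DihedralGroup (2 ^ (n + 1))) where
  carrier := {x | match x with
    | r i => par n i = 0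
    | sr i => par n i = c}
  one_mem' := by
    show par n 0 = 0
    exact map_zero _
  mul_mem' := by
    rintro (a | a) (b | b) ha hb
    · show par n (a + b) = 0
      have ha' : par n a = 0 := ha
      have hb' : par n b = 0 := hb
      rw [map_add, ha', hb', add_zero]
    · show par n (b - a) = c
      have ha' : par n a = 0 := ha
      have hb' : par n b = c := hb
      rw [map_sub, ha', hb', sub_zero]
    · show par n (a + b) = c
      have ha' : par n a = c := ha
      have hb' : par n b = 0 := hb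
      rw [map_add, ha', hb', add_zero]
    · show par n (b - a) = 0
      have ha' : par n a = c := ha
      have hb' : par n b = c := hb
      rw [map_sub, ha', hb', sub_self]
  inv_mem' := by
    rintro (a | a) ha
    · show par n (-a) = 0
      have ha' : par n a = 0 := ha
      rw [map_neg, ha', neg_zero]
    · exact ha

theorem r_mem_Mc (c : ZMod 2) (i : ZMod (2 ^ (n + 1))) : (r i : DihedralGroup (2 ^ (n + 1))) ∈ Mc c ↔ par n i = 0 := Iff.rfl

theorem sr_mem_Mc (c : ZMod 2) (i : ZMod (2 ^ (n + 1))) : (sr i : DihedralGroup (2 ^ (n + 1))) ∈ Mc c ↔ par n i = c := Iff.rfl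

theorem index_Mc (c : ZMod 2) : (Mc c : Subgroup (DihedralGroup (2 ^ (n + 1)))).index = 2 := by
  rw [Subgroup.index_eq_two_iff]
  refine ⟨r 1, ?_⟩
  have hx : ∀ x y : ZMod 2, (x + 1 = y ∧ ¬ x = y) ∨ (x = y ∧ ¬ x + 1 = y) := by decide
  rintro (a | a)
  · rw [DihedralGroup.r_mul_r, r_mem_Mc, r_mem_Mc, map_add, par_one]
    exact hx _ _
  · rw [DihedralGroup.sr_mul_r, sr_mem_Mc, sr_mem_Mc, map_add, par_one]
    exact hx _ _

theorem normal_Mc (c : ZMod 2) : (Mc c : Subgroup (DihedralGroup (2 ^ (n + 1)))).Normal :=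
  Subgroup.normal_of_index_eq_two (index_Mc c)

theorem sr_conj (l j : ZMod (2 ^ (n + 1))) : (r l : DihedralGroup (2 ^ (n + 1))) * sr j * (r l)⁻¹ = sr (j - l - l) := by
  rw [DihedralGroup.inv_r, DihedralGroup.r_mul_sr, DihedralGroup.sr_mul_r, sub_eq_add_neg (j - l) l]

theorem sr_conj_of_par {i j : ZMod (2 ^ (n + 1))} (h : par n i = par n j) :
    ∃ y, y * sr j * y⁻¹ = (sr i : DihedralGroup (2 ^ (n + 1))) := by
  have h1 : par n (j - i) = 0 := by rw [map_sub, h, sub_self]
  obtain ⟨l, hl⟩ := (par_zero_iff _).mp h1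
  refine ⟨r l, ?_⟩
  rw [sr_conj]
  congr 1
  have h2 : j = i + (l + l) := by rw [← hl]; ring
  rw [h2]
  ring

theorem zD_mem_Mc (hn : 1 ≤ n) (c : ZMod 2) : zD n ∈ Mc c := par_half hn

theorem kleinD_le (hn : 1 ≤ n) (c : ZMod 2) (i : ZMod (2 ^ (n + 1))) (h : par n i = c) : kleinD i ≤ Mc c := by
  rintro x (rfl | rfl | rfl | rfl)
  · exact Subgroup.one_mem _
  · exact zD_mem_Mc hn c
  · exact h
  · show par n (i + halfZ n) = c
    rw [map_add, par_half hn, add_zero, h]

end D

end Cfsg.Agent.H05
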