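import Cfsg.Agent.Lib.H05.Dih2
import Cfsg.Agent.Lib.H05.QF2

/-!
# Dihedral Sylow 2-subgroups: conjugacy of involutions and index two subgroups
-/

set_option autoImplicit false
set_option linter.style.haveILetI false
set_option linter.unusedSectionVars false
set_option linter.unusedVariables false
set_option linter.unusedSimpArgs false

namespace Cfsg.Agent.H05

open Subgroup Cfsg DihedralGroup

section X

variable {X : Type*} [Group X] [Finite X] {n : ℕ} [hne : NeZero (2 ^ (n + 1))]

/-- The embedding of the dihedral group onto the Sylow subgroup. -/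
def jD (P : Sylow 2 X) (e : (P : Subgroup X) ≃* DihedralGroup (2 ^ (n + 1))) : DihedralGroup (2 ^ (n + 1)) →* X :=
  (P : Subgroup X).subtype.comp e.symm.toMonoidHom

variable (P : Sylow 2 X) (e : (P : Subgroup X) ≃* DihedralGroup (2 ^ (n + 1)))

theorem jD_inj : Function.Injective (jD P e) := by
  intro a b h
  exact e.symm.injective (Subtype.ext h)

theorem jD_mem (y : DihedralGroup (2 ^ (n + 1))) : jD P e y ∈ (P : Subgroup X) := (e.symm y).2

theorem jD_surj {u : X} (hu : u ∈ (P : Subgroup X)) : ∃ y, jD P e y = u :=
  ⟨e ⟨u, hu⟩, by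
    show ((e.symm (e ⟨u, hu⟩) : (P : Subgroup X)) : X) = u
    rw [MulEquiv.symm_apply_apply]⟩

theorem jD_e (x : (P : Subgroup X)) : jD P e (e x) = x := by
  show ((e.symm (e x) : (P : Subgroup X)) : X) = x
  rw [MulEquiv.symm_apply_apply]

/-- Four-subgroups of the Sylow subgroup. -/
theorem klein_in_P {U : Subgroup X} (hU : U ≤ P) (hK : IsKleinFour U) : ∃ i, U = (kleinD i).map (jD P e) := by
  have h1 : (U.comap (jD P e)).map (jD P e) = U := by
    apply le_antisymm (Subgroup.map_comap_le _ _)
    intro u hu
    obtain ⟨y, rfl⟩ := jD_surj P e (hU hu)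
    exact ⟨y, hu, rfl⟩
  let e1 : (U.comap (jD P e)) ≃* (U.comap (jD P e)).map (jD P e) := (U.comap (jD P e)).equivMapOfInjective _ (jD_inj P e)
  have h2 : IsKleinFour (U.comap (jD P e)) := by
    rw [← h1] at hK
    exact klein_of_equiv e1.symm hK
  obtain ⟨i, hi⟩ := klein_D _ h2
  exact ⟨i, by rw [← hi, h1]⟩

theorem isKlein_map (i : ZMod (2 ^ (n + 1))) : IsKleinFour ((kleinD i).map (jD P e)) :=
  klein_of_equiv ((kleinD i).equivMapOfInjective _ (jD_inj P e)) (isKlein_kleinD i)

theorem map_le_P (V : Subgroup (DihedralGroup (2 ^ (n + 1)))) : V.map (jD P e) ≤ (P : Subgroup X) := by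
  rintro _ ⟨y, _, rfl⟩
  exact jD_mem P e y

theorem mem_U_cases (i : ZMod (2 ^ (n + 1))) {u : X} (hu : u ∈ (kleinD i).map (jD P e)) :
    u = 1 ∨ u = jD P e (zD n) ∨ u = jD P e (sr i) ∨ u = jD P e (sr (i + halfZ n)) := by
  obtain ⟨w, hw, rfl⟩ := hu
  rcases hw with rfl | rfl | rfl | rfl
  · left
    exact map_one _
  · exact Or.inr (Or.inl rfl)
  · exact Or.inr (Or.inr (Or.inl rfl))
  · exact Or.inr (Or.inr (Or.inr rfl))

theorem conj_in_P (y w : DihedralGroup (2 ^ (n + 1))) : jD P e y * jD P e w * (jD P e y)⁻¹ = jD P e (y * w * y⁻¹) := by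
  rw [map_mul, map_mul, map_inv]

/-- An index two subgroup from a reflection not fused with the centre. -/
theorem dih_index_two (hn : 1 ≤ n) (i₀ : ZMod (2 ^ (n + 1))) (hno : ¬ IsConj (jD P e (sr i₀)) (jD P e (zD n))) :
    ∃ H : Subgroup X, H.index = 2 := by
  classical
  set j := jD P e with hj
  have hjinj : Function.Injective j := jD_inj P e
  have hm2 : 2 ≤ 2 ^ (n + 1) := by
    calc 2 = 2 ^ 1 := by norm_num
      _ ≤ 2 ^ (n + 1) := Nat.pow_le_pow_right (by norm_num) (by omega)
  let c : ZMod 2 := par n i₀ + 1
  let M : Subgroup (DihedralGroup (2 ^ (n + 1))) := Mc c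
  haveI hMn : M.Normal := normal_Mc c
  let Mt : Subgroup X := M.map j
  have hmem : ∀ y, j y ∈ Mt ↔ y ∈ M := fun y => Subgroup.mem_map_iff_mem hjinj
  have hfus := dih_fus P hm2 e (fun u v => u ∈ Mt ↔ v ∈ Mt) (fun h => h.symm) (fun h1 h2 => h1.trans h2)
    (by
      intro s hs u hu
      obtain ⟨y, rfl⟩ := jD_surj P e hs
      obtain ⟨w, rfl⟩ := jD_surj P e hu
      show _ ∈ Mt ↔ _ ∈ Mt
      rw [conj_in_P, hmem, hmem]
      constructor
      · intro h
        have h1 := hMn.conj_mem _ h y⁻¹
        simpa [mul_assoc] using h1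
      · intro h
        exact hMn.conj_mem _ h y)
    (by
      intro U hU hK g hg u hu
      obtain ⟨i, rfl⟩ := klein_in_P P e hU hK
      have hgu : ∀ v ∈ (kleinD i).map j, g * v * g⁻¹ ∈ (kleinD i).map j := fun v hv =>
        (Subgroup.mem_normalizer_iff.mp hg v).mp hv
      by_cases hi : par n i = c
      · have hle : (kleinD i).map j ≤ Mt := Subgroup.map_mono (kleinD_le hn c i hi)
        exact ⟨fun _ => hle hu, fun _ => hle (hgu u hu)⟩
      · have hpar : par n i = par n i₀ := by
          have hd : ∀ a b : ZMod 2, a ≠ b + 1 → a = b := by decide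
          exact hd _ _ hi
        have hsi : par n (i + halfZ n) = par n i₀ := by rw [map_add, par_half hn, add_zero, hpar]
        have hnc : ∀ l, par n l = par n i₀ → ¬ IsConj (j (sr l)) (j (zD n)) := by
          intro l hl hc
          obtain ⟨y, hy⟩ := sr_conj_of_par hl
          apply hno
          have h1 : IsConj (j (sr i₀)) (j (sr l)) := isConj_iff.mpr ⟨j y, by rw [hj, conj_in_P, hy]⟩
          exact h1.trans hc
        have hz'U : j (zD n) ∈ (kleinD i).map j := ⟨_, Or.inr (Or.inl rfl), rfl⟩
        have hgz : g * j (zD n) * g⁻¹ = j (zD n) := by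
          rcases mem_U_cases P e i (hgu _ hz'U) with h | h | h | h
          · exfalso
            have h1 : j (zD n) = 1 := by
              have h2 : j (zD n) = g⁻¹ * (g * j (zD n) * g⁻¹) * g := by group
              rw [h2, h]
              group
            exact zD_ne (hjinj (h1.trans (map_one j).symm))
          · exact h
          · exfalso
            exact hnc i hpar ((isConj_iff.mpr ⟨g, h⟩).symm)
          · exfalso
            exact hnc _ hsi ((isConj_iff.mpr ⟨g, h⟩).symm)
        have hmemK : ∀ v ∈ (kleinD i).map j, (v ∈ Mt ↔ v = 1 ∨ v = j (zD n)) := by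
          intro v hv
          rcases mem_U_cases P e i hv with h | h | h | h
          · subst h
            exact ⟨fun _ => Or.inl rfl, fun _ => Mt.one_mem⟩
          · subst h
            exact ⟨fun _ => Or.inr rfl, fun _ => (hmem _).mpr (zD_mem_Mc hn c)⟩
          · subst h
            constructor
            · intro h1
              exact absurd ((hmem _).mp h1) hi
            · rintro (h1 | h1)
              · exact absurd (hjinj (h1.trans (map_one j).symm)) (sr_ne_one _)
              · have := hjinj h1
                cases this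
          · subst h
            constructor
            · intro h1
              have h2 : par n (i + halfZ n) = c := (hmem _).mp h1
              rw [map_add, par_half hn, add_zero] at h2
              exact absurd h2 hi
            · rintro (h1 | h1)
              · exact absurd (hjinj (h1.trans (map_one j).symm)) (sr_ne_one _)
              · have := hjinj h1
                cases this
        show g * u * g⁻¹ ∈ Mt ↔ u ∈ Mt
        rw [hmemK _ (hgu u hu), hmemK _ hu]
        constructor
        · rintro (h | h)
          · left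
            have h2 : u = g⁻¹ * (g * u * g⁻¹) * g := by group
            rw [h2, h]
            group
          · right
            rw [← hgz] at h
            exact mul_left_cancel (mul_right_cancel h)
        · rintro (h | h)
          · left
            rw [h]
            group
          · right
            rw [h, hgz])
  let M' : Subgroup (P : Subgroup X) := M.comap e.toMonoidHom
  have hM' : M'.index = 2 := by
    rw [Subgroup.index_comap_of_surjective _ e.surjective]
    exact index_Mc c
  have hx : ∀ x : (P : Subgroup X), (x : X) ∈ Mt ↔ x ∈ M' := by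
    intro x
    have h1 := hmem (e x)
    rw [jD_e] at h1
    exact h1
  obtain ⟨K, hK, hKi, -⟩ := exists_K_two P M' hM' (by
    intro s g hs
    rw [← hx, ← hx]
    have h1 := hfus s s.2 g⁻¹ (by simpa using hs)
    simpa using h1)
  exact ⟨K, hKi⟩

/-- An index two subgroup in the four-group case. -/
theorem klein_index_two (hc : Nat.card (P : Subgroup X) = 4) {w : X} (hw : w ∈ (P : Subgroup X)) (hw1 : w ≠ 1) (hw2 : w * w = 1)
    (hcj : ∀ v ∈ (P : Subgroup X), IsConj v w → v = w) : ∃ H : Subgroup X, H.index = 2 := by
  classical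
  let w' : (P : Subgroup X) := ⟨w, hw⟩
  have hw'2 : orderOf w' = 2 := orderOf_eq_prime (by
    rw [pow_two]
    exact Subtype.ext hw2) (by
    intro h
    exact hw1 (congrArg Subtype.val h))
  let M : Subgroup (P : Subgroup X) := zpowers w'
  have hMi : M.index = 2 := by
    have h1 := M.card_mul_index
    have h2 : Nat.card M = 2 := by rw [Nat.card_zpowers, hw'2]
    rw [h2, hc] at h1
    omega
  have hMm : ∀ s : (P : Subgroup X), s ∈ M ↔ s = 1 ∨ s = w' := by
    intro s
    constructor
    · intro hs
      obtain ⟨k, hk⟩ := mem_powers_iff_mem_zpowers.2 hs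
      have hk2 : s = w' ^ (k % 2) := by
        have h4 := pow_mod_orderOf w' k
        rw [hw'2] at h4
        rw [h4]
        exact hk.symm
      have h3 : k % 2 = 0 ∨ k % 2 = 1 := by omega
      rcases h3 with h3 | h3
      · left
        rw [hk2, h3, pow_zero]
      · right
        rw [hk2, h3, pow_one]
    · rintro (rfl | rfl)
      · exact Subgroup.one_mem _
      · exact mem_zpowers _
  obtain ⟨K, -, hKi, -⟩ := exists_K_two P M hMi (by
    intro s g hs
    rw [hMm, hMm]
    constructor
    · rintro (h | h)
      · left
        have h1 : g⁻¹ * (s : X) * g = 1 := congrArg Subtype.val h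
        apply Subtype.ext
        show (s : X) = 1
        have h2 : (s : X) = g * (g⁻¹ * (s : X) * g) * g⁻¹ := by group
        rw [h2, h1]
        group
      · right
        have h1 : g⁻¹ * (s : X) * g = w := congrArg Subtype.val h
        apply Subtype.ext
        apply hcj _ s.2
        exact isConj_iff.mpr ⟨g⁻¹, by simpa using h1⟩
    · rintro (h | h)
      · left
        apply Subtype.ext
        have hs1 : (s : X) = 1 := congrArg Subtype.val h
        show g⁻¹ * (s : X) * g = 1
        rw [hs1]
        group
      · right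
        apply Subtype.ext
        show g⁻¹ * (s : X) * g = w
        have hsw : (s : X) = w := congrArg Subtype.val h
        apply hcj _ hs
        rw [hsw]
        exact isConj_iff.mpr ⟨g, by group⟩)
  exact ⟨K, hKi⟩

/-- Without index two subgroups, all reflections are fused with the centre. -/
theorem all_refl_conj (hG : ∀ H : Subgroup X, H.index ≠ 2) (i : ZMod (2 ^ (n + 1))) :
    IsConj (jD P e (sr i)) (jD P e (zD n)) := by
  classical
  rcases Nat.eq_zero_or_pos n with rfl | hn
  · -- the four-group case
    have hc : Nat.card (P : Subgroup X) = 4 := by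
      rw [Nat.card_congr e.toEquiv, DihedralGroup.nat_card]
      norm_num
    have htop : kleinD i = (⊤ : Subgroup (DihedralGroup (2 ^ (0 + 1)))) := by
      apply Subgroup.eq_top_of_card_eq
      rw [card_kleinD, DihedralGroup.nat_card]
      norm_num
    have hall : ∀ v ∈ (P : Subgroup X), v = 1 ∨ v = jD P e (zD 0) ∨ v = jD P e (sr i) ∨ v = jD P e (sr (i + halfZ 0)) := by
      intro v hv
      obtain ⟨y, rfl⟩ := jD_surj P e hv
      have hy : y ∈ kleinD i := by rw [htop]; trivial
      exact mem_U_cases P e i ⟨y, hy, rfl⟩
    have hinj := jD_inj P e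
    have hex : ∀ w ∈ (P : Subgroup X), w ≠ 1 → w * w = 1 → ∃ v ∈ (P : Subgroup X), v ≠ w ∧ IsConj v w := by
      intro w hw hw1 hw2
      by_contra hno
      push Not at hno
      obtain ⟨H, hH⟩ := klein_index_two P hc hw hw1 hw2 (fun v hv h1 => by
        by_contra h2
        exact hno v hv h2 h1)
      exact hG H hH
    set a := jD P e (zD 0) with ha
    set b := jD P e (sr i) with hb
    set c := jD P e (sr (i + halfZ 0)) with hc'
    have ha1 : a ≠ 1 := fun h => zD_ne (hinj (h.trans (map_one _).symm))
    have hb1 : b ≠ 1 := fun h => sr_ne_one _ (hinj (h.trans (map_one _).symm))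
    have hc1 : c ≠ 1 := fun h => sr_ne_one _ (hinj (h.trans (map_one _).symm))
    have haa : a * a = 1 := by rw [ha, ← map_mul, zD_mul_self, map_one]
    have hbb : b * b = 1 := by rw [hb, ← map_mul, sr_sq, map_one]
    have hcc : c * c = 1 := by rw [hc', ← map_mul, sr_sq, map_one]
    have ne1 : ∀ v w : X, IsConj v w → w ≠ 1 → v ≠ 1 := by
      intro v w h1 h2 h3
      rw [h3] at h1
      exact h2 (isConj_one_left.mp h1.symm) 
    obtain ⟨v, hv, hva, hcja⟩ := hex a (jD_mem P e _) ha1 haa
    obtain ⟨v', hv', hvb, hcjb⟩ := hex b (jD_mem P e _) hb1 hbb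
    obtain ⟨v'', hv'', hvc, hcjc⟩ := hex c (jD_mem P e _) hc1 hcc
    by_contra hbna
    have h1 : IsConj c a := by
      rcases hall v hv with h | h | h | h
      · exact absurd h (ne1 _ _ hcja ha1)
      · exact absurd h hva
      · rw [h] at hcja
        exact absurd hcja hbna
      · rw [h] at hcja
        exact hcja
    have h2 : IsConj c b := by
      rcases hall v' hv' with h | h | h | h
      · exact absurd h (ne1 _ _ hcjb hb1)
      · rw [h] at hcjb
        exact absurd hcjb.symm hbna
      · exact absurd h hvb
      · rw [h] at hcjb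
        exact hcjb
    exact hbna (h2.symm.trans h1)
  · by_contra hno
    obtain ⟨H, hH⟩ := dih_index_two P e hn i hno
    exact hG H hH

end X

end Cfsg.Agent.H05
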