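import Cfsg.Agent.Lib.H05.Dih3

/-!
# Dihedral Sylow 2-subgroups: all involutions conjugate
-/

set_option autoImplicit false
set_option linter.style.haveILetI false
set_option linter.unusedSectionVars false
set_option linter.unusedVariables false
set_option linter.unusedSimpArgs false

namespace Cfsg.Agent.H05

open Subgroup Cfsg DihedralGroup

section X

variable {X : Type*} [Group X] [Finite X] {n : ℕ} [hne : NeZero (2 ^ (n + 1))]

/-- Conjugation of a 2-subgroup into a Sylow 2-subgroup. -/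
theorem exists_conj_le_syl (P : Sylow 2 X) {V : Subgroup X} (hV : IsPGroup 2 V) :
    ∃ g : X, V.map (MulAut.conj g).toMonoidHom ≤ (P : Subgroup X) := by
  obtain ⟨Q, hQ⟩ := hV.exists_le_sylow
  obtain ⟨g, hg⟩ : ∃ g : X, g • Q = P := MulAction.exists_smul_eq X Q P
  refine ⟨g, ?_⟩
  rw [← hg]
  exact Subgroup.map_mono hQ

variable (P : Sylow 2 X) (e : (P : Subgroup X) ≃* DihedralGroup (2 ^ (n + 1)))

theorem exists_conj_mem_P {x : X} (hx : orderOf x = 2) : ∃ g y, g * x * g⁻¹ = jD P e y ∧ y * y = 1 ∧ y ≠ 1 := by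
  haveI : Fact (Nat.Prime 2) := ⟨Nat.prime_two⟩
  have hpx : IsPGroup 2 (zpowers x) := by
    apply IsPGroup.of_card (n := 1)
    rw [Nat.card_zpowers, hx, pow_one]
  obtain ⟨g, hg⟩ := exists_conj_le_syl P hpx
  have h1 : g * x * g⁻¹ ∈ (P : Subgroup X) := hg ⟨x, mem_zpowers x, rfl⟩
  obtain ⟨y, hy⟩ := jD_surj P e h1
  have hxx : x * x = 1 := by
    rw [← pow_two, ← hx]
    exact pow_orderOf_eq_one x
  have hx1 : x ≠ 1 := by
    rintro rfl
    simp at hx
  refine ⟨g, y, hy.symm, ?_, ?_⟩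
  · apply jD_inj P e
    rw [map_mul, hy, map_one]
    calc g * x * g⁻¹ * (g * x * g⁻¹) = g * (x * x) * g⁻¹ := by group
      _ = 1 := by rw [hxx]; group
  · rintro rfl
    rw [map_one] at hy
    apply hx1
    have h2 : x = g⁻¹ * (g * x * g⁻¹) * g := by group
    rw [h2, ← hy]
    group

/-- All involutions are conjugate once the reflections are fused with the centre. -/
theorem all_of_refl (h : ∀ i, IsConj (jD P e (sr i)) (jD P e (zD n))) {x : X} (hx : orderOf x = 2) :
    IsConj x (jD P e (zD n)) := by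
  obtain ⟨g, y, hy, hyy, hy1⟩ := exists_conj_mem_P P e hx
  have h1 : IsConj x (jD P e y) := isConj_iff.mpr ⟨g, hy⟩
  rcases inv_cases y hyy hy1 with rfl | ⟨i, rfl⟩
  · exact h1
  · exact h1.trans (h i)

theorem orderOf_j {y : DihedralGroup (2 ^ (n + 1))} (hyy : y * y = 1) (hy1 : y ≠ 1) : orderOf (jD P e y) = 2 := by
  apply orderOf_eq_prime
  · rw [pow_two, ← map_mul, hyy, map_one]
  · intro h
    exact hy1 (jD_inj P e (h.trans (map_one _).symm))

/-- All involutions conjugate implies no index two subgroup and no isolated involution. -/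
theorem lhs_of_all (P : Sylow 2 X) (e : (P : Subgroup X) ≃* DihedralGroup (2 ^ (n + 1))) (hA : ∀ a b : X, orderOf a = 2 → orderOf b = 2 → IsConj a b) :
    (∀ H : Subgroup X, H.index ≠ 2) ∧ (∀ z : X, ¬ Cfsg.IsIsolatedInvolution z) := by
  classical
  haveI : Fact (Nat.Prime 2) := ⟨Nat.prime_two⟩
  set j := jD P e with hj
  have ha : orderOf (j (sr 0)) = 2 := orderOf_j P e (sr_sq 0) (sr_ne_one 0)
  have hz : orderOf (j (zD n)) = 2 := orderOf_j P e zD_mul_self zD_ne
  have hb : orderOf (j (sr (0 + halfZ n))) = 2 := orderOf_j P e (sr_sq _) (sr_ne_one _)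
  constructor
  · intro H hH
    haveI hHn : H.Normal := Subgroup.normal_of_index_eq_two hH
    by_cases hex : ∃ t ∈ H, orderOf t = 2
    · obtain ⟨t, htH, ht⟩ := hex
      have hall : ∀ x, orderOf x = 2 → x ∈ H := by
        intro x hx
        obtain ⟨g, hg⟩ := isConj_iff.mp (hA t x ht hx)
        rw [← hg]
        exact hHn.conj_mem _ htH g
      have hle : (P : Subgroup X) ≤ H := by
        intro u hu
        obtain ⟨y, rfl⟩ := jD_surj P e hu
        rcases y with i | i
        · have h1 : (r i : DihedralGroup (2 ^ (n + 1))) = sr 0 * sr i := by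
            rw [DihedralGroup.sr_mul_sr, sub_zero]
          rw [h1, map_mul]
          exact H.mul_mem (hall _ ha) (hall _ (orderOf_j P e (sr_sq _) (sr_ne_one _)))
        · exact hall _ (orderOf_j P e (sr_sq _) (sr_ne_one _))
      have h2 := Subgroup.index_dvd_of_le hle
      rw [hH] at h2
      exact P.not_dvd_index h2
    · push Not at hex
      have h1 : j (sr 0) ∉ H := fun h => hex _ h ha
      have h2 : j (zD n) ∉ H := fun h => hex _ h hz
      have h3 := (Subgroup.mul_mem_iff_of_index_two hH (a := j (sr 0)) (b := j (zD n))).mpr (by tauto)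
      rw [← map_mul, sr_mul_zD] at h3
      exact hex _ h3 hb
  · rintro z ⟨hz2, hz3⟩
    obtain ⟨h, hh⟩ := isConj_iff.mp (hA _ _ hz hz2)
    obtain ⟨k, hk⟩ := isConj_iff.mp (hA _ _ hz ha)
    have hcomm : j (zD n) * j (sr 0) = j (sr 0) * j (zD n) := by
      rw [← map_mul, ← map_mul, zD_central]
    let g := h * k * h⁻¹
    have h4 : g * z * g⁻¹ = h * j (sr 0) * h⁻¹ := by
      have h5 : g * z * g⁻¹ = h * (k * (h⁻¹ * z * h) * k⁻¹) * h⁻¹ := by
        simp only [g]
        group
      rw [h5, ← hh]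
      have h6 : h⁻¹ * (h * j (zD n) * h⁻¹) * h = j (zD n) := by group
      rw [h6, hk]
    have h7 : Commute z (g * z * g⁻¹) := by
      rw [h4, ← hh]
      show h * j (zD n) * h⁻¹ * (h * j (sr 0) * h⁻¹) = h * j (sr 0) * h⁻¹ * (h * j (zD n) * h⁻¹)
      have h8 : h * j (zD n) * h⁻¹ * (h * j (sr 0) * h⁻¹) = h * (j (zD n) * j (sr 0)) * h⁻¹ := by group
      have h9 : h * j (sr 0) * h⁻¹ * (h * j (zD n) * h⁻¹) = h * (j (sr 0) * j (zD n)) * h⁻¹ := by group
      rw [h8, h9, hcomm]
    have h10 := hz3 g h7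
    rw [h4, ← hh] at h10
    have h11 : j (sr 0) = j (zD n) := by
      have h12 := mul_left_cancel (mul_right_cancel h10)
      exact h12
    have h13 := jD_inj P e h11
    unfold zD at h13
    cases h13

/-- Three dividing the index of the centralizer in the normalizer of a four-subgroup fuses the reflection with the centre. -/
theorem three_conj (i : ZMod (2 ^ (n + 1)))
    (h3 : 3 ∣ (Subgroup.centralizer (((kleinD i).map (jD P e) : Subgroup X) : Set X)).relIndex (Subgroup.normalizer (((kleinD i).map (jD P e) : Subgroup X) : Set X))) :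
    IsConj (jD P e (sr i)) (jD P e (zD n)) := by
  classical
  haveI : Fact (Nat.Prime 3) := ⟨Nat.prime_three⟩
  set j := jD P e with hj
  set U : Subgroup X := (kleinD i).map j with hU
  have hinj : Function.Injective j := jD_inj P e
  let ρ := U.normalizerMonoidHom
  have h4 : Nat.card ρ.range = (Subgroup.centralizer (U : Set X)).relIndex (Subgroup.normalizer (U : Set X)) := by
    unfold Subgroup.relIndex
    rw [← Subgroup.normalizerMonoidHom_ker, Subgroup.index_ker]
  rw [← h4] at h3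
  obtain ⟨⟨α, g, rfl⟩, hα⟩ := exists_prime_orderOf_dvd_card' 3 h3
  have hρ : orderOf (ρ g) = 3 := by
    rw [← hα]
    exact (Subgroup.orderOf_mk _ _).symm
  have hf : ∀ u (hu : u ∈ U), ((ρ g ⟨u, hu⟩ : U) : X) = (g : X) * u * (g : X)⁻¹ := fun u hu => rfl
  set g₀ : X := (g : X) with hg₀
  have hgU : ∀ u ∈ U, g₀ * u * g₀⁻¹ ∈ U := fun u hu => (Subgroup.mem_normalizer_iff.mp g.2 u).mp hu
  have h3f : ∀ u ∈ U, g₀ * (g₀ * (g₀ * u * g₀⁻¹) * g₀⁻¹) * g₀⁻¹ = u := by
    intro u hu
    have h1 : (ρ g) ^ 3 = 1 := by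
      rw [← hρ]
      exact pow_orderOf_eq_one _
    have h2 : ((ρ g) ^ 3) ⟨u, hu⟩ = ⟨u, hu⟩ := by rw [h1]; rfl
    exact congrArg Subtype.val h2
  have hne : ∃ u ∈ U, g₀ * u * g₀⁻¹ ≠ u := by
    by_contra hno
    push Not at hno
    have h1 : ρ g = 1 := by
      ext ⟨u, hu⟩
      exact hno u hu
    rw [h1, orderOf_one] at hρ
    omega
  set z := j (zD n) with hz
  set u₀ := j (sr i) with hu₀
  set u₁ := j (sr (i + halfZ n)) with hu₁
  have hzU : z ∈ U := ⟨_, Or.inr (Or.inl rfl), rfl⟩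
  have hu₀U : u₀ ∈ U := ⟨_, Or.inr (Or.inr (Or.inl rfl)), rfl⟩
  have hu₁U : u₁ ∈ U := ⟨_, Or.inr (Or.inr (Or.inr rfl)), rfl⟩
  have hz1 : z ≠ 1 := fun h => zD_ne (hinj (h.trans (map_one _).symm))
  have hu₀1 : u₀ ≠ 1 := fun h => sr_ne_one _ (hinj (h.trans (map_one _).symm))
  have hu₁1 : u₁ ≠ 1 := fun h => sr_ne_one _ (hinj (h.trans (map_one _).symm))
  have hzu₀ : z ≠ u₀ := by
    intro h
    have := hinj h
    unfold zD at this
    cases this
  have hzu₁ : z ≠ u₁ := by
    intro h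
    have := hinj h
    unfold zD at this
    cases this
  have hu₀u₁ : u₀ ≠ u₁ := by
    intro h
    have h2 := DihedralGroup.sr.inj (hinj h)
    apply halfZ_ne (n := n)
    have h3 : i + 0 = i + halfZ n := by rw [add_zero]; exact h2
    exact (add_left_cancel h3).symm
  have hmul : z * u₀ = u₁ := by
    rw [hz, hu₀, hu₁, ← map_mul, zD_mul_sr]
  have hcases : ∀ u ∈ U, u = 1 ∨ u = z ∨ u = u₀ ∨ u = u₁ := fun u hu => mem_U_cases P e i hu
  have hf1 : ∀ u v : X, g₀ * u * g₀⁻¹ = g₀ * v * g₀⁻¹ → u = v := fun u v h => mul_left_cancel (mul_right_cancel h)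
  have hfne1 : ∀ u, u ≠ 1 → g₀ * u * g₀⁻¹ ≠ 1 := by
    intro u hu h
    apply hu
    have h2 : u = g₀⁻¹ * (g₀ * u * g₀⁻¹) * g₀ := by group
    rw [h2, h]
    group
  have hfmul : ∀ u v : X, g₀ * (u * v) * g₀⁻¹ = (g₀ * u * g₀⁻¹) * (g₀ * v * g₀⁻¹) := by
    intro u v
    group
  have hzz : z * z = 1 := by rw [hz, ← map_mul, zD_mul_self, map_one]
  -- the image of the central involution moves
  have hzmove : g₀ * z * g₀⁻¹ ≠ z := by
    intro hfz
    rcases hcases _ (hgU _ hu₀U) with h | h | h | h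
    · exact absurd h (hfne1 _ hu₀1)
    · rw [← hfz] at h
      exact hzu₀ (hf1 _ _ h).symm
    · -- fixes `u₀`, hence everything
      obtain ⟨u, hu, hune⟩ := hne
      apply hune
      rcases hcases u hu with rfl | rfl | rfl | rfl
      · group
      · exact hfz
      · exact h
      · rw [← hmul, hfmul, hfz, h]
    · -- swaps `u₀` and `u₁`
      have h5 : g₀ * u₁ * g₀⁻¹ = u₀ := by
        rw [← hmul, hfmul, hfz, h, ← hmul, ← mul_assoc, hzz, one_mul]
      have h6 := h3f u₀ hu₀U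
      rw [h, h5, h] at h6
      exact hu₀u₁ h6.symm
  rcases hcases _ (hgU _ hzU) with h | h | h | h
  · exact absurd h (hfne1 _ hz1)
  · exact absurd h hzmove
  · exact (isConj_iff.mpr ⟨g₀, h⟩).symm
  · -- the second image
    have h5 : g₀ * u₁ * g₀⁻¹ = u₀ := by
      rcases hcases _ (hgU _ hu₁U) with h6 | h6 | h6 | h6
      · exact absurd h6 (hfne1 _ hu₁1)
      · exfalso
        have h7 := h3f z hzU
        rw [h, h6, h] at h7
        exact hzu₁ h7.symm
      · exact h6
      · exfalso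
        have h7 : g₀ * u₁ * g₀⁻¹ = g₀ * z * g₀⁻¹ := h6.trans h.symm
        exact hzu₁ (hf1 _ _ h7).symm
    have h8 : IsConj z u₁ := isConj_iff.mpr ⟨g₀, h⟩
    have h9 : IsConj u₁ u₀ := isConj_iff.mpr ⟨g₀, h5⟩
    exact (h8.trans h9).symm

end X

end Cfsg.Agent.H05
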