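import Cfsg.Agent.Lib.H05.Dih4
import Cfsg.Agent.Lib.H13.Basic

/-!
# Dihedral Sylow 2-subgroups: classes of four-subgroups
-/

set_option autoImplicit false
set_option linter.style.haveILetI false
set_option linter.unusedSectionVars false
set_option linter.unusedVariables false
set_option linter.unusedSimpArgs false

namespace Cfsg.Agent.H05

open Subgroup Cfsg DihedralGroup
open Cfsg.Agent.H13

theorem zmod2_cases : ∀ a : ZMod 2, a = 0 ∨ a = 1 := by decide

section D

variable {n : ℕ} [hne : NeZero (2 ^ (n + 1))]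

theorem kleinD_conj {y : DihedralGroup (2 ^ (n + 1))} {i l : ZMod (2 ^ (n + 1))} (hy : y * sr i * y⁻¹ = sr l) :
    (kleinD i).map (MulAut.conj y).toMonoidHom = kleinD l := by
  apply Subgroup.eq_of_le_of_card_ge
  · rintro _ ⟨w, hw, rfl⟩
    show y * w * y⁻¹ ∈ kleinD l
    rcases hw with rfl | rfl | rfl | rfl
    · left
      group
    · right; left
      rw [← zD_central y]
      group
    · right; right; left
      exact hy
    · right; right; right
      have h1 : (sr (i + halfZ n) : DihedralGroup (2 ^ (n + 1))) = zD n * sr i := (zD_mul_sr i).symm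
      have h2 : y * (zD n * sr i) * y⁻¹ = zD n * (y * sr i * y⁻¹) := by
        rw [← mul_assoc y, ← zD_central y]
        group
      rw [h1, h2, hy, zD_mul_sr]
  · rw [Subgroup.card_map_of_injective (MulAut.conj y).injective, card_kleinD, card_kleinD]

end D

section X

variable {X : Type*} [Group X] [Finite X] {n : ℕ} [hne : NeZero (2 ^ (n + 1))]

variable (P : Sylow 2 X) (e : (P : Subgroup X) ≃* DihedralGroup (2 ^ (n + 1)))

theorem map_j_conj (W : Subgroup (DihedralGroup (2 ^ (n + 1)))) (y : DihedralGroup (2 ^ (n + 1))) :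
    (W.map (jD P e)).map (MulAut.conj (jD P e y)).toMonoidHom = (W.map (MulAut.conj y).toMonoidHom).map (jD P e) := by
  ext v
  constructor
  · rintro ⟨_, ⟨w, hw, rfl⟩, rfl⟩
    exact ⟨y * w * y⁻¹, ⟨w, hw, rfl⟩, by
      show jD P e (y * w * y⁻¹) = jD P e y * jD P e w * (jD P e y)⁻¹
      rw [conj_in_P]⟩
  · rintro ⟨_, ⟨w, hw, rfl⟩, rfl⟩
    exact ⟨_, ⟨w, hw, rfl⟩, by
      show jD P e y * jD P e w * (jD P e y)⁻¹ = jD P e (y * w * y⁻¹)
      rw [conj_in_P]⟩

/-- The four-subgroups through the reflections of the two classes are not conjugate. -/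
theorem klein_not_conj (hn : 1 ≤ n) (x : X) : ((kleinD 0).map (jD P e)).map (MulAut.conj x).toMonoidHom ≠ (kleinD 1).map (jD P e) := by
  classical
  haveI : Fact (Nat.Prime 2) := ⟨Nat.prime_two⟩
  have hm2 : 2 ≤ 2 ^ (n + 1) := by
    calc 2 = 2 ^ 1 := by norm_num
      _ ≤ 2 ^ (n + 1) := Nat.pow_le_pow_right (by norm_num) (by omega)
  intro heq
  have hmain := dih_fusS P hm2 e (fun A B => (Nat.card A ≠ 4 ∧ Nat.card B ≠ 4) ∨ ∃ s ∈ (P : Subgroup X), A = B.map (MulAut.conj s).toMonoidHom)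
    (by
      rintro A B (⟨h1, h2⟩ | ⟨s, hs, rfl⟩)
      · exact Or.inl ⟨h2, h1⟩
      · refine Or.inr ⟨s⁻¹, Subgroup.inv_mem _ hs, ?_⟩
        rw [map_conj_inv_map_conj])
    (by
      rintro A B C (⟨h1, h2⟩ | ⟨s, hs, rfl⟩) (⟨h3, h4⟩ | ⟨t, ht, rfl⟩)
      · exact Or.inl ⟨h1, h4⟩
      · left
        refine ⟨h1, ?_⟩
        rwa [Subgroup.card_map_of_injective (MulAut.conj t).injective] at h2
      · left
        refine ⟨?_, h4⟩
        rwa [Subgroup.card_map_of_injective (MulAut.conj s).injective]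
      · refine Or.inr ⟨s * t, Subgroup.mul_mem _ hs ht, ?_⟩
        rw [map_conj_mul])
    (fun s hs W hW => Or.inr ⟨s, hs, rfl⟩)
    (by
      intro U hU hK g hg W hW
      by_cases hW4 : Nat.card W = 4
      · have h1 : W = U := Subgroup.eq_of_le_of_card_ge hW (by rw [hK.card_four, hW4])
        subst h1
        right
        refine ⟨1, Subgroup.one_mem _, ?_⟩
        rw [map_conj_one]
        exact mem_normalizer_iff_map_conj.mp hg
      · left
        refine ⟨?_, hW4⟩
        rwa [Subgroup.card_map_of_injective (MulAut.conj g).injective])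
  have h1 := hmain _ (map_le_P P e _) x (by rw [heq]; exact map_le_P P e _)
  rw [heq] at h1
  rcases h1 with ⟨h2, -⟩ | ⟨s, hs, h2⟩
  · exact h2 (isKlein_map P e _).card_four
  · -- `sr 1` is in a conjugate of the first subgroup
    have h3 : jD P e (sr 1) ∈ (kleinD (1 : ZMod (2 ^ (n + 1)))).map (jD P e) := ⟨_, Or.inr (Or.inr (Or.inl rfl)), rfl⟩
    rw [h2] at h3
    obtain ⟨y, rfl⟩ := jD_surj P e hs
    rw [map_j_conj] at h3
    obtain ⟨_, ⟨w, hw, rfl⟩, h4⟩ := h3
    have h5 := jD_inj P e h4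
    have h6 : (sr 1 : DihedralGroup (2 ^ (n + 1))) ∈ Mc 0 := by
      rw [← h5]
      exact (normal_Mc 0).conj_mem _ (kleinD_le hn 0 0 (map_zero _) hw) y
    have h7 : par n (1 : ZMod (2 ^ (n + 1))) = 0 := h6
    rw [par_one] at h7
    exact one_ne_zero h7

/-- Every four-subgroup is conjugate to one of the two standard ones. -/
theorem klein_conj_std {V : Subgroup X} (hV : IsKleinFour V) :
    (∃ x, V.map (MulAut.conj x).toMonoidHom = (kleinD 0).map (jD P e)) ∨ (∃ x, V.map (MulAut.conj x).toMonoidHom = (kleinD 1).map (jD P e)) := by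
  haveI : Fact (Nat.Prime 2) := ⟨Nat.prime_two⟩
  have hpV : IsPGroup 2 V := IsPGroup.of_card (n := 2) (by rw [hV.card_four]; norm_num)
  obtain ⟨g, hg⟩ := exists_conj_le_syl P hpV
  have hK : IsKleinFour (V.map (MulAut.conj g).toMonoidHom) :=
    klein_of_equiv (V.equivMapOfInjective _ (MulAut.conj g).injective) hV
  obtain ⟨i, hi⟩ := klein_in_P P e hg hK
  have hval : par n i = 0 ∨ par n i = 1 := by
    exact zmod2_cases _
  rcases hval with h0 | h0
  · left
    obtain ⟨y, hy⟩ := sr_conj_of_par (n := n) (i := 0) (j := i) (by rw [h0, map_zero])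
    refine ⟨jD P e y * g, ?_⟩
    rw [← map_conj_mul, hi, map_j_conj, kleinD_conj hy]
  · right
    obtain ⟨y, hy⟩ := sr_conj_of_par (n := n) (i := 1) (j := i) (by rw [h0, par_one])
    refine ⟨jD P e y * g, ?_⟩
    rw [← map_conj_mul, hi, map_j_conj, kleinD_conj hy]

end X

end Cfsg.Agent.H05
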