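import Cfsg.Agent.Lib.H05.QD3
import Cfsg.Agent.Lib.H05.Dih2

/-!
# Self-centralizing four-subgroups
-/

set_option autoImplicit false
set_option linter.style.haveILetI false
set_option linter.unusedSectionVars false
set_option linter.unusedVariables false
set_option linter.unusedSimpArgs false

namespace Cfsg.Agent.H05

open Subgroup Cfsg DihedralGroup

section D

variable {m : ℕ} [hne : NeZero m]

theorem add_self_unique {a l : ZMod m} (ha : a + a = 0) (hl : l + l = 0) (hl1 : l ≠ 0) : a = 0 ∨ a = l := by
  by_cases ha0 : a = 0
  · exact Or.inl ha0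
  right
  have key : ∀ b : ZMod m, b + b = 0 → b ≠ 0 → 2 * b.val = m := by
    intro b hb hb0
    have h1 : ((b.val + b.val : ℕ) : ZMod m) = 0 := by
      rw [Nat.cast_add, ZMod.natCast_zmod_val, hb]
    rw [ZMod.natCast_eq_zero_iff] at h1
    obtain ⟨c, hc⟩ := h1
    have h2 : b.val < m := ZMod.val_lt b
    have h3 : b.val ≠ 0 := by
      intro h
      exact hb0 ((ZMod.val_eq_zero b).mp h)
    have hm : 0 < m := NeZero.pos m
    have h4 : c = 1 := by
      have h5 : c < 2 := by
        by_contra h6
        have h7 : 2 ≤ c := by omega
        have h8 : m * 2 ≤ m * c := Nat.mul_le_mul_left _ h7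
        omega
      have h6 : c ≠ 0 := by
        rintro rfl
        omega
      omega
    rw [h4] at hc
    omega
  have h1 := key a ha ha0
  have h2 := key l hl hl1
  apply ZMod.val_injective m
  omega

theorem klein_self_cent (V : Subgroup (DihedralGroup m)) (hV : IsKleinFour V) {x : DihedralGroup m}
    (hx : ∀ v ∈ V, v * x = x * v) : x ∈ V := by
  classical
  have hsq : ∀ x ∈ V, x * x = 1 := fun x hx => congrArg Subtype.val (sq_of_klein hV ⟨x, hx⟩)
  have hc : ∃ w ∈ V, w ≠ 1 ∧ ∃ l, w = r l := by
    -- a nontrivial rotation
    by_contra hno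
    push Not at hno
    -- all nontrivial elements are reflections; two of them have a rotation product
    have h4 : ¬ Nat.card V ≤ 2 := by rw [hV.card_four]; norm_num
    by_cases hex : ∃ j, (sr j : DihedralGroup m) ∈ V
    · obtain ⟨j, hj⟩ := hex
      apply h4
      have hle : V ≤ zpowers (sr j : DihedralGroup m) := by
        intro v hv
        by_cases hv1 : v = 1
        · rw [hv1]
          exact Subgroup.one_mem _
        rcases v with l | l
        · exact absurd rfl (hno _ hv hv1 l)
        · by_cases hlj : l = j
          · rw [hlj]
            exact mem_zpowers _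
          · exfalso
            have h5 := V.mul_mem hv hj
            rw [DihedralGroup.sr_mul_sr] at h5
            refine hno _ h5 ?_ _ rfl
            intro h6
            have h7 : j - l = 0 := DihedralGroup.r.inj h6
            exact hlj (sub_eq_zero.mp h7).symm
      have h6 := Subgroup.card_le_of_le hle
      have h7 : orderOf (sr j : DihedralGroup m) = 2 := DihedralGroup.orderOf_sr j
      rwa [Nat.card_zpowers, h7] at h6
    · apply h4
      have h5 : V = ⊥ := by
        rw [eq_bot_iff]
        intro v hv
        by_contra hv1
        have hv1' : v ≠ 1 := hv1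
        rcases v with l | l
        · exact hno _ hv hv1' l rfl
        · exact hex ⟨l, hv⟩
      rw [h5]
      simp
  obtain ⟨w, hwV, hw1, l, rfl⟩ := hc
  have hl0 : l ≠ 0 := by
    rintro rfl
    exact hw1 rfl
  have hll : l + l = 0 := by
    have h1 := hsq _ hwV
    rw [DihedralGroup.r_mul_r] at h1
    exact DihedralGroup.r.inj h1
  -- a reflection
  have hrefl : ∃ j, (sr j : DihedralGroup m) ∈ V := by
    by_contra hno
    push Not at hno
    have hle : V ≤ zpowers (r l : DihedralGroup m) := by
      intro v hv
      rcases v with a | a
      · have h1 := hsq _ hv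
        rw [DihedralGroup.r_mul_r] at h1
        rcases add_self_unique (DihedralGroup.r.inj h1) hll hl0 with h2 | h2
        · rw [h2]
          exact Subgroup.one_mem _
        · rw [h2]
          exact mem_zpowers _
      · exact absurd hv (hno a)
    have h1 := Subgroup.card_le_of_le hle
    have h2 : orderOf (r l : DihedralGroup m) = 2 := orderOf_eq_prime (by
      rw [pow_two, DihedralGroup.r_mul_r, hll]
      rfl) hw1
    rw [Nat.card_zpowers, h2, hV.card_four] at h1
    omega
  obtain ⟨j, hj⟩ := hrefl
  rcases x with a | a
  · have h1 := hx _ hj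
    rw [DihedralGroup.sr_mul_r, DihedralGroup.r_mul_sr] at h1
    have h2 : j + a = j - a := DihedralGroup.sr.inj h1
    have h3 : a + a = 0 := by
      have h4 : j + a + a = j - a + a := by rw [h2]
      rw [sub_add_cancel, add_assoc] at h4
      exact add_left_cancel (a := j) (by rw [h4, add_zero])
    rcases add_self_unique h3 hll hl0 with h4 | h4
    · rw [h4]
      exact V.one_mem
    · rw [h4]
      exact hwV
  · have h1 := hx _ hj
    rw [DihedralGroup.sr_mul_sr, DihedralGroup.sr_mul_sr] at h1
    have h2 : a - j = j - a := DihedralGroup.r.inj h1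
    have h3 : (a - j) + (a - j) = 0 := by
      nth_rewrite 2 [h2]
      ring
    rcases add_self_unique h3 hll hl0 with h4 | h4
    · have h5 : a = j := sub_eq_zero.mp h4
      rw [h5]
      exact hj
    · have h5 : a = j + l := by
        rw [← h4]
        ring
      rw [h5, ← DihedralGroup.sr_mul_r]
      exact V.mul_mem hj hwV

end D

end Cfsg.Agent.H05
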