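import Mathlib

set_option autoImplicit false

namespace Cfsg.Agent.H05.FH

variable {R : Type*} [Ring R] [Algebra ℝ R]

/-- alternating words -/
def alt : R → R → ℕ → R
  | _, _, 0 => 1
  | A, B, k+1 => A * alt B A k

/-- odd alternating words `(BA)^i B` -/
def wW (A B : R) : ℕ → R
  | 0 => B
  | i+1 => B * A * wW A B i

theorem alt_succ (A B : R) (k : ℕ) : alt A B (k+1) = A * alt B A k := rfl
theorem alt_zero (A B : R) : alt A B 0 = 1 := rfl

theorem alt_odd (A B : R) (i : ℕ) : alt B A (2*i+1) = wW A B i := by
  induction i with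
  | zero => simp [alt, wW]
  | succ i ih =>
    have : 2*(i+1)+1 = (2*i+1)+1+1 := by ring
    rw [this, alt_succ, alt_succ, ih, wW, mul_assoc]

theorem alt_even (A B : R) (i : ℕ) : alt A B (2*i+2) = A * wW A B i := by
  have : 2*i+2 = (2*i+1)+1 := by ring
  rw [this, alt_succ, alt_odd]

theorem alt_even' (A B : R) (i : ℕ) : alt B A (2*i+2) = wW A B i * A := by
  induction i with
  | zero => simp [alt, wW]
  | succ i ih =>
    have : 2*(i+1)+2 = (2*i+2)+1+1 := by ring
    rw [this, alt_succ, alt_succ, ih, wW]
    simp only [mul_assoc]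

section core

variable (A B : R) (a b : ℝ)

/-- the projector -/
noncomputable def pP : R := (1+a)⁻¹ • (1 + A)

/-- the elements `P W_i P` -/
noncomputable def yY (i : ℕ) : R := pP A a * wW A B i * pP A a

variable {A B a b}

theorem pP_mul_self (ha : 0 < a) (hA : A * A = (a-1) • A + a • 1) : pP A a * pP A a = pP A a := by
  have hc : (1+a) ≠ 0 := by positivity
  unfold pP
  rw [smul_mul_smul_comm]
  have : (1 + A) * (1 + A) = (1+a) • (1 + A) := by
    simp only [mul_add, add_mul, mul_one, one_mul, hA]
    module
  rw [this, smul_smul]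
  congr 1
  field_simp

theorem A_mul_pP (ha : 0 < a) (hA : A * A = (a-1) • A + a • 1) : A * pP A a = a • pP A a := by
  unfold pP
  rw [mul_smul_comm, smul_comm]
  congr 1
  simp only [mul_add, mul_one, hA]
  module

theorem pP_mul_A (ha : 0 < a) (hA : A * A = (a-1) • A + a • 1) : pP A a * A = a • pP A a := by
  unfold pP
  rw [smul_mul_assoc, smul_comm]
  congr 1
  simp only [add_mul, one_mul, hA]
  module

/-- `c P = 1 + A` -/
theorem c_pP (ha : 0 < a) : (1+a) • pP A a = 1 + A := by
  have hc : (1+a) ≠ 0 := by positivity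
  unfold pP
  rw [smul_smul, mul_inv_cancel₀ hc, one_smul]

theorem rec_one (ha : 0 < a) (hA : A * A = (a-1) • A + a • 1) (hB : B * B = (b-1) • B + b • 1) :
    (1+a) • (yY A B a 0 * yY A B a 0) = yY A B a 1 + (b-1) • yY A B a 0 + b • pP A a := by
  have h1 := pP_mul_self ha hA
  set P := pP A a with hP
  have e1 : yY A B a 0 * yY A B a 0 = P * B * (P * B * P) := by
    simp only [yY, wW, ← hP]
    calc P * B * P * (P * B * P) = P * B * (P * P) * B * P := by simp only [mul_assoc]
      _ = _ := by rw [h1]; simp only [mul_assoc]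
  rw [e1]
  have e2 : (1+a) • (P * B * (P * B * P)) = P * B * (((1+a) • P) * B * P) := by
    simp only [smul_mul_assoc, mul_smul_comm]
  rw [e2, hP, c_pP ha, ← hP]
  simp only [yY, wW, ← hP, add_mul, mul_add, one_mul, mul_one]
  have e3 : P * B * (B * P) = (b-1) • (P * B * P) + b • P := by
    calc P * B * (B * P) = P * (B * B) * P := by simp only [mul_assoc]
      _ = _ := by
        rw [hB]
        simp only [add_mul, mul_add, smul_mul_assoc, mul_smul_comm, one_mul, mul_one, h1]
  rw [e3]
  have e4 : P * B * (A * B * P) = P * (B * A * B) * P := by simp only [mul_assoc]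
  rw [e4]
  abel

theorem rec_two (ha : 0 < a) (hA : A * A = (a-1) • A + a • 1) (hB : B * B = (b-1) • B + b • 1) (i : ℕ) :
    (1+a) • (yY A B a 0 * yY A B a (i+1))
      = yY A B a (i+2) + (b-1) • yY A B a (i+1) + (a*b) • yY A B a i := by
  have h1 := pP_mul_self ha hA
  have hPA := pP_mul_A ha hA
  set P := pP A a with hP
  have e1 : yY A B a 0 * yY A B a (i+1) = P * B * (P * wW A B (i+1) * P) := by
    simp only [yY, wW, ← hP]
    calc P * B * P * (P * (B * A * wW A B i) * P) = P * B * (P * P) * (B * A * wW A B i) * P := by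
          simp only [mul_assoc]
      _ = _ := by rw [h1]; simp only [mul_assoc]
  rw [e1]
  have e2 : (1+a) • (P * B * (P * wW A B (i+1) * P)) = P * B * (((1+a) • P) * wW A B (i+1) * P) := by
    simp only [smul_mul_assoc, mul_smul_comm]
  rw [e2, hP, c_pP ha, ← hP]
  simp only [add_mul, mul_add, one_mul]
  have e3 : P * B * (wW A B (i+1) * P) = (b-1) • yY A B a (i+1) + (a*b) • yY A B a i := by
    calc P * B * (wW A B (i+1) * P) = P * (B * B) * (A * wW A B i) * P := by
          simp only [wW, mul_assoc]
      _ = (b-1) • (P * wW A B (i+1) * P) + b • ((P * A) * wW A B i * P) := by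
          rw [hB]
          simp only [wW, add_mul, mul_add, smul_mul_assoc, mul_smul_comm, one_mul, mul_one, mul_assoc]
      _ = _ := by
          rw [hPA]
          simp only [yY, smul_mul_assoc, smul_smul, ← hP]
          rw [mul_comm b a]
  have e4 : P * B * (A * wW A B (i+1) * P) = yY A B a (i+2) := by
    simp only [yY, ← hP]
    rw [show wW A B (i+2) = B * A * wW A B (i+1) from rfl]
    simp only [mul_assoc]
  rw [e3, e4]
  abel

/-- end relation from the braid relation -/
theorem rec_end (ha : 0 < a) (hA : A * A = (a-1) • A + a • 1) (hB : B * B = (b-1) • B + b • 1) (s : ℕ)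
    (hbr : A * wW A B (s+1) = wW A B (s+1) * A) :
    yY A B a 0 * yY A B a (s+1) = (b-1) • yY A B a (s+1) + (a*b) • yY A B a s := by
  have h1 := pP_mul_self ha hA
  have hPA := pP_mul_A ha hA
  have hAP := A_mul_pP ha hA
  have hr := rec_two ha hA hB s
  have hc : (1+a) ≠ 0 := by positivity
  have e3 : yY A B a (s+2) = a • ((b-1) • yY A B a (s+1) + (a*b) • yY A B a s) := by
    set P := pP A a with hP
    have e5 : P * (B * wW A B (s+1)) * P = (b-1) • yY A B a (s+1) + (a*b) • yY A B a s := by
      calc P * (B * wW A B (s+1)) * P = P * (B * B) * (A * wW A B s) * P := by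
            simp only [wW, mul_assoc]
        _ = (b-1) • (P * wW A B (s+1) * P) + b • ((P * A) * wW A B s * P) := by
            rw [hB]
            simp only [wW, add_mul, mul_add, smul_mul_assoc, mul_smul_comm, one_mul, mul_one, mul_assoc]
        _ = _ := by
            rw [hPA]
            simp only [yY, smul_mul_assoc, smul_smul, ← hP]
            rw [mul_comm b a]
    calc yY A B a (s+2) = P * (B * (A * wW A B (s+1))) * P := by
          simp only [yY, ← hP]
          rw [show wW A B (s+2) = B * A * wW A B (s+1) from rfl]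
          simp only [mul_assoc]
      _ = P * (B * wW A B (s+1)) * (A * P) := by
          rw [hbr]; simp only [mul_assoc]
      _ = _ := by
          rw [hAP, mul_smul_comm, e5]
  rw [e3] at hr
  have : (1+a) • (yY A B a 0 * yY A B a (s+1)) = (1+a) • ((b-1) • yY A B a (s+1) + (a*b) • yY A B a s) := by
    rw [hr]; module
  exact smul_right_injective R hc this

end core

end Cfsg.Agent.H05.FH
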