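import Cfsg.Agent.Lib.H05.FH7

set_option autoImplicit false
set_option linter.unusedSectionVars false
set_option linter.unusedVariables false
set_option linter.unusedSimpArgs false

namespace Cfsg.Agent.H05.FH

open Real

variable {ι : Type*} [Fintype ι] [DecidableEq ι]

theorem xX_sq {a b : ℝ} (ha : 0 < a) (hb : 0 < b) (α : ℝ) :
    (xX a b α)^2 = 4 * (a*b) * (cos α)^2 := by
  simp only [xX]
  have h1 := w_sq ha hb
  have : (2 * √(a*b) * cos α)^2 = 4 * (√(a*b) * √(a*b)) * cos α ^ 2 := by ring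
  rw [this, h1]

theorem cos_rat_of_xX_sq {a b : ℝ} (ha : 0 < a) (hb : 0 < b) (hab : ∃ q : ℚ, a * b = q) (α : ℝ)
    (h : ∃ q : ℚ, (xX a b α)^2 = q) : ∃ q : ℚ, cos (2 * α) = q := by
  obtain ⟨q, hq⟩ := h
  obtain ⟨p, hp⟩ := hab
  have hp0 : (p:ℝ) ≠ 0 := by rw [← hp]; positivity
  have hp0' : p ≠ 0 := by exact_mod_cast hp0
  rw [xX_sq ha hb, hp] at hq
  refine ⟨2 * (q / (4 * p)) - 1, ?_⟩
  rw [cos_two_mul]
  push_cast
  rw [← hq]
  field_simp

/-- even case: rationality of all `x_j` -/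
theorem even_rat [Nonempty ι] (A B : Matrix ι ι ℝ) (a b : ℕ) (ha : 2 ≤ a) (hb : 2 ≤ b)
    (hA : A * A = ((a:ℝ)-1) • A + (a:ℝ) • 1) (hB : B * B = ((b:ℝ)-1) • B + (b:ℝ) • 1) (s : ℕ)
    (hbr : alt A B (2*(s+2)) = alt B A (2*(s+2)))
    (htA : ∀ k, 1 ≤ k → k ≤ 2*(s+2) → (alt A B k).trace = 0)
    (htB : ∀ k, 1 ≤ k → k ≤ 2*(s+2) → (alt B A k).trace = 0)
    (j : ℕ) (hj1 : 1 ≤ j) (hj2 : j < s+2) :
    ∃ q : ℚ, xX a b (π * j / ((s:ℝ)+2)) = q := by
  have ha' : (0:ℝ) < a := by exact_mod_cast (by omega : 0 < a)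
  have hb' : (0:ℝ) < b := by exact_mod_cast (by omega : 0 < b)
  have hr : (0:ℝ) < (s:ℝ)+2 := by positivity
  obtain ⟨d1, h1⟩ := core_even A B ha' hb' hA hB s hbr htA htB j hj1 hj2
  obtain ⟨d2, h2⟩ := core_even A B ha' hb' hA hB s hbr htA htB (s+2-j) (by omega) (by omega)
  have hcast : (((s+2-j : ℕ)) : ℝ) = (s:ℝ) + 2 - j := by
    rw [Nat.cast_sub (by omega)]; push_cast; ring
  have hneg : xX a b (π * ((s+2-j : ℕ):ℝ) / ((s:ℝ)+2)) = - xX a b (π * j / ((s:ℝ)+2)) := by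
    simp only [xX]
    have : π * ((s+2-j : ℕ):ℝ) / ((s:ℝ)+2) = π - π * j / ((s:ℝ)+2) := by
      rw [hcast]; field_simp
    rw [this, cos_pi_sub]
    ring
  rw [hneg] at h2
  set x := xX a b (π * j / ((s:ℝ)+2)) with hx
  have hxlt : x^2 < 4 * ((a:ℝ)*b) := by
    rw [hx, xX_sq ha' hb']
    have hj1' : (1:ℝ) ≤ j := by exact_mod_cast hj1
    have hj2' : (j:ℝ) < (s:ℝ)+2 := by exact_mod_cast hj2
    have hα0 : 0 < π * j / ((s:ℝ)+2) := by positivity
    have hαπ : π * j / ((s:ℝ)+2) < π := by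
      rw [div_lt_iff₀ hr]
      have := pi_pos
      nlinarith
    have hs := sin_pos_of_pos_of_lt_pi hα0 hαπ
    have := sin_sq_add_cos_sq (π * j / ((s:ℝ)+2))
    have h3 : cos (π * j / ((s:ℝ)+2)) ^ 2 < 1 := by nlinarith
    have h4 : 0 < 4 * ((a:ℝ)*b) := by positivity
    nlinarith
  have hcardpos : 0 < Fintype.card ι := Fintype.card_pos
  have hm : (((2*(s+2) : ℕ)) : ℝ) = 2 * ((s:ℝ)+2) := by push_cast; ring
  apply x_rat a b (Fintype.card ι) (2*(s+2)) d1 d2 ha hb hcardpos (by omega) x hxlt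
  · rw [hm]; linear_combination h1
  · rw [hm]; linear_combination h2

theorem FH_abstract [Nonempty ι] (A B : Matrix ι ι ℝ) (a b : ℕ) (ha : 2 ≤ a) (hb : 2 ≤ b)
    (m : ℕ) (hm : 2 ≤ m)
    (hA : A * A = ((a:ℝ)-1) • A + (a:ℝ) • 1) (hB : B * B = ((b:ℝ)-1) • B + (b:ℝ) • 1)
    (hbr : alt A B m = alt B A m)
    (htA : ∀ k, 1 ≤ k → k ≤ m → (alt A B k).trace = 0)
    (htB : ∀ k, 1 ≤ k → k ≤ m → (alt B A k).trace = 0) :
    m = 2 ∨ m = 3 ∨ m = 4 ∨ m = 6 ∨ m = 8 := by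
  have ha' : (0:ℝ) < a := by exact_mod_cast (by omega : 0 < a)
  have hb' : (0:ℝ) < b := by exact_mod_cast (by omega : 0 < b)
  have hcardpos : 0 < Fintype.card ι := Fintype.card_pos
  have hcardpos' : (0:ℝ) < Fintype.card ι := by exact_mod_cast hcardpos
  obtain ⟨r, rfl | rfl⟩ := Nat.even_or_odd' m
  · -- even case
    rcases Nat.lt_or_ge r 2 with hr | hr
    · left; omega
    obtain ⟨s, rfl⟩ : ∃ s, r = s + 2 := ⟨r-2, by omega⟩
    have hrat := even_rat A B a b ha hb hA hB s hbr htA htB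
    by_cases hs0 : s = 0
    · subst hs0; right; right; left; rfl
    have hab : ∃ q : ℚ, (a:ℝ) * b = q := ⟨(a:ℚ)*b, by push_cast; ring⟩
    obtain ⟨q, hq⟩ := hrat 1 le_rfl (by omega)
    have hc := cos_rat_of_xX_sq ha' hb' hab (π * (1:ℕ) / ((s:ℝ)+2)) ⟨q^2, by rw [hq]; push_cast; ring⟩
    have e : 2 * (π * (1:ℕ) / ((s:ℝ)+2)) = 2 * π / ((s+2:ℕ):ℝ) := by push_cast; ring
    rw [e] at hc
    rcases niven_list (s+2) (by omega) hc with h | h | h | h
    · omega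
    · right; right; right; left; omega
    · right; right; right; right; omega
    · exfalso
      have hs4 : s = 4 := by omega
      subst hs4
      obtain ⟨q2, hq2⟩ := hrat 2 (by omega) (by omega)
      have hw : √((a:ℝ)*b) > 0 := by positivity
      have e1 : xX a b (π * (1:ℕ) / (((4:ℕ):ℝ)+2)) = √((a:ℝ)*b) * √3 := by
        simp only [xX]
        have : π * (1:ℕ) / (((4:ℕ):ℝ)+2) = π / 6 := by push_cast; ring
        rw [this, cos_pi_div_six]; ring
      have e2 : xX a b (π * (2:ℕ) / (((4:ℕ):ℝ)+2)) = √((a:ℝ)*b) := by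
        simp only [xX]
        have : π * (2:ℕ) / (((4:ℕ):ℝ)+2) = π / 3 := by push_cast; ring
        rw [this, cos_pi_div_three]; ring
      rw [e1] at hq
      rw [e2] at hq2
      have hq2' : (q2:ℝ) ≠ 0 := by rw [← hq2]; positivity
      have h3 : √3 = ((q / q2 : ℚ) : ℝ) := by
        push_cast
        rw [← hq, ← hq2]
        field_simp
      exact (Nat.prime_three.irrational_sqrt) (by
        refine ⟨q / q2, ?_⟩
        rw [← h3]; norm_num)
  · -- odd case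
    have hl : 1 ≤ r := by omega
    have htA1 : A.trace = 0 := by
      have := htA 1 le_rfl (by omega)
      simpa [alt] using this
    have hab : (a:ℝ) = b := params_eq A B ha' hb' hA hB r hbr htA1
    have hab' : a = b := by exact_mod_cast hab
    subst hab'
    obtain ⟨s, hs⟩ : ∃ s, 2*r+1 = s + 2 := ⟨2*r+1-2, by omega⟩
    rw [hs] at hbr htA htB hm
    obtain ⟨d, hd⟩ := core_odd A B ha' hA hB s hbr htA htB 1 le_rfl (by omega)
    set x := xX 1 (a:ℝ) (π * (1:ℕ) / ((s:ℝ)+2)) with hx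
    have hq1 : (1:ℝ) < a := by exact_mod_cast (by omega : 1 < a)
    set n : ℝ := (Fintype.card ι : ℝ) with hn
    have e1 : ((n : ℝ) - d * ((s:ℝ)+2)) * x^2 = 4 * a * n - d * ((s:ℝ)+2) * (1+(a:ℝ))^2 := by
      linear_combination (1/2 : ℝ) * hd
    have hne : (n : ℝ) - d * ((s:ℝ)+2) ≠ 0 := by
      intro h0
      rw [h0, zero_mul] at e1
      have h2 : (d:ℝ) * ((s:ℝ)+2) = n := by linarith
      rw [h2] at e1
      have h3 : n * ((a:ℝ) - 1)^2 = 0 := by linear_combination e1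
      rcases mul_eq_zero.mp h3 with h | h
      · exact hcardpos'.ne' h
      · have : (a:ℝ) - 1 = 0 := by simpa using h
        linarith
    have hrat : ∃ q : ℚ, x^2 = q := by
      refine ⟨(4 * a * (Fintype.card ι : ℚ) - d * ((s:ℚ)+2) * (1+(a:ℚ))^2)
          / ((Fintype.card ι : ℚ) - d * ((s:ℚ)+2)), ?_⟩
      push_cast
      rw [eq_div_iff hne, mul_comm]
      exact e1
    have hab2 : ∃ q : ℚ, (1:ℝ) * a = q := ⟨(a:ℚ), by push_cast; ring⟩
    have hc := cos_rat_of_xX_sq one_pos ha' hab2 (π * (1:ℕ) / ((s:ℝ)+2)) hrat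
    have e : 2 * (π * (1:ℕ) / ((s:ℝ)+2)) = 2 * π / ((s+2:ℕ):ℝ) := by push_cast; ring
    rw [e] at hc
    rcases niven_list (s+2) (by omega) hc with h | h | h | h <;> omega

end Cfsg.Agent.H05.FH
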