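import Mathlib

set_option autoImplicit false
set_option linter.unusedSectionVars false
set_option linter.unusedVariables false
set_option linter.unusedSimpArgs false

namespace Cfsg.Agent.H05.FH

variable {W : Type*} [Group W]

/-- alternating words in a group -/
def aw : W → W → ℕ → W
  | _, _, 0 => 1
  | a, b, k+1 => a * aw b a k

theorem aw_succ (a b : W) (k : ℕ) : aw a b (k+1) = a * aw b a k := rfl
theorem aw_zero (a b : W) : aw a b 0 = 1 := rfl

theorem aw_map {V : Type*} [Group V] (f : W →* V) (a b : W) (k : ℕ) :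
    f (aw a b k) = aw (f a) (f b) k := by
  induction k generalizing a b with
  | zero => simp [aw]
  | succ k ih => rw [aw_succ, aw_succ, map_mul, ih]

variable {σ τ : W}

theorem sig_inv (hσ : σ * σ = 1) : σ⁻¹ = σ := inv_eq_of_mul_eq_one_left hσ

theorem sig_zpow (hσ : σ * σ = 1) (hτ : τ * τ = 1) (x : ℤ) :
    σ * (σ * τ)^x = (σ * τ)^(-x) * σ := by
  have h1 : σ * (σ * τ) * σ⁻¹ = (σ * τ)⁻¹ := by
    rw [sig_inv hσ, mul_inv_rev, sig_inv hσ, sig_inv hτ, ← mul_assoc, hσ, one_mul]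
  have h2 : σ * (σ * τ)^x * σ⁻¹ = ((σ * τ)⁻¹)^x := by
    have := map_zpow (MulAut.conj σ).toMonoidHom (σ * τ) x
    simp only [MulEquiv.toMonoidHom_eq_coe, MonoidHom.coe_coe, MulAut.conj_apply] at this
    rw [this, h1]
  have h3 : σ * (σ * τ)^x = ((σ * τ)⁻¹)^x * σ := by
    rw [← h2]; group
  rw [h3, inv_zpow, zpow_neg]

/-- normal form -/
theorem aw_form (hσ : σ * σ = 1) (hτ : τ * τ = 1) (k : ℕ) :
    aw σ τ k = (σ * τ)^((k/2 : ℕ) : ℤ) * σ^(k%2) ∧
    aw τ σ k = (σ * τ)^(-(((k+1)/2 : ℕ) : ℤ)) * σ^(k%2) := by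
  have hτσ : τ = (σ * τ)⁻¹ * σ := by
    rw [mul_inv_rev, sig_inv hσ, sig_inv hτ, mul_assoc, hσ, mul_one]
  have hsig := sig_zpow hσ hτ
  have a1 : ∀ k, aw σ τ (k+1) = σ * aw τ σ k := fun _ => rfl
  have a2 : ∀ k, aw τ σ (k+1) = τ * aw σ τ k := fun _ => rfl
  generalize hr : σ * τ = r at *
  induction k with
  | zero => simp [aw]
  | succ k ih =>
    obtain ⟨i, rfl | rfl⟩ := Nat.even_or_odd' k
    · have e1 : (2*i)/2 = i := by omega
      have e2 : (2*i+1)/2 = i := by omega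
      have e3 : (2*i)%2 = 0 := by omega
      have e4 : (2*i+1)%2 = 1 := by omega
      have e5 : (2*i+1+1)/2 = i+1 := by omega
      rw [e1, e2, e3] at ih
      rw [a1 (2*i), a2 (2*i), ih.1, ih.2, e2, e4, e5]
      constructor
      · simp only [pow_zero, mul_one, pow_one, hsig]
        simp
      · rw [hτσ]
        simp only [pow_zero, mul_one, pow_one]
        rw [mul_assoc, hsig, ← mul_assoc, ← zpow_neg_one, ← zpow_add]
        congr 2
        push_cast; ring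
    · have e1 : (2*i+1)/2 = i := by omega
      have e2 : (2*i+1+1)/2 = i+1 := by omega
      have e3 : (2*i+1)%2 = 1 := by omega
      have e4 : (2*i+1+1)%2 = 0 := by omega
      have e5 : (2*i+1+1+1)/2 = i+1 := by omega
      rw [e1, e2, e3] at ih
      rw [a1 (2*i+1), a2 (2*i+1), ih.1, ih.2, e2, e4, e5]
      constructor
      · simp only [pow_zero, mul_one, pow_one]
        rw [← mul_assoc, hsig, mul_assoc, hσ, mul_one]
        simp
      · rw [hτσ]
        simp only [pow_zero, mul_one, pow_one]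
        have e6 : r⁻¹ * σ * (r^((i:ℕ):ℤ) * σ) = r⁻¹ * (σ * r^((i:ℕ):ℤ)) * σ := by group
        rw [e6, hsig, mul_assoc r⁻¹, mul_assoc _ σ σ, hσ, mul_one, ← zpow_neg_one, ← zpow_add]
        congr 1
        push_cast; ring

theorem sig_not_mem (hσ : σ * σ = 1) (hτ : τ * τ = 1) (hσ1 : σ ≠ 1) (hτ1 : τ ≠ 1) :
    σ ∉ Subgroup.zpowers (σ * τ) := by
  rintro ⟨x, hx⟩
  change (σ * τ)^x = σ at hx
  have h1 := sig_zpow hσ hτ 1
  rw [zpow_one, zpow_neg, zpow_one] at h1
  generalize hr : σ * τ = r at *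
  have h2 : σ * r = r * σ := by
    rw [← hx, ← zpow_add_one, ← zpow_one_add, add_comm]
  have h3 : r * r = 1 := by
    have h4 : r⁻¹ * σ = r * σ := by rw [← h1, h2]
    have h5 := mul_right_cancel h4
    exact mul_eq_one_iff_eq_inv.mpr h5.symm
  rcases Int.even_or_odd' x with ⟨y, rfl | rfl⟩
  · rw [zpow_mul, zpow_two, h3, one_zpow] at hx
    exact hσ1 hx.symm
  · rw [zpow_add_one, zpow_mul, zpow_two, h3, one_zpow, one_mul] at hx
    have : τ = 1 := by
      rw [hx] at hr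
      have := mul_left_cancel (hr.trans (mul_one σ).symm)
      exact this
    exact hτ1 this

theorem eq_forms (hσ : σ * σ = 1) (hτ : τ * τ = 1) (hσ1 : σ ≠ 1) (hτ1 : τ ≠ 1) {x y : ℤ} {p q : ℕ}
    (hp : p < 2) (hq : q < 2) (h : (σ * τ)^x * σ^p = (σ * τ)^y * σ^q) :
    p = q ∧ ((orderOf (σ * τ) : ℕ) : ℤ) ∣ x - y := by
  have hn := sig_not_mem hσ hτ hσ1 hτ1
  have key : ∀ {x y : ℤ}, (σ * τ)^x ≠ (σ * τ)^y * σ := by
    intro x y he
    apply hn
    refine ⟨-y + x, ?_⟩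
    change (σ * τ)^(-y+x) = σ
    rw [zpow_add, he]
    group
  have hdvd : (σ * τ)^x = (σ * τ)^y → ((orderOf (σ * τ) : ℕ) : ℤ) ∣ x - y := by
    intro he
    apply orderOf_dvd_iff_zpow_eq_one.mpr
    rw [zpow_sub, he]; group
  interval_cases p <;> interval_cases q
  · simp only [pow_zero, mul_one] at h
    exact ⟨rfl, hdvd h⟩
  · simp only [pow_zero, mul_one, pow_one] at h
    exact absurd h key
  · simp only [pow_zero, mul_one, pow_one] at h
    exact absurd h.symm key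
  · simp only [pow_one] at h
    exact ⟨rfl, hdvd (mul_right_cancel h)⟩

section dist

variable (hσ : σ * σ = 1) (hτ : τ * τ = 1) (hσ1 : σ ≠ 1) (hτ1 : τ ≠ 1)
include hσ hτ hσ1 hτ1

theorem dist_aa {k k' : ℕ} (hk : k' < k) (hm : k ≤ orderOf (σ * τ)) : aw σ τ k ≠ aw σ τ k' := by
  intro he
  rw [(aw_form hσ hτ k).1, (aw_form hσ hτ k').1] at he
  obtain ⟨h1, h2⟩ := eq_forms hσ hτ hσ1 hτ1 (by omega) (by omega) he
  have := Int.le_of_dvd (by omega) h2
  omega

theorem dist_ab {k k' : ℕ} (hk : k' < k) (hm : k ≤ orderOf (σ * τ)) : aw σ τ k ≠ aw τ σ k' := by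
  intro he
  rw [(aw_form hσ hτ k).1, (aw_form hσ hτ k').2] at he
  obtain ⟨h1, h2⟩ := eq_forms hσ hτ hσ1 hτ1 (by omega) (by omega) he
  have := Int.le_of_dvd (by omega) h2
  omega

theorem dist_ba {k k' : ℕ} (hk : k' < k) (hm : k ≤ orderOf (σ * τ)) : aw τ σ k ≠ aw σ τ k' := by
  intro he
  rw [(aw_form hσ hτ k).2, (aw_form hσ hτ k').1] at he
  obtain ⟨h1, h2⟩ := eq_forms hσ hτ hσ1 hτ1 (by omega) (by omega) he
  have h3 := (dvd_neg (a := ((orderOf (σ * τ) : ℕ) : ℤ))).mpr h2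
  have := Int.le_of_dvd (by omega) h3
  omega

theorem dist_bb {k k' : ℕ} (hk : k' < k) (hm : k ≤ orderOf (σ * τ)) : aw τ σ k ≠ aw τ σ k' := by
  intro he
  rw [(aw_form hσ hτ k).2, (aw_form hσ hτ k').2] at he
  obtain ⟨h1, h2⟩ := eq_forms hσ hτ hσ1 hτ1 (by omega) (by omega) he
  have h3 := (dvd_neg (a := ((orderOf (σ * τ) : ℕ) : ℤ))).mpr h2
  have := Int.le_of_dvd (by omega) h3
  omega

end dist

theorem aw_braid (hσ : σ * σ = 1) (hτ : τ * τ = 1) :
    aw σ τ (orderOf (σ * τ)) = aw τ σ (orderOf (σ * τ)) := by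
  rw [(aw_form hσ hτ _).1, (aw_form hσ hτ _).2]
  congr 1
  set m := orderOf (σ * τ) with hm
  have e : (((m/2 : ℕ) : ℤ)) = (m : ℤ) + (-(((m+1)/2 : ℕ) : ℤ)) := by omega
  rw [e, zpow_add, hm, zpow_natCast, pow_orderOf_eq_one, one_mul]

/-- closure of the alternating forms under left multiplication -/
theorem cl_step {a b : W} (ha : a * a = 1) {m : ℕ} (hm : 2 ≤ m) (hbr : aw a b m = aw b a m)
    {l : ℕ} {w : W} (h : ∃ k, k ≤ l ∧ k ≤ m ∧ (w = aw a b k ∨ w = aw b a k)) :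
    ∃ k, k ≤ l + 1 ∧ k ≤ m ∧ (a * w = aw a b k ∨ a * w = aw b a k) := by
  obtain ⟨k, hkl, hkm, rfl | rfl⟩ := h
  · rcases k with _ | k
    · exact ⟨1, by omega, by omega, Or.inl (by simp [aw])⟩
    · refine ⟨k, by omega, by omega, Or.inr ?_⟩
      rw [aw_succ, ← mul_assoc, ha, one_mul]
  · rcases Nat.lt_or_ge k m with hk | hk
    · exact ⟨k+1, by omega, by omega, Or.inl rfl⟩
    · have hkm' : k = m := by omega
      subst hkm'
      rcases k with _ | k
      · omega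
      · refine ⟨k, by omega, by omega, Or.inr ?_⟩
        rw [← hbr, aw_succ, ← mul_assoc, ha, one_mul]

theorem card_of_cover [Finite W] (hσ : σ * σ = 1) (hτ : τ * τ = 1) (hσ1 : σ ≠ 1) (hτ1 : τ ≠ 1)
    (hcov : ∀ w : W, ∃ k, w = aw σ τ k ∨ w = aw τ σ k) :
    Nat.card W = 2 * orderOf (σ * τ) := by
  have hn := sig_not_mem hσ hτ hσ1 hτ1
  have hform : ∀ w : W, ∃ x : ℤ, w = (σ * τ)^x ∨ w = (σ * τ)^x * σ := by
    intro w
    obtain ⟨k, rfl | rfl⟩ := hcov w
    · refine ⟨((k/2 : ℕ) : ℤ), ?_⟩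
      rw [(aw_form hσ hτ k).1]
      have : k % 2 = 0 ∨ k % 2 = 1 := by omega
      rcases this with h | h <;> rw [h]
      · left; simp
      · right; simp
    · refine ⟨-(((k+1)/2 : ℕ) : ℤ), ?_⟩
      rw [(aw_form hσ hτ k).2]
      have : k % 2 = 0 ∨ k % 2 = 1 := by omega
      rcases this with h | h <;> rw [h]
      · left; simp
      · right; simp
  have h2 : (Subgroup.zpowers (σ * τ)).index = 2 := by
    rw [Subgroup.index_eq_two_iff]
    refine ⟨σ, fun w => ?_⟩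
    have hz : ∀ x : ℤ, (σ * τ)^x ∈ Subgroup.zpowers (σ * τ) := fun x => ⟨x, rfl⟩
    obtain ⟨x, rfl | rfl⟩ := hform w
    · right
      refine ⟨hz x, fun h => hn ?_⟩
      have := Subgroup.mul_mem _ (Subgroup.inv_mem _ (hz x)) h
      simpa using this
    · left
      constructor
      · rw [mul_assoc, hσ, mul_one]; exact hz x
      · intro h
        apply hn
        have := Subgroup.mul_mem _ (Subgroup.inv_mem _ (hz x)) h
        simpa using this
  have h3 := Subgroup.card_mul_index (Subgroup.zpowers (σ * τ))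
  rw [h2, Nat.card_zpowers] at h3
  rw [← h3, mul_comm]

end Cfsg.Agent.H05.FH
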