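import Cfsg.Agent.Lib.H02.BN1
import Cfsg.Agent.Lib.H05.FH8
import Cfsg.Agent.Lib.H05.FH9

set_option autoImplicit false
set_option linter.unusedSectionVars false
set_option linter.unusedVariables false
set_option linter.unusedSimpArgs false

namespace Cfsg.Agent.H05.FH

open Cfsg Cfsg.Agent.H02.BN

open scoped Classical

section hecke

variable {G : Type*} [Group G] [Finite G] (P : BNPair G)

noncomputable instance fintypeOm : Fintype (G ⧸ P.B) := Fintype.ofFinite _

/-- the relation matrix of a double coset -/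
noncomputable def rM (n : G) : Matrix (G ⧸ P.B) (G ⧸ P.B) ℝ :=
  fun x y => if Dc P n (x.out⁻¹ * y.out) then 1 else 0

variable {P}

theorem dc_mid {n z b b' : G} (hb : b ∈ P.B) (hb' : b' ∈ P.B) :
    Dc P n (b * z * b') ↔ Dc P n z := by
  constructor
  · intro h
    have h1 := (h.left (inv_mem hb)).right (inv_mem hb')
    have e : b⁻¹ * (b * z * b') * b'⁻¹ = z := by group
    rwa [e] at h1
  · intro h
    exact (h.left hb).right hb'

theorem dc_out {n g h : G} {x y : G ⧸ P.B} (hx : (QuotientGroup.mk g : G ⧸ P.B) = x)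
    (hy : (QuotientGroup.mk h : G ⧸ P.B) = y) :
    Dc P n (x.out⁻¹ * y.out) ↔ Dc P n (g⁻¹ * h) := by
  subst hx hy
  obtain ⟨b₁, hb₁⟩ := QuotientGroup.mk_out_eq_mul P.B g
  obtain ⟨b₂, hb₂⟩ := QuotientGroup.mk_out_eq_mul P.B h
  rw [hb₁, hb₂]
  have e : (g * (b₁:G))⁻¹ * (h * (b₂:G)) = (b₁:G)⁻¹ * (g⁻¹ * h) * b₂ := by group
  rw [e]
  exact dc_mid (inv_mem b₁.2) b₂.2

theorem mk_out' (x : G ⧸ P.B) : (QuotientGroup.mk x.out : G ⧸ P.B) = x := QuotientGroup.out_eq' x

theorem eq_iff_mem {x y : G ⧸ P.B} : x = y ↔ x.out⁻¹ * y.out ∈ P.B := by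
  conv_lhs => rw [← mk_out' x, ← mk_out' y]
  exact QuotientGroup.eq

theorem dc_one {g : G} : Dc P 1 g ↔ g ∈ P.B := by
  constructor
  · rintro ⟨b, hb, b', hb', rfl⟩
    simpa using mul_mem hb hb'
  · intro h
    exact ⟨g, h, 1, one_mem _, by group⟩

theorem rM_one : rM P 1 = 1 := by
  ext x y
  simp only [rM, dc_one, Matrix.one_apply]
  by_cases h : x = y
  · subst h
    simp [one_mem]
  · rw [if_neg h, if_neg (fun h' => h (eq_iff_mem.mpr h'))]

theorem rM_congr {n n' : G} (h : Dc P n n') : rM P n = rM P n' := by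
  ext x y
  simp only [rM]
  have : Dc P n (x.out⁻¹ * y.out) ↔ Dc P n' (x.out⁻¹ * y.out) :=
    ⟨fun h1 => h.symm.trans h1, fun h1 => h.trans h1⟩
  simp only [this]

theorem trace_rM {n : G} (h : n ∉ P.B) : (rM P n).trace = 0 := by
  simp only [Matrix.trace, Matrix.diag, rM]
  apply Finset.sum_eq_zero
  intro x _
  rw [if_neg]
  rintro ⟨b, hb, b', hb', he⟩
  apply h
  have : n = b⁻¹ * (x.out⁻¹ * x.out) * b'⁻¹ := by rw [he]; group
  rw [this]
  simp only [inv_mul_cancel, mul_one]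
  exact mul_mem (inv_mem hb) (inv_mem hb')

theorem rM_mul {u n : G} (hu : u ∈ P.S) (hn : n ∈ P.N) (hle : len P n ≤ len P (u * n)) :
    rM P u * rM P n = rM P (u * n) := by
  ext x y
  simp only [Matrix.mul_apply, rM]
  have hterm : ∀ z : G ⧸ P.B, ((if Dc P u (x.out⁻¹ * z.out) then (1:ℝ) else 0) *
      (if Dc P n (z.out⁻¹ * y.out) then 1 else 0))
      = if Dc P u (x.out⁻¹ * z.out) ∧ Dc P n (z.out⁻¹ * y.out) then 1 else 0 := by
    intro z
    by_cases h1 : Dc P u (x.out⁻¹ * z.out) <;> by_cases h2 : Dc P n (z.out⁻¹ * y.out) <;> simp [h1, h2]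
  simp only [hterm]
  by_cases h : Dc P (u * n) (x.out⁻¹ * y.out)
  · rw [if_pos h]
    obtain ⟨b₁, hb₁, b₂, hb₂, he⟩ := h
    set g₀ := x.out * b₁ * u with hg₀
    set z₀ : G ⧸ P.B := QuotientGroup.mk g₀ with hz₀
    have h1 : Dc P u (x.out⁻¹ * g₀) := ⟨b₁, hb₁, 1, one_mem _, by rw [hg₀]; group⟩
    have h2 : Dc P n (g₀⁻¹ * y.out) := by
      refine ⟨1, one_mem _, b₂, hb₂, ?_⟩
      have : y.out = x.out * (x.out⁻¹ * y.out) := by group
      rw [this, he, hg₀]; group
    rw [Finset.sum_eq_single z₀]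
    · rw [if_pos]
      exact ⟨(dc_out (mk_out' x) hz₀.symm).mpr h1, (dc_out hz₀.symm (mk_out' y)).mpr h2⟩
    · intro z _ hz
      rw [if_neg]
      rintro ⟨h3, h4⟩
      apply hz
      have h3' : Dc P u (x.out⁻¹ * z.out) := h3
      set c := z.out with hc
      -- v = g₀⁻¹ c
      have hv : g₀⁻¹ * c ∈ P.B := by
        by_contra hvB
        obtain ⟨c₁, hc₁, c₂, hc₂, e1⟩ := h3'
        obtain ⟨c₃, hc₃, c₄, hc₄, e2⟩ := h1
        have e3 : g₀⁻¹ * c = c₄⁻¹ * (u⁻¹ * u⁻¹) * (u * (c₃⁻¹ * c₁) * u) * c₂ := by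
          have : c = x.out * (x.out⁻¹ * c) := by group
          rw [this, e1]
          have : g₀⁻¹ = (x.out⁻¹ * g₀)⁻¹ * x.out⁻¹ := by group
          rw [this, e2]
          group
        have hb3 : c₃⁻¹ * c₁ ∈ P.B := mul_mem (inv_mem hc₃) hc₁
        have huu : u⁻¹ * u⁻¹ ∈ P.B := T_B (inv_sq_mem_T hu)
        rcases t4 hu (s_mem_N hu) hb3 with h5 | h5
        · apply hvB
          rw [e3]
          obtain ⟨d₁, hd₁, d₂, hd₂, e4⟩ := h5
          rw [e4]
          exact mul_mem (mul_mem (mul_mem (inv_mem hc₄) huu)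
            (mul_mem (mul_mem hd₁ (T_B (sq_mem_T hu))) hd₂)) hc₂
        · -- v ∈ D(u)
          obtain ⟨d₁, hd₁, d₂, hd₂, e4⟩ := h5
          have e5 : g₀⁻¹ * c = (c₄⁻¹ * (u⁻¹ * u⁻¹) * d₁) * u * (d₂ * c₂) := by
            rw [e3, e4]; group
          set e₁ := c₄⁻¹ * (u⁻¹ * u⁻¹) * d₁ with he₁
          set e₂ := d₂ * c₂ with he₂
          have he₁B : e₁ ∈ P.B := mul_mem (mul_mem (inv_mem hc₄) huu) hd₁
          have he₂B : e₂ ∈ P.B := mul_mem hd₂ hc₂
          obtain ⟨e₃, he₃, e₄, he₄, e6⟩ := h2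
          obtain ⟨e₅, he₅, e₆, he₆, e7⟩ := h4
          -- e₁ u e₂ e₅ n e₆ = e₃ n e₄
          have e8 : e₁ * u * e₂ * (e₅ * n * e₆) = e₃ * n * e₄ := by
            rw [← e5, ← e6, ← e7]; group
          have e9 : u * (e₂ * e₅) * n = e₁⁻¹ * (e₃ * n * e₄) * e₆⁻¹ := by
            rw [← e8]; group
          have k1 := key_left hu hn hle (mul_mem he₂B he₅)
          have k2 : Dc P n (u * (e₂ * e₅) * n) := by
            rw [e9]
            exact ⟨e₁⁻¹ * e₃, mul_mem (inv_mem he₁B) he₃, e₄ * e₆⁻¹, mul_mem he₄ (inv_mem he₆), by group⟩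
          have k3 := unique hn (mul_mem (s_mem_N hu) hn) (k2.trans k1.symm)
          have k4 := T_conj hn k3
          have e10 : n * (n⁻¹ * (u * n)) * n⁻¹ = u := by group
          rw [e10] at k4
          exact s_not_mem_T hu k4
      have : (QuotientGroup.mk c : G ⧸ P.B) = z₀ := by
        rw [hz₀]
        apply QuotientGroup.eq.mpr
        have := inv_mem hv
        simpa using this
      rw [← this, hc]
      exact (mk_out' z).symm
    · intro h0
      exact absurd (Finset.mem_univ _) h0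
  · rw [if_neg h]
    apply Finset.sum_eq_zero
    intro z _
    rw [if_neg]
    rintro ⟨⟨c₁, hc₁, c₂, hc₂, e1⟩, ⟨c₃, hc₃, c₄, hc₄, e2⟩⟩
    apply h
    have k1 := key_left hu hn hle (mul_mem hc₂ hc₃)
    have e3 : x.out⁻¹ * y.out = c₁ * (u * (c₂ * c₃) * n) * c₄ := by
      have : x.out⁻¹ * y.out = (x.out⁻¹ * z.out) * (z.out⁻¹ * y.out) := by group
      rw [this, e1, e2]; group
    rw [e3]
    exact (k1.left hc₁).right hc₄

theorem dc_inv {u g : G} (hu : u ∈ P.S) (h : Dc P u g) : Dc P u g⁻¹ := by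
  have h1 := h.inv
  have h2 : Dc P u u⁻¹ := ⟨1, one_mem _, u⁻¹ * u⁻¹, T_B (inv_sq_mem_T hu), by group⟩
  exact h2.trans h1

theorem dc_mul {u g h : G} (hu : u ∈ P.S) (h1 : Dc P u g) (h2 : Dc P u h) :
    g * h ∈ P.B ∨ Dc P u (g * h) := by
  obtain ⟨c₁, hc₁, c₂, hc₂, rfl⟩ := h1
  obtain ⟨c₃, hc₃, c₄, hc₄, rfl⟩ := h2
  have e : c₁ * u * c₂ * (c₃ * u * c₄) = c₁ * (u * (c₂ * c₃) * u) * c₄ := by group
  rw [e]
  rcases t4 hu (s_mem_N hu) (mul_mem hc₂ hc₃) with h5 | h5
  · left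
    obtain ⟨d₁, hd₁, d₂, hd₂, e4⟩ := h5
    rw [e4]
    exact mul_mem (mul_mem hc₁ (mul_mem (mul_mem hd₁ (T_B (sq_mem_T hu))) hd₂)) hc₄
  · right
    exact (h5.left hc₁).right hc₄

theorem not_dc_one {u : G} (hu : u ∈ P.S) : ¬ Dc P u 1 := by
  rintro ⟨b, hb, b', hb', he⟩
  apply s_not_mem_B hu
  have : u = b⁻¹ * 1 * b'⁻¹ := by rw [he]; group
  rw [this]
  simpa using mul_mem (inv_mem hb) (inv_mem hb')

variable (P) in
/-- row size -/
noncomputable def qQ (u : G) : ℕ :=
  (Finset.univ.filter (fun z : G ⧸ P.B => Dc P u ((QuotientGroup.mk 1 : G ⧸ P.B).out⁻¹ * z.out))).card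

theorem row_card (u : G) (x : G ⧸ P.B) :
    (Finset.univ.filter (fun z : G ⧸ P.B => Dc P u (x.out⁻¹ * z.out))).card = qQ P u := by
  unfold qQ
  set o : G ⧸ P.B := QuotientGroup.mk 1 with ho
  -- translation by g = o.out * x.out⁻¹
  set g : G := o.out * x.out⁻¹ with hg
  apply Finset.card_bij (fun z _ => (g • z : G ⧸ P.B))
  · intro z hz
    rw [Finset.mem_filter] at hz ⊢
    refine ⟨Finset.mem_univ _, ?_⟩
    have h1 : (QuotientGroup.mk (g * z.out) : G ⧸ P.B) = g • z := by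
      conv_rhs => rw [← mk_out' z]
      rfl
    rw [dc_out (mk_out' o) h1]
    have e : o.out⁻¹ * (g * z.out) = x.out⁻¹ * z.out := by rw [hg]; group
    rw [e]
    exact hz.2
  · intro z _ z' _ h
    exact MulAction.injective g h
  · intro w hw
    rw [Finset.mem_filter] at hw
    refine ⟨g⁻¹ • w, ?_, by simp⟩
    rw [Finset.mem_filter]
    refine ⟨Finset.mem_univ _, ?_⟩
    have h1 : (QuotientGroup.mk (g⁻¹ * w.out) : G ⧸ P.B) = g⁻¹ • w := by
      conv_rhs => rw [← mk_out' w]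
      rfl
    rw [dc_out (mk_out' x) h1]
    have e : x.out⁻¹ * (g⁻¹ * w.out) = o.out⁻¹ * w.out := by rw [hg]; group
    rw [e]
    exact hw.2

theorem two_le_qQ {u : G} (hu : u ∈ P.S) : 2 ≤ qQ P u := by
  obtain ⟨b, hb, hb1, hd⟩ := exists_dc_s hu
  unfold qQ
  set o : G ⧸ P.B := QuotientGroup.mk 1 with ho
  have ho' : (QuotientGroup.mk (1:G) : G ⧸ P.B) = o := rfl
  set z₁ : G ⧸ P.B := QuotientGroup.mk u with hz₁
  set z₂ : G ⧸ P.B := QuotientGroup.mk (u * b * u) with hz₂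
  have h1 : z₁ ∈ Finset.univ.filter (fun z : G ⧸ P.B => Dc P u (o.out⁻¹ * z.out)) := by
    rw [Finset.mem_filter]
    refine ⟨Finset.mem_univ _, ?_⟩
    rw [dc_out ho' hz₁.symm]
    simpa using Dc.refl (P := P) u
  have h2 : z₂ ∈ Finset.univ.filter (fun z : G ⧸ P.B => Dc P u (o.out⁻¹ * z.out)) := by
    rw [Finset.mem_filter]
    refine ⟨Finset.mem_univ _, ?_⟩
    rw [dc_out ho' hz₂.symm]
    simpa using hd
  have hne : z₁ ≠ z₂ := by
    intro he
    have := QuotientGroup.eq.mp he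
    apply s_not_mem_B hu
    have e : u⁻¹ * (u * b * u) = b * u := by group
    rw [e] at this
    have h3 := mul_mem (inv_mem hb) this
    simpa using h3
  have := Finset.card_le_card (show ({z₁, z₂} : Finset (G ⧸ P.B)) ⊆ _ from by
    intro w hw
    simp only [Finset.mem_insert, Finset.mem_singleton] at hw
    rcases hw with rfl | rfl
    · exact h1
    · exact h2)
  rw [Finset.card_pair hne] at this
  exact this

theorem rM_sq {u : G} (hu : u ∈ P.S) :
    rM P u * rM P u = (((qQ P u : ℕ) : ℝ) - 1) • rM P u + ((qQ P u : ℕ) : ℝ) • 1 := by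
  ext x y
  simp only [Matrix.mul_apply, rM, Matrix.add_apply, Matrix.smul_apply, smul_eq_mul, Matrix.one_apply]
  have hterm : ∀ z : G ⧸ P.B, ((if Dc P u (x.out⁻¹ * z.out) then (1:ℝ) else 0) *
      (if Dc P u (z.out⁻¹ * y.out) then 1 else 0))
      = if Dc P u (x.out⁻¹ * z.out) ∧ Dc P u (z.out⁻¹ * y.out) then 1 else 0 := by
    intro z
    by_cases h1 : Dc P u (x.out⁻¹ * z.out) <;> by_cases h2 : Dc P u (z.out⁻¹ * y.out) <;> simp [h1, h2]
  simp only [hterm]
  rw [Finset.sum_boole]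
  by_cases hxy : x = y
  · subst hxy
    have hset : (Finset.univ.filter (fun z : G ⧸ P.B =>
        Dc P u (x.out⁻¹ * z.out) ∧ Dc P u (z.out⁻¹ * x.out)))
        = Finset.univ.filter (fun z : G ⧸ P.B => Dc P u (x.out⁻¹ * z.out)) := by
      apply Finset.filter_congr
      intro z _
      constructor
      · exact fun h => h.1
      · intro h
        refine ⟨h, ?_⟩
        have := dc_inv hu h
        simpa using this
    rw [hset, row_card, if_neg (by simpa using not_dc_one hu), if_pos rfl]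
    simp
  · rw [if_neg hxy]
    by_cases hd : Dc P u (x.out⁻¹ * y.out)
    · rw [if_pos hd]
      have hset : (Finset.univ.filter (fun z : G ⧸ P.B =>
          Dc P u (x.out⁻¹ * z.out) ∧ Dc P u (z.out⁻¹ * y.out)))
          = (Finset.univ.filter (fun z : G ⧸ P.B => Dc P u (x.out⁻¹ * z.out))).erase y := by
        ext z
        simp only [Finset.mem_filter, Finset.mem_univ, true_and, Finset.mem_erase]
        constructor
        · rintro ⟨h1, h2⟩
          refine ⟨?_, h1⟩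
          rintro rfl
          exact not_dc_one hu (by simpa using h2)
        · rintro ⟨h1, h2⟩
          refine ⟨h2, ?_⟩
          have h3 := dc_inv hu h2
          have e : z.out⁻¹ * y.out = (x.out⁻¹ * z.out)⁻¹ * (x.out⁻¹ * y.out) := by group
          rw [e]
          rcases dc_mul hu h3 hd with h4 | h4
          · exfalso
            apply h1
            rw [← e] at h4
            exact eq_iff_mem.mpr h4
          · exact h4
      rw [hset, Finset.card_erase_of_mem (by simp [hd]), row_card]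
      have h2 := two_le_qQ hu
      push_cast [Nat.cast_sub (by omega : 1 ≤ qQ P u)]
      ring
    · rw [if_neg hd]
      have hset : (Finset.univ.filter (fun z : G ⧸ P.B =>
          Dc P u (x.out⁻¹ * z.out) ∧ Dc P u (z.out⁻¹ * y.out))) = ∅ := by
        rw [Finset.filter_eq_empty_iff]
        rintro z _ ⟨h1, h2⟩
        have e : x.out⁻¹ * y.out = (x.out⁻¹ * z.out) * (z.out⁻¹ * y.out) := by group
        rcases dc_mul hu h1 h2 with h4 | h4
        · rw [← e] at h4
          exact hxy (eq_iff_mem.mpr h4)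
        · rw [← e] at h4
          exact hd h4
      rw [hset]
      simp

end hecke

end Cfsg.Agent.H05.FH
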