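import Cfsg.Agent.Lib.H05.FH10

set_option autoImplicit false
set_option linter.unusedSectionVars false
set_option linter.unusedVariables false
set_option linter.unusedSimpArgs false

namespace Cfsg.Agent.H05.FH

open Cfsg Cfsg.Agent.H02.BN

open scoped Classical

section

variable {G : Type*} [Group G] [Finite G] {P : BNPair G}

instance hNormalT : ((P.B ⊓ P.N).subgroupOf P.N).Normal := by
  refine ⟨fun h hh n => Subgroup.mem_subgroupOf.mpr ?_⟩
  have h1 := T_conj n.2 (Subgroup.mem_subgroupOf.mp hh)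
  simpa using h1

/-- the projection to the Weyl group -/
noncomputable def pW : P.N →* (P.N ⧸ (P.B ⊓ P.N).subgroupOf P.N) := QuotientGroup.mk' _

theorem pW_eq {a b : P.N} : pW (P := P) a = pW b ↔ (a : G)⁻¹ * b ∈ T P := by
  change (QuotientGroup.mk a : P.N ⧸ (P.B ⊓ P.N).subgroupOf P.N) = QuotientGroup.mk b ↔ _
  rw [QuotientGroup.eq, Subgroup.mem_subgroupOf]
  rfl

theorem pW_one {a : P.N} : pW (P := P) a = 1 ↔ (a : G) ∈ T P := by
  rw [← map_one (pW (P := P)), pW_eq]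
  simp

theorem pW_sq {s : G} (hs : s ∈ P.S) :
    pW (⟨s, P.subset hs⟩ : P.N) * pW (⟨s, P.subset hs⟩ : P.N) = 1 := by
  rw [← map_mul, pW_one]
  exact sq_mem_T hs

theorem pW_ne {s : G} (hs : s ∈ P.S) : pW (⟨s, P.subset hs⟩ : P.N) ≠ 1 := by
  rw [Ne, pW_one]
  exact s_not_mem_T hs

theorem pW_inj {s t : G} (hs : s ∈ P.S) (ht : t ∈ P.S) (hne : s ≠ t) :
    pW (⟨s, P.subset hs⟩ : P.N) ≠ pW (⟨t, P.subset ht⟩ : P.N) := by
  rw [Ne, pW_eq]
  intro h
  exact hne (P.inj s hs t ht (T_B h))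

theorem aw_mem {s t : G} (hs : s ∈ P.S) (ht : t ∈ P.S) (k : ℕ) :
    aw s t k ∈ P.N ∧ aw t s k ∈ P.N := by
  induction k with
  | zero => exact ⟨one_mem _, one_mem _⟩
  | succ k ih =>
    exact ⟨mul_mem (P.subset hs) ih.2, mul_mem (P.subset ht) ih.1⟩

theorem aw_wd {s t : G} (hs : s ∈ P.S) (ht : t ∈ P.S) (k : ℕ) :
    Wd P P.S k (aw s t k) ∧ Wd P P.S k (aw t s k) := by
  induction k with
  | zero => exact ⟨Wd.zero (one_mem _), Wd.zero (one_mem _)⟩
  | succ k ih => exact ⟨Wd.cons hs ih.2, Wd.cons ht ih.1⟩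

theorem pW_aw {s t : G} (hs : s ∈ P.S) (ht : t ∈ P.S) (k : ℕ) :
    pW (⟨aw s t k, (aw_mem hs ht k).1⟩ : P.N)
      = aw (pW (⟨s, P.subset hs⟩ : P.N)) (pW (⟨t, P.subset ht⟩ : P.N)) k := by
  have e : (⟨aw s t k, (aw_mem hs ht k).1⟩ : P.N)
      = aw (⟨s, P.subset hs⟩ : P.N) (⟨t, P.subset ht⟩ : P.N) k := by
    apply Subtype.ext
    have := aw_map P.N.subtype (⟨s, P.subset hs⟩ : P.N) (⟨t, P.subset ht⟩ : P.N) k
    exact this.symm
  rw [e, aw_map]

/-- the Weyl-group image of a word is an alternating form -/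
theorem wd_cl {s t : G} (hs : s ∈ P.S) (ht : t ∈ P.S) (hne : s ≠ t) (hS : P.S = {s, t})
    {l : ℕ} {n : G} (h : Wd P P.S l n) :
    ∃ hn : n ∈ P.N, ∃ k, k ≤ l ∧ k ≤ orderOf (pW (⟨s, P.subset hs⟩ : P.N) * pW (⟨t, P.subset ht⟩ : P.N)) ∧
      (pW (⟨n, hn⟩ : P.N) = aw (pW (⟨s, P.subset hs⟩ : P.N)) (pW (⟨t, P.subset ht⟩ : P.N)) k ∨
        pW (⟨n, hn⟩ : P.N) = aw (pW (⟨t, P.subset ht⟩ : P.N)) (pW (⟨s, P.subset hs⟩ : P.N)) k) := by
  set σ := pW (⟨s, P.subset hs⟩ : P.N) with hσd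
  set τ := pW (⟨t, P.subset ht⟩ : P.N) with hτd
  have hσ : σ * σ = 1 := pW_sq hs
  have hτ : τ * τ = 1 := pW_sq ht
  have hm2 : 2 ≤ orderOf (σ * τ) := by
    have h0 : 0 < orderOf (σ * τ) := orderOf_pos _
    by_contra h1
    have h2 : orderOf (σ * τ) = 1 := by omega
    rw [orderOf_eq_one_iff] at h2
    apply pW_inj hs ht hne
    have := eq_inv_of_mul_eq_one_left h2
    rw [sig_inv hτ] at this
    exact this
  have hbr := aw_braid hσ hτ
  induction h with
  | zero ht₀ =>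
    refine ⟨T_N ht₀, 0, le_rfl, by omega, Or.inl ?_⟩
    rw [aw_zero]
    exact pW_one.mpr ht₀
  | @cons l s₁ n hs₁ hn ih =>
    obtain ⟨hnN, k, hkl, hkm, hor⟩ := ih
    have hs₁N := P.subset hs₁
    refine ⟨mul_mem hs₁N hnN, ?_⟩
    have hmul : pW (⟨s₁ * n, mul_mem hs₁N hnN⟩ : P.N)
        = pW (⟨s₁, hs₁N⟩ : P.N) * pW (⟨n, hnN⟩ : P.N) := by
      rw [← map_mul]; rfl
    rw [hmul]
    rw [hS] at hs₁
    rcases hs₁ with rfl | hs₁
    · exact cl_step hσ hm2 hbr ⟨k, hkl, hkm, hor⟩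
    · rw [Set.mem_singleton_iff] at hs₁
      subst hs₁
      have hbr' : aw τ σ (orderOf (σ * τ)) = aw σ τ (orderOf (σ * τ)) := hbr.symm
      obtain ⟨k', h1, h2, h3⟩ := cl_step hτ hm2 hbr' (l := l) (w := pW (⟨n, hnN⟩ : P.N))
        ⟨k, hkl, hkm, hor.symm⟩
      exact ⟨k', h1, h2, h3.symm⟩

theorem feit_higman (P : BNPair G) (h2 : P.rank = 2) :
    ((P.B ⊓ P.N).subgroupOf P.N).index ∈ ({4, 6, 8, 12, 16} : Set ℕ) := by
  have h3 : P.S.ncard = 2 := by
    have : P.rank = P.S.ncard := by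
      simp only [BNPair.rank, Nat.card_coe_set_eq]
    rwa [← this]
  obtain ⟨s, t, hne, hS⟩ := Set.ncard_eq_two.mp h3
  have hs : s ∈ P.S := by rw [hS]; simp
  have ht : t ∈ P.S := by rw [hS]; simp
  set σ := pW (⟨s, P.subset hs⟩ : P.N) with hσd
  set τ := pW (⟨t, P.subset ht⟩ : P.N) with hτd
  have hσ : σ * σ = 1 := pW_sq hs
  have hτ : τ * τ = 1 := pW_sq ht
  have hσ1 : σ ≠ 1 := pW_ne hs
  have hτ1 : τ ≠ 1 := pW_ne ht
  set m := orderOf (σ * τ) with hm
  have hm2 : 2 ≤ m := by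
    have h0 : 0 < orderOf (σ * τ) := orderOf_pos _
    by_contra h1
    have h2 : orderOf (σ * τ) = 1 := by omega
    rw [orderOf_eq_one_iff] at h2
    apply pW_inj hs ht hne
    have := eq_inv_of_mul_eq_one_left h2
    rw [sig_inv hτ] at this
    exact this
  have hcl := fun {l : ℕ} {n : G} (h : Wd P P.S l n) => wd_cl hs ht hne hS h
  -- the index
  have hcard : ((P.B ⊓ P.N).subgroupOf P.N).index = 2 * m := by
    have hcov : ∀ w : P.N ⧸ (P.B ⊓ P.N).subgroupOf P.N, ∃ k, w = aw σ τ k ∨ w = aw τ σ k := by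
      intro w
      obtain ⟨n, rfl⟩ := QuotientGroup.mk'_surjective _ w
      obtain ⟨k, hk⟩ := exists_wd_S n.2
      obtain ⟨_, k', _, _, h4⟩ := hcl hk
      exact ⟨k', h4⟩
    exact card_of_cover hσ hτ hσ1 hτ1 hcov
  -- lengths
  have hlen : ∀ k, k ≤ m → len P (aw s t k) = k ∧ len P (aw t s k) = k := by
    intro k hk
    constructor
    · have hle := len_le (aw_wd hs ht k).1
      by_contra hne'
      have hlt : len P (aw s t k) < k := by omega
      have hN := (aw_mem hs ht k).1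
      obtain ⟨_, k', h5, _, h6⟩ := hcl (len_spec hN)
      have h7 := pW_aw hs ht k
      rw [h7] at h6
      rcases h6 with h6 | h6
      · exact dist_aa hσ hτ hσ1 hτ1 (by omega) hk h6
      · exact dist_ab hσ hτ hσ1 hτ1 (by omega) hk h6
    · have hle := len_le (aw_wd hs ht k).2
      by_contra hne'
      have hlt : len P (aw t s k) < k := by omega
      have hN := (aw_mem hs ht k).2
      obtain ⟨_, k', h5, _, h6⟩ := hcl (len_spec hN)
      have h7 := pW_aw ht hs k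
      rw [h7] at h6
      rcases h6 with h6 | h6
      · exact dist_ba hσ hτ hσ1 hτ1 (by omega) hk h6
      · exact dist_bb hσ hτ hσ1 hτ1 (by omega) hk h6
  -- matrices
  have halt : ∀ k, k ≤ m → alt (rM P s) (rM P t) k = rM P (aw s t k) ∧
      alt (rM P t) (rM P s) k = rM P (aw t s k) := by
    intro k
    induction k with
    | zero =>
      intro _
      exact ⟨rM_one.symm, rM_one.symm⟩
    | succ k ih =>
      intro hk
      obtain ⟨i1, i2⟩ := ih (by omega)
      have hl1 := hlen k (by omega)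
      have hl2 := hlen (k+1) hk
      constructor
      · rw [alt_succ, i2, rM_mul hs (aw_mem hs ht k).2 (by
          have : s * aw t s k = aw s t (k+1) := rfl
          rw [this, hl1.2, hl2.1]; omega)]
        rfl
      · rw [alt_succ, i1, rM_mul ht (aw_mem hs ht k).1 (by
          have : t * aw s t k = aw t s (k+1) := rfl
          rw [this, hl1.1, hl2.2]; omega)]
        rfl
  have hbraid : alt (rM P s) (rM P t) m = alt (rM P t) (rM P s) m := by
    rw [(halt m le_rfl).1, (halt m le_rfl).2]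
    apply rM_congr
    have h7 := aw_braid hσ hτ
    have h8 := pW_aw hs ht m
    have h9 := pW_aw ht hs m
    rw [← hσd, ← hτd] at h8 h9
    rw [← hm] at h7
    rw [← h8, ← h9, pW_eq] at h7
    refine ⟨1, one_mem _, _, T_B h7, ?_⟩
    change aw t s m = _
    group
  have htr : ∀ k, 1 ≤ k → k ≤ m → (alt (rM P s) (rM P t) k).trace = 0 ∧
      (alt (rM P t) (rM P s) k).trace = 0 := by
    intro k h1 hk
    rw [(halt k hk).1, (halt k hk).2]
    constructor
    · apply trace_rM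
      intro hB
      have := (len_eq_zero_iff (aw_mem hs ht k).1).mpr (T_mk hB (aw_mem hs ht k).1)
      have h5 := (hlen k hk).1
      omega
    · apply trace_rM
      intro hB
      have := (len_eq_zero_iff (aw_mem hs ht k).2).mpr (T_mk hB (aw_mem hs ht k).2)
      have h5 := (hlen k hk).2
      omega
  have : Nonempty (G ⧸ P.B) := ⟨QuotientGroup.mk 1⟩
  have hfin := FH_abstract (rM P s) (rM P t) (qQ P s) (qQ P t) (two_le_qQ hs) (two_le_qQ ht) m hm2
    (rM_sq hs) (rM_sq ht) hbraid (fun k h1 h2 => (htr k h1 h2).1) (fun k h1 h2 => (htr k h1 h2).2)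
  rw [hcard]
  simp only [Set.mem_insert_iff, Set.mem_singleton_iff]
  omega

end

end Cfsg.Agent.H05.FH
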