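import Cfsg.Agent.Lib.H05.FH1

set_option autoImplicit false
set_option linter.unusedSectionVars false
set_option linter.unusedVariables false
set_option linter.unusedSimpArgs false

namespace Cfsg.Agent.H05.FH

variable {R : Type*} [Ring R] [Algebra ℝ R]
variable {A B : R} {a b x : ℝ}

theorem pP_yY (ha : 0 < a) (hA : A * A = (a-1) • A + a • 1) (i : ℕ) :
    pP A a * yY A B a i = yY A B a i := by
  simp only [yY, ← mul_assoc, pP_mul_self ha hA]

theorem yY_pP (ha : 0 < a) (hA : A * A = (a-1) • A + a • 1) (i : ℕ) :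
    yY A B a i * pP A a = yY A B a i := by
  simp only [yY, mul_assoc, pP_mul_self ha hA]

/-- coefficient sequence -/
noncomputable def eE (a b : ℝ) (g : ℕ → ℝ) (i : ℕ) : ℝ := g (i+1) / (a*b)^(i+1)

/-- partial sums -/
noncomputable def tT (A B : R) (a b : ℝ) (g : ℕ → ℝ) (k : ℕ) : R :=
  (1+a)⁻¹ • pP A a + ∑ i ∈ Finset.range k, eE a b g i • yY A B a i

/-- the idempotent up to scalar -/
noncomputable def zZ (A B : R) (a b : ℝ) (g : ℕ → ℝ) (s : ℕ) : R :=
  tT A B a b g (s+1) + (eE a b g (s+1) / (1+a)) • yY A B a (s+1)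

variable {g : ℕ → ℝ}

theorem eE_rec (ha : 0 < a) (hb : 0 < b) (hg : ∀ i, g (i+2) = x * g (i+1) - (a*b) * g i) (k : ℕ) :
    (a*b) * eE a b g (k+2) = x * eE a b g (k+1) - eE a b g k := by
  have hQ : a*b ≠ 0 := by positivity
  unfold eE
  rw [show k+2+1 = (k+1)+2 by ring, hg (k+1)]
  field_simp
  ring

theorem tT_step (ha : 0 < a) (hb : 0 < b) (hA : A * A = (a-1) • A + a • 1)
    (hB : B * B = (b-1) • B + b • 1)
    (hg0 : g 0 = 1) (hg1 : g 1 = a * (x + b - 1) / (1+a))
    (hg : ∀ i, g (i+2) = x * g (i+1) - (a*b) * g i) (k : ℕ) :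
    (1+a) • (yY A B a 0 * tT A B a b g (k+1)) - (x + b - 1) • tT A B a b g (k+1)
      = eE a b g k • yY A B a (k+1) - ((a*b) * eE a b g (k+1)) • yY A B a k := by
  have hc : (1+a) ≠ 0 := by positivity
  have hQ : a*b ≠ 0 := by positivity
  induction k with
  | zero =>
    have h1 := rec_one (B := B) ha hA hB
    have h2 := yY_pP (B := B) ha hA 0
    simp only [tT, zero_add, Finset.sum_range_one, mul_add, mul_smul_comm, smul_add, h2]
    have e0 : (1+a) • (eE a b g 0 • (yY A B a 0 * yY A B a 0))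
        = eE a b g 0 • ((1+a) • (yY A B a 0 * yY A B a 0)) := smul_comm _ _ _
    rw [e0, h1]
    have e1 : (a*b) * eE a b g 1 = x * eE a b g 0 - 1 := by
      unfold eE
      rw [show 1+1 = 0+2 by ring, hg 0, hg0]
      simp only [zero_add, pow_one]
      field_simp
    have e2 : eE a b g 0 * b = (x + b - 1) * (1+a)⁻¹ := by
      unfold eE
      simp only [zero_add, pow_one]
      rw [hg1]
      field_simp
    rw [e1]
    have e3 : (1+a) • ((1+a)⁻¹ • yY A B a 0) = yY A B a 0 := by
      rw [smul_smul, mul_inv_cancel₀ hc, one_smul]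
    rw [e3]
    have e4 : eE a b g 0 • (yY A B a 1 + (b-1) • yY A B a 0 + b • pP A a)
      = eE a b g 0 • yY A B a 1 + (eE a b g 0 * (b-1)) • yY A B a 0 + (eE a b g 0 * b) • pP A a := by
      simp only [smul_add, smul_smul]
    rw [e4, e2]
    module
  | succ k ih =>
    have hT : tT A B a b g (k+1+1) = tT A B a b g (k+1) + eE a b g (k+1) • yY A B a (k+1) := by
      simp only [tT, Finset.sum_range_succ _ (k+1)]
      abel
    rw [hT]
    have h1 := rec_two (B := B) ha hA hB k
    have e5 : (1+a) • (yY A B a 0 * (tT A B a b g (k+1) + eE a b g (k+1) • yY A B a (k+1)))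
        = (1+a) • (yY A B a 0 * tT A B a b g (k+1))
          + eE a b g (k+1) • ((1+a) • (yY A B a 0 * yY A B a (k+1))) := by
      rw [mul_add, mul_smul_comm, smul_add, smul_comm]
    rw [e5, h1]
    have e6 := eE_rec (x := x) ha hb hg k
    have e7 : (a*b) * eE a b g (k+1+1) = x * eE a b g (k+1) - eE a b g k := e6
    rw [e7]
    linear_combination (norm := module) ih

theorem zZ_eigen (ha : 0 < a) (hb : 0 < b) (hA : A * A = (a-1) • A + a • 1)
    (hB : B * B = (b-1) • B + b • 1)
    (hg0 : g 0 = 1) (hg1 : g 1 = a * (x + b - 1) / (1+a))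
    (hg : ∀ i, g (i+2) = x * g (i+1) - (a*b) * g i) (s : ℕ)
    (hbr : A * wW A B (s+1) = wW A B (s+1) * A)
    (hend : (a*b) * g (s+1) + ((a*(b-1) - x)/(1+a)) * g (s+2) = 0) :
    yY A B a 0 * zZ A B a b g s = (g 1 / a) • zZ A B a b g s := by
  have hc : (1+a) ≠ 0 := by positivity
  have hQ : a*b ≠ 0 := by positivity
  have ha' : a ≠ 0 := ha.ne'
  have h1 := tT_step (A := A) (B := B) ha hb hA hB hg0 hg1 hg s
  have h2 := rec_end ha hA hB s hbr
  have e1 : eE a b g s + eE a b g (s+1) * ((a*(b-1) - x)/(1+a)) = 0 := by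
    have : eE a b g s + eE a b g (s+1) * ((a*(b-1) - x)/(1+a))
        = ((a*b) * g (s+1) + ((a*(b-1) - x)/(1+a)) * g (s+2)) / (a*b)^(s+2) := by
      unfold eE
      rw [show s+1+1 = s+2 by ring, pow_succ (a*b) (s+1)]
      field_simp
    rw [this, hend, zero_div]
  have e2 : (g 1 / a) = (x + b - 1) / (1+a) := by
    rw [hg1]; field_simp
  apply smul_right_injective R hc
  simp only [Function.comp, zZ]
  rw [e2]
  have e3 : (1+a) • (yY A B a 0 * (tT A B a b g (s+1) + (eE a b g (s+1) / (1+a)) • yY A B a (s+1)))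
      = (1+a) • (yY A B a 0 * tT A B a b g (s+1)) + eE a b g (s+1) • (yY A B a 0 * yY A B a (s+1)) := by
    rw [mul_add, mul_smul_comm, smul_add, smul_smul]
    congr 2
    field_simp
  rw [e3, h2]
  have e4 : (1+a) • ((x + b - 1) / (1+a)) • (tT A B a b g (s+1) + (eE a b g (s+1) / (1+a)) • yY A B a (s+1))
      = (x + b - 1) • tT A B a b g (s+1)
        + ((x + b - 1) * (eE a b g (s+1) / (1+a))) • yY A B a (s+1) := by
    rw [smul_smul, mul_div_cancel₀ _ hc, smul_add, smul_smul]
  rw [e4]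
  have e5 : (eE a b g s + eE a b g (s+1) * ((b-1) - (x + b - 1)/(1+a))) = 0 := by
    rw [← e1]
    congr 1
    congr 1
    field_simp
    ring
  have e6 : (x + b - 1) * (eE a b g (s+1) / (1+a)) = eE a b g (s+1) * ((x + b - 1)/(1+a)) := by ring
  rw [e6]
  have e7 : eE a b g s = - (eE a b g (s+1) * ((b-1) - (x + b - 1)/(1+a))) := by linarith
  linear_combination (norm := module) h1 + e7 • yY A B a (s+1)

end Cfsg.Agent.H05.FH
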