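import Cfsg.Agent.Lib.H05.FH2

set_option autoImplicit false
set_option linter.unusedSectionVars false
set_option linter.unusedVariables false
set_option linter.unusedSimpArgs false

namespace Cfsg.Agent.H05.FH

variable {R : Type*} [Ring R] [Algebra ℝ R]
variable {A B : R} {a b x : ℝ} {g : ℕ → ℝ}

theorem pP_tT (ha : 0 < a) (hA : A * A = (a-1) • A + a • 1) (k : ℕ) :
    pP A a * tT A B a b g k = tT A B a b g k := by
  simp only [tT, mul_add, mul_smul_comm, Finset.mul_sum, pP_yY ha hA, pP_mul_self ha hA]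

theorem pP_zZ (ha : 0 < a) (hA : A * A = (a-1) • A + a • 1) (s : ℕ) :
    pP A a * zZ A B a b g s = zZ A B a b g s := by
  simp only [zZ, mul_add, mul_smul_comm, pP_yY ha hA, pP_tT ha hA]

theorem yY_zZ (ha : 0 < a) (hb : 0 < b) (hA : A * A = (a-1) • A + a • 1)
    (hB : B * B = (b-1) • B + b • 1)
    (hg0 : g 0 = 1) (hg1 : g 1 = a * (x + b - 1) / (1+a))
    (hg : ∀ i, g (i+2) = x * g (i+1) - (a*b) * g i) (s : ℕ)
    (hbr : A * wW A B (s+1) = wW A B (s+1) * A)
    (hend : (a*b) * g (s+1) + ((a*(b-1) - x)/(1+a)) * g (s+2) = 0) (i : ℕ) :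
    yY A B a i * zZ A B a b g s = (g (i+1) / a) • zZ A B a b g s := by
  have hc : (1+a) ≠ 0 := by positivity
  have ha' : a ≠ 0 := ha.ne'
  have h0 := zZ_eigen ha hb hA hB hg0 hg1 hg s hbr hend
  have hP := pP_zZ (B := B) (b := b) (g := g) ha hA s
  set Z := zZ A B a b g s with hZ
  have e2 : (1+a) * (g 1 / a) = x + b - 1 := by
    rw [hg1]; field_simp
  have h1 : yY A B a 1 * Z = (g 2 / a) • Z := by
    have r1 := rec_one (B := B) ha hA hB
    have r2 : yY A B a 1 = (1+a) • (yY A B a 0 * yY A B a 0) - (b-1) • yY A B a 0 - b • pP A a := by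
      rw [r1]; abel
    rw [r2]
    simp only [sub_mul, smul_mul_assoc, mul_assoc, h0, hP, mul_smul_comm]
    have e3 : g 2 / a = (x * (g 1 / a)) - b := by
      rw [show (2:ℕ) = 0+2 from rfl, hg 0, hg0]
      field_simp
    rw [e3]
    have e4 : (1+a) • (g 1 / a) • (g 1 / a) • Z = ((1+a) * (g 1 / a)) • (g 1 / a) • Z := by
      rw [smul_smul]
    rw [e4, e2]
    module
  have key : ∀ i, yY A B a i * Z = (g (i+1) / a) • Z ∧ yY A B a (i+1) * Z = (g (i+2) / a) • Z := by
    intro i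
    induction i with
    | zero => exact ⟨h0, h1⟩
    | succ i ih =>
      refine ⟨ih.2, ?_⟩
      have r1 := rec_two (B := B) ha hA hB i
      have r2 : yY A B a (i+2) = (1+a) • (yY A B a 0 * yY A B a (i+1))
          - (b-1) • yY A B a (i+1) - (a*b) • yY A B a i := by
        rw [r1]; abel
      change yY A B a (i+2) * Z = _
      rw [r2]
      simp only [sub_mul, smul_mul_assoc, mul_assoc, ih.1, ih.2, mul_smul_comm, h0]
      have e3 : g (i+1+2) / a = x * (g (i+2) / a) - (a*b) * (g (i+1) / a) := by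
        rw [hg (i+1)]
        field_simp
      rw [e3]
      have e4 : (1+a) • (g (i+2) / a) • (g 1 / a) • Z = ((1+a) * (g 1 / a)) • (g (i+2) / a) • Z := by
        rw [smul_comm (g (i+2) / a), smul_smul]
      rw [e4, e2]
      module
  exact (key i).1

/-- the Schur-type scalar -/
noncomputable def sS (a b : ℝ) (g : ℕ → ℝ) (s : ℕ) : ℝ :=
  (1+a)⁻¹ + ∑ i ∈ Finset.range (s+1), eE a b g i * (g (i+1) / a)
    + (eE a b g (s+1) / (1+a)) * (g (s+2) / a)

theorem zZ_sq (ha : 0 < a) (hb : 0 < b) (hA : A * A = (a-1) • A + a • 1)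
    (hB : B * B = (b-1) • B + b • 1)
    (hg0 : g 0 = 1) (hg1 : g 1 = a * (x + b - 1) / (1+a))
    (hg : ∀ i, g (i+2) = x * g (i+1) - (a*b) * g i) (s : ℕ)
    (hbr : A * wW A B (s+1) = wW A B (s+1) * A)
    (hend : (a*b) * g (s+1) + ((a*(b-1) - x)/(1+a)) * g (s+2) = 0) :
    zZ A B a b g s * zZ A B a b g s = sS a b g s • zZ A B a b g s := by
  have h0 := yY_zZ ha hb hA hB hg0 hg1 hg s hbr hend
  have hP := pP_zZ (B := B) (b := b) (g := g) ha hA s
  set Z := zZ A B a b g s with hZ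
  have hT : ∀ k, tT A B a b g k * Z
      = ((1+a)⁻¹ + ∑ i ∈ Finset.range k, eE a b g i * (g (i+1) / a)) • Z := by
    intro k
    induction k with
    | zero => simp [tT, hP]
    | succ k ih =>
      have e : tT A B a b g (k+1) = tT A B a b g k + eE a b g k • yY A B a k := by
        simp only [tT, Finset.sum_range_succ]
        abel
      rw [e, add_mul, ih, smul_mul_assoc, h0, Finset.sum_range_succ]
      simp only [smul_smul, add_smul, add_assoc]
  have hZ' : Z = tT A B a b g (s+1) + (eE a b g (s+1) / (1+a)) • yY A B a (s+1) := rfl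
  calc Z * Z = (tT A B a b g (s+1) + (eE a b g (s+1) / (1+a)) • yY A B a (s+1)) * Z :=
        congrArg (· * Z) hZ'
    _ = _ := by
        rw [add_mul, hT, smul_mul_assoc, h0, sS]
        simp only [smul_smul, add_smul]

section trace

variable (τ : R →ₗ[ℝ] ℝ) (hτ : ∀ u v, τ (u * v) = τ (v * u)) {n : ℝ} (hn : τ 1 = n)
  (hτA : τ A = 0)

include hτ hn hτA

theorem tau_pP : τ (pP A a) = (1+a)⁻¹ * n := by
  simp only [pP, map_smul, map_add, hn, hτA, add_zero, smul_eq_mul]

theorem tau_yY (ha : 0 < a) (hA : A * A = (a-1) • A + a • 1) (i : ℕ)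
    (h1 : τ (wW A B i) = 0) (h2 : τ (wW A B i * A) = 0) : τ (yY A B a i) = 0 := by
  have e1 : τ (yY A B a i) = τ (pP A a * wW A B i) := by
    simp only [yY]
    rw [hτ, ← mul_assoc, pP_mul_self ha hA]
  rw [e1]
  simp only [pP, smul_mul_assoc, map_smul, add_mul, one_mul, map_add, h1]
  rw [hτ, h2]
  simp

theorem tau_zZ (ha : 0 < a) (hA : A * A = (a-1) • A + a • 1) (s : ℕ)
    (h1 : ∀ i ≤ s+1, τ (wW A B i) = 0) (h2 : ∀ i ≤ s+1, τ (wW A B i * A) = 0) :
    τ (zZ A B a b g s) = (1+a)⁻¹ * ((1+a)⁻¹ * n) := by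
  have h3 : ∀ i ≤ s+1, τ (yY A B a i) = 0 := fun i hi =>
    tau_yY τ hτ hn hτA ha hA i (h1 i hi) (h2 i hi)
  simp only [zZ, tT, map_add, map_smul, map_sum, smul_eq_mul]
  rw [tau_pP τ hτ hn hτA, h3 _ le_rfl, Finset.sum_eq_zero]
  · simp
  · intro i hi
    rw [h3 i (by have := Finset.mem_range.mp hi; omega)]
    simp

end trace

end Cfsg.Agent.H05.FH
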