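import Cfsg.Agent.Lib.H05.FH3

set_option autoImplicit false
set_option linter.unusedSectionVars false
set_option linter.unusedVariables false
set_option linter.unusedSimpArgs false

namespace Cfsg.Agent.H05.FH

open Real

/-- telescoping cosine sum -/
theorem cos_sum (α θ : ℝ) (K : ℕ) :
    2 * sin α * ∑ k ∈ Finset.range K, cos (θ + 2 * (k:ℝ) * α)
      = sin (θ + (2 * (K:ℝ) - 1) * α) - sin (θ - α) := by
  induction K with
  | zero => simp [sub_eq_add_neg]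
  | succ K ih =>
    rw [Finset.sum_range_succ, mul_add, ih]
    have e1 : θ + (2 * ((K+1:ℕ):ℝ) - 1) * α = (θ + 2 * (K:ℝ) * α) + α := by push_cast; ring
    have e2 : θ + (2 * (K:ℝ) - 1) * α = (θ + 2 * (K:ℝ) * α) - α := by ring
    rw [e1, e2, sin_add, sin_sub]
    ring

/-- sine sequence -/
noncomputable def sn (α : ℝ) (k : ℕ) : ℝ := sin ((k:ℝ) * α)

theorem sn_zero (α : ℝ) : sn α 0 = 0 := by simp [sn]
theorem sn_one (α : ℝ) : sn α 1 = sin α := by simp [sn]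
theorem sn_two (α : ℝ) : sn α 2 = 2 * cos α * sin α := by
  simp only [sn]; push_cast; rw [sin_two_mul]; ring

theorem sn_rec (α : ℝ) (k : ℕ) : sn α (k+2) = 2 * cos α * sn α (k+1) - sn α k := by
  simp only [sn]
  have e1 : ((k+2:ℕ):ℝ) * α = ((k+1:ℕ):ℝ) * α + α := by push_cast; ring
  have e2 : ((k:ℕ):ℝ) * α = ((k+1:ℕ):ℝ) * α - α := by push_cast; ring
  rw [e1, e2, sin_add, sin_sub]
  ring

/-- pointwise expansion -/
theorem sq_expand (α κ : ℝ) (k : ℕ) :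
    (sn α (k+2) + κ * sn α (k+1))^2
      = (1 + κ^2)/2 + κ * cos α
        - (1/2) * cos (4 * α + 2 * (k:ℝ) * α)
        - κ * cos (3 * α + 2 * (k:ℝ) * α)
        - (κ^2/2) * cos (2 * α + 2 * (k:ℝ) * α) := by
  set β : ℝ := ((k+1:ℕ):ℝ) * α with hβ
  have e1 : sn α (k+1) = sin β := rfl
  have e2 : sn α (k+2) = sin (β + α) := by
    simp only [sn, hβ]; congr 1; push_cast; ring
  have c1 : 4 * α + 2 * (k:ℝ) * α = 2 * (β + α) := by rw [hβ]; push_cast; ring
  have c2 : 3 * α + 2 * (k:ℝ) * α = (β + α) + β := by rw [hβ]; push_cast; ring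
  have c3 : 2 * α + 2 * (k:ℝ) * α = 2 * β := by rw [hβ]; push_cast; ring
  rw [e1, e2, c1, c2, c3]
  have f4 : cos α = cos (β + α) * cos β + sin (β + α) * sin β := by
    rw [← cos_sub]; congr 1; ring
  have f2 : cos ((β + α) + β) = cos (β + α) * cos β - sin (β + α) * sin β := cos_add _ _
  have f1 : cos (2 * (β + α)) = 1 - 2 * sin (β + α) ^ 2 := by
    rw [cos_two_mul]; linarith [cos_sq_add_sin_sq (β + α)]
  have f3 : cos (2 * β) = 1 - 2 * sin β ^ 2 := by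
    rw [cos_two_mul]; linarith [cos_sq_add_sin_sq β]
  rw [f4, f2, f1, f3]
  ring

/-- the sum of squares -/
theorem sum_sq (α κ : ℝ) (s : ℕ) (hs : sin α ≠ 0) (h1 : sin (2 * ((s:ℝ)+2) * α) = 0)
    (h2 : cos (2 * ((s:ℝ)+2) * α) = 1) :
    ∑ k ∈ Finset.range (s+1), (sn α (k+2) + κ * sn α (k+1))^2
      = (((s:ℝ)+2)/2) * (1 + κ^2 + 2 * κ * cos α) - (sin α)^2 := by
  have hr : (2 * ((s:ℝ)+2) * α) = 2 * ((s:ℝ)+2) * α := rfl
  set φ := 2 * ((s:ℝ)+2) * α with hφ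
  simp_rw [sq_expand]
  simp only [Finset.sum_sub_distrib, Finset.sum_add_distrib, ← Finset.mul_sum, Finset.sum_const,
    Finset.card_range, nsmul_eq_mul]
  have c4 := cos_sum α (4 * α) (s+1)
  have c3 := cos_sum α (3 * α) (s+1)
  have c2 := cos_sum α (2 * α) (s+1)
  have e4 : 4 * α + (2 * ((s+1:ℕ):ℝ) - 1) * α = φ + α := by rw [hφ]; push_cast; ring
  have e3 : 3 * α + (2 * ((s+1:ℕ):ℝ) - 1) * α = φ := by rw [hφ]; push_cast; ring
  have e2 : 2 * α + (2 * ((s+1:ℕ):ℝ) - 1) * α = φ - α := by rw [hφ]; push_cast; ring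
  rw [e4, sin_add, h1, h2] at c4
  rw [e3, h1] at c3
  rw [e2, sin_sub, h1, h2] at c2
  have t4 : 4 * α - α = 2 * α + α := by ring
  have t3 : 3 * α - α = 2 * α := by ring
  have t2 : 2 * α - α = α := by ring
  rw [t4, sin_add, sin_two_mul, cos_two_mul] at c4
  rw [t3, sin_two_mul] at c3
  rw [t2] at c2
  set C4 := ∑ k ∈ Finset.range (s+1), cos (4 * α + 2 * (k:ℝ) * α)
  set C3 := ∑ k ∈ Finset.range (s+1), cos (3 * α + 2 * (k:ℝ) * α)
  set C2 := ∑ k ∈ Finset.range (s+1), cos (2 * α + 2 * (k:ℝ) * α)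
  have hsc := sin_sq_add_cos_sq α
  have h4 : C4 = 1 - 2 * cos α ^ 2 := by
    apply mul_left_cancel₀ (mul_ne_zero two_ne_zero hs)
    rw [c4]
    ring
  have h3 : C3 = - cos α := by
    apply mul_left_cancel₀ (mul_ne_zero two_ne_zero hs)
    rw [c3]; ring
  have h2' : C2 = -1 := by
    apply mul_left_cancel₀ (mul_ne_zero two_ne_zero hs)
    rw [c2]; ring
  rw [h4, h3, h2']
  push_cast
  have : sin α ^ 2 = 1 - cos α ^ 2 := by linarith
  rw [this]
  ring

end Cfsg.Agent.H05.FH
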