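import Cfsg.Agent.Lib.H05.FH4

set_option autoImplicit false
set_option linter.unusedSectionVars false
set_option linter.unusedVariables false
set_option linter.unusedSimpArgs false

namespace Cfsg.Agent.H05.FH

open Real

section seq

variable (a b α : ℝ)

/-- the value `x` -/
noncomputable def xX : ℝ := 2 * √(a*b) * cos α

/-- the value `κ` -/
noncomputable def kK : ℝ := (a*(b-1) - xX a b α)/(1+a)

/-- the coefficient sequence -/
noncomputable def gT (i : ℕ) : ℝ :=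
  √(a*b)^i * ((sn α (i+1) + (kK a b α / √(a*b)) * sn α i) / sin α)

variable {a b α}

theorem w_sq (ha : 0 < a) (hb : 0 < b) : √(a*b) * √(a*b) = a*b :=
  mul_self_sqrt (by positivity)

theorem gT_zero (hs : sin α ≠ 0) : gT a b α 0 = 1 := by
  simp [gT, sn_zero, sn_one, hs]

theorem gT_one (ha : 0 < a) (hb : 0 < b) (hs : sin α ≠ 0) :
    gT a b α 1 = a * (xX a b α + b - 1) / (1+a) := by
  have hw : √(a*b) ≠ 0 := by positivity
  have hc : (1+a) ≠ 0 := by positivity
  simp only [gT, sn_one, sn_two]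
  rw [show (1+1 : ℕ) = 2 from rfl, sn_two]
  have e : √(a*b)^1 * ((2 * cos α * sin α + (kK a b α / √(a*b)) * sin α) / sin α)
      = xX a b α + kK a b α := by
    simp only [xX]
    field_simp
  rw [e, kK]
  field_simp
  ring

theorem gT_rec (ha : 0 < a) (hb : 0 < b) (hs : sin α ≠ 0) (i : ℕ) :
    gT a b α (i+2) = xX a b α * gT a b α (i+1) - (a*b) * gT a b α i := by
  have hw : √(a*b) ≠ 0 := by positivity
  simp only [gT]
  set w := √(a*b) with hwd
  have hQ : a*b = w*w := (w_sq ha hb).symm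
  rw [hQ]
  set κ' := kK a b α / w
  have e1 := sn_rec α (i+1)
  have e2 := sn_rec α i
  rw [show i+2+1 = i+1+2 by ring, e1]
  simp only [xX]
  rw [← hwd]
  rw [show i+1+1 = i+2 by ring, e2, pow_succ, pow_succ]
  field_simp
  ring

theorem gT_end (ha : 0 < a) (hb : 0 < b) (hs : sin α ≠ 0) (s : ℕ) (h0 : sn α (s+2) = 0) :
    (a*b) * gT a b α (s+1) + ((a*(b-1) - xX a b α)/(1+a)) * gT a b α (s+2) = 0 := by
  have hw : √(a*b) ≠ 0 := by positivity
  have e1 := sn_rec α (s+1)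
  rw [show s+1+2 = s+3 by ring, show s+1+1 = s+2 by ring, h0] at e1
  simp only [gT]
  rw [show s+2+1 = s+3 by ring, show s+1+1 = s+2 by ring, h0, e1]
  change (a*b) * _ + kK a b α * _ = 0
  set w := √(a*b) with hwd
  have hQ : a*b = w*w := (w_sq ha hb).symm
  rw [hQ, pow_succ w (s+1)]
  field_simp
  ring

/-- closed form -/
theorem sS_gT (ha : 0 < a) (hb : 0 < b) (hs : sin α ≠ 0) (s : ℕ)
    (h0 : sin (((s:ℝ)+2) * α) = 0) :
    sS a b (gT a b α) s * (sin α)^2
      = (((s:ℝ)+2) / (2*a)) * (1 + (kK a b α / √(a*b))^2 + 2 * (kK a b α / √(a*b)) * cos α) := by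
  have hw : √(a*b) ≠ 0 := by positivity
  have hc : (1+a) ≠ 0 := by positivity
  have ha' : a ≠ 0 := ha.ne'
  have h0' : sn α (s+2) = 0 := by
    simpa [sn] using h0
  have hcos : cos (((s:ℝ)+2) * α) ^ 2 = 1 := by
    have := cos_sq_add_sin_sq (((s:ℝ)+2) * α)
    rw [h0] at this
    linarith
  set κ' := kK a b α / √(a*b) with hκ'
  have hG : ∀ i, gT a b α i = √(a*b)^i * ((sn α (i+1) + κ' * sn α i) / sin α) := fun i => rfl
  clear_value κ'
  have h1 : sin (2 * ((s:ℝ)+2) * α) = 0 := by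
    rw [show 2 * ((s:ℝ)+2) * α = 2 * (((s:ℝ)+2) * α) by ring, sin_two_mul, h0]; ring
  have h2 : cos (2 * ((s:ℝ)+2) * α) = 1 := by
    rw [show 2 * ((s:ℝ)+2) * α = 2 * (((s:ℝ)+2) * α) by ring, cos_two_mul, hcos]; ring
  have hsum := sum_sq α κ' s hs h1 h2
  have hterm : ∀ i : ℕ, eE a b (gT a b α) i * (gT a b α (i+1) / a)
      = (sn α (i+2) + κ' * sn α (i+1))^2 / (a * (sin α)^2) := by
    intro i
    simp only [eE, hG]
    rw [show i+1+1 = i+2 by ring]
    have hQ : (a*b)^(i+1) = (√(a*b)^(i+1))^2 := by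
      rw [← pow_mul, mul_comm (i+1) 2, pow_mul, sq, w_sq ha hb]
    rw [hQ]
    have hne : √(a*b)^(i+1) ≠ 0 := pow_ne_zero _ hw
    field_simp
  have hlast : (eE a b (gT a b α) (s+1) / (1+a)) * (gT a b α (s+2) / a) = 1 / ((1+a) * a) := by
    simp only [eE, hG]
    rw [show s+1+1 = s+2 by ring, show s+2+1 = s+3 by ring, h0']
    have e1 := sn_rec α (s+1)
    rw [show s+1+2 = s+3 by ring, show s+1+1 = s+2 by ring, h0'] at e1
    have e2 : sn α (s+1) = - cos (((s:ℝ)+2) * α) * sin α := by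
      simp only [sn]
      have : ((s+1:ℕ):ℝ) * α = ((s:ℝ)+2) * α - α := by push_cast; ring
      rw [this, sin_sub, h0]; ring
    rw [e1, e2]
    have hQ : (a*b)^(s+2) = (√(a*b)^(s+2))^2 := by
      rw [← pow_mul, mul_comm (s+2) 2, pow_mul, sq, w_sq ha hb]
    rw [hQ]
    have hne : √(a*b)^(s+2) ≠ 0 := pow_ne_zero _ hw
    field_simp
    linear_combination (sin α ^ 2) * hcos
  have hS : sS a b (gT a b α) s = (1+a)⁻¹
      + ((((s:ℝ)+2)/2 * (1 + κ'^2 + 2 * κ' * cos α) - sin α ^ 2) / (a * sin α ^ 2))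
      + 1 / ((1+a) * a) := by
    simp only [sS]
    rw [Finset.sum_congr rfl (fun i _ => hterm i), ← Finset.sum_div, hsum, hlast]
  rw [hS]
  field_simp
  ring

/-- the main formula -/
theorem sS_formula (ha : 0 < a) (hb : 0 < b) (hs : sin α ≠ 0) (s : ℕ)
    (h0 : sin (((s:ℝ)+2) * α) = 0) :
    sS a b (gT a b α) s * (1+a)^2 * (4*(a*b) - (xX a b α)^2)
      = 2 * ((s:ℝ)+2) * ((a + b + xX a b α) * (1 + a*b - xX a b α)) := by
  have hw : √(a*b) ≠ 0 := by positivity
  have hc : (1+a) ≠ 0 := by positivity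
  have ha' : a ≠ 0 := ha.ne'
  have hmain := sS_gT ha hb hs s h0
  have e1 : 4*(a*b) - (xX a b α)^2 = 4 * (a*b) * (sin α)^2 := by
    simp only [xX]
    have h1 := w_sq ha hb
    have h2 := sin_sq_add_cos_sq α
    have : (2 * √(a*b) * cos α)^2 = 4 * (√(a*b) * √(a*b)) * cos α ^ 2 := by ring
    rw [this, h1]
    have h3 : cos α ^ 2 = 1 - sin α ^ 2 := by linarith
    rw [h3]; ring
  rw [e1]
  have e2 : sS a b (gT a b α) s * (1+a)^2 * (4 * (a*b) * (sin α)^2)
      = (sS a b (gT a b α) s * (sin α)^2) * ((1+a)^2 * (4 * (a*b))) := by ring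
  rw [e2, hmain]
  have e3 : (a*b) * (1 + (kK a b α / √(a*b))^2 + 2 * (kK a b α / √(a*b)) * cos α)
      = a*b + (kK a b α)^2 + kK a b α * xX a b α := by
    have h1 := w_sq ha hb
    simp only [xX]
    have e4 : (a*b) * (kK a b α / √(a*b))^2 = (kK a b α)^2 := by
      generalize hW : √(a*b) = w at *
      rw [← h1]; field_simp
    have e5 : (a*b) * (2 * (kK a b α / √(a*b)) * cos α) = kK a b α * (2 * √(a*b) * cos α) := by
      generalize hW : √(a*b) = w at *
      rw [← h1]; field_simp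
    rw [mul_add, mul_add, mul_one, e4, e5]
  have e6 : ((s:ℝ)+2) / (2*a) * (1 + (kK a b α / √(a*b))^2 + 2 * (kK a b α / √(a*b)) * cos α)
        * ((1+a)^2 * (4 * (a*b)))
      = (2 * ((s:ℝ)+2) / a) * ((1+a)^2 * ((a*b) * (1 + (kK a b α / √(a*b))^2 + 2 * (kK a b α / √(a*b)) * cos α))) := by
    field_simp
    ring
  rw [e6, e3]
  simp only [kK]
  set x := xX a b α
  field_simp
  ring

theorem sS_ne_zero (ha : 0 < a) (hb : 0 < b) (hs : sin α ≠ 0) (s : ℕ)
    (h0 : sin (((s:ℝ)+2) * α) = 0) : sS a b (gT a b α) s ≠ 0 := by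
  intro h
  have hmain := sS_gT ha hb hs s h0
  rw [h, zero_mul] at hmain
  set κ' := kK a b α / √(a*b)
  have h1 : (1 + κ'^2 + 2 * κ' * cos α) = (κ' + cos α)^2 + sin α ^ 2 := by
    have := sin_sq_add_cos_sq α
    nlinarith
  rw [h1] at hmain
  have h2 : 0 < (κ' + cos α)^2 + sin α ^ 2 := by positivity
  have h3 : 0 < ((s:ℝ)+2) / (2*a) := by positivity
  have := mul_pos h3 h2
  linarith

end seq

end Cfsg.Agent.H05.FH
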