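import Cfsg.Agent.Lib.H05.FH5

set_option autoImplicit false
set_option linter.unusedSectionVars false
set_option linter.unusedVariables false
set_option linter.unusedSimpArgs false

namespace Cfsg.Agent.H05.FH

open Real

variable {ι : Type*} [Fintype ι] [DecidableEq ι]

theorem idem_trace_nat (E : Matrix ι ι ℝ) (h : E * E = E) : ∃ d : ℕ, E.trace = d := by
  have he : IsIdempotentElem (Matrix.toLin' E) := by
    unfold IsIdempotentElem
    rw [Module.End.mul_eq_comp, ← Matrix.toLin'_mul, h]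
  have h2 := (LinearMap.IsIdempotentElem.isProj_range _ he).trace
  refine ⟨Module.finrank ℝ (Matrix.toLin' E).range, ?_⟩
  rw [← h2, LinearMap.trace_eq_matrix_trace ℝ (Pi.basisFun ℝ ι), LinearMap.toMatrix_eq_toMatrix',
    LinearMap.toMatrix'_toLin']

theorem core_even (A B : Matrix ι ι ℝ) {a b : ℝ} (ha : 0 < a) (hb : 0 < b)
    (hA : A * A = (a-1) • A + a • 1) (hB : B * B = (b-1) • B + b • 1) (s : ℕ)
    (hbr : alt A B (2*(s+2)) = alt B A (2*(s+2)))
    (htA : ∀ k, 1 ≤ k → k ≤ 2*(s+2) → (alt A B k).trace = 0)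
    (htB : ∀ k, 1 ≤ k → k ≤ 2*(s+2) → (alt B A k).trace = 0)
    (j : ℕ) (hj1 : 1 ≤ j) (hj2 : j < s+2) :
    ∃ d : ℕ, (d:ℝ) * (2 * ((s:ℝ)+2)) *
        ((a + b + xX a b (π * j / ((s:ℝ)+2))) * (1 + a*b - xX a b (π * j / ((s:ℝ)+2))))
      = (Fintype.card ι : ℝ) * (4*(a*b) - (xX a b (π * j / ((s:ℝ)+2)))^2) := by
  have hr : (0:ℝ) < (s:ℝ)+2 := by positivity
  set α := π * j / ((s:ℝ)+2) with hα
  have hj1' : (1:ℝ) ≤ j := by exact_mod_cast hj1
  have hj2' : (j:ℝ) < (s:ℝ)+2 := by exact_mod_cast hj2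
  have hα0 : 0 < α := by rw [hα]; positivity
  have hαπ : α < π := by
    rw [hα, div_lt_iff₀ hr]
    have := pi_pos
    nlinarith
  have hs : sin α ≠ 0 := (sin_pos_of_pos_of_lt_pi hα0 hαπ).ne'
  have h0 : sin (((s:ℝ)+2) * α) = 0 := by
    have : ((s:ℝ)+2) * α = (j:ℝ) * π := by rw [hα]; field_simp
    rw [this, sin_nat_mul_pi]
  have h0' : sn α (s+2) = 0 := by simpa [sn] using h0
  have hS := sS_ne_zero (a := a) (b := b) ha hb hs s h0
  have hbr' : A * wW A B (s+1) = wW A B (s+1) * A := by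
    have e : 2*(s+2) = 2*(s+1)+2 := by ring
    rw [e, alt_even, alt_even'] at hbr
    exact hbr
  have hZZ := zZ_sq ha hb hA hB (gT_zero hs) (gT_one ha hb hs) (gT_rec ha hb hs) s hbr'
    (gT_end ha hb hs s h0')
  set g := gT a b α with hg
  set S := sS a b g s with hSd
  set Z := zZ A B a b g s with hZ
  obtain ⟨d, hd⟩ := idem_trace_nat (S⁻¹ • Z) (by
    rw [smul_mul_smul_comm, hZZ, smul_smul]
    congr 1
    field_simp)
  have htr : Z.trace = (1+a)⁻¹ * ((1+a)⁻¹ * (Fintype.card ι : ℝ)) := by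
    have h1 : ∀ i ≤ s+1, Matrix.traceLinearMap ι ℝ ℝ (wW A B i) = 0 := by
      intro i hi
      have := htB (2*i+1) (by omega) (by omega)
      rw [alt_odd] at this
      exact this
    have h2 : ∀ i ≤ s+1, Matrix.traceLinearMap ι ℝ ℝ (wW A B i * A) = 0 := by
      intro i hi
      have := htB (2*i+2) (by omega) (by omega)
      rw [alt_even'] at this
      exact this
    have h3 := tau_zZ (A := A) (B := B) (a := a) (b := b) (g := g) (n := (Fintype.card ι : ℝ))
      (Matrix.traceLinearMap ι ℝ ℝ) (fun u v => Matrix.trace_mul_comm u v) (by simp)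
      (by
        have := htA 1 le_rfl (by omega)
        simpa [alt] using this) ha hA s h1 h2
    exact h3
  refine ⟨d, ?_⟩
  have hf := sS_formula (a := a) (b := b) (α := α) ha hb hs s h0
  rw [← hg, ← hSd] at hf
  have hc : (1+a) ≠ 0 := by positivity
  rw [Matrix.trace_smul, htr, smul_eq_mul] at hd
  have hn : (Fintype.card ι : ℝ) = d * S * (1+a)^2 := by
    rw [← hd]
    field_simp
  rw [hn]
  calc (d:ℝ) * (2 * ((s:ℝ)+2)) * ((a + b + xX a b α) * (1 + a*b - xX a b α))
      = d * (2 * ((s:ℝ)+2) * ((a + b + xX a b α) * (1 + a*b - xX a b α))) := by ring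
    _ = d * (S * (1+a)^2 * (4*(a*b) - (xX a b α)^2)) := by rw [hf]
    _ = _ := by ring

/-! ### doubling -/

theorem trace_blocks (p q r t : Matrix ι ι ℝ) :
    (Matrix.fromBlocks p q r t).trace = p.trace + t.trace := by
  simp [Matrix.trace, Fintype.sum_sum_type]

/-- block pattern -/
noncomputable def dD (l : ℕ) (x y : Matrix ι ι ℝ) : Matrix (ι ⊕ ι) (ι ⊕ ι) ℝ :=
  if Even l then Matrix.fromBlocks x 0 0 y else Matrix.fromBlocks 0 x y 0

/-- the swap -/
noncomputable def swapM : Matrix (ι ⊕ ι) (ι ⊕ ι) ℝ := Matrix.fromBlocks 0 1 1 0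

/-- the diagonal element -/
noncomputable def diagM (A B : Matrix ι ι ℝ) : Matrix (ι ⊕ ι) (ι ⊕ ι) ℝ := Matrix.fromBlocks A 0 0 B

theorem step1 (A B x y : Matrix ι ι ℝ) (l : ℕ) :
    diagM A B * (swapM * dD l x y) = dD (l+1) (A * y) (B * x) := by
  by_cases hl : Even l
  · have hl' : ¬ Even (l+1) := by simpa [Nat.even_add_one] using hl
    simp only [dD, hl, hl', if_true, if_false, diagM, swapM, Matrix.fromBlocks_multiply]
    simp
  · have hl' : Even (l+1) := by simpa [Nat.even_add_one] using hl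
    simp only [dD, hl, hl', if_true, if_false, diagM, swapM, Matrix.fromBlocks_multiply]
    simp

theorem step2 (A B x y : Matrix ι ι ℝ) (l : ℕ) :
    swapM * (diagM A B * dD l y x) = dD (l+1) (B * x) (A * y) := by
  by_cases hl : Even l
  · have hl' : ¬ Even (l+1) := by simpa [Nat.even_add_one] using hl
    simp only [dD, hl, hl', if_true, if_false, diagM, swapM, Matrix.fromBlocks_multiply]
    simp
  · have hl' : Even (l+1) := by simpa [Nat.even_add_one] using hl
    simp only [dD, hl, hl', if_true, if_false, diagM, swapM, Matrix.fromBlocks_multiply]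
    simp

theorem alt_double (A B : Matrix ι ι ℝ) (l : ℕ) :
    alt (diagM A B) swapM (2*l) = dD l (alt A B l) (alt B A l) ∧
    alt swapM (diagM A B) (2*l) = dD l (alt B A l) (alt A B l) := by
  induction l with
  | zero =>
    simp only [mul_zero, alt, dD, Even.zero, if_true]
    simp
  | succ l ih =>
    have e : 2*(l+1) = 2*l+1+1 := by ring
    constructor
    · rw [e, alt_succ, alt_succ, ih.1, step1, alt_succ, alt_succ]
    · rw [e, alt_succ, alt_succ, ih.2, step2, alt_succ, alt_succ]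

theorem trace_dD (l : ℕ) (x y : Matrix ι ι ℝ) (hx : x.trace = 0) (hy : y.trace = 0) :
    (dD l x y).trace = 0 := by
  by_cases hl : Even l <;> simp [dD, hl, trace_blocks, hx, hy]

theorem trace_swap_dD (l : ℕ) (x y : Matrix ι ι ℝ) (hx : x.trace = 0) (hy : y.trace = 0) :
    (swapM * dD l x y).trace = 0 := by
  by_cases hl : Even l <;>
    simp [dD, hl, swapM, Matrix.fromBlocks_multiply, trace_blocks, hx, hy]

theorem trace_diag_dD (A B : Matrix ι ι ℝ) (l : ℕ) (x y : Matrix ι ι ℝ)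
    (hx : (A * x).trace = 0) (hy : (B * y).trace = 0) :
    (diagM A B * dD l x y).trace = 0 := by
  by_cases hl : Even l <;>
    simp [dD, hl, diagM, Matrix.fromBlocks_multiply, trace_blocks, hx, hy]

/-- the doubled core statement -/
theorem core_odd (A B : Matrix ι ι ℝ) {q : ℝ} (hq : 0 < q)
    (hA : A * A = (q-1) • A + q • 1) (hB : B * B = (q-1) • B + q • 1) (s : ℕ)
    (hbr : alt A B (s+2) = alt B A (s+2))
    (htA : ∀ k, 1 ≤ k → k ≤ s+2 → (alt A B k).trace = 0)
    (htB : ∀ k, 1 ≤ k → k ≤ s+2 → (alt B A k).trace = 0)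
    (j : ℕ) (hj1 : 1 ≤ j) (hj2 : j < s+2) :
    ∃ d : ℕ, (d:ℝ) * (2 * ((s:ℝ)+2)) *
        ((1 + q + xX 1 q (π * j / ((s:ℝ)+2))) * (1 + 1*q - xX 1 q (π * j / ((s:ℝ)+2))))
      = (2 * Fintype.card ι : ℝ) * (4*(1*q) - (xX 1 q (π * j / ((s:ℝ)+2)))^2) := by
  have hA2 : (swapM : Matrix (ι ⊕ ι) (ι ⊕ ι) ℝ) * swapM = ((1:ℝ)-1) • swapM + (1:ℝ) • 1 := by
    simp only [swapM, Matrix.fromBlocks_multiply]
    simp
  have hB2 : diagM A B * diagM A B = (q-1) • diagM A B + q • 1 := by
    simp only [diagM, Matrix.fromBlocks_multiply]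
    simp only [mul_zero, zero_mul, add_zero, zero_add, hA, hB]
    rw [Matrix.fromBlocks_smul, ← Matrix.fromBlocks_one, Matrix.fromBlocks_smul,
      Matrix.fromBlocks_add]
    simp
  have := core_even (swapM : Matrix (ι ⊕ ι) (ι ⊕ ι) ℝ) (diagM A B) (a := 1) (b := q) one_pos hq hA2 hB2 s
    (by
      rw [(alt_double A B (s+2)).1, (alt_double A B (s+2)).2, hbr])
    (by
      intro k hk1 hk2
      obtain ⟨l, rfl | rfl⟩ := Nat.even_or_odd' k
      · rw [(alt_double A B l).2]
        exact trace_dD l _ _ (htB l (by omega) (by omega)) (htA l (by omega) (by omega))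
      · rw [alt_succ, (alt_double A B l).1]
        rcases Nat.eq_zero_or_pos l with rfl | hl
        · simp [alt, dD, swapM, trace_blocks]
        · exact trace_swap_dD l _ _ (htA l (by omega) (by omega)) (htB l (by omega) (by omega)))
    (by
      intro k hk1 hk2
      obtain ⟨l, rfl | rfl⟩ := Nat.even_or_odd' k
      · rw [(alt_double A B l).1]
        exact trace_dD l _ _ (htA l (by omega) (by omega)) (htB l (by omega) (by omega))
      · rw [alt_succ, (alt_double A B l).2]
        apply trace_diag_dD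
        · rw [← alt_succ]; exact htA _ (by omega) (by omega)
        · rw [← alt_succ]; exact htB _ (by omega) (by omega))
    j hj1 hj2
  obtain ⟨d, hd⟩ := this
  refine ⟨d, ?_⟩
  rw [hd, Fintype.card_sum]
  push_cast
  ring

end Cfsg.Agent.H05.FH
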