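import Cfsg.Agent.Lib.H05.FH6

set_option autoImplicit false
set_option linter.unusedSectionVars false
set_option linter.unusedVariables false
set_option linter.unusedSimpArgs false

namespace Cfsg.Agent.H05.FH

open Real

/-- two multiplicities force rationality -/
theorem x_rat (a b n m d1 d2 : ℕ) (ha : 2 ≤ a) (hb : 2 ≤ b) (hn : 0 < n) (hm : 0 < m) (x : ℝ)
    (hx : x^2 < 4*((a:ℝ)*b))
    (h1 : (d1:ℝ) * m * (((a:ℝ) + b + x) * (1 + (a:ℝ)*b - x)) = n * (4*((a:ℝ)*b) - x^2))
    (h2 : (d2:ℝ) * m * (((a:ℝ) + b - x) * (1 + (a:ℝ)*b + x)) = n * (4*((a:ℝ)*b) - x^2)) :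
    ∃ q : ℚ, x = q := by
  have ha' : (2:ℝ) ≤ a := by exact_mod_cast ha
  have hb' : (2:ℝ) ≤ b := by exact_mod_cast hb
  have hn' : (0:ℝ) < n := by exact_mod_cast hn
  set A : ℝ := 4*((a:ℝ)*b) with hA
  set C : ℝ := ((a:ℝ)+b)*(1+(a:ℝ)*b) with hC
  set T : ℝ := ((a:ℝ)-1)*((b:ℝ)-1) with hT
  have hTpos : 0 < T := by
    rw [hT]; apply mul_pos <;> linarith
  have hCA : A < C := by
    rw [hA, hC]
    nlinarith [mul_pos (show (0:ℝ) < a by linarith) (show (0:ℝ) < b by linarith)]
  set D1 : ℝ := (d1:ℝ) * m with hD1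
  set D2 : ℝ := (d2:ℝ) * m with hD2
  set N : ℝ := (n:ℝ) with hN
  have e1 : D1 * (C + T * x - x^2) = N * (A - x^2) := by
    rw [← h1, hC, hT]; ring
  have e2 : D2 * (C - T * x - x^2) = N * (A - x^2) := by
    rw [← h2, hC, hT]; ring
  have key : (N * (D1 + D2) - 2 * D1 * D2) * T * x + N * (D1 - D2) * (C - A) = 0 := by
    linear_combination (N - D2) * e1 + (N - D1) * e2 * (-1)
  by_cases hE : (N * (D1 + D2) - 2 * D1 * D2) * T = 0
  · rw [hE, zero_mul, zero_add] at key
    have hD : D1 = D2 := by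
      have h3 : C - A ≠ 0 := (sub_pos.mpr hCA).ne'
      have h4 : N * (D1 - D2) = 0 := by
        rcases mul_eq_zero.mp key with h | h
        · exact h
        · exact absurd h h3
      rcases mul_eq_zero.mp h4 with h | h
      · exact absurd h hn'.ne'
      · linarith
    have hE' : N * (D1 + D2) - 2 * D1 * D2 = 0 := by
      rcases mul_eq_zero.mp hE with h | h
      · exact h
      · exact absurd h hTpos.ne'
    rw [← hD] at hE'
    have h5 : D1 * (N - D1) = 0 := by linear_combination hE' / 2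
    rcases mul_eq_zero.mp h5 with h | h
    · exfalso
      rw [h, zero_mul] at e1
      have : A - x^2 > 0 := by rw [hA]; linarith
      have : N * (A - x^2) > 0 := mul_pos hn' this
      linarith
    · have h6 : D1 = N := by linarith
      rw [h6] at e1
      have h7 : N * (T * x + C - A) = 0 := by linear_combination e1
      have h8 : T * x + C - A = 0 := by
        rcases mul_eq_zero.mp h7 with h | h
        · exact absurd h hn'.ne'
        · exact h
      refine ⟨(4*((a:ℚ)*b) - ((a:ℚ)+b)*(1+(a:ℚ)*b)) / (((a:ℚ)-1)*((b:ℚ)-1)), ?_⟩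
      push_cast
      rw [eq_div_iff hTpos.ne']
      rw [hA, hC, hT] at h8
      linear_combination h8
  · refine ⟨- ((n:ℚ) * ((d1:ℚ) * m - (d2:ℚ) * m) * (((a:ℚ)+b)*(1+(a:ℚ)*b) - 4*((a:ℚ)*b)))
        / (((n:ℚ) * ((d1:ℚ) * m + (d2:ℚ) * m) - 2 * ((d1:ℚ) * m) * ((d2:ℚ) * m)) * (((a:ℚ)-1)*((b:ℚ)-1))), ?_⟩
    push_cast
    rw [eq_div_iff hE]
    linear_combination key

/-- rationality of `cos (2π/m)` implies the list -/
theorem niven_list (r : ℕ) (hr : 2 ≤ r) (h : ∃ q : ℚ, cos (2 * π / r) = q) :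
    r = 2 ∨ r = 3 ∨ r = 4 ∨ r = 6 := by
  have hr0 : (0:ℚ) < r := by exact_mod_cast (by omega : 0 < r)
  have hr1 : (2:ℚ) ≤ r := by exact_mod_cast hr
  have e : (((2:ℚ)/r : ℚ) : ℝ) * π = 2 * π / r := by push_cast; ring
  have hb : ((2:ℚ)/r) ∈ Set.Icc (0:ℚ) 1 := by
    constructor
    · positivity
    · rw [div_le_one hr0]; exact hr1
  have := niven_angle_div_pi_eq (r := (2:ℚ)/r) (by rw [e]; exact h) hb
  simp only [Set.mem_insert_iff, Set.mem_singleton_iff] at this
  have hr0' : (r:ℚ) ≠ 0 := hr0.ne'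
  rcases this with h | h | h | h | h
  · exfalso
    rw [div_eq_zero_iff] at h
    rcases h with h | h
    · norm_num at h
    · exact hr0' h
  · right; right; right
    have : (r:ℚ) = 6 := by field_simp at h; linarith
    exact_mod_cast this
  · right; right; left
    have : (r:ℚ) = 4 := by field_simp at h; linarith
    exact_mod_cast this
  · right; left
    have : (r:ℚ) = 3 := by field_simp at h; linarith
    exact_mod_cast this
  · left
    have : (r:ℚ) = 2 := by field_simp at h; linarith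
    exact_mod_cast this

variable {ι : Type*} [Fintype ι] [DecidableEq ι]

theorem isUnit_gen (A : Matrix ι ι ℝ) {a : ℝ} (ha : a ≠ 0) (hA : A * A = (a-1) • A + a • 1) :
    IsUnit A := by
  refine ⟨⟨A, a⁻¹ • (A - (a-1) • 1), ?_, ?_⟩, rfl⟩
  · rw [mul_smul_comm, mul_sub, hA, mul_smul_comm, mul_one, add_sub_cancel_left, smul_smul,
      inv_mul_cancel₀ ha, one_smul]
  · rw [smul_mul_assoc, sub_mul, hA, smul_mul_assoc, one_mul, add_sub_cancel_left, smul_smul,
      inv_mul_cancel₀ ha, one_smul]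

theorem alt_unit (A B : Matrix ι ι ℝ) (hA : IsUnit A) (hB : IsUnit B) (k : ℕ) :
    IsUnit (alt A B k) ∧ IsUnit (alt B A k) := by
  induction k with
  | zero => simp [alt]
  | succ k ih =>
    exact ⟨by rw [alt_succ]; exact hA.mul ih.2, by rw [alt_succ]; exact hB.mul ih.1⟩

/-- for odd `m` the two parameters agree -/
theorem params_eq [Nonempty ι] (A B : Matrix ι ι ℝ) {a b : ℝ} (ha : 0 < a) (hb : 0 < b)
    (hA : A * A = (a-1) • A + a • 1) (hB : B * B = (b-1) • B + b • 1) (l : ℕ)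
    (hbr : alt A B (2*l+1) = alt B A (2*l+1)) (htA : A.trace = 0) : a = b := by
  by_contra hne
  set Δ := alt A B (2*l+1) with hΔ
  have hAu := isUnit_gen A ha.ne' hA
  have hBu := isUnit_gen B hb.ne' hB
  have hΔu : IsUnit Δ := (alt_unit A B hAu hBu _).1
  have h1 : A * Δ = Δ * B := by
    have e1 : alt A B (2*l+2) = A * alt B A (2*l+1) := rfl
    have e2 := alt_even' B A l
    have e3 := alt_odd B A l
    calc A * Δ = A * alt B A (2*l+1) := by rw [hbr]
      _ = alt A B (2*l+1) * B := by rw [← e1, e2, e3]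
  have h2 : (A * A) * Δ = Δ * (B * B) := by
    rw [mul_assoc, h1, ← mul_assoc, h1, mul_assoc]
  rw [hA, hB, add_mul, mul_add, smul_mul_assoc, mul_smul_comm, h1, smul_mul_assoc, mul_smul_comm,
    one_mul, mul_one] at h2
  have h3 : ((a-b) • (A + 1)) * Δ = 0 := by
    rw [smul_mul_assoc, add_mul, h1, one_mul]
    have h4 : (a - 1) • A * Δ = (a-1) • (Δ * B) := by rw [smul_mul_assoc, h1]
    linear_combination (norm := module) h2
  have h4 : (a-b) • (A + 1) = 0 := by
    have := (hΔu.mul_left_inj).mp (by rw [h3, zero_mul] : ((a-b) • (A + 1)) * Δ = 0 * Δ)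
    exact this
  have h5 : A + 1 = 0 := by
    rcases smul_eq_zero.mp h4 with h | h
    · exact absurd (sub_eq_zero.mp h) hne
    · exact h
  have h6 : A = -1 := eq_neg_of_add_eq_zero_left h5
  rw [h6] at htA
  simp at htA

end Cfsg.Agent.H05.FH
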