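import Cfsg.Agent.Lib.H01.OmegaApps
import Cfsg.Agent.Lib.H09.KSeq2

/-!
# `p`-groups acting with constant stabilizer orders
-/

set_option autoImplicit false
set_option linter.style.haveILetI false
set_option linter.unusedSectionVars false
set_option linter.unusedVariables false
set_option linter.unusedSimpArgs false

namespace Cfsg.Agent.H05

open Subgroup Cfsg

section

variable {P E : Type*} [Group P] [Finite P] [AddCommGroup E] [Finite E] [DistribMulAction P E]

/-- The norm of an element. -/
def normN (p : ℕ) (w : P) (v : E) : E := ∑ k ∈ Finset.range p, w ^ k • v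

theorem normN_add (p : ℕ) (w : P) (u v : E) : normN p w (u + v) = normN p w u + normN p w v := by
  unfold normN
  simp only [smul_add, Finset.sum_add_distrib]

theorem normN_fix (p : ℕ) (w : P) {v : E} (h : w • v = v) : normN p w v = p • v := by
  unfold normN
  have h1 : ∀ k : ℕ, w ^ k • v = v := by
    intro k
    induction k with
    | zero => simp
    | succ k ih => rw [pow_succ, mul_smul, h, ih]
  simp only [h1, Finset.sum_const, Finset.card_range]

theorem smul_normN (p : ℕ) (w h : P) (hc : h * w = w * h) (v : E) : h • normN p w v = normN p w (h • v) := by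
  unfold normN
  rw [Finset.smul_sum]
  apply Finset.sum_congr rfl
  intro k _
  rw [← mul_smul, ← mul_smul, (Commute.pow_right (Commute.eq hc) k).eq]

theorem smul_normN_conj (p : ℕ) (w h : P) (v : E) : h • normN p w v = normN p (h * w * h⁻¹) (h • v) := by
  unfold normN
  rw [Finset.smul_sum]
  apply Finset.sum_congr rfl
  intro k _
  rw [conj_pow, ← mul_smul, ← mul_smul]
  congr 1
  group

theorem normN_fixed (p : ℕ) (w : P) (hp : w ^ p = 1) (v : E) : w • normN p w v = normN p w v := by
  unfold normN
  rw [Finset.smul_sum]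
  simp only [← mul_smul, ← pow_succ']
  have h1 := Finset.sum_range_succ' (fun k => w ^ k • v) p
  have h2 := Finset.sum_range_succ (fun k => w ^ k • v) p
  rw [h1] at h2
  simp only [hp, pow_zero, one_smul] at h2
  exact add_right_cancel h2

theorem fix_of_mem_zpowers {y z : P} (hz : z ∈ zpowers y) {a : E} (h : y • a = a) : z • a = a := by
  have h1 : y ∈ MulAction.stabilizer P a := h
  have h2 : zpowers y ≤ MulAction.stabilizer P a := zpowers_le.mpr h1
  exact h2 hz

theorem mem_zpowers_symm' {p : ℕ} (hp : p.Prime) {x y : P} (hy : y ^ p = 1) (hx : x ∈ zpowers y) (hx1 : x ≠ 1) :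
    y ∈ zpowers x := by
  have h1 : orderOf y ∣ p := orderOf_dvd_of_pow_eq_one hy
  have h2 : zpowers x ≤ zpowers y := zpowers_le.mpr hx
  have h3 : Nat.card (zpowers x) ∣ Nat.card (zpowers y) := Subgroup.card_dvd_of_le h2
  rw [Nat.card_zpowers, Nat.card_zpowers] at h3
  have h4 : orderOf x ≠ 1 := fun h => hx1 (orderOf_eq_one_iff.mp h)
  have h5 : orderOf x = orderOf y := by
    rcases (Nat.dvd_prime hp).mp h1 with h6 | h6
    · rw [h6] at h3
      exact absurd (Nat.dvd_one.mp h3) h4
    · rw [h6] at h3 ⊢
      exact ((Nat.dvd_prime hp).mp h3).resolve_left h4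
  have h6 : zpowers x = zpowers y := Subgroup.eq_of_le_of_card_ge h2 (by
    rw [Nat.card_zpowers, Nat.card_zpowers, h5])
  rw [h6]
  exact mem_zpowers y

end

section

variable {P E : Type*} [Group P] [Finite P]
    [AddCommGroup E] [Finite E] [DistribMulAction P E] [FaithfulSMul P E]
    {p q : ℕ} [hpf : Fact p.Prime]

theorem fpf_faith (g : P) (h : ∀ v : E, g • v = v) : g = 1 :=
  FaithfulSMul.eq_of_smul_eq_smul (α := E) (fun v => by simpa using h v)

/-- The case `q = p`. -/
theorem fpf_same (hP : IsPGroup p P) (hE : ∀ e : E, p • e = 0)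
    (hconst : ∀ a b : E, a ≠ 0 → b ≠ 0 →
      Nat.card (MulAction.stabilizer P a) = Nat.card (MulAction.stabilizer P b)) : Subsingleton P := by
  classical
  rw [← not_nontrivial_iff_subsingleton]
  intro hnt
  obtain ⟨g, hg⟩ := exists_ne (1 : P)
  by_cases hE0 : Subsingleton E
  · exact hg (fpf_faith (E := E) g (fun v => Subsingleton.elim _ _))
  rw [not_subsingleton_iff_nontrivial] at hE0
  have hEp : IsPGroup p (Multiplicative E) := by
    intro x
    refine ⟨1, ?_⟩
    rw [pow_one]
    exact hE (Multiplicative.toAdd x)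
  obtain ⟨n, hn⟩ := IsPGroup.iff_card.mp hEp
  have hn' : Nat.card E = p ^ n := hn
  have hpp : p.Prime := hpf.out
  have h1 : 1 < Nat.card E := Finite.one_lt_card
  have hdvd : p ∣ Nat.card E := by
    rw [hn']
    apply dvd_pow_self
    rintro rfl
    rw [pow_zero] at hn'
    omega
  have h2 := hP.card_modEq_card_fixedPoints E
  have h3 : p ∣ Nat.card (MulAction.fixedPoints P E) :=
    (Nat.modEq_zero_iff_dvd.mp (h2.symm.trans (Nat.modEq_zero_iff_dvd.mpr hdvd)))
  have h0 : (0 : E) ∈ MulAction.fixedPoints P E := fun g => smul_zero g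
  have h4 : 0 < Nat.card (MulAction.fixedPoints P E) := by
    haveI : Nonempty (MulAction.fixedPoints P E) := ⟨⟨0, h0⟩⟩
    exact Nat.card_pos
  have h5 : 1 < Nat.card (MulAction.fixedPoints P E) := by
    have := Nat.le_of_dvd h4 h3
    have := hpp.two_le
    omega
  haveI : Nontrivial (MulAction.fixedPoints P E) := Finite.one_lt_card_iff_nontrivial.mp h5
  obtain ⟨⟨a, ha⟩, ha0⟩ := exists_ne (⟨0, h0⟩ : MulAction.fixedPoints P E)
  have ha0' : a ≠ 0 := fun h => ha0 (Subtype.ext h)
  apply hg
  apply fpf_faith (E := E)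
  intro v
  by_cases hv : v = 0
  · rw [hv, smul_zero]
  have h6 : MulAction.stabilizer P a = ⊤ := by
    rw [eq_top_iff]
    intro x _
    exact ha x
  have h7 := hconst a v ha0' hv
  rw [h6, Subgroup.card_top] at h7
  have h8 : MulAction.stabilizer P v = ⊤ := Subgroup.eq_top_of_card_eq _ h7.symm
  have h9 : g ∈ MulAction.stabilizer P v := by rw [h8]; trivial
  exact h9

/-- Central elements act freely. -/
theorem fpf_central (hqp : Nat.Coprime p q) (hq : q.Prime) (hE : ∀ e : E, q • e = 0)
    (hconst : ∀ a b : E, a ≠ 0 → b ≠ 0 →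
      Nat.card (MulAction.stabilizer P a) = Nat.card (MulAction.stabilizer P b))
    {z : P} (hzc : ∀ h : P, h * z = z * h) (hzp : z ^ p = 1) (hz1 : z ≠ 1) (a : E) (hfix : z • a = a) : a = 0 := by
  classical
  have hpp : p.Prime := hpf.out
  obtain ⟨m, -, hm⟩ := Nat.exists_mul_mod_eq_one_of_coprime hqp hq.one_lt
  have hpm : ∀ x : E, p • m • x = x := by
    intro x
    rw [← mul_smul]
    have h1 : p * m = q * (p * m / q) + 1 := by
      have := Nat.div_add_mod (p * m) q
      rw [hm] at this
      exact this.symm
    rw [h1, add_smul, one_smul, mul_smul]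
    have h2 : q • (p * m / q) • x = (p * m / q) • q • x := smul_comm _ _ _
    rw [h2, hE, smul_zero, zero_add]
  have hinv : ∀ u v : E, p • u = p • v → u = v := by
    intro u v h
    rw [← hpm u, ← hpm v, smul_comm p m u, smul_comm p m v, h]
  by_contra ha
  obtain ⟨v, hv⟩ : ∃ v : E, z • v ≠ v := by
    by_contra hno
    push Not at hno
    exact hz1 (fpf_faith z hno)
  set y := m • normN p z v with hy
  have hpy : p • y = normN p z v := hpm _
  have hzy : z • y = y := by
    apply hinv
    rw [smul_comm, hpy, normN_fixed p z hzp]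
  set b := v - y with hb
  have hNb : normN p z b = 0 := by
    have h1 : v = b + y := by rw [hb]; abel
    have h2 := normN_add p z b y
    rw [← h1, normN_fix p z hzy, hpy] at h2
    exact (add_eq_right.mp h2.symm)
  have hzb : z • b ≠ b := by
    intro h
    apply hv
    have h1 : v = b + y := by rw [hb]; abel
    rw [h1, smul_add, h, hzy]
  have hc : normN p z (a + b) = p • a := by
    rw [normN_add, normN_fix p z hfix, hNb, add_zero]
  have hpa : p • a ≠ 0 := by
    intro h
    apply ha
    apply hinv
    rw [h, smul_zero]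
  have hc0 : a + b ≠ 0 := by
    intro h
    rw [h] at hc
    apply hpa
    rw [← hc]
    unfold normN
    simp
  have hle : MulAction.stabilizer P (a + b) ≤ MulAction.stabilizer P a := by
    intro h hh
    have h1 : h • (a + b) = a + b := hh
    have h2 : normN p z (h • (a + b)) = p • (h • a) := by
      have e1 : normN p z (h • a) = p • (h • a) := by
        rw [← smul_normN p z h (hzc h), normN_fix p z hfix, smul_comm]
      have e2 : normN p z (h • b) = 0 := by
        rw [← smul_normN p z h (hzc h), hNb, smul_zero]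
      rw [smul_add, normN_add, e1, e2, add_zero]
    rw [h1, hc] at h2
    exact (hinv _ _ h2).symm
  have heq : MulAction.stabilizer P (a + b) = MulAction.stabilizer P a :=
    Subgroup.eq_of_le_of_card_ge hle (by rw [hconst (a + b) a hc0 ha])
  have hz2 : z ∈ MulAction.stabilizer P (a + b) := by
    rw [heq]
    exact hfix
  have hz3 : z • (a + b) = a + b := hz2
  rw [smul_add, hfix] at hz3
  exact hzb (add_left_cancel hz3)

end

end Cfsg.Agent.H05
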