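import Cfsg.Agent.Lib.H05.FPF
import Cfsg.Agent.Lib.H05.QD3

/-!
# `p`-groups acting with constant stabilizer orders: cyclicity
-/

set_option autoImplicit false
set_option linter.style.haveILetI false
set_option linter.unusedSectionVars false
set_option linter.unusedVariables false
set_option linter.unusedSimpArgs false

namespace Cfsg.Agent.H05

open Subgroup Cfsg

section

variable {P : Type*} [Group P] [Finite P]

theorem odd_conj_fpf {h w : P} (hodd : Odd (orderOf h)) (h2 : (h * h) * w * (h * h)⁻¹ ∈ zpowers w) :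
    h * w * h⁻¹ ∈ zpowers w := by
  have hN : h * h ∈ normalizer ((zpowers w : Subgroup P) : Set P) := by
    apply nmem_of_conj
    intro x hx
    obtain ⟨k, rfl⟩ := mem_zpowers_iff.mp hx
    rw [← conj_zpow]
    exact Subgroup.zpow_mem _ h2 k
  obtain ⟨k, hk⟩ := hodd
  have h3 : h = (h * h) ^ (k + 1) := by
    have h4 : h ^ (2 * k + 1) = 1 := by rw [← hk]; exact pow_orderOf_eq_one h
    calc h = h ^ (2 * k + 1) * h := by rw [h4, one_mul]
      _ = (h * h) ^ (k + 1) := by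
        rw [← pow_two, ← pow_mul, ← pow_succ]
        congr 1
  have h5 : h ∈ normalizer ((zpowers w : Subgroup P) : Set P) := by
    rw [h3]
    exact Subgroup.pow_mem _ hN _
  exact (Subgroup.mem_normalizer_iff.mp h5 w).mp (mem_zpowers w)

theorem conj_mem_zpowers_iff (h x y : P) : h * x * h⁻¹ ∈ zpowers (h * y * h⁻¹) ↔ x ∈ zpowers y := by
  constructor
  · intro h1
    obtain ⟨k, hk⟩ := mem_zpowers_iff.mp h1
    rw [conj_zpow] at hk
    have h2 : y ^ k = x := by
      have := mul_left_cancel (mul_right_cancel hk)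
      exact this
    exact mem_zpowers_iff.mpr ⟨k, h2⟩
  · intro h1
    obtain ⟨k, rfl⟩ := mem_zpowers_iff.mp h1
    rw [← conj_zpow]
    exact Subgroup.zpow_mem_zpowers _ k

end

section

variable {P E : Type*} [Group P] [Finite P]
    [AddCommGroup E] [Finite E] [DistribMulAction P E] [FaithfulSMul P E]
    {p q : ℕ} [hpf : Fact p.Prime]

theorem fpf_cyclic (hp2 : p ≠ 2) (hP : IsPGroup p P) (hqp : Nat.Coprime p q) (hq : q.Prime) (hE : ∀ e : E, q • e = 0)
    (hconst : ∀ a b : E, a ≠ 0 → b ≠ 0 →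
      Nat.card (MulAction.stabilizer P a) = Nat.card (MulAction.stabilizer P b)) : IsCyclic P := by
  classical
  have hpp : p.Prime := hpf.out
  by_contra hnc
  obtain ⟨A, hAn, ⟨hAc, hAe⟩, hAcard⟩ := Cfsg.Agent.H01.exists_normal_elementary_sq hP hp2 hnc
  obtain ⟨m, -, hm⟩ := Nat.exists_mul_mod_eq_one_of_coprime hqp hq.one_lt
  have hpm : ∀ x : E, p • m • x = x := by
    intro x
    rw [← mul_smul]
    have h1 : p * m = q * (p * m / q) + 1 := by
      have := Nat.div_add_mod (p * m) q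
      rw [hm] at this
      exact this.symm
    rw [h1, add_smul, one_smul, mul_smul]
    have h2 : q • (p * m / q) • x = (p * m / q) • q • x := smul_comm _ _ _
    rw [h2, hE, smul_zero, zero_add]
  have hinv : ∀ u v : E, p • u = p • v → u = v := by
    intro u v h
    rw [← hpm u, ← hpm v, smul_comm p m u, smul_comm p m v, h]
  have hinv0 : ∀ u : E, p • u = 0 → u = 0 := by
    intro u h
    apply hinv
    rw [h, smul_zero]
  haveI := hAc
  have hAcomm : ∀ a ∈ A, ∀ b ∈ A, a * b = b * a := fun a ha b hb =>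
    congrArg Subtype.val (mul_comm' (⟨a, ha⟩ : A) ⟨b, hb⟩)
  have hA1 : A ≠ ⊥ := by
    intro h
    rw [h, Subgroup.card_bot] at hAcard
    have := hpp.two_le
    nlinarith
  have hinf := Cfsg.Agent.H09.normal_inf_center_ne_bot hP A hA1
  obtain ⟨⟨z, hzA, hzcen⟩, hz1⟩ := Subgroup.ne_bot_iff_exists_ne_one.1 hinf
  have hz1' : z ≠ 1 := fun h => hz1 (Subtype.ext h)
  have hzc : ∀ h : P, h * z = z * h := fun h => (Subgroup.mem_center_iff.mp hzcen h)
  have hzp : z ^ p = 1 := hAe z hzA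
  have hzo : orderOf z = p := orderOf_eq_prime hzp hz1'
  have hC := fpf_central (E := E) hqp hq hE hconst hzc hzp hz1'
  have hZcen : ∀ y ∈ zpowers z, ∀ h : P, h * y = y * h := by
    intro y hy h
    obtain ⟨k, rfl⟩ := mem_zpowers_iff.mp hy
    exact (Commute.zpow_right (hzc h) k).eq
  have hZA : zpowers z ≤ A := zpowers_le.mpr hzA
  have hNy : ∀ y ∈ zpowers z, y ≠ 1 → ∀ v : E, normN p y v = 0 := by
    intro y hy hy1 v
    have hyp : y ^ p = 1 := hAe y (hZA hy)
    have h1 := normN_fixed p y hyp v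
    have h2 := mem_zpowers_symm' hpp hzp hy hy1
    exact hC _ (fix_of_mem_zpowers h2 h1)
  obtain ⟨g, hgA, hgZ⟩ : ∃ g ∈ A, g ∉ zpowers z := by
    by_contra hno
    push Not at hno
    have h1 : A ≤ zpowers z := hno
    have h2 := Subgroup.card_le_of_le h1
    rw [hAcard, Nat.card_zpowers, hzo] at h2
    have := hpp.two_le
    nlinarith
  haveI hZn : (zpowers z).Normal := by
    constructor
    intro n hn k
    have h1 := hZcen n hn k
    rw [h1]
    simpa using hn
  have hform : ∀ w' ∈ A, w' ∉ zpowers z → ∀ w ∈ A, ∃ s : ℕ, ∃ y ∈ zpowers z, w = w' ^ s * y := by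
    intro w' hw' hw'Z w hw
    set L := zpowers w' ⊔ zpowers z with hL
    have hLA : L ≤ A := sup_le (zpowers_le.mpr hw') hZA
    have h1 : Nat.card L ∣ p ^ 2 := by
      rw [← hAcard]
      exact Subgroup.card_dvd_of_le hLA
    have h2 : p ∣ Nat.card L := by
      have := Subgroup.card_dvd_of_le (le_sup_right : zpowers z ≤ L)
      rwa [Nat.card_zpowers, hzo] at this
    have h3 : Nat.card L ≠ p := by
      intro h
      have h4 : zpowers z = L := Subgroup.eq_of_le_of_card_ge le_sup_right (by rw [h, Nat.card_zpowers, hzo])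
      apply hw'Z
      rw [h4]
      exact Subgroup.mem_sup_left (mem_zpowers w')
    obtain ⟨j, hj, hjc⟩ := (Nat.dvd_prime_pow hpp).mp h1
    have hj2 : j = 2 := by
      interval_cases j
      · rw [pow_zero] at hjc
        rw [hjc] at h2
        exact absurd (Nat.dvd_one.mp h2) hpp.one_lt.ne'
      · rw [pow_one] at hjc
        exact absurd hjc h3
      · rfl
    have hLeq : L = A := Subgroup.eq_of_le_of_card_ge hLA (by rw [hAcard, hjc, hj2])
    have hwL : w ∈ L := by rw [hLeq]; exact hw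
    obtain ⟨a, ha, y, hy, rfl⟩ := Subgroup.mem_sup_of_normal_right.mp hwL
    obtain ⟨s, hs⟩ := mem_powers_iff_mem_zpowers.2 ha
    refine ⟨s, y, hy, ?_⟩
    rw [← hs]
  have hkill : ∀ w' ∈ A, w' ∉ zpowers z → ∀ w ∈ A, w ∉ zpowers w' → ∀ a : E, w' • a = a → normN p w a = 0 := by
    intro w' hw' hw'Z w hw hww a ha
    obtain ⟨s, y, hy, rfl⟩ := hform w' hw' hw'Z w hw
    have hy1 : y ≠ 1 := by
      rintro rfl
      apply hww
      rw [mul_one]
      exact Subgroup.pow_mem _ (mem_zpowers w') s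
    have h1 : ∀ k : ℕ, (w' ^ s * y) ^ k • a = y ^ k • a := by
      intro k
      have hcm : Commute (w' ^ s) y := (hZcen y hy (w' ^ s))
      have hcm2 : (w' ^ s) ^ k * y ^ k = y ^ k * (w' ^ s) ^ k := ((hcm.pow_left k).pow_right k).eq
      rw [hcm.mul_pow, hcm2, mul_smul]
      congr 1
      exact fix_of_mem_zpowers (Subgroup.pow_mem _ (Subgroup.pow_mem _ (mem_zpowers w') s) k) ha
    have h2 : normN p (w' ^ s * y) a = normN p y a := by
      unfold normN
      exact Finset.sum_congr rfl (fun k _ => h1 k)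
    rw [h2]
    exact hNy y hy hy1 a
  -- the sum formula
  have hwA : ∀ i : ℕ, g * z ^ i ∈ A := fun i => A.mul_mem hgA (Subgroup.pow_mem _ hzA i)
  have hwZ : ∀ i : ℕ, g * z ^ i ∉ zpowers z := by
    intro i h
    apply hgZ
    have h1 := (zpowers z).mul_mem h ((zpowers z).inv_mem (Subgroup.pow_mem _ (mem_zpowers z) i))
    simpa using h1
  have hsum : ∀ v : E, ∑ i ∈ Finset.range p, normN p (g * z ^ i) v = p • v := by
    intro v
    have h1 : ∀ i k : ℕ, (g * z ^ i) ^ k • v = g ^ k • ((z ^ k) ^ i • v) := by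
      intro i k
      have hcm : Commute g (z ^ i) := (Commute.pow_right (hzc g) i)
      rw [hcm.mul_pow, mul_smul, ← pow_mul, ← pow_mul, mul_comm i k]
    unfold normN
    simp only [h1]
    rw [Finset.sum_comm]
    simp only [← Finset.smul_sum]
    rw [Finset.sum_eq_single 0]
    · simp
    · intro k hk hk0
      have hk' : k < p := Finset.mem_range.mp hk
      have hz0 : z ^ k ≠ 1 := by
        intro h
        have := orderOf_dvd_of_pow_eq_one h
        rw [hzo] at this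
        have := Nat.le_of_dvd (Nat.pos_of_ne_zero hk0) this
        omega
      have := hNy _ (Subgroup.pow_mem _ (mem_zpowers z) k) hz0 v
      unfold normN at this
      rw [this, smul_zero]
    · intro h
      exact absurd (Finset.mem_range.mpr hpp.pos) h
  -- the first vector
  obtain ⟨v₀, hv₀⟩ : ∃ v : E, z • v ≠ v := by
    by_contra hno
    push Not at hno
    exact hz1' (fpf_faith z hno)
  have hv₀0 : v₀ ≠ 0 := by
    rintro rfl
    exact hv₀ (smul_zero z)
  obtain ⟨i₁, hi₁, ha₁⟩ : ∃ i ∈ Finset.range p, normN p (g * z ^ i) v₀ ≠ 0 := by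
    apply Finset.exists_ne_zero_of_sum_ne_zero
    rw [hsum]
    exact fun h => hv₀0 (hinv0 _ h)
  set w₁ := g * z ^ i₁ with hw₁
  set a₁ := normN p w₁ v₀ with ha₁def
  have hw₁A : w₁ ∈ A := hwA i₁
  have hw₁Z : w₁ ∉ zpowers z := hwZ i₁
  have hw₁p : w₁ ^ p = 1 := hAe _ hw₁A
  have hfix₁ : w₁ • a₁ = a₁ := normN_fixed p w₁ hw₁p v₀
  have hw₁1 : w₁ ≠ 1 := fun h => hw₁Z (by rw [h]; exact Subgroup.one_mem _)
  obtain ⟨v₁, hv₁⟩ : ∃ v : E, w₁ • v ≠ v := by
    by_contra hno
    push Not at hno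
    exact hw₁1 (fpf_faith w₁ hno)
  obtain ⟨i₂, hi₂, hi₂₁, ha₂⟩ : ∃ i ∈ Finset.range p, i ≠ i₁ ∧ normN p (g * z ^ i) v₁ ≠ 0 := by
    by_contra hno
    push Not at hno
    have h1 := hsum v₁
    rw [Finset.sum_eq_single i₁ (fun i hi hne => hno i hi hne) (fun h => absurd hi₁ h)] at h1
    apply hv₁
    apply hinv
    rw [smul_comm, ← h1]
    exact normN_fixed p w₁ hw₁p v₁
  set w₂ := g * z ^ i₂ with hw₂
  set a₂ := normN p w₂ v₁ with ha₂def
  have hw₂A : w₂ ∈ A := hwA i₂
  have hw₂Z : w₂ ∉ zpowers z := hwZ i₂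
  have hw₂p : w₂ ^ p = 1 := hAe _ hw₂A
  have hfix₂ : w₂ • a₂ = a₂ := normN_fixed p w₂ hw₂p v₁
  have hw₂1 : w₂ ≠ 1 := fun h => hw₂Z (by rw [h]; exact Subgroup.one_mem _)
  -- independence
  have h21 : w₂ ∉ zpowers w₁ := by
    intro hin
    have h1 : w₂ * w₁⁻¹ ∈ zpowers w₁ := (zpowers w₁).mul_mem hin ((zpowers w₁).inv_mem (mem_zpowers w₁))
    have h2 : w₂ * w₁⁻¹ = z ^ i₂ * (z ^ i₁)⁻¹ := by
      have hcm : Commute (z ^ i₁) (z ^ i₂) := Commute.pow_pow_self z i₁ i₂
      rw [hw₁, hw₂, mul_inv_rev]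
      have h3 : (z ^ i₁)⁻¹ * g⁻¹ = g⁻¹ * (z ^ i₁)⁻¹ := by
        have hcg : Commute g⁻¹ (z ^ i₁)⁻¹ := (Commute.pow_right (hzc g) i₁).inv_inv
        exact hcg.eq.symm
      rw [h3]
      have h4 : Commute g (z ^ i₂) := Commute.pow_right (hzc g) i₂
      calc g * z ^ i₂ * (g⁻¹ * (z ^ i₁)⁻¹) = (z ^ i₂ * g) * (g⁻¹ * (z ^ i₁)⁻¹) := by rw [h4.eq]
        _ = _ := by group
    have h5 : z ^ i₂ * (z ^ i₁)⁻¹ ∈ zpowers z :=
      (zpowers z).mul_mem (Subgroup.pow_mem _ (mem_zpowers z) i₂) ((zpowers z).inv_mem (Subgroup.pow_mem _ (mem_zpowers z) i₁))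
    by_cases h6 : z ^ i₂ * (z ^ i₁)⁻¹ = 1
    · have h7 : z ^ i₂ = z ^ i₁ := mul_inv_eq_one.mp h6
      have h8 := pow_injOn_Iio_orderOf (show i₂ ∈ Set.Iio (orderOf z) by
        rw [hzo]
        exact Finset.mem_range.mp hi₂) (show i₁ ∈ Set.Iio (orderOf z) by
        rw [hzo]
        exact Finset.mem_range.mp hi₁) h7
      exact hi₂₁ h8
    · have h7 : z ∈ zpowers (z ^ i₂ * (z ^ i₁)⁻¹) := mem_zpowers_symm' hpp hzp h5 h6
      have h8 : z ∈ zpowers w₁ := by
        rw [← h2] at h7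
        exact (zpowers_le.mpr h1) h7
      exact hw₁Z (mem_zpowers_symm' hpp hw₁p h8 hz1')
  have h12 : w₁ ∉ zpowers w₂ := fun hin => h21 (mem_zpowers_symm' hpp hw₂p hin hw₁1)
  have hNa₁ : normN p w₁ a₁ = p • a₁ := normN_fix p w₁ hfix₁
  have hNa₂ : normN p w₂ a₂ = p • a₂ := normN_fix p w₂ hfix₂
  have hN12 : normN p w₁ a₂ = 0 := hkill w₂ hw₂A hw₂Z w₁ hw₁A h12 a₂ hfix₂
  have hN21 : normN p w₂ a₁ = 0 := hkill w₁ hw₁A hw₁Z w₂ hw₂A h21 a₁ hfix₁
  have hpodd : ∀ h : P, Odd (orderOf h) := by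
    intro h
    obtain ⟨k, hk⟩ := hP h
    obtain ⟨j, -, hj⟩ := (Nat.dvd_prime_pow hpp).mp (orderOf_dvd_of_pow_eq_one hk)
    rw [hj]
    exact Odd.pow (hpp.odd_of_ne_two hp2)
  -- the stabilizer
  have hstab : ∀ h : P, h • (a₁ + a₂) = a₁ + a₂ → h • a₁ = a₁ ∧ h • a₂ = a₂ := by
    intro h hh
    have hconj : ∀ w ∈ A, h * w * h⁻¹ ∈ A := fun w hw => hAn.conj_mem w hw h
    have hconjZ : ∀ w, w ∉ zpowers z → h * w * h⁻¹ ∉ zpowers z := by
      intro w hw hin
      apply hw
      have h1 := hZcen _ hin h⁻¹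
      have h2 : w = h⁻¹ * (h * w * h⁻¹) * h := by group
      rw [h2, h1]
      simpa using hin
    set u := h * w₁ * h⁻¹ with hu
    set u' := h * w₂ * h⁻¹ with hu'
    have huA : u ∈ A := hconj w₁ hw₁A
    have hu'A : u' ∈ A := hconj w₂ hw₂A
    have huZ : u ∉ zpowers z := hconjZ w₁ hw₁Z
    have hu'Z : u' ∉ zpowers z := hconjZ w₂ hw₂Z
    have hu1 : u ≠ 1 := fun h0 => huZ (by rw [h0]; exact Subgroup.one_mem _)
    have hu'1 : u' ≠ 1 := fun h0 => hu'Z (by rw [h0]; exact Subgroup.one_mem _)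
    have hfu : u • (h • a₁) = h • a₁ := by
      rw [← mul_smul, hu]
      have : h * w₁ * h⁻¹ * h = h * w₁ := by group
      rw [this, mul_smul, hfix₁]
    have hfu' : u' • (h • a₂) = h • a₂ := by
      rw [← mul_smul, hu']
      have : h * w₂ * h⁻¹ * h = h * w₂ := by group
      rw [this, mul_smul, hfix₂]
    have huu' : u ∉ zpowers u' := fun hin => h12 ((conj_mem_zpowers_iff h w₁ w₂).mp hin)
    have hu'u : u' ∉ zpowers u := fun hin => h21 ((conj_mem_zpowers_iff h w₂ w₁).mp hin)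
    have hha₁ : h • a₁ ≠ 0 := by
      intro h0
      have h1 : a₁ = h⁻¹ • h • a₁ := by simp
      rw [h0, smul_zero] at h1
      exact ha₁ h1
    have hha₂ : h • a₂ ≠ 0 := by
      intro h0
      have h1 : a₂ = h⁻¹ • h • a₂ := by simp
      rw [h0, smul_zero] at h1
      exact ha₂ h1
    have hsplit : h • a₁ + h • a₂ = a₁ + a₂ := by rw [← smul_add, hh]
    have hNu : normN p u (a₁ + a₂) = p • (h • a₁) := by
      rw [← hsplit, normN_add, normN_fix p u hfu, hkill u' hu'A hu'Z u huA huu' _ hfu', add_zero]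
    have hNu' : normN p u' (a₁ + a₂) = p • (h • a₂) := by
      rw [← hsplit, normN_add, normN_fix p u' hfu', hkill u huA huZ u' hu'A hu'u _ hfu, zero_add]
    have step1 : u ∈ zpowers w₁ ∨ u ∈ zpowers w₂ := by
      by_contra hno
      push Not at hno
      rw [normN_add, hkill w₁ hw₁A hw₁Z u huA hno.1 a₁ hfix₁, hkill w₂ hw₂A hw₂Z u huA hno.2 a₂ hfix₂, add_zero] at hNu
      exact hha₁ (hinv0 _ hNu.symm)
    have step2 : u' ∈ zpowers w₁ ∨ u' ∈ zpowers w₂ := by
      by_contra hno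
      push Not at hno
      rw [normN_add, hkill w₁ hw₁A hw₁Z u' hu'A hno.1 a₁ hfix₁, hkill w₂ hw₂A hw₂Z u' hu'A hno.2 a₂ hfix₂, add_zero] at hNu'
      exact hha₂ (hinv0 _ hNu'.symm)
    -- `u` lies in the first subgroup
    have hgen : ∀ x y : P, x ∈ zpowers y → x ≠ 1 → y ^ p = 1 → zpowers y = zpowers x := by
      intro x y h1 h2 h3
      apply le_antisymm
      · exact zpowers_le.mpr (mem_zpowers_symm' hpp h3 h1 h2)
      · exact zpowers_le.mpr h1
    have hu₁ : u ∈ zpowers w₁ := by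
      rcases step1 with h1 | h1
      · exact h1
      · exfalso
        rcases step2 with h2 | h2
        · -- swap
          have h3 : (h * h) * w₁ * (h * h)⁻¹ ∈ zpowers w₁ := by
            have h4 : (h * h) * w₁ * (h * h)⁻¹ = h * u * h⁻¹ := by rw [hu]; group
            rw [h4]
            have h5 : h * u * h⁻¹ ∈ zpowers u' := by
              rw [hu']
              exact (conj_mem_zpowers_iff h u w₂).mpr h1
            exact (zpowers_le.mpr h2) h5
          have h4 := odd_conj_fpf (hpodd h) h3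
          have h5 : w₂ ∈ zpowers u := mem_zpowers_symm' hpp hw₂p h1 hu1
          exact h21 ((zpowers_le.mpr h4) h5)
        · apply huu'
          rw [← hgen u' w₂ h2 hu'1 hw₂p]
          exact h1
    have hu₂ : u' ∈ zpowers w₂ := by
      rcases step2 with h2 | h2
      · exfalso
        apply huu'
        rw [← hgen u' w₁ h2 hu'1 hw₁p]
        exact hu₁
      · exact h2
    have hfw₁ : w₁ • (h • a₁) = h • a₁ := fix_of_mem_zpowers (mem_zpowers_symm' hpp hw₁p hu₁ hu1) hfu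
    have hfw₂ : w₂ • (h • a₂) = h • a₂ := fix_of_mem_zpowers (mem_zpowers_symm' hpp hw₂p hu₂ hu'1) hfu'
    constructor
    · have h1 := congrArg (normN p w₁) hsplit
      rw [normN_add, normN_add, normN_fix p w₁ hfw₁, hkill w₂ hw₂A hw₂Z w₁ hw₁A h12 _ hfw₂, hNa₁, hN12, add_zero, add_zero] at h1
      exact hinv _ _ h1
    · have h1 := congrArg (normN p w₂) hsplit
      rw [normN_add, normN_add, normN_fix p w₂ hfw₂, hkill w₁ hw₁A hw₁Z w₂ hw₂A h21 _ hfw₁, hNa₂, hN21, zero_add, zero_add] at h1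
      exact hinv _ _ h1
  have hc0 : a₁ + a₂ ≠ 0 := by
    intro h
    have h1 := congrArg (normN p w₁) h
    rw [normN_add, hNa₁, hN12, add_zero] at h1
    have h2 : normN p w₁ (0 : E) = 0 := by
      unfold normN
      simp
    rw [h2] at h1
    exact ha₁ (hinv0 _ h1)
  have hs1 : MulAction.stabilizer P (a₁ + a₂) = MulAction.stabilizer P a₁ :=
    Subgroup.eq_of_le_of_card_ge (fun h hh => (hstab h hh).1) (by rw [hconst (a₁ + a₂) a₁ hc0 ha₁])
  have hs2 : MulAction.stabilizer P (a₁ + a₂) = MulAction.stabilizer P a₂ :=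
    Subgroup.eq_of_le_of_card_ge (fun h hh => (hstab h hh).2) (by rw [hconst (a₁ + a₂) a₂ hc0 ha₂])
  have hw₁a₂ : w₁ • a₂ = a₂ := by
    have h1 : w₁ ∈ MulAction.stabilizer P a₁ := hfix₁
    rw [← hs1, hs2] at h1
    exact h1
  -- so the central element fixes `a₂`
  obtain ⟨s, y, hy, hwy⟩ := hform w₁ hw₁A hw₁Z w₂ hw₂A
  have hy1 : y ≠ 1 := by
    rintro rfl
    apply h21
    rw [hwy, mul_one]
    exact Subgroup.pow_mem _ (mem_zpowers w₁) s
  have hya : y • a₂ = a₂ := by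
    have h1 : w₁ ^ s • a₂ = a₂ := fix_of_mem_zpowers (Subgroup.pow_mem _ (mem_zpowers w₁) s) hw₁a₂
    have h2 : (w₁ ^ s * y) • a₂ = a₂ := by rw [← hwy]; exact hfix₂
    have h3 : y • a₂ = (w₁ ^ s)⁻¹ • a₂ := by
      rw [mul_smul] at h2
      rw [eq_inv_smul_iff]
      exact h2
    rw [h3]
    rw [inv_smul_eq_iff]
    exact h1.symm
  have hza := fix_of_mem_zpowers (mem_zpowers_symm' hpp hzp hy hy1) hya
  exact ha₂ (hC _ hza)

end

end Cfsg.Agent.H05
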