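import Mathlib

/-!
# Automorphisms of a finite field of characteristic two span the additive endomorphisms
-/

set_option autoImplicit false
set_option linter.style.haveILetI false
set_option linter.unusedSectionVars false
set_option linter.unusedVariables false
set_option linter.unusedSimpArgs false

namespace Cfsg.Agent.H05

section

variable {F : Type*} [Field F] [Fintype F] [CharP F 2]

theorem finite_aut : Finite (F ≃+* F) :=
  Finite.of_injective (fun σ : F ≃+* F => (σ : F → F)) (fun a b h => RingEquiv.ext (congrFun h))

theorem finite_add_end : Finite (F →+ F) :=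
  Finite.of_injective (fun f : F →+ F => (f : F → F)) DFunLike.coe_injective

theorem card_add_end : Nat.card (F →+ F) = Nat.card F ^ Nat.card (F ≃+* F) := by
  classical
  haveI : Fact (Nat.Prime 2) := ⟨Nat.prime_two⟩
  letI : Algebra (ZMod 2) F := ZMod.algebra F 2
  haveI : FiniteDimensional (ZMod 2) F := Module.Finite.of_finite
  haveI : IsGalois (ZMod 2) F := inferInstance
  have h0 : Nat.card (F ≃+* F) = Module.finrank (ZMod 2) F := by
    rw [← IsGalois.card_aut_eq_finrank (ZMod 2) F]
    refine Nat.card_congr ⟨fun σ => AlgEquiv.ofRingEquiv (f := σ) (fun r => ?_), fun α => α.toRingEquiv, fun σ => ?_, fun α => ?_⟩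
    · have h : (σ : F →+* F).comp (algebraMap (ZMod 2) F) = algebraMap (ZMod 2) F := RingHom.ext_zmod _ _
      exact congrArg (fun f => f r) h
    · ext x
      rfl
    · ext x
      rfl
  have h1 : Nat.card (F →+ F) = Nat.card (F →ₗ[ZMod 2] F) :=
    Nat.card_congr (AddMonoidHom.toZModLinearMapEquiv 2).toEquiv
  have h2 : Nat.card (F →ₗ[ZMod 2] F) = Nat.card (Fin (Module.finrank (ZMod 2) F) → F) :=
    Nat.card_congr ((Module.finBasis (ZMod 2) F).constr (ZMod 2)).toEquiv.symm
  rw [h1, h2, h0]
  simp [Nat.card_pi]

/-- The linear independence of the automorphisms. -/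
theorem li_aut : LinearIndependent F (fun σ : F ≃+* F => ((σ : F →+* F) : F → F)) := by
  have h := linearIndependent_monoidHom F F
  have hinj : Function.Injective (fun σ : F ≃+* F => ((σ : F →+* F) : F →* F)) := by
    intro a b hab
    ext x
    exact DFunLike.congr_fun hab x
  exact h.comp _ hinj

/-- The additive map attached to coefficients. -/
noncomputable def phiF [Fintype (F ≃+* F)] : ((F ≃+* F) → F) →+ (F →+ F) where
  toFun c := ∑ σ, (AddMonoidHom.mulLeft (c σ)).comp (σ : F →+* F).toAddMonoidHom
  map_zero' := by
    ext x
    simp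
  map_add' c d := by
    ext x
    simp [add_mul, Finset.sum_add_distrib]

theorem phiF_apply [Fintype (F ≃+* F)] (c : (F ≃+* F) → F) (x : F) : phiF c x = ∑ σ, c σ * σ x := by
  simp [phiF, AddMonoidHom.finsetSum_apply]

theorem phiF_bij [Fintype (F ≃+* F)] : Function.Bijective (phiF (F := F)) := by
  classical
  haveI : Finite (F →+ F) := finite_add_end
  apply Function.Injective.bijective_of_nat_card_le
  · rw [injective_iff_map_eq_zero]
    intro c hc
    have h := Fintype.linearIndependent_iff.mp (li_aut (F := F)) c (by
      ext x
      have h1 := DFunLike.congr_fun hc x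
      rw [phiF_apply] at h1
      simpa [Finset.sum_apply] using h1)
    funext σ
    exact h σ
  · rw [card_add_end]
    simp [Nat.card_pi]

end

end Cfsg.Agent.H05
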