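import Cfsg.Agent.Lib.H05.FieldAut

/-!
# Biadditive and quadratic maps on finite fields of characteristic two
-/

set_option autoImplicit false
set_option linter.style.haveILetI false
set_option linter.unusedSectionVars false
set_option linter.unusedVariables false
set_option linter.unusedSimpArgs false

namespace Cfsg.Agent.H05

theorem zmod2_cases₂ : ∀ a : ZMod 2, a = 0 ∨ a = 1 := by decide

section

variable {F : Type*} [Field F] [Fintype F] [CharP F 2]

theorem bilin_form (B : F →+ F →+ F) :
    ∃ (s : Finset ((F ≃+* F) × (F ≃+* F))) (c : (F ≃+* F) × (F ≃+* F) → F),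
        ∀ x y : F, B x y = ∑ p ∈ s, c p * (p.1 x * p.2 y) := by
  classical
  haveI : Finite (F ≃+* F) := finite_aut
  letI : Fintype (F ≃+* F) := Fintype.ofFinite _
  let E : ((F ≃+* F) → F) ≃+ (F →+ F) := AddEquiv.ofBijective phiF phiF_bij
  have key : ∀ σ : F ≃+* F, ∃ d : (F ≃+* F) → F, ∀ y : F, E.symm (B.flip y) σ = ∑ τ, d τ * τ y := by
    intro σ
    let f : F →+ F := (Pi.evalAddMonoidHom _ σ).comp (E.symm.toAddMonoidHom.comp B.flip)
    obtain ⟨d, hd⟩ := phiF_bij.2 f
    refine ⟨d, fun y => ?_⟩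
    rw [← phiF_apply, hd]
    rfl
  choose d hd using key
  refine ⟨Finset.univ, fun p => d p.1 p.2, fun x y => ?_⟩
  have h1 : B x y = phiF (E.symm (B.flip y)) x := by
    have h2 : E (E.symm (B.flip y)) = B.flip y := E.apply_symm_apply _
    have h3 : phiF (E.symm (B.flip y)) = B.flip y := h2
    rw [h3]
    rfl
  rw [h1, phiF_apply, Fintype.sum_prod_type]
  apply Finset.sum_congr rfl
  intro σ _
  rw [hd, Finset.sum_mul]
  apply Finset.sum_congr rfl
  intro τ _
  ring

/-- Sums of products of two automorphisms. -/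
def PP [Fintype (F ≃+* F)] (f : F → F) : Prop :=
  ∃ c : (F ≃+* F) × (F ≃+* F) → F, ∀ x, f x = ∑ p, c p * (p.1 x * p.2 x)

theorem PP_zero [Fintype (F ≃+* F)] : PP (fun _ : F => (0 : F)) := ⟨0, fun x => by simp⟩

theorem PP_add [Fintype (F ≃+* F)] {f g : F → F} (hf : PP f) (hg : PP g) : PP (fun x => f x + g x) := by
  obtain ⟨c, hc⟩ := hf
  obtain ⟨d, hd⟩ := hg
  refine ⟨c + d, fun x => ?_⟩
  show f x + g x = _
  rw [hc, hd, ← Finset.sum_add_distrib]
  apply Finset.sum_congr rfl
  intro p _
  simp only [Pi.add_apply]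
  ring

theorem PP_smul [Fintype (F ≃+* F)] {f : F → F} (a : F) (hf : PP f) : PP (fun x => f x * a) := by
  obtain ⟨c, hc⟩ := hf
  refine ⟨fun p => c p * a, fun x => ?_⟩
  show f x * a = _
  rw [hc, Finset.sum_mul]
  apply Finset.sum_congr rfl
  intro p _
  ring

theorem PP_sum [Fintype (F ≃+* F)] {ι : Type*} (T : Finset ι) (f : ι → F → F) (hf : ∀ i ∈ T, PP (f i)) :
    PP (fun x => ∑ i ∈ T, f i x) := by
  classical
  induction T using Finset.induction_on with
  | empty => simpa using PP_zero
  | insert j T hj ih =>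
    have h1 := PP_add (hf j (Finset.mem_insert_self j T)) (ih (fun i hi => hf i (Finset.mem_insert_of_mem hi)))
    convert h1 using 2
    rw [Finset.sum_insert hj]

theorem PP_mul [Fintype (F ≃+* F)] (u v : F →+ F) : PP (fun x => u x * v x) := by
  classical
  obtain ⟨c, hc⟩ := phiF_bij.2 u
  obtain ⟨d, hd⟩ := phiF_bij.2 v
  refine ⟨fun p => c p.1 * d p.2, fun x => ?_⟩
  show u x * v x = _
  rw [← hc, ← hd, phiF_apply, phiF_apply, Fintype.sum_prod_type, Finset.sum_mul_sum]
  apply Finset.sum_congr rfl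
  intro σ _
  apply Finset.sum_congr rfl
  intro τ _
  ring

theorem quad_form (q : F → F)
    (hq : ∀ x y z : F, q (x + y + z) + q (x + y) + q (x + z) + q (y + z) + q x + q y + q z = 0) :
    ∃ (s : Finset ((F ≃+* F) × (F ≃+* F))) (c : (F ≃+* F) × (F ≃+* F) → F),
      ∀ x : F, q x = ∑ p ∈ s, c p * (p.1 x * p.2 x) := by
  classical
  haveI : Finite (F ≃+* F) := finite_aut
  letI : Fintype (F ≃+* F) := Fintype.ofFinite _
  suffices h : PP q by
    obtain ⟨c, hc⟩ := h
    exact ⟨Finset.univ, c, hc⟩
  have h2 : (2 : F) = 0 := CharTwo.two_eq_zero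
  have hq0 : q 0 = 0 := by
    have h1 := hq 0 0 0
    simp only [add_zero] at h1
    linear_combination h1 - 3 * q 0 * h2
  let Bq : F → F → F := fun u v => q (u + v) + q u + q v
  have hB1 : ∀ u v w, Bq (u + v) w = Bq u w + Bq v w := by
    intro u v w
    show q (u + v + w) + q (u + v) + q w = q (u + w) + q u + q w + (q (v + w) + q v + q w)
    linear_combination hq u v w - (q (u + w) + q u + q (v + w) + q v + q w) * h2
  have hB0 : ∀ w, Bq 0 w = 0 := by
    intro w
    show q (0 + w) + q 0 + q w = 0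
    rw [zero_add, hq0]
    linear_combination q w * h2
  have hBs : ∀ u v, Bq u v = Bq v u := by
    intro u v
    show q (u + v) + q u + q v = q (v + u) + q v + q u
    rw [add_comm u v]
    ring
  have hsplit : ∀ u v, q (u + v) = q u + q v + Bq u v := by
    intro u v
    show q (u + v) = q u + q v + (q (u + v) + q u + q v)
    linear_combination (- q u - q v) * h2
  haveI : Fact (Nat.Prime 2) := ⟨Nat.prime_two⟩
  letI : Algebra (ZMod 2) F := ZMod.algebra F 2
  haveI : FiniteDimensional (ZMod 2) F := Module.Finite.of_finite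
  let b := Module.finBasis (ZMod 2) F
  let u : Fin (Module.finrank (ZMod 2) F) → (F →+ F) := fun i =>
    ((algebraMap (ZMod 2) F).toAddMonoidHom).comp ((b.coord i).toAddMonoidHom)
  have hu : ∀ i x, u i x = algebraMap (ZMod 2) F (b.repr x i) := fun i x => rfl
  have hval : ∀ a : ZMod 2, a = 0 ∨ a = 1 := zmod2_cases₂
  have hsm0 : ∀ v : F, (0 : ZMod 2) • v = 0 := fun v => zero_smul _ v
  have hsm1 : ∀ v : F, (1 : ZMod 2) • v = v := fun v => one_smul _ v
  have hq1 : ∀ (a : ZMod 2) (v : F), q (a • v) = algebraMap (ZMod 2) F a * algebraMap (ZMod 2) F a * q v := by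
    intro a v
    rcases hval a with rfl | rfl
    · rw [hsm0, hq0, map_zero]
      ring
    · rw [hsm1, map_one]
      ring
  have hB2 : ∀ (a c : ZMod 2) (v w : F), Bq (a • v) (c • w) = algebraMap (ZMod 2) F a * algebraMap (ZMod 2) F c * Bq v w := by
    intro a c v w
    have h0 : ∀ w, Bq w 0 = 0 := fun w => by rw [hBs, hB0]
    rcases hval a with rfl | rfl
    · rw [hsm0, hB0, map_zero, zero_mul, zero_mul]
    · rcases hval c with rfl | rfl
      · rw [hsm0, h0, map_zero, mul_zero, zero_mul]
      · rw [hsm1, hsm1, map_one, one_mul, one_mul]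
  have hBsum : ∀ (T : Finset (Fin (Module.finrank (ZMod 2) F))) (f : Fin (Module.finrank (ZMod 2) F) → F) (w : F),
      Bq (∑ i ∈ T, f i) w = ∑ i ∈ T, Bq (f i) w := by
    intro T f w
    induction T using Finset.induction_on with
    | empty => simpa using hB0 w
    | insert j T hj ih =>
      rw [Finset.sum_insert hj, Finset.sum_insert hj, hB1, ih]
  have hmain : ∀ T : Finset (Fin (Module.finrank (ZMod 2) F)), PP (fun x => q (∑ i ∈ T, (b.repr x i) • b i)) := by
    intro T
    induction T using Finset.induction_on with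
    | empty =>
      simp only [Finset.sum_empty, hq0]
      exact PP_zero
    | insert j T hj ih =>
      have h1 : (fun x => q (∑ i ∈ insert j T, (b.repr x i) • b i)) =
          fun x => (q (∑ i ∈ T, (b.repr x i) • b i) + (u j x * u j x) * q (b j)) + ∑ i ∈ T, (u i x * u j x) * Bq (b i) (b j) := by
        funext x
        rw [Finset.sum_insert hj, add_comm, hsplit, hBsum, hq1]
        simp only [hB2, hu]
      rw [h1]
      refine PP_add (PP_add ih (PP_smul _ (PP_mul (u j) (u j)))) ?_
      exact PP_sum T _ (fun i _ => PP_smul _ (PP_mul (u i) (u j)))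
  have h3 := hmain Finset.univ
  have h4 : (fun x => q (∑ i, (b.repr x i) • b i)) = q := by
    funext x
    rw [b.sum_repr]
  rwa [h4] at h3

end

end Cfsg.Agent.H05
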