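import Mathlib

set_option autoImplicit false

namespace Cfsg.Agent.H05.FA

open Module

universe u v w

variable {E : Type w} [Field E] {W : Type u} [AddCommGroup W] [Module E W]

theorem finrank_split [FiniteDimensional E W] (π : Module.End E W) (hπ : π * π = π)
    (U : Submodule E W) (hU : ∀ w ∈ U, π w ∈ U) :
    finrank E U = finrank E ↥(U ⊓ LinearMap.ker (1 - π)) + finrank E ↥(U ⊓ LinearMap.ker π) := by
  have hpp : ∀ w, π (π w) = π w := fun w => by
    have := congrArg (fun f => f w) hπ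
    simpa using this
  have hsup : (U ⊓ LinearMap.ker (1 - π)) ⊔ (U ⊓ LinearMap.ker π) = U := by
    apply le_antisymm
    · exact sup_le inf_le_left inf_le_left
    · intro w hw
      have h1 : π w ∈ U ⊓ LinearMap.ker (1 - π) := by
        refine ⟨hU w hw, ?_⟩
        simp [hpp]
      have h2 : w - π w ∈ U ⊓ LinearMap.ker π := by
        refine ⟨U.sub_mem hw (hU w hw), ?_⟩
        simp [hpp]
      have : w = π w + (w - π w) := by abel
      rw [this]
      exact Submodule.add_mem_sup h1 h2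
  have hinf : (U ⊓ LinearMap.ker (1 - π)) ⊓ (U ⊓ LinearMap.ker π) = ⊥ := by
    rw [eq_bot_iff]
    rintro w ⟨⟨_, h1⟩, ⟨_, h2⟩⟩
    have h1' : w - π w = 0 := by simpa using h1
    have h2' : π w = 0 := by simpa using h2
    rw [h2', sub_zero] at h1'
    simpa using h1'
  have := Submodule.finrank_sup_add_finrank_inf_eq (U ⊓ LinearMap.ker (1 - π)) (U ⊓ LinearMap.ker π)
  rw [hsup, hinf, finrank_bot] at this
  omega

theorem exists_weight [IsAlgClosed E] [FiniteDimensional E W] {B : Type v} [Group B] [Finite B]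
    (α : B →* Module.End E W) (hB : (Nat.card B : E) ≠ 0) (U : Submodule E W)
    (hUinv : ∀ b, ∀ w ∈ U, α b w ∈ U) (hcomm : ∀ a b, ∀ w ∈ U, α a (α b w) = α b (α a w))
    (hU : U ≠ ⊥) :
    ∃ (χ : B →* E) (v : W), v ∈ U ∧ v ≠ 0 ∧ ∀ b, α b v = χ b • v := by
  classical
  let f : B → Module.End E ↥U := fun b => (α b).restrict (hUinv b)
  have hf : ∀ b (u : ↥U), ((f b u : ↥U) : W) = α b u := fun b u => rfl
  have hpair : Pairwise fun i j ↦ Commute (f i) (f j) := by
    intro i j _
    ext u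
    exact hcomm i j u u.2
  have htop := Module.End.iSup_iInf_maxGenEigenspace_eq_top_of_iSup_maxGenEigenspace_eq_top_of_commute
    f hpair (fun i => Module.End.iSup_maxGenEigenspace_eq_top (f i))
  haveI : Nontrivial ↥U := Submodule.nontrivial_iff_ne_bot.mpr hU
  have hex : ∃ χ₀ : B → E, (⨅ i, (f i).maxGenEigenspace (χ₀ i)) ≠ ⊥ := by
    by_contra hcon
    push Not at hcon
    rw [show (⨆ χ : B → E, ⨅ i, (f i).maxGenEigenspace (χ i)) = ⊥ from by
      simp [hcon]] at htop
    exact bot_ne_top htop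
  obtain ⟨χ₀, hχ₀⟩ := hex
  obtain ⟨u, hu, hu0⟩ := Submodule.exists_mem_ne_zero_of_ne_bot hχ₀
  have hn : (Nat.card B) ≠ 0 := Nat.card_pos.ne'
  have hss : ∀ b, (f b).IsSemisimple := by
    intro b
    have hsq : Squarefree (Polynomial.X ^ (Nat.card B) - Polynomial.C (1 : E)) :=
      (Polynomial.separable_X_pow_sub_C (1 : E) hB one_ne_zero).squarefree
    refine Module.End.isSemisimple_of_squarefree_aeval_eq_zero hsq ?_
    have : (f b) ^ (Nat.card B) = 1 := by
      ext w
      have h1 : ∀ k : ℕ, (((f b) ^ k) w : W) = (α (b ^ k)) w := by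
        intro k
        induction k generalizing w with
        | zero => simp
        | succ k ih =>
          rw [pow_succ, Module.End.mul_apply, ih, pow_succ, map_mul, Module.End.mul_apply]
          rfl
      rw [h1, pow_card_eq_one']
      simp
    simp [this]
  have hev : ∀ b, α b u = χ₀ b • (u : W) := by
    intro b
    have hm : u ∈ (f b).maxGenEigenspace (χ₀ b) := by
      have := (Submodule.mem_iInf _).mp hu b
      exact this
    have h2 := (hss b).isFinitelySemisimple.maxGenEigenspace_eq_eigenspace (χ₀ b)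
    rw [h2] at hm
    have h3 := Module.End.mem_eigenspace_iff.mp hm
    have h4 : ((f b u : ↥U) : W) = χ₀ b • (u : W) := congrArg Subtype.val h3
    exact h4
  have hu0' : (u : W) ≠ 0 := fun h => hu0 (Subtype.ext h)
  have hone : χ₀ 1 = 1 := by
    have := hev 1
    rw [map_one, Module.End.one_apply] at this
    have h5 : (χ₀ 1 - 1) • (u : W) = 0 := by
      rw [sub_smul, ← this, one_smul, sub_self]
    rcases smul_eq_zero.mp h5 with h | h
    · exact sub_eq_zero.mp h
    · exact absurd h hu0'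
  have hmul : ∀ a b, χ₀ (a * b) = χ₀ a * χ₀ b := by
    intro a b
    have h6 := hev (a * b)
    rw [map_mul, Module.End.mul_apply, hev b, map_smul, hev a, smul_smul] at h6
    have h7 : (χ₀ (a * b) - χ₀ b * χ₀ a) • (u : W) = 0 := by
      rw [sub_smul, ← h6, sub_self]
    rcases smul_eq_zero.mp h7 with h | h
    · rw [sub_eq_zero.mp h, mul_comm]
    · exact absurd h hu0'
  refine ⟨{ toFun := χ₀, map_one' := hone, map_mul' := hmul }, u, u.2, hu0', ?_⟩
  intro b
  exact hev b

section Proj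

variable {B : Type v} [Group B] [Fintype B] (α : B →* Module.End E W) (χ : B →* E)

/-- the weight projector -/
noncomputable def proj : Module.End E W :=
  ((Fintype.card B : E)⁻¹) • ∑ b, χ b⁻¹ • α b

theorem proj_apply (w : W) : proj α χ w = ((Fintype.card B : E)⁻¹) • ∑ b, χ b⁻¹ • α b w := by
  simp [proj]

theorem alpha_proj (a : B) (w : W) : α a (proj α χ w) = χ a • proj α χ w := by
  rw [proj_apply, map_smul, smul_comm]
  congr 1
  rw [map_sum, Finset.smul_sum]
  have h1 : ∀ b, α a (χ b⁻¹ • α b w) = (fun c => χ a • (χ c⁻¹ • α c w)) (a * b) := by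
    intro b
    show α a (χ b⁻¹ • α b w) = χ a • (χ (a * b)⁻¹ • α (a * b) w)
    rw [map_smul, smul_smul, map_mul α, Module.End.mul_apply]
    congr 1
    rw [mul_inv_rev, map_mul χ]
    have : χ a * χ a⁻¹ = 1 := by rw [← map_mul]; simp
    calc χ b⁻¹ = (χ a * χ a⁻¹) * χ b⁻¹ := by rw [this, one_mul]
      _ = χ a * (χ b⁻¹ * χ a⁻¹) := by ring
  rw [Finset.sum_congr rfl (fun b _ => h1 b)]
  exact Equiv.sum_comp (Equiv.mulLeft a) (fun c => χ a • (χ c⁻¹ • α c w))

theorem proj_alpha (a : B) (w : W) : proj α χ (α a w) = χ a • proj α χ w := by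
  rw [proj_apply, proj_apply, smul_comm]
  congr 1
  rw [Finset.smul_sum]
  have h1 : ∀ b, χ b⁻¹ • α b (α a w) = (fun c => χ a • (χ c⁻¹ • α c w)) (b * a) := by
    intro b
    simp only [map_mul, Module.End.mul_apply, mul_inv_rev, smul_smul]
    congr 1
    have : χ a⁻¹ * χ a = 1 := by rw [← map_mul]; simp
    calc χ b⁻¹ = (χ a⁻¹ * χ a) * χ b⁻¹ := by rw [this, one_mul]
      _ = χ a * (χ a⁻¹ * χ b⁻¹) := by ring
  rw [Finset.sum_congr rfl (fun b _ => h1 b)]
  exact Equiv.sum_comp (Equiv.mulRight a) (fun c => χ a • (χ c⁻¹ • α c w))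

theorem proj_of_weight (hB : (Fintype.card B : E) ≠ 0) (w : W) (hw : ∀ b, α b w = χ b • w) :
    proj α χ w = w := by
  rw [proj_apply]
  have : ∀ b, χ b⁻¹ • α b w = w := by
    intro b
    rw [hw b, smul_smul, ← map_mul]
    simp
  rw [Finset.sum_congr rfl (fun b _ => this b)]
  simp only [Finset.sum_const, Finset.card_univ]
  rw [← Nat.cast_smul_eq_nsmul E, smul_smul, inv_mul_cancel₀ hB, one_smul]

theorem proj_proj (hB : (Fintype.card B : E) ≠ 0) (w : W) :
    proj α χ (proj α χ w) = proj α χ w :=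
  proj_of_weight α χ hB _ (fun b => alpha_proj α χ b w)

theorem proj_of_other (ψ : B →* E) (hψ : ψ ≠ χ) (w : W) (hw : ∀ b, α b w = ψ b • w) :
    proj α χ w = 0 := by
  rw [proj_apply]
  have : ∀ b, χ b⁻¹ • α b w = (χ b⁻¹ * ψ b) • w := by
    intro b
    rw [hw b, smul_smul]
  rw [Finset.sum_congr rfl (fun b _ => this b), ← Finset.sum_smul]
  suffices h : (∑ b, χ b⁻¹ * ψ b) = 0 by rw [h, zero_smul, smul_zero]
  have hex : ∃ b₀, χ b₀⁻¹ * ψ b₀ ≠ 1 := by
    by_contra hcon
    push Not at hcon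
    apply hψ
    ext b
    have h1 := hcon b
    have h2 : χ b * χ b⁻¹ = 1 := by rw [← map_mul]; simp
    calc ψ b = (χ b * χ b⁻¹) * ψ b := by rw [h2, one_mul]
      _ = χ b * (χ b⁻¹ * ψ b) := by ring
      _ = χ b := by rw [h1, mul_one]
  obtain ⟨b₀, hb₀⟩ := hex
  have h3 : (χ b₀⁻¹ * ψ b₀) * (∑ b, χ b⁻¹ * ψ b) = ∑ b, χ b⁻¹ * ψ b := by
    rw [Finset.mul_sum]
    have h4 : ∀ b, (χ b₀⁻¹ * ψ b₀) * (χ b⁻¹ * ψ b) = (fun c => χ c⁻¹ * ψ c) (b₀ * b) := by
      intro b
      simp only [mul_inv_rev, map_mul]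
      ring
    rw [Finset.sum_congr rfl (fun b _ => h4 b)]
    exact Equiv.sum_comp (Equiv.mulLeft b₀) (fun c => χ c⁻¹ * ψ c)
  have h5 : ((χ b₀⁻¹ * ψ b₀) - 1) * (∑ b, χ b⁻¹ * ψ b) = 0 := by
    rw [sub_mul, h3, one_mul, sub_self]
  rcases mul_eq_zero.mp h5 with h | h
  · exact absurd (sub_eq_zero.mp h) hb₀
  · exact h

end Proj

end Cfsg.Agent.H05.FA
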