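import Cfsg.Agent.Lib.H05.FrA1

set_option autoImplicit false

namespace Cfsg.Agent.H05.FA

open Module

universe u v w

variable {E : Type w} [Field E] {W : Type u} [AddCommGroup W] [Module E W]

section AI

variable {B : Type v} [Group B] [Fintype B] (σ : MulAut B) (m : ℕ)
  (α : B →* Module.End E W) (X : Module.End E W)

theorem alpha_sigma_pow (hXα : ∀ b, X * α b = α (σ b) * X) (k : ℕ) (b : B) :
    X ^ k * α b = α ((σ ^ k) b) * X ^ k := by
  induction k generalizing b with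
  | zero => simp
  | succ k ih =>
    rw [pow_succ X, mul_assoc, hXα b, ← mul_assoc, ih, mul_assoc, pow_succ σ]
    rfl

theorem weight_shift (hXα : ∀ b, X * α b = α (σ b) * X) (k : ℕ) (χ : B →* E) (w : W) (c : B) :
    α c ((X ^ k) (proj α χ w)) =
      (χ.comp ((σ ^ k)⁻¹ : MulAut B).toMonoidHom) c • (X ^ k) (proj α χ w) := by
  have hc : (σ ^ k) (((σ ^ k)⁻¹ : MulAut B) c) = c := MulAut.apply_inv_self _ _ _
  have h1 := congrArg (fun f => f (proj α χ w)) (alpha_sigma_pow σ α X hXα k (((σ ^ k)⁻¹ : MulAut B) c))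
  simp only [Module.End.mul_apply, hc] at h1
  rw [← h1, alpha_proj, map_smul]
  rfl

theorem shift_ne (k : ℕ) (hfree : ∀ b, (σ ^ k) b = b → b = 1) (χ : B →* E) (hχ : ∃ b, χ b ≠ 1) :
    χ.comp ((σ ^ k)⁻¹ : MulAut B).toMonoidHom ≠ χ := by
  intro h
  have h1 : ∀ b, χ ((σ ^ k) b) = χ b := by
    intro b
    have h2 := DFunLike.congr_fun h ((σ ^ k) b)
    have h3 : ((σ ^ k)⁻¹ : MulAut B) ((σ ^ k) b) = b := MulAut.inv_apply_self _ _ _
    simp only [MonoidHom.comp_apply] at h2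
    have h4 : χ (((σ ^ k)⁻¹ : MulAut B) ((σ ^ k) b)) = χ ((σ ^ k) b) := h2
    rw [h3] at h4
    exact h4.symm
  have hinj : Function.Injective (fun b : B => b⁻¹ * (σ ^ k) b) := by
    intro b c hbc
    simp only at hbc
    have h5 : (σ ^ k) (c * b⁻¹) = c * b⁻¹ := by
      rw [map_mul, map_inv]
      have h6 : (σ ^ k) c = c * (b⁻¹ * (σ ^ k) b) := by
        rw [hbc]; group
      rw [h6]; group
    have h7 := hfree _ h5
    have h8 : c = b := by
      rw [mul_inv_eq_one] at h7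
      exact h7
    exact h8.symm
  have hsurj := Finite.injective_iff_surjective.mp hinj
  obtain ⟨b₀, hb₀⟩ := hχ
  obtain ⟨b, hb⟩ := hsurj b₀
  apply hb₀
  rw [← hb]
  simp only [map_mul]
  rw [h1, ← map_mul]
  simp

theorem ai_formula [FiniteDimensional E W] [IsAlgClosed E] (hm : 0 < m) (hσ : σ ^ m = 1)
    (hX : X ^ m = 1) (hXα : ∀ b, X * α b = α (σ b) * X)
    (hfree : ∀ k, 0 < k → k < m → ∀ b, (σ ^ k) b = b → b = 1)
    (hB : (Fintype.card B : E) ≠ 0) :
    ∀ (n : ℕ) (U : Submodule E W), finrank E U = n → (∀ b, ∀ w ∈ U, α b w ∈ U) →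
      (∀ w ∈ U, X w ∈ U) → (∀ a b, ∀ w ∈ U, α a (α b w) = α b (α a w)) →
      (∀ w ∈ U, (∀ b, α b w = w) → w = 0) →
      finrank E U = m * finrank E ↥(U ⊓ LinearMap.ker (X - 1)) := by
  classical
  intro n
  induction n using Nat.strong_induction_on with
  | _ n ih =>
  intro U hn hUα hUX hcomm h0
  by_cases hU : U = ⊥
  · subst hU
    simp
  have hB' : (Nat.card B : E) ≠ 0 := by rwa [Nat.card_eq_fintype_card]
  obtain ⟨χ, v, hvU, hv0, hv⟩ := exists_weight α hB' U hUα hcomm hU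
  have hχ : ∃ b, χ b ≠ 1 := by
    by_contra hcon
    push Not at hcon
    exact hv0 (h0 v hvU (fun b => by rw [hv b, hcon b, one_smul]))
  obtain ⟨P, hP⟩ : ∃ P : Module.End E W, P = proj α χ := ⟨_, rfl⟩
  have hPU : ∀ w ∈ U, P w ∈ U := by
    intro w hw
    rw [hP, proj_apply]
    exact U.smul_mem _ (U.sum_mem (fun b _ => U.smul_mem _ (hUα b w hw)))
  have hXkU : ∀ k : ℕ, ∀ w ∈ U, (X ^ k) w ∈ U := by
    intro k
    induction k with
    | zero => intro w hw; simpa using hw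
    | succ k ihk =>
      intro w hw
      rw [pow_succ, Module.End.mul_apply]
      exact ihk _ (hUX w hw)
  have hPP : ∀ w, P (P w) = P w := fun w => by rw [hP]; exact proj_proj α χ hB w
  have hXm : ∀ w, (X ^ m) w = w := fun w => by rw [hX]; simp
  have hPXP : ∀ k, 0 < k → k < m → ∀ w, P ((X ^ k) (P w)) = 0 := by
    intro k hk hkm w
    rw [hP]
    exact proj_of_other α χ _ (shift_ne σ k (hfree k hk hkm) χ hχ) _
      (fun c => weight_shift σ α X hXα k χ w c)
  have hker : ∀ i j : ℕ, i < m → j < m → ∀ u, P u = u →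
      P ((X ^ (m - j)) ((X ^ i) u)) = if i = j then u else 0 := by
    intro i j hi hj u hu
    rw [show (X ^ (m - j)) ((X ^ i) u) = (X ^ (m - j + i)) u by rw [pow_add, Module.End.mul_apply]]
    rcases lt_trichotomy i j with h | h | h
    · rw [if_neg h.ne]
      have := hPXP (m - j + i) (by omega) (by omega) u
      rwa [hu] at this
    · subst h
      rw [if_pos rfl, show m - i + i = m by omega, hXm, hu]
    · rw [if_neg h.ne', show m - j + i = m + (i - j) by omega, pow_add, Module.End.mul_apply, hXm]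
      have := hPXP (i - j) (by omega) (by omega) u
      rwa [hu] at this
  have hsel : ∀ (a : Fin m → W), (∀ i, P (a i) = a i) → ∀ j : Fin m,
      P ((X ^ (m - (j : ℕ))) (∑ i : Fin m, (X ^ (i : ℕ)) (a i))) = a j := by
    intro a ha j
    rw [map_sum, map_sum, Finset.sum_eq_single j]
    · rw [hker _ _ j.2 j.2 _ (ha j), if_pos rfl]
    · intro i _ hij
      rw [hker _ _ i.2 j.2 _ (ha i), if_neg (fun h => hij (Fin.ext h))]
    · intro h
      exact absurd (Finset.mem_univ j) h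
  obtain ⟨Q, hQ⟩ : ∃ Q : Module.End E W, ∀ w, Q w = ∑ j : Fin m, (X ^ (j : ℕ)) (P ((X ^ (m - (j : ℕ))) w)) := by
    refine ⟨∑ j : Fin m, (X ^ (j : ℕ)) * P * (X ^ (m - (j : ℕ))), fun w => ?_⟩
    simp [LinearMap.sum_apply, Module.End.mul_apply]
  have hQQ : Q * Q = Q := by
    ext w
    rw [Module.End.mul_apply, hQ (Q w)]
    have h1 : ∀ j : Fin m, P ((X ^ (m - (j : ℕ))) (Q w)) = P ((X ^ (m - (j : ℕ))) w) := by
      intro j
      rw [hQ w]
      exact hsel (fun i => P ((X ^ (m - (i : ℕ))) w)) (fun i => hPP _) j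
    rw [hQ w]
    exact Finset.sum_congr rfl (fun j _ => by rw [← hQ w, h1 j])
  have hQU : ∀ w ∈ U, Q w ∈ U := by
    intro w hw
    rw [hQ]
    exact U.sum_mem (fun j _ => hXkU _ _ (hPU _ (hXkU _ _ hw)))
  have hQX : ∀ w, Q (X w) = X (Q w) := by
    intro w
    rw [hQ, hQ w, map_sum]
    obtain ⟨f, hf⟩ : ∃ f : ℕ → W, f = fun j => (X ^ j) (P ((X ^ (m - j)) (X w))) := ⟨_, rfl⟩
    have h1 : (∑ j : Fin m, (X ^ (j : ℕ)) (P ((X ^ (m - (j : ℕ))) (X w)))) = ∑ j ∈ Finset.range m, f j := by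
      rw [hf]
      exact Fin.sum_univ_eq_sum_range (fun j => (X ^ j) (P ((X ^ (m - j)) (X w)))) m
    have h2 : (∑ j : Fin m, X ((X ^ (j : ℕ)) (P ((X ^ (m - (j : ℕ))) w)))) = ∑ j ∈ Finset.range m, f (j + 1) := by
      have := Fin.sum_univ_eq_sum_range (fun j => X ((X ^ j) (P ((X ^ (m - j)) w)))) m
      rw [this]
      refine Finset.sum_congr rfl (fun j hj => ?_)
      have hjm := Finset.mem_range.mp hj
      rw [hf]
      show X ((X ^ j) (P ((X ^ (m - j)) w))) = (X ^ (j + 1)) (P ((X ^ (m - (j + 1))) (X w)))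
      rw [pow_succ' X j, Module.End.mul_apply]
      congr 3
      rw [← Module.End.mul_apply, ← pow_succ, show m - (j + 1) + 1 = m - j by omega]
    rw [h1, h2]
    have h3 := Finset.sum_range_succ f m
    have h4 := Finset.sum_range_succ' f m
    have h5 : f m = f 0 := by
      rw [hf]
      show (X ^ m) (P ((X ^ (m - m)) (X w))) = (X ^ 0) (P ((X ^ (m - 0)) (X w)))
      rw [hXm, Nat.sub_self, Nat.sub_zero, hXm]
      simp
    rw [h5] at h3
    have h6 := h3.symm.trans h4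
    exact add_right_cancel h6
  have hQα : ∀ a w, Q (α a w) = α a (Q w) := by
    intro a w
    rw [hQ, hQ w, map_sum]
    refine Finset.sum_congr rfl (fun j _ => ?_)
    have hj := j.2
    have h1 := congrArg (fun f => f w) (alpha_sigma_pow σ α X hXα (m - (j : ℕ)) a)
    simp only [Module.End.mul_apply] at h1
    rw [h1, hP, proj_alpha, map_smul, weight_shift σ α X hXα]
    congr 1
    simp only [MonoidHom.comp_apply]
    congr 1
    have h2 : σ ^ (m - (j : ℕ)) = (σ ^ (j : ℕ))⁻¹ := by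
      rw [eq_inv_iff_mul_eq_one, ← pow_add, show m - (j : ℕ) + j = m by omega, hσ]
    rw [h2]
    rfl
  obtain ⟨R₀, hR₀⟩ : ∃ R₀ : Submodule E W, R₀ = U ⊓ LinearMap.ker (1 - P) := ⟨_, rfl⟩
  have hR₀P' : ∀ w ∈ R₀, P w = w := by
    intro w hw
    rw [hR₀] at hw
    have h2 : w - P w = 0 := by simpa using hw.2
    exact (sub_eq_zero.mp h2).symm
  have hR₀U' : ∀ w ∈ R₀, w ∈ U := by
    intro w hw
    rw [hR₀] at hw
    exact hw.1
  have hR₀P : ∀ u : ↥R₀, P (u : W) = u := fun u => hR₀P' _ u.2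
  have hR₀U : ∀ u : ↥R₀, (u : W) ∈ U := fun u => hR₀U' _ u.2
  have hR₀mem : ∀ w ∈ U, P w ∈ R₀ := by
    intro w hw
    rw [hR₀]
    refine ⟨hPU w hw, ?_⟩
    simp [hPP]
  obtain ⟨Φ, hΦ⟩ : ∃ Φ : (Fin m → ↥R₀) →ₗ[E] W, ∀ a, Φ a = ∑ i : Fin m, (X ^ (i : ℕ)) (a i : W) := by
    refine ⟨∑ i : Fin m, (X ^ (i : ℕ)) ∘ₗ R₀.subtype ∘ₗ LinearMap.proj i, fun a => ?_⟩
    simp [LinearMap.sum_apply]
  have hkey : ∀ (a : Fin m → ↥R₀) (j : Fin m), P ((X ^ (m - (j : ℕ))) (Φ a)) = (a j : W) := by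
    intro a j
    rw [hΦ]
    exact hsel (fun i => (a i : W)) (fun i => hR₀P _) j
  have hΦinj : Function.Injective Φ := by
    rw [← LinearMap.ker_eq_bot, eq_bot_iff]
    intro a ha
    have ha' : Φ a = 0 := ha
    rw [Submodule.mem_bot]
    funext j
    apply Subtype.ext
    rw [← hkey a j, ha']
    simp
  have hΦrange : LinearMap.range Φ = U ⊓ LinearMap.ker (1 - Q) := by
    apply le_antisymm
    · rintro _ ⟨a, rfl⟩
      refine ⟨?_, ?_⟩
      · rw [hΦ]
        exact U.sum_mem (fun i _ => hXkU _ _ (hR₀U _))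
      · have : Q (Φ a) = Φ a := by
          rw [hQ]
          conv_rhs => rw [hΦ a]
          refine Finset.sum_congr rfl (fun j _ => ?_)
          rw [hkey a j]
        simp [this]
    · rintro u ⟨hu, hu'⟩
      have hQu : Q u = u := by
        have : u - Q u = 0 := by simpa using hu'
        exact (sub_eq_zero.mp this).symm
      refine ⟨fun j => ⟨P ((X ^ (m - (j : ℕ))) u), hR₀mem _ (hXkU _ _ hu)⟩, ?_⟩
      rw [hΦ]
      have h9 := hQ u
      rw [hQu] at h9
      exact h9.symm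
  have hfr1 : finrank E ↥(U ⊓ LinearMap.ker (1 - Q)) = m * finrank E R₀ := by
    rw [← hΦrange, LinearMap.finrank_range_of_inj hΦinj, Module.finrank_pi_fintype]
    simp
  obtain ⟨Ψ, hΨ⟩ : ∃ Ψ : ↥R₀ →ₗ[E] W, ∀ u, Ψ u = Φ (fun _ => u) :=
    ⟨Φ ∘ₗ LinearMap.pi (fun _ => LinearMap.id), fun u => rfl⟩
  have hΨinj : Function.Injective Ψ := by
    intro a b hab
    rw [hΨ, hΨ] at hab
    have := hΦinj hab
    exact congrFun this ⟨0, hm⟩
  have hsumX : ∀ y : W, X (∑ i : Fin m, (X ^ (i : ℕ)) y) = ∑ i : Fin m, (X ^ (i : ℕ)) y := by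
    intro y
    rw [map_sum]
    have h1 := Fin.sum_univ_eq_sum_range (fun j => X ((X ^ j) y)) m
    have h2 := Fin.sum_univ_eq_sum_range (fun j => (X ^ j) y) m
    rw [h1, h2]
    have h3 := Finset.sum_range_succ (fun j => (X ^ j) y) m
    have h4 := Finset.sum_range_succ' (fun j => (X ^ j) y) m
    rw [hXm] at h3
    simp only [pow_zero, Module.End.one_apply] at h4
    have h5 := h3.symm.trans h4
    have h6 := add_right_cancel h5
    rw [h6]
    refine Finset.sum_congr rfl (fun j _ => ?_)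
    rw [pow_succ', Module.End.mul_apply]
  have hΨrange : LinearMap.range Ψ = (U ⊓ LinearMap.ker (1 - Q)) ⊓ LinearMap.ker (X - 1) := by
    apply le_antisymm
    · rintro _ ⟨u, rfl⟩
      refine ⟨?_, ?_⟩
      · rw [← hΦrange, hΨ]
        exact ⟨_, rfl⟩
      · have e : Φ (fun _ => u) = ∑ i : Fin m, (X ^ (i : ℕ)) (u : W) := hΦ _
        rw [hΨ, e]
        show (X - 1) _ = 0
        rw [LinearMap.sub_apply, hsumX]
        simp
    · rintro u ⟨⟨hu, hu'⟩, hu''⟩
      have hQu : Q u = u := by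
        have : u - Q u = 0 := by simpa using hu'
        exact (sub_eq_zero.mp this).symm
      have hXu : X u = u := by
        have : X u - u = 0 := by simpa using hu''
        exact sub_eq_zero.mp this
      have hXku : ∀ k : ℕ, (X ^ k) u = u := by
        intro k
        induction k with
        | zero => simp
        | succ k ihk => rw [pow_succ, Module.End.mul_apply, hXu, ihk]
      refine ⟨⟨P u, hR₀mem u hu⟩, ?_⟩
      have e : Φ (fun _ => ⟨P u, hR₀mem u hu⟩) = ∑ i : Fin m, (X ^ (i : ℕ)) (P u) := hΦ _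
      rw [hΨ, e]
      calc ∑ i : Fin m, (X ^ (i : ℕ)) (P u)
          = ∑ j : Fin m, (X ^ (j : ℕ)) (P ((X ^ (m - (j : ℕ))) u)) :=
            Finset.sum_congr rfl (fun j _ => by rw [hXku])
        _ = Q u := (hQ u).symm
        _ = u := hQu
  have hfr2 : finrank E ↥((U ⊓ LinearMap.ker (1 - Q)) ⊓ LinearMap.ker (X - 1)) = finrank E R₀ := by
    rw [← hΨrange, LinearMap.finrank_range_of_inj hΨinj]
  have hFixQ : ∀ w ∈ U ⊓ LinearMap.ker (X - 1), Q w ∈ U ⊓ LinearMap.ker (X - 1) := by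
    rintro w ⟨hw, hw'⟩
    have hXw : X w = w := by
      have : X w - w = 0 := by simpa using hw'
      exact sub_eq_zero.mp this
    refine ⟨hQU w hw, ?_⟩
    have : X (Q w) = Q w := by rw [← hQX, hXw]
    simp [this]
  have hsplit1 := finrank_split Q hQQ U hQU
  have hsplit2 := finrank_split Q hQQ _ hFixQ
  have he1 : (U ⊓ LinearMap.ker (X - 1)) ⊓ LinearMap.ker (1 - Q) =
      (U ⊓ LinearMap.ker (1 - Q)) ⊓ LinearMap.ker (X - 1) := inf_right_comm _ _ _
  have he2 : (U ⊓ LinearMap.ker (X - 1)) ⊓ LinearMap.ker Q =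
      (U ⊓ LinearMap.ker Q) ⊓ LinearMap.ker (X - 1) := inf_right_comm _ _ _
  rw [he1, he2, hfr2] at hsplit2
  have hvR : v ∈ R₀ := by
    have : P v = v := by rw [hP]; exact proj_of_weight α χ hB v hv
    rw [← this]
    exact hR₀mem v hvU
  have hdpos : 0 < finrank E R₀ := by
    rw [Module.finrank_pos_iff_exists_ne_zero]
    exact ⟨⟨v, hvR⟩, fun h => hv0 (congrArg Subtype.val h)⟩
  have hlt : finrank E ↥(U ⊓ LinearMap.ker Q) < n := by
    rw [← hn, hsplit1, hfr1]
    have : 0 < m * finrank E R₀ := Nat.mul_pos hm hdpos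
    omega
  have hih := ih _ hlt (U ⊓ LinearMap.ker Q) rfl
    (by
      rintro b w ⟨hw, hw'⟩
      refine ⟨hUα b w hw, ?_⟩
      have : Q w = 0 := hw'
      show Q (α b w) = 0
      rw [hQα, this, map_zero])
    (by
      rintro w ⟨hw, hw'⟩
      refine ⟨hUX w hw, ?_⟩
      have : Q w = 0 := hw'
      show Q (X w) = 0
      rw [hQX, this, map_zero])
    (fun a b w hw => hcomm a b w hw.1)
    (fun w hw h => h0 w hw.1 h)
  rw [hsplit1, hfr1, hih, hsplit2, Nat.mul_add]

end AI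

end Cfsg.Agent.H05.FA
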