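import Cfsg.Agent.Lib.H05.FrA2

set_option autoImplicit false

namespace Cfsg.Agent.H05.FA

open Module
open scoped commutatorElement

universe u v w

variable {E : Type w} [Field E] {W : Type u} [AddCommGroup W] [Module E W]

section Chain

variable {K : Type v} [Group K] [Fintype K] (σ : MulAut K) (m : ℕ)
  (α : K →* Module.End E W) (X : Module.End E W)

/-- restriction of an automorphism to a characteristic subgroup -/
noncomputable def sigR (D : Subgroup K) [hD : D.Characteristic] : MulAut ↥D where
  toFun b := ⟨σ b, by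
    have h := (Subgroup.characteristic_iff_map_eq.mp hD) σ
    have h2 : σ (b : K) ∈ D.map σ.toMonoidHom := ⟨b, b.2, rfl⟩
    rwa [h] at h2⟩
  invFun b := ⟨σ.symm b, by
    have h := (Subgroup.characteristic_iff_map_eq.mp hD) σ.symm
    have h2 : σ.symm (b : K) ∈ D.map σ.symm.toMonoidHom := ⟨b, b.2, rfl⟩
    rwa [h] at h2⟩
  left_inv b := by ext; simp
  right_inv b := by ext; simp
  map_mul' a b := by ext; simp

theorem sigR_coe (D : Subgroup K) [D.Characteristic] (b : ↥D) : ((sigR σ D b : ↥D) : K) = σ b := rfl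

theorem sigR_pow_coe (D : Subgroup K) [D.Characteristic] (k : ℕ) (b : ↥D) :
    (((sigR σ D ^ k) b : ↥D) : K) = (σ ^ k) b := by
  induction k generalizing b with
  | zero => simp
  | succ k ih =>
    rw [pow_succ, MulAut.mul_apply, ih, pow_succ, MulAut.mul_apply, sigR_coe]

/-- the averaging operator of a subgroup -/
noncomputable def avg (D : Subgroup K) [Fintype ↥D] : Module.End E W :=
  proj (α.comp D.subtype) (1 : ↥D →* E)

theorem avg_apply (D : Subgroup K) [Fintype ↥D] (w : W) :
    avg α D w = ((Fintype.card ↥D : E)⁻¹) • ∑ b : ↥D, α (b : K) w := by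
  simp [avg, proj_apply]

theorem card_sub_ne (hK : (Fintype.card K : E) ≠ 0) (D : Subgroup K) [Fintype ↥D] :
    (Fintype.card ↥D : E) ≠ 0 := by
  intro h
  apply hK
  have h1 : Fintype.card ↥D ∣ Fintype.card K := by
    rw [← Nat.card_eq_fintype_card, ← Nat.card_eq_fintype_card]
    exact Subgroup.card_subgroup_dvd_card D
  obtain ⟨c, hc⟩ := h1
  rw [hc, Nat.cast_mul, h, zero_mul]

theorem avg_alpha_comm (D : Subgroup K) [D.Normal] [Fintype ↥D] (k : K) (w : W) :
    avg α D (α k w) = α k (avg α D w) := by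
  rw [avg_apply, avg_apply, map_smul, map_sum]
  congr 1
  have h1 : ∀ b : ↥D, α k (α (b : K) w) =
      (fun c : ↥D => α (c : K) (α k w)) ((MulAut.conjNormal k : MulAut ↥D) b) := by
    intro b
    simp only [MulAut.conjNormal_apply, ← Module.End.mul_apply, ← map_mul]
    congr 2
    group
  rw [Finset.sum_congr rfl (fun b _ => h1 b)]
  exact (Equiv.sum_comp ((MulAut.conjNormal k : MulAut ↥D).toEquiv) (fun c : ↥D => α (c : K) (α k w))).symm

theorem avg_X_comm (hXα : ∀ b, X * α b = α (σ b) * X) (D : Subgroup K) [D.Characteristic]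
    [Fintype ↥D] (w : W) : avg α D (X w) = X (avg α D w) := by
  rw [avg_apply, avg_apply, map_smul, map_sum]
  congr 1
  have h1 : ∀ b : ↥D, X (α (b : K) w) =
      (fun c : ↥D => α (c : K) (X w)) (sigR σ D b) := by
    intro b
    have := congrArg (fun f => f w) (hXα b)
    simpa [Module.End.mul_apply, sigR_coe] using this
  rw [Finset.sum_congr rfl (fun b _ => h1 b)]
  exact (Equiv.sum_comp ((sigR σ D).toEquiv) (fun c : ↥D => α (c : K) (X w))).symm

theorem chain_formula [FiniteDimensional E W] [IsAlgClosed E] (hm : 0 < m) (hσ : σ ^ m = 1)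
    (hX : X ^ m = 1) (hXα : ∀ b, X * α b = α (σ b) * X)
    (hfree : ∀ k, 0 < k → k < m → ∀ b, (σ ^ k) b = b → b = 1)
    (hK : (Fintype.card K : E) ≠ 0) :
    ∀ (j : ℕ) (U : Submodule E W), (∀ k, ∀ w ∈ U, α k w ∈ U) → (∀ w ∈ U, X w ∈ U) →
      (∀ k ∈ derivedSeries K j, ∀ w ∈ U, α k w = w) →
      (∀ w ∈ U, (∀ k, α k w = w) → w = 0) →
      finrank E U = m * finrank E ↥(U ⊓ LinearMap.ker (X - 1)) := by
  classical
  intro j
  induction j with
  | zero =>
    intro U _ _ htriv h0
    have : U = ⊥ := by
      rw [eq_bot_iff]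
      intro w hw
      exact h0 w hw (fun k => htriv k (by simp [derivedSeries_zero]) w hw)
    subst this
    simp
  | succ j ih =>
    intro U hUα hUX htriv h0
    obtain ⟨D, hDdef⟩ : ∃ D : Subgroup K, D = derivedSeries K j := ⟨_, rfl⟩
    haveI hDc : D.Characteristic := by rw [hDdef]; infer_instance
    haveI hDn : D.Normal := inferInstance
    haveI : Fintype ↥D := Fintype.ofFinite _
    have hD1 : ∀ a ∈ D, ∀ b ∈ D, ⁅a, b⁆ ∈ derivedSeries K (j + 1) := by
      intro a ha b hb
      rw [derivedSeries_succ, ← hDdef]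
      exact Subgroup.commutator_mem_commutator ha hb
    have hcard : (Fintype.card ↥D : E) ≠ 0 := card_sub_ne hK D
    obtain ⟨π, hπ⟩ : ∃ π : Module.End E W, π = avg α D := ⟨_, rfl⟩
    have hππ : π * π = π := by
      ext w
      rw [Module.End.mul_apply, hπ]
      exact proj_proj (α.comp D.subtype) 1 hcard w
    have hπU : ∀ w ∈ U, π w ∈ U := by
      intro w hw
      rw [hπ, avg_apply]
      exact U.smul_mem _ (U.sum_mem (fun b _ => hUα _ w hw))
    have hπX : ∀ w, π (X w) = X (π w) := fun w => by rw [hπ]; exact avg_X_comm σ α X hXα D w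
    have hπα : ∀ k w, π (α k w) = α k (π w) := fun k w => by rw [hπ]; exact avg_alpha_comm α D k w
    have hFix : ∀ w ∈ U ⊓ LinearMap.ker (X - 1), π w ∈ U ⊓ LinearMap.ker (X - 1) := by
      rintro w ⟨hw, hw'⟩
      have hXw : X w = w := by
        have : X w - w = 0 := by simpa using hw'
        exact sub_eq_zero.mp this
      refine ⟨hπU w hw, ?_⟩
      have : X (π w) = π w := by rw [← hπX, hXw]
      simp [this]
    have hsplit1 := finrank_split π hππ U hπU
    have hsplit2 := finrank_split π hππ _ hFix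
    have he1 : (U ⊓ LinearMap.ker (X - 1)) ⊓ LinearMap.ker (1 - π) =
        (U ⊓ LinearMap.ker (1 - π)) ⊓ LinearMap.ker (X - 1) := inf_right_comm _ _ _
    have he2 : (U ⊓ LinearMap.ker (X - 1)) ⊓ LinearMap.ker π =
        (U ⊓ LinearMap.ker π) ⊓ LinearMap.ker (X - 1) := inf_right_comm _ _ _
    rw [he1, he2] at hsplit2
    -- first piece
    have h1 := ih (U ⊓ LinearMap.ker (1 - π))
      (by
        rintro k w ⟨hw, hw'⟩
        have hπw : w - π w = 0 := by simpa using hw'
        refine ⟨hUα k w hw, ?_⟩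
        have : α k w - π (α k w) = 0 := by
          rw [hπα, ← sub_eq_zero.mp hπw, sub_self]
        simpa using this)
      (by
        rintro w ⟨hw, hw'⟩
        have hπw : w - π w = 0 := by simpa using hw'
        refine ⟨hUX w hw, ?_⟩
        have : X w - π (X w) = 0 := by
          rw [hπX, ← sub_eq_zero.mp hπw, sub_self]
        simpa using this)
      (by
        rintro k hk w ⟨hw, hw'⟩
        have hπw : w = π w := sub_eq_zero.mp (by simpa using hw')
        rw [← hDdef] at hk
        rw [hπw, hπ]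
        have h2 := alpha_proj (α.comp D.subtype) (1 : ↥D →* E) (⟨k, hk⟩ : ↥D) w
        simpa [avg] using h2)
      (fun w hw h => h0 w hw.1 h)
    -- second piece
    have h2 := ai_formula (sigR σ D) m (α.comp D.subtype) X hm
      (by
        ext b
        rw [sigR_pow_coe, hσ]
        rfl)
      hX
      (fun b => hXα b)
      (by
        intro k hk hkm b hb
        have h3 := congrArg Subtype.val hb
        rw [sigR_pow_coe] at h3
        exact Subtype.ext (hfree k hk hkm _ h3))
      hcard _ (U ⊓ LinearMap.ker π) rfl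
      (by
        rintro b w ⟨hw, hw'⟩
        refine ⟨hUα _ w hw, ?_⟩
        have : π w = 0 := hw'
        show π (α b w) = 0
        rw [hπα, this, map_zero])
      (by
        rintro w ⟨hw, hw'⟩
        refine ⟨hUX w hw, ?_⟩
        have : π w = 0 := hw'
        show π (X w) = 0
        rw [hπX, this, map_zero])
      (by
        rintro a b w ⟨hw, _⟩
        have hc : ((a : K) * b) = ((b : K) * a) * ⁅(a : K)⁻¹, (b : K)⁻¹⁆ := by
          rw [commutatorElement_def]
          group
        have hc' := hD1 _ (D.inv_mem a.2) _ (D.inv_mem b.2)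
        show α (a : K) (α (b : K) w) = α (b : K) (α (a : K) w)
        rw [← Module.End.mul_apply, ← map_mul, hc, map_mul, Module.End.mul_apply,
          htriv _ hc' w hw, map_mul, Module.End.mul_apply])
      (by
        rintro w ⟨_, hw'⟩ hfix
        have h3 : π w = 0 := hw'
        have h4 : π w = w := by
          rw [hπ]
          exact proj_of_weight (α.comp D.subtype) (1 : ↥D →* E) hcard w (fun b => by
            simpa using hfix b)
        rw [← h4, h3])
    rw [hsplit1, hsplit2, h1, h2, Nat.mul_add]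

theorem solv_formula [FiniteDimensional E W] [IsAlgClosed E] [Group.IsSolvable K] (hm : 0 < m) (hσ : σ ^ m = 1)
    (hX : X ^ m = 1) (hXα : ∀ b, X * α b = α (σ b) * X)
    (hfree : ∀ k, 0 < k → k < m → ∀ b, (σ ^ k) b = b → b = 1)
    (hK : (Fintype.card K : E) ≠ 0)
    (U : Submodule E W) (hUα : ∀ k, ∀ w ∈ U, α k w ∈ U) (hUX : ∀ w ∈ U, X w ∈ U)
    (h0 : ∀ w ∈ U, (∀ k, α k w = w) → w = 0) :
    finrank E U = m * finrank E ↥(U ⊓ LinearMap.ker (X - 1)) := by
  obtain ⟨n, hn⟩ := (Group.isSolvable_def K).mp inferInstance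
  refine chain_formula σ m α X hm hσ hX hXα hfree hK n U hUα hUX ?_ h0
  intro k hk w _
  rw [hn, Subgroup.mem_bot] at hk
  rw [hk, map_one]
  rfl

end Chain

end Cfsg.Agent.H05.FA
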