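import Cfsg.Agent.Lib.H05.FrA3

set_option autoImplicit false

namespace Cfsg.Agent.H05.FA

open Module
open scoped commutatorElement

universe u v w

variable {E : Type w} [Field E] {W : Type u} [AddCommGroup W] [Module E W]

section Small

variable {K : Type v} [Group K] [Fintype K] (σ : MulAut K) (m : ℕ)
  (α : K →* Module.End E W) (X : Module.End E W)

theorem weight_line [FiniteDimensional E W] (hp : m.Prime) (hσ : σ ^ m = 1)
    (hX : X ^ m = 1) (hXα : ∀ b, X * α b = α (σ b) * X)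
    (hfree : ∀ k, 0 < k → k < m → ∀ b, (σ ^ k) b = b → b = 1)
    (hKm : (Nat.card K).Coprime m)
    (D : Subgroup K) [hDc : D.Characteristic] [Fintype ↥D] (hcard : (Fintype.card ↥D : E) ≠ 0)
    (U : Submodule E W) (hUα : ∀ k, ∀ w ∈ U, α k w ∈ U) (hUX : ∀ w ∈ U, X w ∈ U)
    (hfin : finrank E U ≤ m) (h0 : ∀ w ∈ U, (∀ b : ↥D, α (b : K) w = w) → w = 0)
    (v : W) (hvU : v ∈ U) (hv0 : v ≠ 0) (χ : ↥D →* E) (hv : ∀ b : ↥D, α (b : K) v = χ b • v) :
    (∀ w ∈ U, ∃ g : Fin m → E, w = ∑ i : Fin m, g i • (X ^ (i : ℕ)) v) ∧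
      (∀ k, ∃ c : E, α k v = c • v) := by
  classical
  have hm : 0 < m := hp.pos
  haveI hDn : D.Normal := inferInstance
  obtain ⟨β, hβ⟩ : ∃ β : ↥D →* Module.End E W, β = α.comp D.subtype := ⟨_, rfl⟩
  have hβa : ∀ b : ↥D, β b = α (b : K) := by intro b; rw [hβ]; rfl
  obtain ⟨τ, hτ⟩ : ∃ τ : MulAut ↥D, τ = sigR σ D := ⟨_, rfl⟩
  have hτc : ∀ (i : ℕ) (b : ↥D), (((τ ^ i) b : ↥D) : K) = (σ ^ i) b := by
    intro i b
    rw [hτ]
    exact sigR_pow_coe σ D i b
  have hXβ : ∀ b, X * β b = β (τ b) * X := by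
    intro b
    rw [hβa, hβa]
    have h1 := hτc 1 b
    rw [pow_one, pow_one] at h1
    rw [h1]
    exact hXα b
  have hτm : τ ^ m = 1 := by
    ext b
    rw [hτc, hσ]
    rfl
  have hτfree : ∀ k, 0 < k → k < m → ∀ b, (τ ^ k) b = b → b = 1 := by
    intro k hk hkm b hb
    have h3 := congrArg Subtype.val hb
    rw [hτc] at h3
    exact Subtype.ext (hfree k hk hkm _ h3)
  obtain ⟨ψ, hψ⟩ : ∃ ψ : ℕ → (↥D →* E), ψ = fun i => χ.comp ((τ ^ i)⁻¹ : MulAut ↥D).toMonoidHom :=
    ⟨_, rfl⟩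
  have hψa : ∀ (i : ℕ) (c : ↥D), ψ i c = χ (((τ ^ i)⁻¹ : MulAut ↥D) c) := by
    intro i c
    rw [hψ]
    rfl
  have hψ0 : ψ 0 = χ := by
    ext c
    rw [hψa, pow_zero, inv_one]
    rfl
  have hvβ : ∀ b, β b v = χ b • v := fun b => by rw [hβa]; exact hv b
  have hPv : proj β χ v = v := proj_of_weight β χ hcard v hvβ
  have hw : ∀ (i : ℕ) (c : ↥D), β c ((X ^ i) v) = ψ i c • (X ^ i) v := by
    intro i c
    have h1 := weight_shift τ β X hXβ i χ v c
    rw [hPv] at h1
    rw [h1, hψ]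
  have hχ1 : ∃ b, χ b ≠ 1 := by
    by_contra hcon
    push Not at hcon
    exact hv0 (h0 v hvU (fun b => by rw [hv b, hcon b, one_smul]))
  have hsh : ∀ i j, i < j → j < m → ψ i ≠ ψ j := by
    intro i j hij hjm h
    apply shift_ne τ (j - i) (hτfree _ (by omega) (by omega)) χ hχ1
    ext b
    have h1 := DFunLike.congr_fun h ((τ ^ i) b)
    rw [hψa, hψa, MulAut.inv_apply_self] at h1
    rw [h1]
    simp only [MonoidHom.comp_apply]
    congr 1
    have h2 : (τ ^ j)⁻¹ * τ ^ i = (τ ^ (j - i))⁻¹ := by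
      rw [inv_mul_eq_iff_eq_mul, ← mul_inv_eq_iff_eq_mul, inv_inv, ← pow_add,
        show i + (j - i) = j by omega]
    rw [← h2]
    rfl
  have hdist : ∀ i j : Fin m, i ≠ j → ψ i ≠ ψ j := by
    intro i j hij
    rcases lt_or_gt_of_ne (fun h => hij (Fin.ext h) : (i : ℕ) ≠ j) with h | h
    · exact hsh _ _ h j.2
    · exact (hsh _ _ h i.2).symm
  have hXinj : ∀ i : ℕ, ∀ w, (X ^ i) w = 0 → w = 0 := by
    intro i w hw0
    have h1 : X ^ (m * i) = 1 := by rw [pow_mul, hX, one_pow]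
    have h2 : i ≤ m * i := Nat.le_mul_of_pos_left i hm
    have h3 : X ^ (m * i - i) * X ^ i = 1 := by rw [← pow_add, Nat.sub_add_cancel h2, h1]
    have h4 := congrArg (fun f => f w) h3
    simp only [Module.End.mul_apply, hw0, map_zero, Module.End.one_apply] at h4
    exact h4.symm
  have hXne : ∀ i : ℕ, (X ^ i) v ≠ 0 := fun i h => hv0 (hXinj i v h)
  have hXkU : ∀ k : ℕ, ∀ w ∈ U, (X ^ k) w ∈ U := by
    intro k
    induction k with
    | zero => intro w hw; simpa using hw
    | succ k ihk =>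
      intro w hw
      rw [pow_succ, Module.End.mul_apply]
      exact ihk _ (hUX w hw)
  have hprojv : ∀ i j : Fin m, proj β (ψ j) ((X ^ (i : ℕ)) v) = if i = j then (X ^ (i : ℕ)) v else 0 := by
    intro i j
    by_cases hij : i = j
    · subst hij
      rw [if_pos rfl]
      exact proj_of_weight β _ hcard _ (hw i)
    · rw [if_neg hij]
      exact proj_of_other β _ (ψ i) (hdist i j hij) _ (hw i)
  have hprojs : ∀ (g : Fin m → E) (j : Fin m),
      proj β (ψ j) (∑ i : Fin m, g i • (X ^ (i : ℕ)) v) = g j • (X ^ (j : ℕ)) v := by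
    intro g j
    rw [map_sum, Finset.sum_eq_single j]
    · rw [map_smul, hprojv, if_pos rfl]
    · intro i _ hij
      rw [map_smul, hprojv, if_neg hij, smul_zero]
    · intro h
      exact absurd (Finset.mem_univ j) h
  have hindep : LinearIndependent E (fun i : Fin m => (X ^ (i : ℕ)) v) := by
    rw [Fintype.linearIndependent_iff]
    intro g hg j
    have h1 := hprojs g j
    rw [hg, map_zero] at h1
    rcases smul_eq_zero.mp h1.symm with h | h
    · exact h
    · exact absurd h (hXne j)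
  have hspan : ∀ w ∈ U, ∃ g : Fin m → E, w = ∑ i : Fin m, g i • (X ^ (i : ℕ)) v := by
    have hle : Submodule.span E (Set.range (fun i : Fin m => (X ^ (i : ℕ)) v)) ≤ U := by
      rw [Submodule.span_le]
      rintro _ ⟨i, rfl⟩
      exact hXkU _ _ hvU
    have hfr := finrank_span_eq_card hindep
    rw [Fintype.card_fin] at hfr
    have heq := Submodule.eq_of_le_of_finrank_le hle (by rw [hfr]; exact hfin)
    intro w hw
    rw [← heq] at hw
    obtain ⟨g, hg⟩ := (Submodule.mem_span_range_iff_exists_fun E).mp hw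
    exact ⟨g, hg.symm⟩
  have hclass : ∀ w ∈ U, ∀ φ : ↥D →* E, (∀ b, β b w = φ b • w) → w ≠ 0 →
      ∃ i : Fin m, φ = ψ i ∧ ∃ c : E, w = c • (X ^ (i : ℕ)) v := by
    intro w hwU φ hφ hw0
    obtain ⟨g, hg⟩ := hspan w hwU
    have hz : ∀ j : Fin m, φ ≠ ψ j → g j = 0 := by
      intro j hj
      have h1 := proj_of_other β (ψ j) φ hj w hφ
      rw [hg, hprojs] at h1
      rcases smul_eq_zero.mp h1 with h | h
      · exact h
      · exact absurd h (hXne j)
    by_cases hex : ∃ i : Fin m, φ = ψ i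
    · obtain ⟨i, hi⟩ := hex
      refine ⟨i, hi, g i, ?_⟩
      rw [hg, Finset.sum_eq_single i]
      · intro j _ hji
        rw [hz j (by rw [hi]; exact (hdist j i hji).symm), zero_smul]
      · intro h
        exact absurd (Finset.mem_univ i) h
    · push Not at hex
      exfalso
      apply hw0
      rw [hg]
      exact Finset.sum_eq_zero (fun j _ => by rw [hz j (hex j), zero_smul])
  obtain ⟨cj, hcj⟩ : ∃ cj : K →* MulAut ↥D, cj = MulAut.conjNormal := ⟨_, rfl⟩
  have hcja : ∀ (k : K) (b : ↥D), ((cj k b : ↥D) : K) = k * b * k⁻¹ := by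
    intro k b
    rw [hcj]
    exact MulAut.conjNormal_apply k b
  obtain ⟨ψ', hψ'⟩ : ∃ ψ' : K → (↥D →* E), ψ' = fun k => χ.comp ((cj k)⁻¹ : MulAut ↥D).toMonoidHom :=
    ⟨_, rfl⟩
  have hψ'a : ∀ (k : K) (c : ↥D), ψ' k c = χ (((cj k)⁻¹ : MulAut ↥D) c) := by
    intro k c
    rw [hψ']
    rfl
  have hwk : ∀ (k : K) (b : ↥D), β b (α k v) = ψ' k b • α k v := by
    intro k b
    rw [hψ'a, ← map_smul, ← hv]
    rw [hβa]
    rw [← Module.End.mul_apply, ← Module.End.mul_apply, ← map_mul, ← map_mul]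
    congr 2
    have h1 := hcja k (((cj k)⁻¹ : MulAut ↥D) b)
    rw [MulAut.apply_inv_self] at h1
    rw [h1]
    group
  have hkne : ∀ k : K, α k v ≠ 0 := by
    intro k h
    apply hv0
    have h1 : α k⁻¹ (α k v) = v := by
      rw [← Module.End.mul_apply, ← map_mul, inv_mul_cancel, map_one]
      rfl
    rw [← h1, h, map_zero]
  have hψ_add : ∀ a b : ℕ, ψ (a + b) = (ψ b).comp ((τ ^ a)⁻¹ : MulAut ↥D).toMonoidHom := by
    intro a b
    ext c
    simp only [MonoidHom.comp_apply]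
    rw [hψa, show ((τ ^ a)⁻¹ : MulAut ↥D).toMonoidHom c = ((τ ^ a)⁻¹ : MulAut ↥D) c from rfl, hψa]
    congr 1
    rw [pow_add, mul_inv_rev]
    rfl
  have hψ'_comp : ∀ k l : K, (ψ' k).comp ((cj l)⁻¹ : MulAut ↥D).toMonoidHom = ψ' (l * k) := by
    intro k l
    ext c
    simp only [MonoidHom.comp_apply]
    rw [hψ'a, show ((cj l)⁻¹ : MulAut ↥D).toMonoidHom c = ((cj l)⁻¹ : MulAut ↥D) c from rfl, hψ'a]
    congr 1
    rw [map_mul, mul_inv_rev]
    rfl
  have hcτ : ∀ (a : ℕ) (k : K), cj ((σ ^ a) k) * τ ^ a = τ ^ a * cj k := by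
    intro a k
    ext b
    rw [MulAut.mul_apply, MulAut.mul_apply]
    rw [hcja, hτc, hτc, hcja, map_mul, map_mul, map_inv]
  have hstep : ∀ (a : ℕ) (k : K), (ψ' k).comp ((τ ^ a)⁻¹ : MulAut ↥D).toMonoidHom =
      (ψ a).comp ((cj ((σ ^ a) k))⁻¹ : MulAut ↥D).toMonoidHom := by
    intro a k
    ext c
    simp only [MonoidHom.comp_apply]
    rw [show ((τ ^ a)⁻¹ : MulAut ↥D).toMonoidHom c = ((τ ^ a)⁻¹ : MulAut ↥D) c from rfl, hψ'a,
      show ((cj ((σ ^ a) k))⁻¹ : MulAut ↥D).toMonoidHom c = ((cj ((σ ^ a) k))⁻¹ : MulAut ↥D) c from rfl,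
      hψa]
    congr 1
    have h1 : (τ ^ a)⁻¹ * (cj ((σ ^ a) k))⁻¹ = (cj k)⁻¹ * (τ ^ a)⁻¹ := by
      rw [← mul_inv_rev, hcτ, mul_inv_rev]
    have h2 := DFunLike.congr_fun h1 c
    exact h2.symm
  have hψper : ∀ a : ℕ, ψ a = ψ (a % m) := by
    intro a
    have h1 : a = m * (a / m) + a % m := (Nat.div_add_mod a m).symm
    conv_lhs => rw [h1]
    rw [hψ_add]
    rw [pow_mul, hτm, one_pow, inv_one]
    rfl
  have hno : ∀ (k₀ : K) (i : ℕ), 0 < i → i < m → ψ' k₀ ≠ ψ i := by
    intro k₀ i hi him hk₀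
    have hall : ∀ n : ℕ, ∃ k, ψ' k = ψ (n * i) := by
      intro n
      induction n with
      | zero =>
        refine ⟨1, ?_⟩
        rw [zero_mul, hψ0]
        ext c
        rw [hψ'a, map_one, inv_one]
        rfl
      | succ n ihn =>
        obtain ⟨k, hk⟩ := ihn
        refine ⟨(σ ^ (n * i)) k₀ * k, ?_⟩
        rw [show (n + 1) * i = n * i + i by ring, hψ_add, ← hk₀, hstep, ← hk, hψ'_comp]
    have hcop : Nat.Coprime i m :=
      Nat.Coprime.symm ((Nat.Prime.coprime_iff_not_dvd hp).mpr (Nat.not_dvd_of_pos_of_lt hi him))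
    obtain ⟨u, -, hu⟩ := Nat.exists_mul_mod_eq_one_of_coprime hcop hp.one_lt
    have hallt : ∀ t : ℕ, t < m → ∃ k, ψ' k = ψ t := by
      intro t ht
      obtain ⟨k, hk⟩ := hall (t * u)
      refine ⟨k, ?_⟩
      rw [hk, hψper]
      congr 1
      rw [show t * u * i = t * (i * u) by ring, Nat.mul_mod, hu, mul_one, Nat.mod_mod,
        Nat.mod_eq_of_lt ht]
    letI act : MulAction K (↥D →* E) :=
      { smul := fun k φ => φ.comp ((cj k)⁻¹ : MulAut ↥D).toMonoidHom
        one_smul := by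
          intro φ
          ext c
          show φ (((cj 1)⁻¹ : MulAut ↥D) c) = φ c
          rw [map_one, inv_one]
          rfl
        mul_smul := by
          intro k l φ
          ext c
          show φ (((cj (k * l))⁻¹ : MulAut ↥D) c) =
            φ (((cj l)⁻¹ : MulAut ↥D) (((cj k)⁻¹ : MulAut ↥D) c))
          rw [map_mul, mul_inv_rev]
          rfl }
    have hsm : ∀ k : K, k • χ = ψ' k := fun k => by
      rw [hψ']
      rfl
    have horb : MulAction.orbit K χ = Set.range (fun t : Fin m => ψ t) := by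
      ext φ
      constructor
      · rintro ⟨k, rfl⟩
        show k • χ ∈ _
        rw [hsm]
        obtain ⟨i', hi', _⟩ := hclass (α k v) (hUα k v hvU) (ψ' k) (hwk k) (hkne k)
        exact ⟨i', hi'.symm⟩
      · rintro ⟨t, rfl⟩
        obtain ⟨k, hk⟩ := hallt t t.2
        exact ⟨k, by show k • χ = ψ t; rw [hsm, hk]⟩
    have hinj : Function.Injective (fun t : Fin m => ψ t) := by
      intro a b hab
      by_contra hne
      exact hdist a b hne hab
    have hcardorb : Nat.card (MulAction.orbit K χ) = m := by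
      rw [horb, Nat.card_range_of_injective hinj]
      simp
    have h2 : m ∣ Nat.card K := by
      have h1 := Subgroup.index_dvd_card (MulAction.stabilizer K χ)
      rw [MulAction.index_stabilizer, ← Nat.card_coe_set_eq, hcardorb] at h1
      exact h1
    have h3 := Nat.Coprime.eq_one_of_dvd hKm.symm h2
    exact hp.one_lt.ne' h3
  refine ⟨hspan, fun k => ?_⟩
  obtain ⟨i, hi, c, hc⟩ := hclass (α k v) (hUα k v hvU) (ψ' k) (hwk k) (hkne k)
  by_cases hi0 : (i : ℕ) = 0
  · refine ⟨c, ?_⟩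
    rw [hi0, pow_zero] at hc
    simpa using hc
  · exact absurd hi (hno k i (Nat.pos_of_ne_zero hi0) i.2)


theorem comm_of_small [FiniteDimensional E W] [IsAlgClosed E] (hp : m.Prime) (hσ : σ ^ m = 1)
    (hX : X ^ m = 1) (hXα : ∀ b, X * α b = α (σ b) * X)
    (hfree : ∀ k, 0 < k → k < m → ∀ b, (σ ^ k) b = b → b = 1)
    (hKm : (Nat.card K).Coprime m)
    (D : Subgroup K) [hDc : D.Characteristic] [Fintype ↥D] (hcard : (Fintype.card ↥D : E) ≠ 0)
    (U : Submodule E W) (hUα : ∀ k, ∀ w ∈ U, α k w ∈ U) (hUX : ∀ w ∈ U, X w ∈ U)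
    (hfin : finrank E U ≤ m) (h0 : ∀ w ∈ U, (∀ b : ↥D, α (b : K) w = w) → w = 0)
    (hcomm : ∀ a b : ↥D, ∀ w ∈ U, α (a : K) (α (b : K) w) = α (b : K) (α (a : K) w)) :
    ∀ k l : K, ∀ w ∈ U, α k (α l w) = α l (α k w) := by
  classical
  by_cases hU : U = ⊥
  · subst hU
    intro k l w hw
    rw [Submodule.mem_bot] at hw
    subst hw
    simp
  have hcard' : (Nat.card ↥D : E) ≠ 0 := by rwa [Nat.card_eq_fintype_card]
  obtain ⟨χ, v, hvU, hv0, hv⟩ := exists_weight (α.comp D.subtype) hcard' U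
    (fun b w hw => hUα _ w hw) hcomm hU
  have hv' : ∀ b : ↥D, α (b : K) v = χ b • v := hv
  obtain ⟨hspan, -⟩ := weight_line σ m α X hp hσ hX hXα hfree hKm D hcard U hUα hUX hfin h0 v hvU hv0 χ hv'
  have hXkU : ∀ k : ℕ, ∀ w ∈ U, (X ^ k) w ∈ U := by
    intro k
    induction k with
    | zero => intro w hw; simpa using hw
    | succ k ihk =>
      intro w hw
      rw [pow_succ, Module.End.mul_apply]
      exact ihk _ (hUX w hw)
  have hXinj : ∀ i : ℕ, ∀ w, (X ^ i) w = 0 → w = 0 := by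
    intro i w hw0
    have h1 : X ^ (m * i) = 1 := by rw [pow_mul, hX, one_pow]
    have h2 : i ≤ m * i := Nat.le_mul_of_pos_left i hp.pos
    have h3 : X ^ (m * i - i) * X ^ i = 1 := by rw [← pow_add, Nat.sub_add_cancel h2, h1]
    have h4 := congrArg (fun f => f w) h3
    simp only [Module.End.mul_apply, hw0, map_zero, Module.End.one_apply] at h4
    exact h4.symm
  have hXβ : ∀ b : ↥D, X * (α.comp D.subtype) b = (α.comp D.subtype) (sigR σ D b) * X := fun b => hXα b
  have hPv : proj (α.comp D.subtype) χ v = v := proj_of_weight _ χ hcard v hv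
  have hdiag : ∀ (i : ℕ) (k : K), ∃ c : E, α k ((X ^ i) v) = c • (X ^ i) v := by
    intro i k
    have hw := weight_shift (sigR σ D) (α.comp D.subtype) X hXβ i χ v
    rw [hPv] at hw
    exact (weight_line σ m α X hp hσ hX hXα hfree hKm D hcard U hUα hUX hfin h0 _ (hXkU i v hvU)
      (fun h => hv0 (hXinj i v h)) _ hw).2 k
  intro k l w hw
  obtain ⟨g, rfl⟩ := hspan w hw
  rw [map_sum, map_sum, map_sum, map_sum]
  refine Finset.sum_congr rfl (fun i _ => ?_)
  obtain ⟨c, hc⟩ := hdiag i k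
  obtain ⟨d, hd⟩ := hdiag i l
  simp only [map_smul, hc, hd, smul_smul]
  congr 1
  ring

theorem small_comm [FiniteDimensional E W] [IsAlgClosed E] (hp : m.Prime) (hσ : σ ^ m = 1)
    (hX : X ^ m = 1) (hXα : ∀ b, X * α b = α (σ b) * X)
    (hfree : ∀ k, 0 < k → k < m → ∀ b, (σ ^ k) b = b → b = 1)
    (hKm : (Nat.card K).Coprime m)
    (hK : (Fintype.card K : E) ≠ 0) :
    ∀ (j : ℕ) (U : Submodule E W), (∀ k, ∀ w ∈ U, α k w ∈ U) → (∀ w ∈ U, X w ∈ U) →
      (∀ k ∈ derivedSeries K j, ∀ w ∈ U, α k w = w) →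
      (∀ w ∈ U, (∀ k, α k w = w) → w = 0) → finrank E U ≤ m →
      ∀ k l : K, ∀ w ∈ U, α k (α l w) = α l (α k w) := by
  classical
  intro j
  induction j with
  | zero =>
    intro U _ _ htriv h0 _ k l w hw
    have hw0 : w = 0 := h0 w hw (fun k => htriv k (by simp [derivedSeries_zero]) w hw)
    subst hw0
    simp
  | succ j ih =>
    intro U hUα hUX htriv h0 hfin
    obtain ⟨D, hDdef⟩ : ∃ D : Subgroup K, D = derivedSeries K j := ⟨_, rfl⟩
    haveI hDc : D.Characteristic := by rw [hDdef]; infer_instance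
    haveI hDn : D.Normal := inferInstance
    haveI : Fintype ↥D := Fintype.ofFinite _
    have hD1 : ∀ a ∈ D, ∀ b ∈ D, ⁅a, b⁆ ∈ derivedSeries K (j + 1) := by
      intro a ha b hb
      rw [derivedSeries_succ, ← hDdef]
      exact Subgroup.commutator_mem_commutator ha hb
    have hcard : (Fintype.card ↥D : E) ≠ 0 := card_sub_ne hK D
    obtain ⟨π, hπ⟩ : ∃ π : Module.End E W, π = avg α D := ⟨_, rfl⟩
    have hππ : π * π = π := by
      ext w
      rw [Module.End.mul_apply, hπ]
      exact proj_proj (α.comp D.subtype) 1 hcard w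
    have hπU : ∀ w ∈ U, π w ∈ U := by
      intro w hw
      rw [hπ, avg_apply]
      exact U.smul_mem _ (U.sum_mem (fun b _ => hUα _ w hw))
    have hπX : ∀ w, π (X w) = X (π w) := fun w => by rw [hπ]; exact avg_X_comm σ α X hXα D w
    have hπα : ∀ k w, π (α k w) = α k (π w) := fun k w => by rw [hπ]; exact avg_alpha_comm α D k w
    have hcommD : ∀ a b : ↥D, ∀ w ∈ U, α (a : K) (α (b : K) w) = α (b : K) (α (a : K) w) := by
      rintro a b w hw
      have hc : ((a : K) * b) = ((b : K) * a) * ⁅(a : K)⁻¹, (b : K)⁻¹⁆ := by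
        rw [commutatorElement_def]
        group
      have hc' := hD1 _ (D.inv_mem a.2) _ (D.inv_mem b.2)
      rw [← Module.End.mul_apply, ← map_mul, hc, map_mul, Module.End.mul_apply,
        htriv _ hc' w hw, map_mul, Module.End.mul_apply]
    have hfix : ∀ w, π w = 0 → (∀ b : ↥D, α (b : K) w = w) → w = 0 := by
      intro w h3 hfixw
      have h4 : π w = w := by
        rw [hπ]
        exact proj_of_weight (α.comp D.subtype) (1 : ↥D →* E) hcard w (fun b => by
          simpa using hfixw b)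
      rw [← h4, h3]
    have h2 := ai_formula (sigR σ D) m (α.comp D.subtype) X hp.pos
      (by
        ext b
        rw [sigR_pow_coe, hσ]
        rfl)
      hX
      (fun b => hXα b)
      (by
        intro k hk hkm b hb
        have h3 := congrArg Subtype.val hb
        rw [sigR_pow_coe] at h3
        exact Subtype.ext (hfree k hk hkm _ h3))
      hcard _ (U ⊓ LinearMap.ker π) rfl
      (by
        rintro b w ⟨hw, hw'⟩
        refine ⟨hUα _ w hw, ?_⟩
        have : π w = 0 := hw'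
        show π (α b w) = 0
        rw [hπα, this, map_zero])
      (by
        rintro w ⟨hw, hw'⟩
        refine ⟨hUX w hw, ?_⟩
        have : π w = 0 := hw'
        show π (X w) = 0
        rw [hπX, this, map_zero])
      (fun a b w hw => hcommD a b w hw.1)
      (fun w hw h => hfix w hw.2 h)
    by_cases hU2 : U ⊓ LinearMap.ker π = ⊥
    · -- D acts trivially on U
      have hDtriv : ∀ w ∈ U, π w = w := by
        intro w hw
        have h5 : w - π w ∈ U ⊓ LinearMap.ker π := by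
          refine ⟨U.sub_mem hw (hπU w hw), ?_⟩
          have hpp : π (π w) = π w := by
            have := congrArg (fun f => f w) hππ
            simpa using this
          simp [hpp]
        rw [hU2, Submodule.mem_bot] at h5
        exact (sub_eq_zero.mp h5).symm
      refine ih U hUα hUX ?_ h0 hfin
      intro k hk w hw
      rw [← hDdef] at hk
      rw [← hDtriv w hw, hπ]
      have h6 := alpha_proj (α.comp D.subtype) (1 : ↥D →* E) (⟨k, hk⟩ : ↥D) w
      simpa [avg] using h6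
    · have hpos : 0 < finrank E ↥(U ⊓ LinearMap.ker π) := by
        rw [Module.finrank_pos_iff_exists_ne_zero]
        obtain ⟨w, hw, hw0⟩ := Submodule.exists_mem_ne_zero_of_ne_bot hU2
        exact ⟨⟨w, hw⟩, fun h => hw0 (congrArg Subtype.val h)⟩
      have hge : m ≤ finrank E ↥(U ⊓ LinearMap.ker π) := by
        rw [h2]
        rw [h2] at hpos
        have : 0 < finrank E ↥(U ⊓ LinearMap.ker π ⊓ LinearMap.ker (X - 1)) := Nat.pos_of_mul_pos_left hpos
        exact Nat.le_mul_of_pos_right m this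
      have heq : U ⊓ LinearMap.ker π = U :=
        Submodule.eq_of_le_of_finrank_le inf_le_left (hfin.trans hge)
      have hπ0 : ∀ w ∈ U, π w = 0 := by
        intro w hw
        rw [← heq] at hw
        exact hw.2
      exact comm_of_small σ m α X hp hσ hX hXα hfree hKm D hcard U hUα hUX hfin
        (fun w hw h => hfix w (hπ0 w hw) h) hcommD

end Small

end Cfsg.Agent.H05.FA
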