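import Cfsg.Agent.Lib.H05.FrA4

set_option autoImplicit false

namespace Cfsg.Agent.H05.FA

open Module TensorProduct

universe u v w

section BC

variable {F : Type w} [Field F] {V : Type u} [AddCommGroup V] [Module F V] [FiniteDimensional F V]
  {K : Type v} [Group K] [Fintype K] (σ : MulAut K) (m : ℕ)
  (α : K →* Module.End F V) (X : Module.End F V)

local notation "EE" => AlgebraicClosure F

/-- base-changed representation -/
noncomputable def bcα : K →* Module.End EE (EE ⊗[F] V) :=
  ((Module.End.baseChangeHom F EE V : _ →ₐ[F] _) : Module.End F V →* Module.End EE (EE ⊗[F] V)).comp α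

/-- base-changed operator -/
noncomputable def bcX : Module.End EE (EE ⊗[F] V) := Module.End.baseChangeHom F EE V X

theorem bcX_tmul (a : EE) (v : V) : bcX X (a ⊗ₜ[F] v) = a ⊗ₜ[F] X v := rfl

theorem bc_card_ne (n : ℕ) (h : (n : F) ≠ 0) : (n : EE) ≠ 0 := by
  intro h2
  apply h
  have h3 : algebraMap F EE (n : F) = 0 := by rw [map_natCast]; exact h2
  exact (map_eq_zero_iff _ (algebraMap F EE).injective).mp h3

theorem bc_h0 (hK : (Fintype.card K : F) ≠ 0) (h0 : ∀ w, (∀ k, α k w = w) → w = 0)
    (w : EE ⊗[F] V) (hw : ∀ k, bcα α k w = w) : w = 0 := by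
  have hsum : (∑ k, α k) = 0 := by
    ext v
    apply h0
    intro l
    simp only [LinearMap.sum_apply]
    rw [map_sum]
    have h1 : ∀ k, α l (α k v) = (fun c => α c v) (l * k) := by
      intro k
      simp [map_mul, Module.End.mul_apply]
    rw [Finset.sum_congr rfl (fun k _ => h1 k)]
    exact Equiv.sum_comp (Equiv.mulLeft l) (fun c => α c v)
  have h2 : (∑ k, bcα α k) = 0 := by
    have : (∑ k, bcα α k) = Module.End.baseChangeHom F EE V (∑ k, α k) := by
      rw [map_sum]
      rfl
    rw [this, hsum, map_zero]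
  have h3 : (∑ k, bcα α k) w = (Fintype.card K : EE) • w := by
    rw [LinearMap.sum_apply, Finset.sum_congr rfl (fun k _ => hw k)]
    simp [Nat.cast_smul_eq_nsmul]
  rw [h2] at h3
  have h4 := bc_card_ne (F := F) _ hK
  have h5 : (Fintype.card K : EE) • w = 0 := h3.symm
  rcases smul_eq_zero.mp h5 with h | h
  · exact absurd h h4
  · exact h

theorem bc_ker (hm : 0 < m) (hX : X ^ m = 1) (hmF : (m : F) ≠ 0) :
    finrank EE ↥(LinearMap.ker (bcX X - 1)) = finrank F ↥(LinearMap.ker (X - 1)) := by
  classical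
  obtain ⟨C, hC⟩ : ∃ C : Submodule F V, C = LinearMap.ker (X - 1) := ⟨_, rfl⟩
  rw [← hC]
  have hCX' : ∀ c ∈ C, X c = c := by
    intro c h1
    rw [hC] at h1
    have : X c - c = 0 := by simpa using h1
    exact sub_eq_zero.mp this
  have hCX : ∀ c : ↥C, X (c : V) = c := fun c => hCX' _ c.2
  obtain ⟨ι, hι⟩ : ∃ ι : (EE ⊗[F] ↥C) →ₗ[EE] (EE ⊗[F] V), ι = C.subtype.baseChange EE := ⟨_, rfl⟩
  have hιinj : Function.Injective ι := by
    rw [hι]
    have := Module.Flat.lTensor_preserves_injective_linearMap (M := EE) C.subtype C.injective_subtype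
    rw [← LinearMap.baseChange_eq_ltensor] at this
    exact this
  have hrange : LinearMap.range ι = LinearMap.ker (bcX X - 1) := by
    apply le_antisymm
    · rintro _ ⟨t, rfl⟩
      induction t using TensorProduct.induction_on with
      | zero => simp
      | tmul a c =>
        rw [hι, LinearMap.baseChange_tmul]
        show (bcX X - 1) _ = 0
        rw [LinearMap.sub_apply, bcX_tmul, Submodule.subtype_apply, hCX]
        simp
      | add x y hx hy =>
        rw [map_add]
        exact Submodule.add_mem _ hx hy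
    · intro w hw
      have hXw : bcX X w = w := by
        have : bcX X w - w = 0 := by simpa using hw
        exact sub_eq_zero.mp this
      have hpowW : ∀ i : ℕ, ((bcX X) ^ i) w = w := by
        intro i
        induction i with
        | zero => simp
        | succ i ih => rw [pow_succ, Module.End.mul_apply, hXw, ih]
      obtain ⟨ν, hν⟩ : ∃ ν : Module.End F V, ν = (m : F)⁻¹ • ∑ i ∈ Finset.range m, X ^ i := ⟨_, rfl⟩
      have hνC : ∀ v, ν v ∈ C := by
        intro v
        rw [hC]
        have hs : X ((∑ i ∈ Finset.range m, X ^ i) v) = (∑ i ∈ Finset.range m, X ^ i) v := by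
          rw [← Module.End.mul_apply, Finset.mul_sum]
          congr 1
          have h3 := Finset.sum_range_succ (fun i => X ^ i) m
          have h4 := Finset.sum_range_succ' (fun i => X ^ i) m
          rw [hX] at h3
          rw [pow_zero] at h4
          have h5 := add_right_cancel (h3.symm.trans h4)
          rw [h5]
          exact Finset.sum_congr rfl (fun i _ => (pow_succ' X i).symm)
        show (X - 1) _ = 0
        rw [LinearMap.sub_apply, Module.End.one_apply, hν, LinearMap.smul_apply, map_smul, hs, sub_self]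
      obtain ⟨ν₀, hν₀⟩ : ∃ ν₀ : V →ₗ[F] ↥C, ν₀ = ν.codRestrict C hνC := ⟨_, rfl⟩
      have hcomp : C.subtype ∘ₗ ν₀ = ν := by
        rw [hν₀]
        rfl
      have hνE : ν.baseChange EE w = w := by
        have h1 : ν.baseChange EE = (Module.End.baseChangeHom F EE V) ν := rfl
        rw [h1, hν, map_smul, map_sum]
        rw [LinearMap.smul_apply, LinearMap.sum_apply]
        have h2 : ∀ i ∈ Finset.range m, ((Module.End.baseChangeHom F EE V) (X ^ i)) w = w := by
          intro i _
          rw [map_pow]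
          exact hpowW i
        rw [Finset.sum_congr rfl h2]
        simp only [Finset.sum_const, Finset.card_range]
        have h3 : ((m : F)⁻¹) • (m • w) = ((m : F)⁻¹ * (m : F)) • w := by
          rw [mul_smul, Nat.cast_smul_eq_nsmul]
        rw [h3, inv_mul_cancel₀ hmF, one_smul]
      refine ⟨ν₀.baseChange EE w, ?_⟩
      rw [hι, ← LinearMap.comp_apply, ← LinearMap.baseChange_comp, hcomp, hνE]
  rw [← hrange, LinearMap.finrank_range_of_inj hιinj, Module.finrank_baseChange]

theorem bc_formula [Group.IsSolvable K] (hm : 0 < m) (hσ : σ ^ m = 1)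
    (hX : X ^ m = 1) (hXα : ∀ b, X * α b = α (σ b) * X)
    (hfree : ∀ k, 0 < k → k < m → ∀ b, (σ ^ k) b = b → b = 1)
    (hK : (Fintype.card K : F) ≠ 0) (hmF : (m : F) ≠ 0)
    (h0 : ∀ w, (∀ k, α k w = w) → w = 0) :
    finrank F V = m * finrank F ↥(LinearMap.ker (X - 1)) := by
  have hXE : (bcX X) ^ m = 1 := by
    rw [bcX, ← map_pow, hX, map_one]
  have hXαE : ∀ b, bcX X * bcα α b = bcα α (σ b) * bcX X := by
    intro b
    show (Module.End.baseChangeHom F EE V X) * (Module.End.baseChangeHom F EE V (α b)) =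
      (Module.End.baseChangeHom F EE V (α (σ b))) * (Module.End.baseChangeHom F EE V X)
    rw [← map_mul, ← map_mul, hXα]
  have := solv_formula (E := EE) σ m (bcα α) (bcX X) hm hσ hXE hXαE hfree (bc_card_ne _ hK) ⊤
    (fun _ _ _ => Submodule.mem_top) (fun _ _ => Submodule.mem_top)
    (fun w _ h => bc_h0 α hK h0 w h)
  rw [top_inf_eq, finrank_top, Module.finrank_baseChange, bc_ker m X hm hX hmF] at this
  exact this

theorem bc_comm [Group.IsSolvable K] (hp : m.Prime) (hσ : σ ^ m = 1)
    (hX : X ^ m = 1) (hXα : ∀ b, X * α b = α (σ b) * X)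
    (hfree : ∀ k, 0 < k → k < m → ∀ b, (σ ^ k) b = b → b = 1)
    (hKm : (Nat.card K).Coprime m)
    (hK : (Fintype.card K : F) ≠ 0) (hmF : (m : F) ≠ 0)
    (h0 : ∀ w, (∀ k, α k w = w) → w = 0)
    (hd : finrank F ↥(LinearMap.ker (X - 1)) ≤ 1) (k l : K) (w : V) :
    α k (α l w) = α l (α k w) := by
  have hf := bc_formula σ m α X hp.pos hσ hX hXα hfree hK hmF h0
  have hXE : (bcX X) ^ m = 1 := by
    rw [bcX, ← map_pow, hX, map_one]
  have hXαE : ∀ b, bcX X * bcα α b = bcα α (σ b) * bcX X := by
    intro b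
    show (Module.End.baseChangeHom F EE V X) * (Module.End.baseChangeHom F EE V (α b)) =
      (Module.End.baseChangeHom F EE V (α (σ b))) * (Module.End.baseChangeHom F EE V X)
    rw [← map_mul, ← map_mul, hXα]
  obtain ⟨n, hn⟩ := (Group.isSolvable_def K).mp inferInstance
  have hle : finrank EE ↥(⊤ : Submodule EE (EE ⊗[F] V)) ≤ m := by
    rw [finrank_top, Module.finrank_baseChange, hf]
    calc m * finrank F ↥(LinearMap.ker (X - 1)) ≤ m * 1 := Nat.mul_le_mul_left _ hd
      _ = m := mul_one m
  have := small_comm (E := EE) σ m (bcα α) (bcX X) hp hσ hXE hXαE hfree hKm (bc_card_ne _ hK) n ⊤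
    (fun _ _ _ => Submodule.mem_top) (fun _ _ => Submodule.mem_top)
    (by
      intro k hk w _
      rw [hn, Subgroup.mem_bot] at hk
      rw [hk, map_one]
      rfl)
    (fun w _ h => bc_h0 α hK h0 w h) hle k l ((1 : EE) ⊗ₜ[F] w) Submodule.mem_top
  have hinj := Module.FaithfullyFlat.tensorProduct_mk_injective (A := F) (B := EE) V
  apply hinj
  exact this

end BC

end Cfsg.Agent.H05.FA
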