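import Cfsg.Agent.Lib.H05.FrA5

set_option autoImplicit false

namespace Cfsg.Agent.H05.FA

open Module

universe u v

/-- the additive form of an automorphism -/
def fAdd {V₀ : Type u} [CommGroup V₀] (φ : MulAut V₀) : Additive V₀ →+ Additive V₀ where
  toFun x := Additive.ofMul (φ (Additive.toMul x))
  map_zero' := by
    show Additive.ofMul (φ 1) = 0
    rw [map_one]
    rfl
  map_add' x y := by
    show Additive.ofMul (φ (Additive.toMul x * Additive.toMul y)) = _
    rw [map_mul]
    rfl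

/-- the linear form of an automorphism -/
def toLin (q : ℕ) [Fact q.Prime] {V₀ : Type u} [CommGroup V₀] [Module (ZMod q) (Additive V₀)] :
    MulAut V₀ →* Module.End (ZMod q) (Additive V₀) where
  toFun φ := { fAdd φ with map_smul' := ZMod.map_smul (fAdd φ) }
  map_one' := LinearMap.ext fun x => rfl
  map_mul' φ ψ := LinearMap.ext fun x => rfl

section Elem

variable {q : ℕ} [hq : Fact q.Prime] {V₀ : Type u} [CommGroup V₀] [Finite V₀]
  {K : Type v} [Group K] [Finite K] [Group.IsSolvable K] (σ : MulAut K) (m : ℕ)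
  (a : K →* MulAut V₀) (ξ : MulAut V₀)

theorem elem_main_aux [Module (ZMod q) (Additive V₀)] (hm : 0 < m) (hσ : σ ^ m = 1)
    (hξ : ξ ^ m = 1) (hξa : ∀ k, ξ * a k = a (σ k) * ξ)
    (hfree : ∀ k, 0 < k → k < m → ∀ b, (σ ^ k) b = b → b = 1)
    (hKq : (Nat.card K).Coprime q) (hmq : m.Coprime q)
    (h0 : ∀ z : V₀, (∀ k, a k z = z) → z = 1) :
    Nat.card V₀ = (Nat.card {y : V₀ // ξ y = y}) ^ m ∧
      (m.Prime → Nat.card {y : V₀ // ξ y = y} ≤ q → (Nat.card K).Coprime m →
        ∀ k l z, a k (a l z) = a l (a k z)) := by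
  classical
  haveI : Fintype K := Fintype.ofFinite K
  let toL := toLin (V₀ := V₀) q
  have htoL : ∀ (φ : MulAut V₀) (x : V₀), toL φ (Additive.ofMul x) = Additive.ofMul (φ x) :=
    fun φ x => rfl
  haveI : Module.Finite (ZMod q) (Additive V₀) := Module.Finite.of_finite
  have hq0 : ∀ n : ℕ, n.Coprime q → (n : ZMod q) ≠ 0 := by
    intro n hn h
    rw [ZMod.natCast_eq_zero_iff] at h
    have := Nat.Coprime.eq_one_of_dvd hn.symm h
    exact hq.out.one_lt.ne' this
  have hKq' : (Fintype.card K : ZMod q) ≠ 0 := by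
    rw [← Nat.card_eq_fintype_card]
    exact hq0 _ hKq
  have hXα : ∀ b, toL ξ * (toL.comp a) b = (toL.comp a) (σ b) * toL ξ := by
    intro b
    simp only [MonoidHom.comp_apply]
    rw [← map_mul, ← map_mul, hξa]
  have hX : (toL ξ) ^ m = 1 := by rw [← map_pow, hξ, map_one]
  have h0' : ∀ w : Additive V₀, (∀ k, (toL.comp a) k w = w) → w = 0 := by
    intro w hw
    have : Additive.toMul w = 1 := h0 (Additive.toMul w) (fun k => by
      have := hw k
      exact congrArg Additive.toMul this)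
    show Additive.ofMul (Additive.toMul w) = 0
    rw [this]
    rfl
  have hf := bc_formula σ m (toL.comp a) (toL ξ) hm hσ hX hXα hfree hKq' (hq0 m hmq) h0'
  have hcardker : Nat.card {y : V₀ // ξ y = y} = Nat.card ↥(LinearMap.ker (toL ξ - 1)) := by
    refine Nat.card_congr ⟨fun y => ⟨Additive.ofMul y.1, ?_⟩, fun u => ⟨Additive.toMul u.1, ?_⟩, ?_, ?_⟩
    · show toL ξ (Additive.ofMul y.1) - Additive.ofMul y.1 = 0
      rw [htoL, y.2, sub_self]
    · have h1 : toL ξ u.1 - u.1 = 0 := u.2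
      exact congrArg Additive.toMul (sub_eq_zero.mp h1)
    · intro y
      rfl
    · intro u
      rfl
  have hcardq : Nat.card (ZMod q) = q := Nat.card_zmod q
  have h1 : Nat.card V₀ = q ^ finrank (ZMod q) (Additive V₀) := by
    have := Module.natCard_eq_pow_finrank (K := ZMod q) (V := Additive V₀)
    rw [hcardq] at this
    exact this
  have h2 : Nat.card {y : V₀ // ξ y = y} = q ^ finrank (ZMod q) ↥(LinearMap.ker (toL ξ - 1)) := by
    rw [hcardker]
    have := Module.natCard_eq_pow_finrank (K := ZMod q) (V := ↥(LinearMap.ker (toL ξ - 1)))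
    rw [hcardq] at this
    exact this
  refine ⟨?_, ?_⟩
  · rw [h1, h2, hf, ← pow_mul, mul_comm]
  · intro hp hle hKm k l z
    have hd : finrank (ZMod q) ↥(LinearMap.ker (toL ξ - 1)) ≤ 1 := by
      rw [h2] at hle
      by_contra hcon
      push Not at hcon
      have h3 : q ^ 2 ≤ q ^ finrank (ZMod q) ↥(LinearMap.ker (toL ξ - 1)) :=
        Nat.pow_le_pow_right hq.out.pos hcon
      have h4 : q < q ^ 2 := by
        have := hq.out.two_le
        nlinarith
      omega
    have := bc_comm σ m (toL.comp a) (toL ξ) hp hσ hX hXα hfree hKm hKq' (hq0 m hmq) h0' hd k l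
      (Additive.ofMul z)
    exact congrArg Additive.toMul this

theorem elem_main (htor : ∀ z : V₀, z ^ q = 1) (hm : 0 < m) (hσ : σ ^ m = 1)
    (hξ : ξ ^ m = 1) (hξa : ∀ k, ξ * a k = a (σ k) * ξ)
    (hfree : ∀ k, 0 < k → k < m → ∀ b, (σ ^ k) b = b → b = 1)
    (hKq : (Nat.card K).Coprime q) (hmq : m.Coprime q)
    (h0 : ∀ z : V₀, (∀ k, a k z = z) → z = 1) :
    Nat.card V₀ = (Nat.card {y : V₀ // ξ y = y}) ^ m ∧
      (m.Prime → Nat.card {y : V₀ // ξ y = y} ≤ q → (Nat.card K).Coprime m →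
        ∀ k l z, a k (a l z) = a l (a k z)) := by
  have hqA : ∀ x : Additive V₀, q • x = 0 := fun x => by
    show Additive.ofMul ((Additive.toMul x) ^ q) = 0
    rw [htor]
    rfl
  letI modA : Module (ZMod q) (Additive V₀) := AddCommGroup.zmodModule hqA
  exact elem_main_aux σ m a ξ hm hσ hξ hξa hfree hKq hmq h0

end Elem

end Cfsg.Agent.H05.FA
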