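import Cfsg.Agent.Lib.H05.FrA6

set_option autoImplicit false

namespace Cfsg.Agent.H05.FA

universe u v

/-- fixed subgroup -/
def fixS {Y : Type u} [Group Y] (ξ : MulAut Y) : Subgroup Y where
  carrier := {y | ξ y = y}
  mul_mem' := by
    intro a b ha hb
    show ξ (a * b) = a * b
    rw [map_mul, show ξ a = a from ha, show ξ b = b from hb]
  one_mem' := map_one ξ
  inv_mem' := by
    intro a ha
    show ξ a⁻¹ = a⁻¹
    rw [map_inv, show ξ a = a from ha]

theorem lift_fix {Y : Type u} [Group Y] [Finite Y] {A : Type v} [Group A] [Finite A]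
    (b : A →* MulAut Y) (V : Subgroup Y) (hVc : V ≤ Subgroup.center Y)
    (hVb : ∀ c, ∀ z ∈ V, b c z ∈ V) (hcop : (Nat.card A).Coprime (Nat.card V)) (y : Y)
    (hy : ∀ c, y⁻¹ * b c y ∈ V) : ∃ v ∈ V, ∀ c, b c (y * v) = y * v := by
  classical
  haveI : Fintype A := Fintype.ofFinite A
  letI cg : CommGroup ↥V :=
    { (inferInstance : Group ↥V) with
      mul_comm := fun x z => Subtype.ext ((Subgroup.mem_center_iff.mp (hVc x.2)) z) |>.symm }
  let u : A → ↥V := fun c => ⟨y⁻¹ * b c y, hy c⟩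
  let r : A → (↥V →* ↥V) := fun c =>
    { toFun := fun z => ⟨b c z, hVb c z z.2⟩
      map_one' := Subtype.ext (map_one _)
      map_mul' := fun x z => Subtype.ext (map_mul _ _ _) }
  have hcoc : ∀ c d, r c (u d) = (u c)⁻¹ * u (c * d) := by
    intro c d
    apply Subtype.ext
    show b c (y⁻¹ * b d y) = (y⁻¹ * b c y)⁻¹ * (y⁻¹ * b (c * d) y)
    rw [map_mul, map_inv, map_mul, MulAut.mul_apply]
    group
  obtain ⟨w, hw⟩ : ∃ w : ↥V, w = ∏ d, u d := ⟨_, rfl⟩
  have hrw : ∀ c, r c w = ((u c)⁻¹) ^ (Fintype.card A) * w := by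
    intro c
    rw [hw, map_prod, Finset.prod_congr rfl (fun d _ => hcoc c d), Finset.prod_mul_distrib,
      Finset.prod_const, Finset.card_univ]
    congr 1
    exact Equiv.prod_comp (Equiv.mulLeft c) u
  have hne : Nat.card V ≠ 0 := Nat.card_pos.ne'
  obtain ⟨n, -, hn⟩ := Nat.exists_mul_mod_eq_of_coprime 1 hcop hne
  have hpow : ∀ x : ↥V, (x ^ (Fintype.card A)) ^ n = x := by
    intro x
    rw [← pow_mul, ← Nat.card_eq_fintype_card]
    have h1 : x ^ (Nat.card A * n) = x ^ (Nat.card A * n % Nat.card V) := (pow_mod_natCard x _).symm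
    rw [h1, hn, pow_mod_natCard, pow_one]
  refine ⟨(w ^ n : ↥V), (w ^ n : ↥V).2, fun c => ?_⟩
  have h2 : r c (w ^ n) = (u c)⁻¹ * w ^ n := by
    rw [map_pow, hrw, mul_pow, hpow]
  have h3 := congrArg Subtype.val h2
  have h4 : b c (((w ^ n : ↥V) : Y)) = (y⁻¹ * b c y)⁻¹ * ((w ^ n : ↥V) : Y) := h3
  rw [map_mul, h4]
  group

section Q

variable {Y : Type u} [Group Y] (V : Subgroup Y) [V.Normal]
  (hVmap : ∀ φ : MulAut Y, V.map φ.toMonoidHom = V)

/-- induced automorphisms of the quotient -/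
noncomputable def qHom : MulAut Y →* MulAut (Y ⧸ V) where
  toFun φ := QuotientGroup.congr V V φ (hVmap φ)
  map_one' := by
    ext x
    induction x using QuotientGroup.induction_on with
    | H y => rfl
  map_mul' φ ψ := by
    ext x
    induction x using QuotientGroup.induction_on with
    | H y => rfl

theorem qHom_mk (φ : MulAut Y) (y : Y) :
    qHom V hVmap φ (QuotientGroup.mk y) = QuotientGroup.mk (φ y) := rfl

/-- induced automorphisms of the subgroup -/
def resHom : MulAut Y →* MulAut ↥V where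
  toFun φ :=
    { toFun := fun z => ⟨φ z, by
        have h : φ (z : Y) ∈ V.map φ.toMonoidHom := ⟨z, z.2, rfl⟩
        rwa [hVmap φ] at h⟩
      invFun := fun z => ⟨φ.symm z, by
        have h : φ.symm (z : Y) ∈ V.map φ.symm.toMonoidHom := ⟨z, z.2, rfl⟩
        rwa [hVmap φ.symm] at h⟩
      left_inv := fun z => Subtype.ext (by simp)
      right_inv := fun z => Subtype.ext (by simp)
      map_mul' := fun x z => Subtype.ext (map_mul _ _ _) }
  map_one' := by
    ext z
    rfl
  map_mul' φ ψ := by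
    ext z
    rfl

theorem resHom_coe (φ : MulAut Y) (z : ↥V) : ((resHom V hVmap φ z : ↥V) : Y) = φ z := rfl

end Q

end Cfsg.Agent.H05.FA
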