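import Cfsg.Agent.Lib.H05.FrA7

set_option autoImplicit false
set_option linter.style.haveILetI false

namespace Cfsg.Agent.H05.FA

universe u v

theorem comm_trivial {K : Type v} [Group K] {S : Type u} [Group S] (β : K →* MulAut S)
    (h : ∀ k l s, β k (β l s) = β l (β k s)) (k l : K) (s : S) :
    β (k * l * k⁻¹ * l⁻¹) s = s := by
  have h1 : β (k * l * k⁻¹ * l⁻¹) s = β k (β l (β k⁻¹ (β l⁻¹ s))) := by
    rw [map_mul, map_mul, map_mul]
    rfl
  rw [h1, h k l]
  have h2 : β k (β k⁻¹ (β l⁻¹ s)) = β l⁻¹ s := by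
    rw [← MulAut.mul_apply, ← map_mul, mul_inv_cancel, map_one, MulAut.one_apply]
  rw [h2, ← MulAut.mul_apply, ← map_mul, mul_inv_cancel, map_one, MulAut.one_apply]

theorem grp_main {K : Type v} [Group K] [Finite K] [Group.IsSolvable K] (σ : MulAut K) (m : ℕ)
    (hm : 0 < m) (hσ : σ ^ m = 1) (hfree : ∀ k, 0 < k → k < m → ∀ b, (σ ^ k) b = b → b = 1) :
    ∀ (n : ℕ) (Y : Type u) [Group Y] [Finite Y] [Group.IsNilpotent Y] (a : K →* MulAut Y)
      (ξ : MulAut Y),
      Nat.card Y = n → ξ ^ m = 1 → (∀ k, ξ * a k = a (σ k) * ξ) →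
      (Nat.card Y).Coprime (Nat.card K) → (Nat.card Y).Coprime m →
      (∀ y, (∀ k, a k y = y) → y = 1) →
      Nat.card Y = (Nat.card (fixS ξ)) ^ m ∧
        (m.Prime → IsCyclic (fixS ξ) → (Nat.card K).Coprime m →
          ∀ k l y, a k (a l y) = a l (a k y)) := by
  classical
  intro n
  induction n using Nat.strong_induction_on with
  | _ n ih =>
  intro Y _ _ _ a ξ hn hξ hξa hYK hYm h0
  by_cases htriv : Subsingleton Y
  · refine ⟨?_, fun _ _ _ k l y => Subsingleton.elim _ _⟩
    have h1 : Nat.card Y = 1 := Nat.card_unique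
    have h2 : Nat.card (fixS ξ) = 1 := Nat.card_unique
    rw [h1, h2, one_pow]
  haveI : Nontrivial Y := not_subsingleton_iff_nontrivial.mp htriv
  have hc : Subgroup.center Y ≠ ⊥ := Group.IsNilpotent.center_ne_bot Y
  haveI : Nontrivial (Subgroup.center Y) := (Subgroup.nontrivial_iff_ne_bot _).mpr hc
  have hc1 : Nat.card (Subgroup.center Y) ≠ 1 := Finite.one_lt_card.ne'
  obtain ⟨q, hqp⟩ : ∃ q : ℕ, q = (Nat.card (Subgroup.center Y)).minFac := ⟨_, rfl⟩
  have hqprime : q.Prime := by rw [hqp]; exact Nat.minFac_prime hc1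
  haveI hq : Fact q.Prime := ⟨hqprime⟩
  obtain ⟨z₀, hz₀⟩ := exists_prime_orderOf_dvd_card' q (by rw [hqp]; exact Nat.minFac_dvd _)
  obtain ⟨V, hV⟩ : ∃ V : Subgroup Y, ∀ x, x ∈ V ↔ x ∈ Subgroup.center Y ∧ x ^ q = 1 := by
    refine ⟨{ carrier := {x | x ∈ Subgroup.center Y ∧ x ^ q = 1}
              mul_mem' := ?_
              one_mem' := ⟨Subgroup.one_mem _, one_pow _⟩
              inv_mem' := ?_ }, fun x => Iff.rfl⟩
    · rintro a b ⟨ha, ha'⟩ ⟨hb, hb'⟩
      refine ⟨Subgroup.mul_mem _ ha hb, ?_⟩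
      have hcomm : Commute a b := (Subgroup.mem_center_iff.mp ha b).symm
      rw [hcomm.mul_pow, ha', hb', one_mul]
    · rintro a ⟨ha, ha'⟩
      exact ⟨Subgroup.inv_mem _ ha, by rw [inv_pow, ha', inv_one]⟩
  have hVc : V ≤ Subgroup.center Y := fun x hx => ((hV x).mp hx).1
  have hVinv : ∀ φ : MulAut Y, ∀ z ∈ V, φ z ∈ V := by
    intro φ z hz
    obtain ⟨h1, h2⟩ := (hV z).mp hz
    refine (hV _).mpr ⟨?_, by rw [← map_pow, h2, map_one]⟩
    rw [Subgroup.mem_center_iff]
    intro g
    have h3 := Subgroup.mem_center_iff.mp h1 (φ.symm g)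
    have h4 := congrArg φ h3
    simpa using h4
  have hVmap : ∀ φ : MulAut Y, V.map φ.toMonoidHom = V := by
    intro φ
    apply le_antisymm
    · rintro _ ⟨z, hz, rfl⟩
      exact hVinv φ z hz
    · intro z hz
      exact ⟨φ.symm z, hVinv φ.symm z hz, by simp⟩
  haveI hVn : V.Normal := ⟨fun z hz g => by
    have := Subgroup.mem_center_iff.mp (hVc hz) g
    rw [this, mul_assoc, mul_inv_cancel, mul_one]
    exact hz⟩
  have hz₀V : (z₀ : Y) ∈ V := (hV _).mpr ⟨z₀.2, by
    have : z₀ ^ q = 1 := by rw [← hz₀]; exact pow_orderOf_eq_one z₀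
    exact congrArg Subtype.val this⟩
  have hz₀1 : (z₀ : Y) ≠ 1 := by
    intro h
    have : z₀ = 1 := Subtype.ext h
    rw [this, orderOf_one] at hz₀
    exact hqprime.one_lt.ne hz₀
  have hqY : q ∣ Nat.card Y := by
    have h1 : orderOf (z₀ : Y) ∣ Nat.card Y := orderOf_dvd_natCard _
    rwa [Subgroup.orderOf_coe, hz₀] at h1
  have hKq : (Nat.card K).Coprime q := (Nat.Coprime.coprime_dvd_left hqY hYK).symm
  have hmq : m.Coprime q := (Nat.Coprime.coprime_dvd_left hqY hYm).symm
  have hVdvd : Nat.card V ∣ Nat.card Y := Subgroup.card_subgroup_dvd_card V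
  have hKV : (Nat.card K).Coprime (Nat.card V) := (Nat.Coprime.coprime_dvd_left hVdvd hYK).symm
  have hmV : m.Coprime (Nat.card V) := (Nat.Coprime.coprime_dvd_left hVdvd hYm).symm
  have hV1 : 1 < Nat.card V := by
    haveI : Nontrivial ↥V := ⟨⟨⟨z₀, hz₀V⟩, 1, fun h => hz₀1 (congrArg Subtype.val h)⟩⟩
    exact Finite.one_lt_card
  have hcardY : Nat.card Y = Nat.card (Y ⧸ V) * Nat.card V :=
    Subgroup.card_eq_card_quotient_mul_card_subgroup V
  have hQdvd : Nat.card (Y ⧸ V) ∣ Nat.card Y := ⟨_, hcardY⟩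
  have hQlt : Nat.card (Y ⧸ V) < n := by
    rw [← hn, hcardY]
    have : 0 < Nat.card (Y ⧸ V) := Nat.card_pos
    nlinarith
  obtain ⟨qH, hqH⟩ : ∃ qH : MulAut Y →* MulAut (Y ⧸ V), qH = qHom V hVmap := ⟨_, rfl⟩
  have hqHmk : ∀ (φ : MulAut Y) (y : Y), qH φ (QuotientGroup.mk y) = QuotientGroup.mk (φ y) := by
    intro φ y
    rw [hqH]
    rfl
  have hmkeq : ∀ (φ : MulAut Y) (y : Y), qH φ (QuotientGroup.mk y) = QuotientGroup.mk y →
      y⁻¹ * φ y ∈ V := by
    intro φ y h
    rw [hqHmk] at h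
    have := QuotientGroup.eq.mp h.symm
    exact this
  have h0Q : ∀ y : Y ⧸ V, (∀ k, (qH.comp a) k y = y) → y = 1 := by
    intro y
    induction y using QuotientGroup.induction_on with
    | H y =>
      intro hy
      obtain ⟨v, hv, hfix⟩ := lift_fix a V hVc (fun c z hz => hVinv _ z hz) hKV y
        (fun c => hmkeq _ y (hy c))
      have h1 := h0 _ hfix
      have h2 : y = v⁻¹ := eq_inv_of_mul_eq_one_left h1
      rw [QuotientGroup.eq_one_iff, h2]
      exact V.inv_mem hv
  have hIH := ih _ hQlt (Y ⧸ V) (qH.comp a) (qH ξ) rfl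
    (by rw [← map_pow, hξ, map_one])
    (fun k => by
      simp only [MonoidHom.comp_apply]
      rw [← map_mul, ← map_mul, hξa])
    (Nat.Coprime.coprime_dvd_left hQdvd hYK)
    (Nat.Coprime.coprime_dvd_left hQdvd hYm)
    h0Q
  obtain ⟨hIHa, hIHb⟩ := hIH
  -- the map on fixed points
  obtain ⟨f, hf⟩ : ∃ f : fixS ξ →* fixS (qH ξ), ∀ y : fixS ξ, ((f y : fixS (qH ξ)) : Y ⧸ V) = QuotientGroup.mk (y : Y) := by
    refine ⟨MonoidHom.codRestrict ((QuotientGroup.mk' V).comp (fixS ξ).subtype) (fixS (qH ξ)) ?_, fun y => rfl⟩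
    intro y
    show qH ξ (QuotientGroup.mk (y : Y)) = QuotientGroup.mk (y : Y)
    rw [hqHmk]
    congr 1
    exact y.2
  have hfs : Function.Surjective f := by
    rintro ⟨x, hx⟩
    induction x using QuotientGroup.induction_on with
    | H y =>
      have hx' : qH ξ (QuotientGroup.mk y) = QuotientGroup.mk y := hx
      have hle : Subgroup.zpowers ξ ≤
          (MulAction.stabilizer (MulAut (Y ⧸ V)) (QuotientGroup.mk y : Y ⧸ V)).comap qH := by
        rw [Subgroup.zpowers_le]
        exact hx'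
      have hord : Nat.card ↥(Subgroup.zpowers ξ) ∣ m := by
        rw [Nat.card_zpowers]
        exact orderOf_dvd_of_pow_eq_one hξ
      obtain ⟨v, hv, hfix⟩ := lift_fix (Subgroup.zpowers ξ).subtype V hVc
        (fun c z hz => hVinv _ z hz) (Nat.Coprime.coprime_dvd_left hord hmV) y
        (fun c => hmkeq _ y (hle c.2))
      have h1 := hfix ⟨ξ, Subgroup.mem_zpowers ξ⟩
      refine ⟨⟨y * v, h1⟩, Subtype.ext ?_⟩
      rw [hf]
      exact QuotientGroup.mk_mul_of_mem y hv
  have hcardfix : Nat.card (fixS ξ) = Nat.card (fixS (qH ξ)) * Nat.card f.ker := by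
    have h1 := Subgroup.card_eq_card_quotient_mul_card_subgroup f.ker
    rw [h1, Nat.card_congr (QuotientGroup.quotientKerEquivOfSurjective f hfs).toEquiv]
  obtain ⟨rH, hrH⟩ : ∃ rH : MulAut Y →* MulAut ↥V, rH = resHom V hVmap := ⟨_, rfl⟩
  have hrHc : ∀ (φ : MulAut Y) (z : ↥V), ((rH φ z : ↥V) : Y) = φ z := by
    intro φ z
    rw [hrH]
    rfl
  have hkercard : Nat.card f.ker = Nat.card {y : ↥V // rH ξ y = y} := by
    have hkm : ∀ u : fixS ξ, u ∈ f.ker ↔ (u : Y) ∈ V := by
      intro u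
      rw [MonoidHom.mem_ker]
      constructor
      · intro h
        have h1 := congrArg Subtype.val h
        rw [hf] at h1
        exact (QuotientGroup.eq_one_iff _).mp h1
      · intro h
        apply Subtype.ext
        rw [hf]
        exact (QuotientGroup.eq_one_iff _).mpr h
    refine Nat.card_congr ⟨fun u => ⟨⟨u.1.1, (hkm _).mp u.2⟩, Subtype.ext (by rw [hrHc]; exact u.1.2)⟩,
      fun y => ⟨⟨y.1.1, ?_⟩, (hkm _).mpr y.1.2⟩, ?_, ?_⟩
    · have h1 := congrArg Subtype.val y.2
      rw [hrHc] at h1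
      exact h1
    · intro u
      rfl
    · intro y
      rfl
  -- the central layer
  letI cg : CommGroup ↥V :=
    { (inferInstance : Group ↥V) with
      mul_comm := fun x z => Subtype.ext ((Subgroup.mem_center_iff.mp (hVc x.2)) z) |>.symm }
  have hElem := elem_main (q := q) (V₀ := ↥V) σ m (rH.comp a) (rH ξ)
    (fun z => Subtype.ext ((hV _).mp z.2).2) hm hσ
    (by rw [← map_pow, hξ, map_one])
    (fun k => by
      simp only [MonoidHom.comp_apply]
      rw [← map_mul, ← map_mul, hξa])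
    hfree hKq hmq
    (fun z hz => by
      obtain ⟨v, hv, hfix⟩ : ∃ v : Y, v = z := ⟨_, rfl⟩
      have h1 : (z : Y) = 1 := h0 z (fun k => by
        have := congrArg Subtype.val (hz k)
        rw [MonoidHom.comp_apply, hrHc] at this
        exact this)
      exact Subtype.ext h1)
  obtain ⟨hEa, hEb⟩ := hElem
  refine ⟨?_, ?_⟩
  · rw [hcardY, hIHa, hEa, hcardfix, hkercard, mul_pow]
  · intro hp hcyc hKm k l y
    have hQc : IsCyclic (fixS (qH ξ)) := isCyclic_of_surjective f hfs
    have hQcomm := hIHb hp hQc hKm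
    have hle : Nat.card {y : ↥V // rH ξ y = y} ≤ q := by
      rw [← hkercard]
      haveI : IsCyclic f.ker := inferInstance
      obtain ⟨g, hg⟩ := IsCyclic.exists_generator (α := f.ker)
      have h1 := orderOf_eq_card_of_forall_mem_zpowers hg
      rw [← h1]
      refine orderOf_le_of_pow_eq_one hqprime.pos ?_
      apply Subtype.ext
      apply Subtype.ext
      have h2 : ((g : fixS ξ) : Y) ∈ V := by
        have h3 : (g : fixS ξ) ∈ f.ker := g.2
        rw [MonoidHom.mem_ker] at h3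
        have h4 := congrArg Subtype.val h3
        rw [hf] at h4
        exact (QuotientGroup.eq_one_iff _).mp h4
      exact ((hV _).mp h2).2
    have hVcomm := hEb hp hle hKm
    obtain ⟨c, hc⟩ : ∃ c : K, c = k * l * k⁻¹ * l⁻¹ := ⟨_, rfl⟩
    have hcV : ∀ z ∈ V, a c z = z := by
      intro z hz
      have h1 := comm_trivial (rH.comp a) hVcomm k l ⟨z, hz⟩
      have h2 := congrArg Subtype.val h1
      rw [MonoidHom.comp_apply, hrHc, ← hc] at h2
      exact h2
    have hcQ : ∀ y : Y, y⁻¹ * a c y ∈ V := by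
      intro y
      have h1 := comm_trivial (qH.comp a) hQcomm k l (QuotientGroup.mk y)
      rw [MonoidHom.comp_apply, ← hc] at h1
      exact hmkeq _ y h1
    have hcfix : ∀ y : Y, a c y = y := by
      intro y
      obtain ⟨z, hz⟩ : ∃ z : Y, z = y⁻¹ * a c y := ⟨_, rfl⟩
      have hzV : z ∈ V := by rw [hz]; exact hcQ y
      have hay : a c y = y * z := by rw [hz]; group
      have hpowc : ∀ j : ℕ, a (c ^ j) y = y * z ^ j ∧ a (c ^ j) z = z := by
        intro j
        induction j with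
        | zero => simp
        | succ j ihj =>
          obtain ⟨h1, h2⟩ := ihj
          have h3 : a (c ^ (j + 1)) = a (c ^ j) * a c := by rw [pow_succ, map_mul]
          rw [h3, MulAut.mul_apply, MulAut.mul_apply, hcV z hzV, h2, hay, map_mul, h1, h2, pow_succ,
            mul_assoc]
          exact ⟨rfl, rfl⟩
      have h4 := (hpowc (orderOf c)).1
      rw [pow_orderOf_eq_one, map_one, MulAut.one_apply] at h4
      have h5 : z ^ orderOf c = 1 := by
        have := mul_left_cancel (a := y) (b := 1) (c := z ^ orderOf c) (by rw [mul_one]; exact h4)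
        exact this.symm
      have h6 : orderOf z ∣ orderOf c := orderOf_dvd_of_pow_eq_one h5
      have h7 : orderOf z ∣ q := orderOf_dvd_of_pow_eq_one ((hV _).mp hzV).2
      have h8 : (orderOf c).Coprime q :=
        Nat.Coprime.coprime_dvd_left (orderOf_dvd_natCard c) hKq
      have h9 : orderOf z = 1 := Nat.eq_one_of_dvd_coprimes h8 h6 h7
      have h10 : z = 1 := orderOf_eq_one_iff.mp h9
      rw [hay, h10, mul_one]
    have hkl : k * l = c * (l * k) := by rw [hc]; group
    have h11 : a k (a l y) = a (k * l) y := by rw [map_mul]; rfl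
    rw [h11, hkl, map_mul, MulAut.mul_apply, hcfix, map_mul, MulAut.mul_apply]

end Cfsg.Agent.H05.FA
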