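import Cfsg.Agent.Lib.H05.FrA8
import Cfsg.Agent.Lib.H13.CoprimeGen

set_option autoImplicit false
set_option linter.style.haveILetI false
set_option linter.unusedSectionVars false

namespace Cfsg.Agent.H05.FA

open scoped commutatorElement

theorem nH_pow {X : Type*} [Group X] (H : Subgroup X) (x : X)
    (hx : x ∈ Subgroup.normalizer (H : Set X)) (k : ℕ) (z : ↥H) :
    ((((H.normalizerMonoidHom ⟨x, hx⟩) ^ k) z : ↥H) : X) = x ^ k * z * (x ^ k)⁻¹ := by
  rw [← map_pow]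
  rfl

theorem point_main {X : Type*} [Group X] [Finite X] (K M : Subgroup X)
    (hKs : Group.IsSolvable ↥K) (hMn : Group.IsNilpotent M)
    (hKM : K ≤ Subgroup.normalizer (M : Set X)) (x : X)
    (hxK : x ∈ Subgroup.normalizer (K : Set X))
    (hxM : x ∈ Subgroup.normalizer (M : Set X))
    (hfree : ∀ k, 0 < k → k < orderOf x → K ⊓ Subgroup.centralizer ({x ^ k} : Set X) = ⊥)
    (hcopK : (Nat.card M).Coprime (Nat.card K)) (hcopx : (Nat.card M).Coprime (orderOf x))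
    (hCK : M ⊓ Subgroup.centralizer (K : Set X) = ⊥) :
    Nat.card M = (Nat.card ↥(M ⊓ Subgroup.centralizer ({x} : Set X))) ^ orderOf x ∧
    ((orderOf x).Prime → IsCyclic ↥(M ⊓ Subgroup.centralizer ({x} : Set X)) →
      (Nat.card K).Coprime (orderOf x) → ⁅K, K⁆ ≤ Subgroup.centralizer (M : Set X)) := by
  classical
  have hxo : 0 < orderOf x := orderOf_pos x
  haveI : Group.IsSolvable ↥K := hKs
  haveI : Group.IsNilpotent ↥M := hMn
  obtain ⟨σ, hσ⟩ : ∃ σ : MulAut ↥K, σ = K.normalizerMonoidHom ⟨x, hxK⟩ := ⟨_, rfl⟩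
  obtain ⟨ξ, hξ⟩ : ∃ ξ : MulAut ↥M, ξ = M.normalizerMonoidHom ⟨x, hxM⟩ := ⟨_, rfl⟩
  obtain ⟨a, ha⟩ : ∃ a : ↥K →* MulAut ↥M,
      a = (M.normalizerMonoidHom).comp (Subgroup.inclusion hKM) := ⟨_, rfl⟩
  have haa : ∀ (k : ↥K) (y : ↥M), ((a k y : ↥M) : X) = (k : X) * y * (k : X)⁻¹ := by
    intro k y
    rw [ha]
    rfl
  have hσσ : ∀ (j : ℕ) (z : ↥K), (((σ ^ j) z : ↥K) : X) = x ^ j * z * (x ^ j)⁻¹ := by
    intro j z
    rw [hσ]
    exact nH_pow K x hxK j z
  have hξξ : ∀ (j : ℕ) (z : ↥M), (((ξ ^ j) z : ↥M) : X) = x ^ j * z * (x ^ j)⁻¹ := by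
    intro j z
    rw [hξ]
    exact nH_pow M x hxM j z
  have hσm : σ ^ orderOf x = 1 := by
    ext z
    rw [hσσ, pow_orderOf_eq_one]
    simp
  have hξm : ξ ^ orderOf x = 1 := by
    ext z
    rw [hξξ, pow_orderOf_eq_one]
    simp
  have hfr : ∀ k, 0 < k → k < orderOf x → ∀ b, (σ ^ k) b = b → b = 1 := by
    intro k h0 h1 b hb
    have h2 := congrArg Subtype.val hb
    rw [hσσ] at h2
    have h3 : (b : X) ∈ K ⊓ Subgroup.centralizer ({x ^ k} : Set X) := by
      refine Subgroup.mem_inf.mpr ⟨b.2, ?_⟩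
      rw [Subgroup.mem_centralizer_iff]
      intro h hh
      rw [Set.mem_singleton_iff] at hh
      subst hh
      rw [mul_inv_eq_iff_eq_mul] at h2
      exact h2
    rw [hfree k h0 h1, Subgroup.mem_bot] at h3
    exact Subtype.ext h3
  have hσ1 : ∀ z : ↥K, ((σ z : ↥K) : X) = x * z * x⁻¹ := fun z => by simpa using hσσ 1 z
  have hξ1 : ∀ z : ↥M, ((ξ z : ↥M) : X) = x * z * x⁻¹ := fun z => by simpa using hξξ 1 z
  have hξa : ∀ k, ξ * a k = a (σ k) * ξ := by
    intro k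
    ext y
    show ((ξ (a k y) : ↥M) : X) = ((a (σ k) (ξ y) : ↥M) : X)
    rw [hξ1, haa, haa, hξ1, hσ1]
    group
  have h0 : ∀ y, (∀ k, a k y = y) → y = 1 := by
    intro y hy
    have h1 : (y : X) ∈ M ⊓ Subgroup.centralizer (K : Set X) := by
      refine Subgroup.mem_inf.mpr ⟨y.2, ?_⟩
      rw [Subgroup.mem_centralizer_iff]
      intro k hk
      have h2 := congrArg Subtype.val (hy ⟨k, hk⟩)
      rw [haa] at h2
      rw [mul_inv_eq_iff_eq_mul] at h2
      exact h2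
    rw [hCK, Subgroup.mem_bot] at h1
    exact Subtype.ext h1
  have hfix : fixS ξ = (M ⊓ Subgroup.centralizer ({x} : Set X)).subgroupOf M := by
    ext y
    rw [Subgroup.mem_subgroupOf, Subgroup.mem_inf]
    constructor
    · intro hy
      have h2 : ξ y = y := hy
      refine ⟨y.2, ?_⟩
      rw [Subgroup.mem_centralizer_iff]
      intro h hh
      rw [Set.mem_singleton_iff] at hh
      subst hh
      have h3 := congrArg Subtype.val h2
      rw [hξ1, mul_inv_eq_iff_eq_mul] at h3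
      exact h3
    · rintro ⟨-, hy⟩
      rw [Subgroup.mem_centralizer_iff] at hy
      have h3 := hy x (Set.mem_singleton x)
      show ξ y = y
      apply Subtype.ext
      rw [hξ1, mul_inv_eq_iff_eq_mul]
      exact h3
  have hcard : Nat.card (fixS ξ) = Nat.card ↥(M ⊓ Subgroup.centralizer ({x} : Set X)) := by
    rw [hfix]
    exact Nat.card_congr (Subgroup.subgroupOfEquivOfLe inf_le_left).toEquiv
  have hmain := grp_main σ (orderOf x) hxo hσm hfr (Nat.card M) ↥M a ξ rfl hξm hξa hcopK hcopx h0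
  refine ⟨by rw [hmain.1, hcard], fun hp hc hKo => ?_⟩
  have hc' : IsCyclic (fixS ξ) := by
    rw [hfix]
    exact isCyclic_of_surjective
      (Subgroup.subgroupOfEquivOfLe inf_le_left).symm.toMonoidHom (MulEquiv.surjective _)
  have hcomm := hmain.2 hp hc' hKo
  rw [Subgroup.commutator_le]
  intro k hk l hl
  rw [Subgroup.mem_centralizer_iff]
  intro y hy
  have h1 := comm_trivial a hcomm ⟨k, hk⟩ ⟨l, hl⟩ ⟨y, hy⟩
  have h2 := congrArg Subtype.val h1
  rw [haa] at h2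
  have h3 : (((⟨k, hk⟩ * ⟨l, hl⟩ * (⟨k, hk⟩ : ↥K)⁻¹ * (⟨l, hl⟩ : ↥K)⁻¹ : ↥K)) : X) = ⁅k, l⁆ := rfl
  rw [h3, mul_inv_eq_iff_eq_mul] at h2
  exact h2.symm

theorem final {X : Type*} [Group X] [Finite X] (K R M : Subgroup X) (hK1 : K ≠ ⊥) (hR1 : R ≠ ⊥)
    (hRK : R ≤ Subgroup.normalizer (K : Set X))
    (hfrob : ∀ r ∈ R, r ≠ 1 → K ⊓ Subgroup.centralizer ({r} : Set X) = ⊥)
    (hsolv : Group.IsSolvable ↥(K ⊔ R))
    (hM1 : M ≠ ⊥) (hMn : Group.IsNilpotent M) (hKM : K ≤ Subgroup.normalizer (M : Set X))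
    (hRM : R ≤ Subgroup.normalizer (M : Set X))
    (hcop : (Nat.card ↥(K ⊔ R)).Coprime (Nat.card M))
    (hCK : M ⊓ Subgroup.centralizer (K : Set X) = ⊥)
    (hpr : ∀ x ∈ R, x ≠ 1 →
      M ⊓ Subgroup.centralizer ({x} : Set X) = M ⊓ Subgroup.centralizer (R : Set X)) :
    (Nat.card R).Prime ∧
      Nat.card M = Nat.card ↥(M ⊓ Subgroup.centralizer (R : Set X)) ^ Nat.card R ∧
      (IsCyclic ↥(M ⊓ Subgroup.centralizer (R : Set X)) →
        ⁅K, K⁆ ≤ Subgroup.centralizer (M : Set X)) := by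
  classical
  haveI hKs : Group.IsSolvable ↥K :=
    solvable_of_solvable_injective (f := Subgroup.inclusion (le_sup_left : K ≤ K ⊔ R))
      (Subgroup.inclusion_injective _)
  have hKdvd : Nat.card K ∣ Nat.card ↥(K ⊔ R) := Subgroup.card_dvd_of_le le_sup_left
  have hRdvd : Nat.card R ∣ Nat.card ↥(K ⊔ R) := Subgroup.card_dvd_of_le le_sup_right
  have hcopK : (Nat.card M).Coprime (Nat.card K) := (Nat.Coprime.coprime_dvd_left hKdvd hcop).symm
  have hcopR : (Nat.card M).Coprime (Nat.card R) := (Nat.Coprime.coprime_dvd_left hRdvd hcop).symm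
  have hordR : ∀ x ∈ R, orderOf x ∣ Nat.card R := fun x hx => Subgroup.orderOf_dvd_natCard R hx
  obtain ⟨C, hC⟩ : ∃ C : Subgroup X, C = M ⊓ Subgroup.centralizer (R : Set X) := ⟨_, rfl⟩
  rw [← hC] at hpr ⊢
  have hpoint : ∀ x ∈ R, x ≠ 1 → Nat.card M = Nat.card C ^ orderOf x ∧
      ((orderOf x).Prime → IsCyclic C → (Nat.card K).Coprime (orderOf x) →
        ⁅K, K⁆ ≤ Subgroup.centralizer (M : Set X)) := by
    intro x hx hx1
    have := point_main K M hKs hMn hKM x (hRK hx) (hRM hx)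
      (fun k h0 h1 => hfrob _ (R.pow_mem hx k) (pow_ne_one_of_lt_orderOf h0.ne' h1)) hcopK
      (Nat.Coprime.coprime_dvd_right (hordR x hx) hcopR) hCK
    rwa [hpr x hx hx1] at this
  obtain ⟨x₀, hx₀, hx₀1⟩ := (Subgroup.bot_or_exists_ne_one R).resolve_left hR1
  have hM : 1 < Nat.card M := by
    haveI : Nontrivial ↥M := (Subgroup.nontrivial_iff_ne_bot _).mpr hM1
    exact Finite.one_lt_card
  have hC2 : 2 ≤ Nat.card C := by
    by_contra h
    have h1 : Nat.card C = 1 := by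
      have := Nat.card_pos (α := ↥C)
      omega
    have h2 := (hpoint x₀ hx₀ hx₀1).1
    rw [h1, one_pow] at h2
    omega
  have hsame : ∀ x ∈ R, x ≠ 1 → orderOf x = orderOf x₀ := by
    intro x hx hx1
    have h1 := (hpoint x hx hx1).1
    have h2 := (hpoint x₀ hx₀ hx₀1).1
    exact Nat.pow_right_injective hC2 (h1.symm.trans h2)
  obtain ⟨ℓ, hℓ⟩ : ∃ ℓ, ℓ = orderOf x₀ := ⟨_, rfl⟩
  have hℓ1 : ℓ ≠ 1 := by
    rw [hℓ]
    intro h
    exact hx₀1 (orderOf_eq_one_iff.mp h)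
  have hℓp : ℓ.Prime := by
    have hp := Nat.minFac_prime hℓ1
    have hd : ℓ.minFac ∣ orderOf x₀ := hℓ ▸ Nat.minFac_dvd ℓ
    have h3 : orderOf (x₀ ^ (orderOf x₀ / ℓ.minFac)) = ℓ.minFac :=
      orderOf_pow_orderOf_div (orderOf_pos x₀).ne' hd
    have h4 : x₀ ^ (orderOf x₀ / ℓ.minFac) ≠ 1 := by
      intro h
      rw [h, orderOf_one] at h3
      exact hp.one_lt.ne h3
    have h5 := hsame _ (R.pow_mem hx₀ _) h4
    rw [h3, ← hℓ] at h5
    rw [← h5]
    exact hp
  haveI hℓF : Fact ℓ.Prime := ⟨hℓp⟩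
  have hRp : IsPGroup ℓ R := by
    rw [IsPGroup.iff_orderOf]
    intro g
    by_cases hg : g = 1
    · exact ⟨0, by simp [hg]⟩
    · refine ⟨1, ?_⟩
      rw [pow_one, hℓ, ← Subgroup.orderOf_coe]
      exact hsame g g.2 (fun h => hg (Subtype.ext h))
  have hKℓ : (Nat.card K).Coprime ℓ := by
    obtain ⟨ψ, hψ⟩ : ∃ ψ : ↥R →* MulAut ↥K,
        ψ = (K.normalizerMonoidHom).comp (Subgroup.inclusion hRK) := ⟨_, rfl⟩
    have hψψ : ∀ (r : ↥R) (z : ↥K), ((ψ r z : ↥K) : X) = (r : X) * z * (r : X)⁻¹ := by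
      intro r z
      rw [hψ]
      rfl
    letI act : MulAction ↥R ↥K := MulAction.compHom ↥K ψ
    have hsm : ∀ (r : ↥R) (z : ↥K), r • z = ψ r z := fun _ _ => rfl
    have h1 := hRp.card_modEq_card_fixedPoints ↥K
    have h2 : Nat.card (MulAction.fixedPoints ↥R ↥K) = 1 := by
      rw [Nat.card_eq_one_iff_unique]
      refine ⟨⟨?_⟩, ⟨⟨1, ?_⟩⟩⟩
      · rintro ⟨b, hb⟩ ⟨c, hc⟩
        have key : ∀ d : ↥K, d ∈ MulAction.fixedPoints ↥R ↥K → d = 1 := by
          intro d hd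
          have h3 := hd ⟨x₀, hx₀⟩
          rw [hsm] at h3
          have h4 := congrArg Subtype.val h3
          rw [hψψ] at h4
          have h5 : (d : X) ∈ K ⊓ Subgroup.centralizer ({x₀} : Set X) := by
            refine Subgroup.mem_inf.mpr ⟨d.2, ?_⟩
            rw [Subgroup.mem_centralizer_iff]
            intro h hh
            rw [Set.mem_singleton_iff] at hh
            subst hh
            rw [mul_inv_eq_iff_eq_mul] at h4
            exact h4
          rw [hfrob x₀ hx₀ hx₀1, Subgroup.mem_bot] at h5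
          exact Subtype.ext h5
        exact Subtype.ext ((key b hb).trans (key c hc).symm)
      · intro r
        rw [hsm, map_one]
    rw [h2] at h1
    have h3 := h1.gcd_eq
    rw [Nat.Coprime, h3]
    simp
  have hRcard : Nat.card R = ℓ := by
    by_contra hne
    haveI : Nontrivial ↥R := (Subgroup.nontrivial_iff_ne_bot _).mpr hR1
    haveI := hRp.center_nontrivial
    obtain ⟨z, hz⟩ := exists_ne (1 : Subgroup.center ↥R)
    obtain ⟨a, ha⟩ : ∃ a : X, a = ((z : ↥R) : X) := ⟨_, rfl⟩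
    have haR : a ∈ R := by rw [ha]; exact (z : ↥R).2
    have ha1 : a ≠ 1 := by
      rw [ha]
      intro h
      exact hz (Subtype.ext (Subtype.ext h))
    have hao : orderOf a = ℓ := by rw [hℓ]; exact hsame a haR ha1
    have hle : Subgroup.zpowers a ≤ R := by
      rw [Subgroup.zpowers_le]
      exact haR
    have hne' : Subgroup.zpowers a ≠ R := by
      intro h
      apply hne
      rw [← h, Nat.card_zpowers, hao]
    obtain ⟨b, hbR, hbn⟩ : ∃ b ∈ R, b ∉ Subgroup.zpowers a := by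
      by_contra h
      push_neg at h
      exact hne' (le_antisymm hle h)
    have hb1 : b ≠ 1 := fun h => hbn (h ▸ Subgroup.one_mem _)
    have hcomm : Commute a b := by
      have h1 := Subgroup.mem_center_iff.mp z.2 ⟨b, hbR⟩
      have h2 := congrArg Subtype.val h1
      show a * b = b * a
      rw [ha]
      exact h2.symm
    have hap : a ^ ℓ = 1 := by rw [← hao]; exact pow_orderOf_eq_one a
    have hbp : b ^ ℓ = 1 := by
      rw [hℓ, ← hsame b hbR hb1]
      exact pow_orderOf_eq_one b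
    have hfg := Cfsg.Agent.H13.fixGen_eq (p := ℓ) (R := K) hKℓ hcomm hap hbp (hRK haR) (hRK hbR)
    have hbot : Cfsg.Agent.H13.fixGen ℓ a b K = ⊥ := by
      unfold Cfsg.Agent.H13.fixGen
      apply iSup_eq_bot.mpr
      rintro ⟨x, hx⟩
      show K ⊓ Subgroup.centralizer ({x} : Set X) = ⊥
      rcases hx with rfl | ⟨i, hi, rfl⟩
      · exact hfrob _ hbR hb1
      · refine hfrob _ (R.mul_mem haR (R.pow_mem hbR i)) ?_
        intro h
        have hi0 : i ≠ 0 := by
          rintro rfl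
          rw [pow_zero, mul_one] at h
          exact ha1 h
        have hcopi : i.Coprime ℓ :=
          ((Nat.Prime.coprime_iff_not_dvd hℓp).mpr
            (Nat.not_dvd_of_pos_of_lt (Nat.pos_of_ne_zero hi0) hi)).symm
        obtain ⟨j, -, hj⟩ := Nat.exists_mul_mod_eq_one_of_coprime hcopi hℓp.one_lt
        have h1 : b ^ i = a⁻¹ := (eq_inv_of_mul_eq_one_right h)
        have h2 : b = (b ^ i) ^ j := by
          rw [← pow_mul, pow_eq_pow_mod (i * j) hbp, hj, pow_one]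
        apply hbn
        rw [h2, h1]
        exact Subgroup.pow_mem _ (Subgroup.inv_mem _ (Subgroup.mem_zpowers a)) j
    rw [hbot] at hfg
    exact hK1 hfg.symm
  refine ⟨by rw [hRcard]; exact hℓp, ?_, ?_⟩
  · rw [hRcard, hℓ]
    exact (hpoint x₀ hx₀ hx₀1).1
  · intro hcyc
    exact (hpoint x₀ hx₀ hx₀1).2 (hℓ ▸ hℓp) hcyc (hℓ ▸ hKℓ)

end Cfsg.Agent.H05.FA
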