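import Mathlib

/-! Fixed-point-free automorphisms of order three. -/

set_option autoImplicit false

namespace Cfsg.Agent.H05.Hig

variable {G : Type*} [Group G] {α : G ≃* G}

section
variable [Finite G] (h3 : ∀ x, α (α (α x)) = x) (hf : ∀ x, α x = x → x = 1)
include h3 hf

theorem exists_theta (y : G) : ∃ x : G, x⁻¹ * α x = y := by
  have hinj : Function.Injective (fun x : G => x⁻¹ * α x) := by
    intro a b hab
    have h1 : α (b * a⁻¹) = b * a⁻¹ := by
      have hab' : a⁻¹ * α a = b⁻¹ * α b := hab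
      rw [map_mul, map_inv]
      calc α b * (α a)⁻¹ = b * (b⁻¹ * α b) * (α a)⁻¹ := by group
        _ = b * (a⁻¹ * α a) * (α a)⁻¹ := by rw [hab']
        _ = b * a⁻¹ := by group
    have h2 := hf _ h1
    exact (mul_inv_eq_one.mp h2).symm
  exact (Finite.surjective_of_injective hinj) y

theorem f1 (y : G) : y * α y * α (α y) = 1 := by
  obtain ⟨x, rfl⟩ := exists_theta h3 hf y
  simp only [map_mul, map_inv, h3]
  group

theorem f1' (y : G) : α (α y) * α y * y = 1 := by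
  have h1 := f1 h3 hf y⁻¹
  simp only [map_inv] at h1
  have h2 : (α (α y) * α y * y)⁻¹ = 1 := by
    rw [← h1]
    group
  exact inv_eq_one.mp h2

theorem f2 (y : G) : y * α y = α y * y := by
  have h1 := f1 h3 hf y
  have h2 := f1' h3 hf y
  have h3' : y * α y = (α (α y))⁻¹ := eq_inv_of_mul_eq_one_left h1
  have h4 : α y * y = (α (α y))⁻¹ := by
    have : α (α y) * (α y * y) = 1 := by rw [← mul_assoc]; exact h2
    exact eq_inv_of_mul_eq_one_right this
  rw [h3', h4]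

theorem r1 (x y : G) : x * y * (α x * α y) = y * α y * (x * α x) := by
  have h1 := f1 h3 hf (x * y)
  simp only [map_mul] at h1
  have hx : α (α x) = (x * α x)⁻¹ := by
    have := f1 h3 hf x
    exact eq_inv_of_mul_eq_one_right this
  have hy : α (α y) = (y * α y)⁻¹ := by
    have := f1 h3 hf y
    exact eq_inv_of_mul_eq_one_right this
  rw [hx, hy] at h1
  have hcx := f2 h3 hf x
  have hcy := f2 h3 hf y
  -- `x y c d = y d x c`
  have h2 : x * y * (α x * α y) * ((x * α x)⁻¹ * (y * α y)⁻¹) = 1 := h1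
  have h4 : x * y * (α x * α y) = (((x * α x)⁻¹ * (y * α y)⁻¹))⁻¹ := eq_inv_of_mul_eq_one_left h2
  rw [h4, mul_inv_rev, inv_inv, inv_inv]

theorem r8 (x y : G) : y⁻¹ * x * y = α y * x * α x * (α y)⁻¹ * (α x)⁻¹ := by
  have h1 := r1 h3 hf x y
  calc y⁻¹ * x * y = y⁻¹ * (x * y * (α x * α y)) * (α y)⁻¹ * (α x)⁻¹ := by group
    _ = y⁻¹ * (y * α y * (x * α x)) * (α y)⁻¹ * (α x)⁻¹ := by rw [h1]
    _ = _ := by group

theorem r13 (x y : G) : y⁻¹ * x * y = (α x)⁻¹ * α y * α x * x * (α y)⁻¹ := by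
  have h1 := r8 h3 hf x⁻¹ y
  simp only [map_inv] at h1
  have h2 : (y⁻¹ * x⁻¹ * y)⁻¹ = (α y * x⁻¹ * (α x)⁻¹ * (α y)⁻¹ * (α x))⁻¹ := by
    have h5 : α y * x⁻¹ * (α x)⁻¹ * (α y)⁻¹ * (α x)⁻¹⁻¹ = α y * x⁻¹ * (α x)⁻¹ * (α y)⁻¹ * (α x) := by
      rw [inv_inv]
    rw [h1, h5]
  calc y⁻¹ * x * y = (y⁻¹ * x⁻¹ * y)⁻¹ := by group
    _ = _ := h2
    _ = _ := by group

/-- every element commutes with the conjugates of its image -/
theorem s1 (w d : G) : w * (d * α w * d⁻¹) = (d * α w * d⁻¹) * w := by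
  -- write `w = α x`, `d = α y`
  obtain ⟨x, rfl⟩ : ∃ x, α x = w := ⟨_, α.apply_symm_apply w⟩
  obtain ⟨y, rfl⟩ : ∃ y, α y = d := ⟨_, α.apply_symm_apply d⟩
  have h1 := r8 h3 hf x y
  have h2 := r13 h3 hf x y
  have hcx := f2 h3 hf x
  have h4 : α y * (x * α x) * (α y)⁻¹ * (α x)⁻¹ = (α x)⁻¹ * (α y * (x * α x) * (α y)⁻¹) := by
    calc α y * (x * α x) * (α y)⁻¹ * (α x)⁻¹ = α y * x * α x * (α y)⁻¹ * (α x)⁻¹ := by group
      _ = (α x)⁻¹ * α y * α x * x * (α y)⁻¹ := h1.symm.trans h2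
      _ = (α x)⁻¹ * α y * (α x * x) * (α y)⁻¹ := by group
      _ = (α x)⁻¹ * α y * (x * α x) * (α y)⁻¹ := by rw [hcx]
      _ = _ := by group
  -- so `α x` commutes with the conjugate of `e = x α x = (α (α x))⁻¹`
  have h5 : α x * (α y * (x * α x) * (α y)⁻¹) = (α y * (x * α x) * (α y)⁻¹) * α x := by
    calc α x * (α y * (x * α x) * (α y)⁻¹) = α x * (α y * (x * α x) * (α y)⁻¹ * (α x)⁻¹) * α x := by group
      _ = α x * ((α x)⁻¹ * (α y * (x * α x) * (α y)⁻¹)) * α x := by rw [h4]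
      _ = _ := by group
  have he : x * α x = (α (α x))⁻¹ := eq_inv_of_mul_eq_one_left (f1 h3 hf x)
  rw [he] at h5
  have h6 : α y * (α (α x))⁻¹ * (α y)⁻¹ = (α y * α (α x) * (α y)⁻¹)⁻¹ := by group
  rw [h6] at h5
  have h7 : Commute (α x) ((α y * α (α x) * (α y)⁻¹)⁻¹) := h5
  have h8 := h7.inv_right
  rw [inv_inv] at h8
  exact h8

theorem s1' (w d : G) : w * (d * α (α w) * d⁻¹) = (d * α (α w) * d⁻¹) * w := by
  have h1 := s1 h3 hf (α (α w)) d⁻¹
  rw [h3] at h1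
  simp only [inv_inv] at h1
  have h2 : d * (α (α w) * (d⁻¹ * w * d)) * d⁻¹ = d * ((d⁻¹ * w * d) * α (α w)) * d⁻¹ := by rw [h1]
  calc w * (d * α (α w) * d⁻¹) = d * ((d⁻¹ * w * d) * α (α w)) * d⁻¹ := by group
    _ = d * (α (α w) * (d⁻¹ * w * d)) * d⁻¹ := h2.symm
    _ = _ := by group

/-- every element commutes with its conjugates -/
theorem s2 (w d : G) : w * (d * w * d⁻¹) = (d * w * d⁻¹) * w := by
  have h1 := s1 h3 hf w d
  have h2 := s1' h3 hf w d
  have hw : w = (α (α w))⁻¹ * (α w)⁻¹ := by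
    have := f1 h3 hf w
    have h4 : w * (α w * α (α w)) = 1 := by rw [← mul_assoc]; exact this
    have h5 := eq_inv_of_mul_eq_one_left h4
    rwa [mul_inv_rev] at h5
  have h3' : d * w * d⁻¹ = (d * α (α w) * d⁻¹)⁻¹ * (d * α w * d⁻¹)⁻¹ := by
    conv_lhs => rw [hw]
    group
  rw [h3']
  have c1 : Commute w (d * α (α w) * d⁻¹) := h2
  have c2 : Commute w (d * α w * d⁻¹) := h1
  exact Commute.mul_right c1.inv_right c2.inv_right

end

end Cfsg.Agent.H05.Hig
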