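import Mathlib

/-! A Chevalley--Warning bound for anisotropic squaring maps into a four-group. -/

set_option autoImplicit false

namespace Cfsg.Agent.H05.Hig

open MvPolynomial

/-- coordinates on a four-group -/
theorem exists_coord {E : Type*} [Group E] [Finite E] (hE4 : Nat.card E = 4) (hE2 : ∀ e : E, e * e = 1) :
    ∃ l : E → Fin 2 → ZMod 2, (∀ a b, l (a * b) = l a + l b) ∧ (∀ a, l a = 0 → a = 1) := by
  classical
  letI iE : CommGroup E := { (inferInstance : Group E) with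
    mul_comm := fun a b => by
      have h1 := hE2 (a * b)
      have h2 := hE2 a
      have h3 := hE2 b
      calc a * b = a * b * (b * a) * (b * a) := by
            rw [mul_assoc (a * b), hE2 (b * a), mul_one]
        _ = a * (b * b) * a * (b * a) := by simp only [mul_assoc]
        _ = b * a := by rw [h3, mul_one, h2, one_mul] }
  letI mE : Module (ZMod 2) (Additive E) := AddCommGroup.zmodModule (fun x => by
    rw [two_nsmul]
    exact hE2 (Additive.toMul x))
  haveI : Fintype E := Fintype.ofFinite E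
  haveI : Finite (Additive E) := inferInstanceAs (Finite E)
  haveI : Module.Finite (ZMod 2) (Additive E) := Module.Finite.of_finite
  have hcard : Nat.card (Additive E) = 2 ^ Module.finrank (ZMod 2) (Additive E) := by
    rw [Module.natCard_eq_pow_finrank (K := ZMod 2) (V := Additive E)]
    simp
  have hrk : Module.finrank (ZMod 2) (Additive E) = 2 := by
    have h1 : Nat.card (Additive E) = 4 := hE4
    rw [hcard] at h1
    have h2 : (2 : ℕ) ^ Module.finrank (ZMod 2) (Additive E) = 2 ^ 2 := by rw [h1]; norm_num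
    exact Nat.pow_right_injective (le_refl 2) h2
  let b := Module.finBasisOfFinrankEq (ZMod 2) (Additive E) hrk
  refine ⟨fun a => b.equivFun (Additive.ofMul a), fun a c => ?_, fun a h => ?_⟩
  · show b.equivFun (Additive.ofMul a + Additive.ofMul c) = _
    rw [map_add]
  · have h1 : Additive.ofMul a = 0 := by
      have := b.equivFun.map_eq_zero_iff.mp h
      exact this
    exact h1

section
variable {U : Type*} [Group U] (E : Subgroup U) (hEc : ∀ e ∈ E, ∀ x, e * x = x * e)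
  (hE2 : ∀ e ∈ E, e * e = 1) (hsq : ∀ x : U, x * x ∈ E)

include hEc hE2 hsq

theorem cc_eq (u v : U) : u * v * u⁻¹ * v⁻¹ = (u * v) * (u * v) * (u * u) * (v * v) := by
  have hu : (u * u)⁻¹ = u * u := by
    rw [inv_eq_iff_mul_eq_one]
    exact hE2 _ (hsq u)
  have hv : (v * v)⁻¹ = v * v := by
    rw [inv_eq_iff_mul_eq_one]
    exact hE2 _ (hsq v)
  rw [← hu, ← hv]
  have hc1 := hEc _ (hsq u)
  have hc2 := hEc _ (E.inv_mem (hsq u))
  have e1 : u⁻¹ = u * (u * u)⁻¹ := by group
  have e2 : v⁻¹ = v * (v * v)⁻¹ := by group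
  calc u * v * u⁻¹ * v⁻¹ = u * v * (u * (u * u)⁻¹) * (v * (v * v)⁻¹) := by rw [← e1, ← e2]
    _ = u * v * u * ((u * u)⁻¹ * v) * (v * v)⁻¹ := by group
    _ = u * v * u * (v * (u * u)⁻¹) * (v * v)⁻¹ := by rw [hc2]
    _ = _ := by group

theorem cc_mem (u v : U) : u * v * u⁻¹ * v⁻¹ ∈ E := by
  rw [cc_eq E hEc hE2 hsq]
  exact E.mul_mem (E.mul_mem (hsq _) (hsq _)) (hsq _)

theorem cc_symm (u v : U) : v * u * v⁻¹ * u⁻¹ = u * v * u⁻¹ * v⁻¹ := by
  have h1 := hE2 _ (cc_mem E hEc hE2 hsq u v)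
  have h2 : v * u * v⁻¹ * u⁻¹ = (u * v * u⁻¹ * v⁻¹)⁻¹ := by group
  rw [h2, inv_eq_iff_mul_eq_one]
  exact h1

theorem cc_mul_left (u u' v : U) : (u * u') * v * (u * u')⁻¹ * v⁻¹ =
    (u' * v * u'⁻¹ * v⁻¹) * (u * v * u⁻¹ * v⁻¹) := by
  have hc := hEc _ (cc_mem E hEc hE2 hsq u' v)
  calc (u * u') * v * (u * u')⁻¹ * v⁻¹ = u * (u' * v * u'⁻¹ * v⁻¹) * (v * u⁻¹ * v⁻¹) := by group
    _ = (u' * v * u'⁻¹ * v⁻¹) * u * (v * u⁻¹ * v⁻¹) := by rw [← hc]
    _ = _ := by group

variable (l : U → ZMod 2) (hl : ∀ a ∈ E, ∀ b ∈ E, l (a * b) = l a + l b)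

include hl

theorem l_one : l 1 = 0 := by
  have h1 := hl 1 E.one_mem 1 E.one_mem
  rw [mul_one] at h1
  have h2 : l 1 + l 1 = 0 := CharTwo.add_self_eq_zero _
  rw [← h1] at h2
  exact h2

theorem Q_mul (u v : U) : l ((u * v) * (u * v)) = l (u * u) + l (v * v) + l (u * v * u⁻¹ * v⁻¹) := by
  have h1 : (u * v) * (u * v) = (u * v * u⁻¹ * v⁻¹) * (v * v) * (u * u) := by
    rw [cc_eq E hEc hE2 hsq]
    have hu := hE2 _ (hsq u)
    have hv := hE2 _ (hsq v)
    calc (u * v) * (u * v) = (u * v) * (u * v) * ((u * u) * (u * u)) := by rw [hu, mul_one]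
      _ = (u * v) * (u * v) * (u * u) * ((v * v) * (v * v)) * (u * u) := by
          rw [hv, mul_one]; group
      _ = _ := by group
  rw [h1, hl _ (E.mul_mem (cc_mem E hEc hE2 hsq u v) (hsq v)) _ (hsq u),
    hl _ (cc_mem E hEc hE2 hsq u v) _ (hsq v)]
  ring

theorem B_mul_left (u u' v : U) : l ((u * u') * v * (u * u')⁻¹ * v⁻¹) =
    l (u * v * u⁻¹ * v⁻¹) + l (u' * v * u'⁻¹ * v⁻¹) := by
  rw [cc_mul_left E hEc hE2 hsq, hl _ (cc_mem E hEc hE2 hsq u' v) _ (cc_mem E hEc hE2 hsq u v)]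
  ring

theorem B_mul_right (u v v' : U) : l (u * (v * v') * u⁻¹ * (v * v')⁻¹) =
    l (u * v * u⁻¹ * v⁻¹) + l (u * v' * u⁻¹ * v'⁻¹) := by
  rw [← cc_symm E hEc hE2 hsq u (v * v'), B_mul_left E hEc hE2 hsq l hl,
    cc_symm E hEc hE2 hsq u v, cc_symm E hEc hE2 hsq u v']

theorem Q_pow (g : U) (x : ZMod 2) : l (g ^ x.val * g ^ x.val) = x * l (g * g) := by
  have hx : x = 0 ∨ x = 1 := by revert x; decide
  rcases hx with rfl | rfl
  · simp [l_one E hEc hE2 hsq l hl]
  · simp [ZMod.val_one]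

theorem B_pow (g h : U) (x y : ZMod 2) :
    l (g ^ x.val * h ^ y.val * (g ^ x.val)⁻¹ * (h ^ y.val)⁻¹) = x * y * l (g * h * g⁻¹ * h⁻¹) := by
  have hx : x = 0 ∨ x = 1 := by revert x; decide
  have hy : y = 0 ∨ y = 1 := by revert y; decide
  rcases hx with rfl | rfl <;> rcases hy with rfl | rfl <;>
    simp [l_one E hEc hE2 hsq l hl, ZMod.val_one]

/-- The quadratic formula. -/
theorem quad (g : Fin 5 → U) (x : Fin 5 → ZMod 2) :
    l ((g 0 ^ (x 0).val * g 1 ^ (x 1).val * g 2 ^ (x 2).val * g 3 ^ (x 3).val * g 4 ^ (x 4).val) *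
      (g 0 ^ (x 0).val * g 1 ^ (x 1).val * g 2 ^ (x 2).val * g 3 ^ (x 3).val * g 4 ^ (x 4).val)) =
    (∑ i, x i * l (g i * g i)) + ∑ i, ∑ j, (if i < j then x i * x j * l (g i * g j * (g i)⁻¹ * (g j)⁻¹) else 0) := by
  have hQ := Q_mul E hEc hE2 hsq l hl
  have hBl := B_mul_left E hEc hE2 hsq l hl
  have hP := Q_pow E hEc hE2 hsq l hl
  have hB := B_pow E hEc hE2 hsq l hl
  rw [hQ, hQ, hQ, hQ, hBl, hBl, hBl, hBl, hBl, hBl]
  simp only [hP, hB, Fin.sum_univ_five]
  simp
  ring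

end

/-- The polynomial. -/
noncomputable def poly (a : Fin 5 → ZMod 2) (b : Fin 5 → Fin 5 → ZMod 2) : MvPolynomial (Fin 5) (ZMod 2) :=
  (∑ i, C (a i) * X i) + ∑ i, ∑ j, C (if i < j then b i j else 0) * (X i * X j)

theorem poly_deg (a : Fin 5 → ZMod 2) (b : Fin 5 → Fin 5 → ZMod 2) : (poly a b).totalDegree ≤ 2 := by
  unfold poly
  refine le_trans (totalDegree_add _ _) (max_le ?_ ?_)
  · refine le_trans (totalDegree_finset_sum _ _) (Finset.sup_le fun i _ => ?_)
    refine le_trans (totalDegree_mul _ _) ?_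
    rw [totalDegree_C, totalDegree_X]
    norm_num
  · refine le_trans (totalDegree_finset_sum _ _) (Finset.sup_le fun i _ => ?_)
    refine le_trans (totalDegree_finset_sum _ _) (Finset.sup_le fun j _ => ?_)
    refine le_trans (totalDegree_mul _ _) ?_
    rw [totalDegree_C, zero_add]
    refine le_trans (totalDegree_mul _ _) ?_
    rw [totalDegree_X, totalDegree_X]

theorem poly_eval (a : Fin 5 → ZMod 2) (b : Fin 5 → Fin 5 → ZMod 2) (x : Fin 5 → ZMod 2) :
    eval x (poly a b) = (∑ i, x i * a i) + ∑ i, ∑ j, (if i < j then x i * x j * b i j else 0) := by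
  unfold poly
  simp only [map_add, map_sum, map_mul, eval_C, eval_X]
  congr 1
  · exact Finset.sum_congr rfl fun i _ => mul_comm _ _
  · refine Finset.sum_congr rfl fun i _ => Finset.sum_congr rfl fun j _ => ?_
    split_ifs
    · ring
    · ring

/-- Anisotropic squaring maps into a central four-group live on at most `64` elements. -/
theorem card_le_64 {U : Type*} [Group U] [Finite U] (E : Subgroup U) (hEc : ∀ e ∈ E, ∀ x, e * x = x * e)
    (hE4 : Nat.card E = 4) (hE2 : ∀ e ∈ E, e * e = 1) (hsq : ∀ x : U, x * x ∈ E)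
    (hani : ∀ x : U, x * x = 1 → x ∈ E) : Nat.card U ≤ 64 := by
  classical
  haveI hEn : E.Normal := ⟨fun e he g => by
    have h1 := hEc e he g
    rw [← h1]
    simpa using he⟩
  have hV : ∀ v : U ⧸ E, v * v = 1 := by
    intro v
    obtain ⟨u, rfl⟩ := QuotientGroup.mk'_surjective E v
    rw [← map_mul, QuotientGroup.mk'_apply, QuotientGroup.eq_one_iff]
    exact hsq u
  letI iV : CommGroup (U ⧸ E) := { (inferInstance : Group (U ⧸ E)) with
    mul_comm := fun a b => by
      have h1 := hV (a * b)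
      have h2 := hV a
      have h3 := hV b
      calc a * b = a * b * (b * a) * (b * a) := by
            rw [mul_assoc (a * b), hV (b * a), mul_one]
        _ = a * (b * b) * a * (b * a) := by simp only [mul_assoc]
        _ = b * a := by rw [h3, mul_one, h2, one_mul] }
  letI mV : Module (ZMod 2) (Additive (U ⧸ E)) := AddCommGroup.zmodModule (fun x => by
    rw [two_nsmul]
    exact hV (Additive.toMul x))
  haveI : Finite (Additive (U ⧸ E)) := inferInstanceAs (Finite (U ⧸ E))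
  haveI : Module.Finite (ZMod 2) (Additive (U ⧸ E)) := Module.Finite.of_finite
  have hcard : Nat.card (Additive (U ⧸ E)) = 2 ^ Module.finrank (ZMod 2) (Additive (U ⧸ E)) := by
    rw [Module.natCard_eq_pow_finrank (K := ZMod 2) (V := Additive (U ⧸ E))]
    simp
  have hcU : Nat.card U = Nat.card (U ⧸ E) * 4 := by
    rw [← hE4]
    exact Subgroup.card_eq_card_quotient_mul_card_subgroup E
  by_contra hcon
  have hk : 5 ≤ Module.finrank (ZMod 2) (Additive (U ⧸ E)) := by
    by_contra hk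
    have h1 : Module.finrank (ZMod 2) (Additive (U ⧸ E)) ≤ 4 := by omega
    have h2 : 2 ^ Module.finrank (ZMod 2) (Additive (U ⧸ E)) ≤ 2 ^ 4 :=
      Nat.pow_le_pow_right (by norm_num) h1
    have h3 : Nat.card (U ⧸ E) ≤ 16 := by
      have : Nat.card (U ⧸ E) = Nat.card (Additive (U ⧸ E)) := rfl
      rw [this, hcard]
      exact h2
    omega
  let b := Module.finBasis (ZMod 2) (Additive (U ⧸ E))
  let ι : Fin 5 → Fin (Module.finrank (ZMod 2) (Additive (U ⧸ E))) := Fin.castLE hk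
  have hli : LinearIndependent (ZMod 2) (fun i => b (ι i)) :=
    b.linearIndependent.comp ι (Fin.castLE_injective hk)
  have hlift : ∀ i, ∃ g : U, Additive.ofMul (QuotientGroup.mk' E g) = b (ι i) := by
    intro i
    obtain ⟨g, hg⟩ := QuotientGroup.mk'_surjective E (Additive.toMul (b (ι i)))
    exact ⟨g, by rw [hg]; rfl⟩
  choose g hg using hlift
  obtain ⟨L, hLadd, hLinj⟩ := exists_coord (E := E) hE4 (fun e => Subtype.ext (hE2 e e.2))
  let l : Fin 2 → U → ZMod 2 := fun k u => if h : u ∈ E then L ⟨u, h⟩ k else 0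
  have hlE : ∀ k u (h : u ∈ E), l k u = L ⟨u, h⟩ k := fun k u h => dif_pos h
  have hl : ∀ k, ∀ a ∈ E, ∀ c ∈ E, l k (a * c) = l k a + l k c := by
    intro k a ha c hc
    rw [hlE k _ (E.mul_mem ha hc), hlE k _ ha, hlE k _ hc]
    have := hLadd ⟨a, ha⟩ ⟨c, hc⟩
    exact congrFun this k
  let y : (Fin 5 → ZMod 2) → U := fun x =>
    g 0 ^ (x 0).val * g 1 ^ (x 1).val * g 2 ^ (x 2).val * g 3 ^ (x 3).val * g 4 ^ (x 4).val
  let f : Fin 2 → MvPolynomial (Fin 5) (ZMod 2) := fun k =>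
    poly (fun i => l k (g i * g i)) (fun i j => l k (g i * g j * (g i)⁻¹ * (g j)⁻¹))
  have hfe : ∀ k x, eval x (f k) = l k (y x * y x) := by
    intro k x
    rw [poly_eval]
    exact (quad E hEc hE2 hsq (l k) (hl k) g x).symm
  have hdeg : (f 0).totalDegree + (f 1).totalDegree < Fintype.card (Fin 5) := by
    have h0 := poly_deg (fun i => l 0 (g i * g i)) (fun i j => l 0 (g i * g j * (g i)⁻¹ * (g j)⁻¹))
    have h1 := poly_deg (fun i => l 1 (g i * g i)) (fun i j => l 1 (g i * g j * (g i)⁻¹ * (g j)⁻¹))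
    have h2 : (f 0).totalDegree ≤ 2 := h0
    have h3 : (f 1).totalDegree ≤ 2 := h1
    simp only [Fintype.card_fin]
    omega
  have hdvd := char_dvd_card_solutions_of_add_lt 2 hdeg
  -- a nonzero solution
  have hzero : ∀ k, eval (0 : Fin 5 → ZMod 2) (f k) = 0 := by
    intro k
    rw [poly_eval]
    simp
  have hnz : ∃ x : Fin 5 → ZMod 2, x ≠ 0 ∧ eval x (f 0) = 0 ∧ eval x (f 1) = 0 := by
    by_contra hno
    push Not at hno
    have huniq : ∀ s : {x : Fin 5 → ZMod 2 // eval x (f 0) = 0 ∧ eval x (f 1) = 0}, s = ⟨0, hzero 0, hzero 1⟩ := by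
      rintro ⟨x, hx0, hx1⟩
      apply Subtype.ext
      by_contra hne
      exact hno x hne hx0 hx1
    have hone : Fintype.card {x : Fin 5 → ZMod 2 // eval x (f 0) = 0 ∧ eval x (f 1) = 0} = 1 :=
      Fintype.card_eq_one_iff.mpr ⟨⟨0, hzero 0, hzero 1⟩, huniq⟩
    rw [hone] at hdvd
    omega
  obtain ⟨x, hx, hx0, hx1⟩ := hnz
  rw [hfe] at hx0 hx1
  have hyy : y x * y x = 1 := by
    have hm := hsq (y x)
    rw [hlE 0 _ hm] at hx0
    rw [hlE 1 _ hm] at hx1
    have h0 : L ⟨y x * y x, hm⟩ = 0 := by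
      funext k
      fin_cases k
      · exact hx0
      · exact hx1
    have := hLinj _ h0
    exact congrArg Subtype.val this
  have hyE := hani _ hyy
  have hm1 : QuotientGroup.mk' E (y x) = 1 := by
    rw [QuotientGroup.mk'_apply, QuotientGroup.eq_one_iff]
    exact hyE
  have hterm : ∀ i : Fin 5, x i • b (ι i) = Additive.ofMul (QuotientGroup.mk' E (g i ^ (x i).val)) := by
    intro i
    have hxi : x i = 0 ∨ x i = 1 := by
      generalize x i = z
      revert z
      decide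
    rcases hxi with h | h
    · rw [h]
      simp
    · rw [h, one_smul, ← hg i]
      simp [ZMod.val_one]
  have hsum : ∑ i, x i • b (ι i) = 0 := by
    rw [Fin.sum_univ_five, hterm, hterm, hterm, hterm, hterm, ← ofMul_mul, ← ofMul_mul, ← ofMul_mul,
      ← ofMul_mul, ← map_mul, ← map_mul, ← map_mul, ← map_mul]
    show Additive.ofMul (QuotientGroup.mk' E (y x)) = 0
    rw [hm1]
    rfl
  have hx0' := Fintype.linearIndependent_iff.mp hli x hsum
  exact hx (funext hx0')

end Cfsg.Agent.H05.Hig
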