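import Cfsg.Agent.Lib.H05.Hig1
import Cfsg.Agent.Lib.H05.Hig2

/-! Automorphisms of `3`-power order of a `2`-group with three central involutions. -/

set_option autoImplicit false

namespace Cfsg.Agent.H05.Hig

open Subgroup

/-- The setting: all involutions are central and with the identity form a four-group, and `α` has no
nontrivial fixed points. -/
structure Setup {T : Type*} [Group T] (E : Subgroup T) (α : T ≃* T) : Prop where
  inv_iff : ∀ x : T, x * x = 1 ↔ x ∈ E
  central : ∀ e ∈ E, ∀ x, e * x = x * e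
  card4 : Nat.card E = 4
  fpf : ∀ x, α x = x → x = 1
  p2 : IsPGroup 2 T

theorem exists_index_two {X : Type*} [Group X] [Finite X] (hX : IsPGroup 2 X) (hn : Nontrivial X) :
    ∃ M : Subgroup X, M.index = 2 := by
  obtain ⟨n, hn'⟩ := IsPGroup.iff_card.mp hX
  have hn0 : n ≠ 0 := by
    rintro rfl
    have h1 : Nat.card X = 1 := by simpa using hn'
    have := Finite.one_lt_card_iff_nontrivial.2 hn
    omega
  obtain ⟨m, rfl⟩ : ∃ m, n = m + 1 := ⟨n - 1, by omega⟩
  haveI : Fact (Nat.Prime 2) := ⟨Nat.prime_two⟩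
  obtain ⟨K, hK⟩ := Sylow.exists_subgroup_card_pow_prime (G := X) 2 (n := m) (by
    rw [hn', pow_succ]
    exact Dvd.intro _ rfl)
  refine ⟨K, ?_⟩
  have h1 := K.card_mul_index
  rw [hK, hn', pow_succ] at h1
  exact Nat.eq_of_mul_eq_mul_left (pow_pos (by norm_num) m) h1

theorem eq_one_of_cube {T : Type*} [Group T] (hT : IsPGroup 2 T) {g : T} (h : g * g * g = 1) : g = 1 := by
  obtain ⟨k, hk⟩ := hT g
  have h3 : g ^ 3 = 1 := by
    rw [pow_succ, pow_two]
    exact h
  have h1 := orderOf_dvd_of_pow_eq_one h3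
  have h2 := orderOf_dvd_of_pow_eq_one hk
  have h4 : Nat.Coprime 3 (2 ^ k) := Nat.Coprime.pow_right k (by norm_num)
  have h5 := Nat.dvd_gcd h1 h2
  rw [h4] at h5
  exact orderOf_eq_one_iff.mp (Nat.dvd_one.mp h5)

namespace Setup

variable {T : Type*} [Group T] [Finite T] {E : Subgroup T} {α : T ≃* T} (h : Setup E α)

include h

theorem map_E {e : T} (he : e ∈ E) : α e ∈ E := by
  rw [← h.inv_iff, ← map_mul, (h.inv_iff e).2 he, map_one]

theorem ne_self {e : T} (he1 : e ≠ 1) : α e ≠ e := fun h1 => he1 (h.fpf e h1)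

theorem aa_ne {e : T} (he : e ∈ E) (he1 : e ≠ 1) : α (α e) ≠ e := by
  intro h1
  have h2 : α (e * α e) = e * α e := by
    rw [map_mul, h1, h.central e he]
  have h3 := h.fpf _ h2
  have h4 : α e = e := by
    have h5 := (h.inv_iff e).2 he
    have h6 : e * α e = e * e := by rw [h3, h5]
    exact mul_left_cancel h6
  exact h.ne_self he1 h4

theorem map_ne_one {e : T} (he1 : e ≠ 1) : α e ≠ 1 := fun h1 => he1 (by
  have := α.injective (h1.trans (map_one α).symm)
  exact this)

theorem three {e : T} (he : e ∈ E) (he1 : e ≠ 1) : ∀ e' ∈ E, e' = 1 ∨ e' = e ∨ e' = α e ∨ e' = α (α e) := by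
  classical
  intro e' he'
  by_contra hcon
  push Not at hcon
  obtain ⟨h1, h2, h3, h4⟩ := hcon
  have hS : (({1, e, α e, α (α e), e'} : Finset T) : Set T) ⊆ (E : Set T) := by
    intro x hx
    simp only [Finset.coe_insert, Finset.coe_singleton, Set.mem_insert_iff, Set.mem_singleton_iff] at hx
    rcases hx with rfl | rfl | rfl | rfl | rfl
    · exact E.one_mem
    · exact he
    · exact h.map_E he
    · exact h.map_E (h.map_E he)
    · exact he'
  have hc : ({1, e, α e, α (α e), e'} : Finset T).card = 5 := by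
    have n1 : (1 : T) ≠ e := he1.symm
    have n2 : (1 : T) ≠ α e := (h.map_ne_one he1).symm
    have n3 : (1 : T) ≠ α (α e) := (h.map_ne_one (h.map_ne_one he1)).symm
    have n4 : (1 : T) ≠ e' := fun h5 => h1 h5.symm
    have n5 : e ≠ α e := (h.ne_self he1).symm
    have n6 : e ≠ α (α e) := (h.aa_ne he he1).symm
    have n7 : e ≠ e' := fun h5 => h2 h5.symm
    have n8 : α e ≠ α (α e) := (h.ne_self (h.map_ne_one he1)).symm
    have n9 : α e ≠ e' := fun h5 => h3 h5.symm
    have n10 : α (α e) ≠ e' := fun h5 => h4 h5.symm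
    rw [Finset.card_insert_of_notMem (by simp [n1, n2, n3, n4]),
      Finset.card_insert_of_notMem (by simp [n5, n6, n7]),
      Finset.card_insert_of_notMem (by simp [n8, n9]),
      Finset.card_insert_of_notMem (by simp [n10]), Finset.card_singleton]
  have h5 := Set.ncard_le_ncard hS (Set.toFinite _)
  rw [Set.ncard_coe_finset, hc, ← Nat.card_coe_set_eq] at h5
  have h6 : Nat.card (E : Set T) = 4 := h.card4
  rw [h6] at h5
  omega

theorem prod {e : T} (he : e ∈ E) (he1 : e ≠ 1) : e * α e = α (α e) := by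
  have hm : e * α e ∈ E := E.mul_mem he (h.map_E he)
  rcases h.three he he1 _ hm with h1 | h1 | h1 | h1
  · exfalso
    have h2 := (h.inv_iff e).2 he
    have h3 : α e = e := by
      have h4 : e * α e = e * e := by rw [h1, h2]
      exact mul_left_cancel h4
    exact h.ne_self he1 h3
  · exfalso
    have h3 : α e = 1 := by
      have h4 : e * α e = e * 1 := by rw [h1, mul_one]
      exact mul_left_cancel h4
    exact h.map_ne_one he1 h3
  · exfalso
    have h3 : e = 1 := by
      have h4 : e * α e = 1 * α e := by rw [h1, one_mul]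
      exact mul_right_cancel h4
    exact he1 h3
  · exact h1

theorem aaa {e : T} (he : e ∈ E) (he1 : e ≠ 1) : α (α (α e)) = e := by
  have h1 := h.prod he he1
  rw [← h1, map_mul, ← h.prod he he1, h.central _ (h.map_E he), mul_assoc, (h.inv_iff _).2 (h.map_E he),
    mul_one]

end Setup

end Cfsg.Agent.H05.Hig
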