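import Cfsg.Agent.Lib.H05.Hig3

/-! An order-three automorphism commuting with `α` which is trivial on `E` and stabilises every
`α`-invariant subgroup is trivial: the minimal counterexample. -/

set_option autoImplicit false

namespace Cfsg.Agent.H05.Hig

open Subgroup

theorem closure_stable {T : Type*} [Group T] (β : T ≃* T) (A : Set T) (hA : ∀ a ∈ A, β a ∈ A) :
    ∀ z ∈ closure A, β z ∈ closure A := by
  intro z hz
  have h1 : closure A ≤ (closure A).comap β.toMonoidHom := by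
    rw [closure_le]
    intro a ha
    exact subset_closure (hA a ha)
  exact h1 hz

structure GMin {T : Type*} [Group T] (E : Subgroup T) (α γ : T ≃* T) (U : Subgroup T) : Prop where
  base : Setup E α
  g3 : ∀ x, γ (γ (γ x)) = x
  comm : ∀ x, γ (α x) = α (γ x)
  gE : ∀ e ∈ E, γ e = e
  ua : ∀ u ∈ U, α u ∈ U
  ug : ∀ u ∈ U, γ u ∈ U
  hmin : ∀ V : Subgroup T, (∀ v ∈ V, α v ∈ V) → V < U → ∀ v ∈ V, γ v = v
  hne : ∃ u ∈ U, γ u ≠ u

namespace GMin

variable {T : Type*} [Group T] [Finite T] {E : Subgroup T} {α γ : T ≃* T} {U : Subgroup T}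
  (H : GMin E α γ U)

include H

theorem sq_fixed {x : T} (hx : x ∈ U) : γ (x * x) = x * x := by
  have hS : closure {z | ∃ y ∈ U, z = y * y} < U := by
    refine lt_of_le_of_ne ((closure_le _).2 ?_) ?_
    · rintro z ⟨y, hy, rfl⟩
      exact U.mul_mem hy hy
    · intro heq
      obtain ⟨u, hu, hu'⟩ := H.hne
      have hnt : Nontrivial U := ⟨⟨⟨u, hu⟩, 1, fun h => hu' (by
        have h1 : u = 1 := congrArg Subtype.val h
        rw [h1, map_one])⟩⟩
      obtain ⟨M, hM⟩ := exists_index_two (H.base.p2.to_subgroup U) hnt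
      have hle : closure {z | ∃ y ∈ U, z = y * y} ≤ M.map U.subtype := by
        rw [closure_le]
        rintro z ⟨y, hy, rfl⟩
        exact ⟨⟨y, hy⟩ * ⟨y, hy⟩, Subgroup.mul_self_mem_of_index_two hM _, rfl⟩
      rw [heq] at hle
      have h1 : M = ⊤ := by
        rw [eq_top_iff]
        rintro ⟨y, hy⟩ _
        obtain ⟨w, hw, hw'⟩ := hle hy
        have h2 : w = ⟨y, hy⟩ := Subtype.ext hw'
        rwa [← h2]
      rw [h1, index_top] at hM
      omega
  refine H.hmin _ (closure_stable α _ ?_) hS _ (subset_closure ⟨x, hx, rfl⟩)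
  rintro z ⟨y, hy, rfl⟩
  exact ⟨α y, H.ua y hy, map_mul α y y⟩

theorem comm_fixed {x y : T} (hx : x ∈ U) (hy : y ∈ U) :
    γ (x * y * x⁻¹ * y⁻¹) = x * y * x⁻¹ * y⁻¹ := by
  have h1 : x * y * x⁻¹ * y⁻¹ = (x * y) * (x * y) * ((y⁻¹ * x⁻¹ * y) * (y⁻¹ * x⁻¹ * y)) * (y⁻¹ * y⁻¹) := by
    group
  have hxy : x * y ∈ U := U.mul_mem hx hy
  have hz : y⁻¹ * x⁻¹ * y ∈ U := U.mul_mem (U.mul_mem (U.inv_mem hy) (U.inv_mem hx)) hy
  rw [h1, map_mul, map_mul, H.sq_fixed hxy, H.sq_fixed hz, H.sq_fixed (U.inv_mem hy)]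

theorem conj_fixed {f x : T} (hf : f ∈ U) (hfg : γ f = f) (hx : x ∈ U) :
    γ (x⁻¹ * f * x) = x⁻¹ * f * x := by
  have h1 : x⁻¹ * f * x = f * (f⁻¹ * x⁻¹ * (f⁻¹)⁻¹ * (x⁻¹)⁻¹) := by group
  rw [h1, map_mul, hfg, H.comm_fixed (U.inv_mem hf) (U.inv_mem hx)]

theorem comm_g {f x : T} (hf : f ∈ U) (hfg : γ f = f) (hx : x ∈ U) :
    f * (γ x * x⁻¹) = (γ x * x⁻¹) * f := by
  have h1 := H.conj_fixed hf hfg hx
  rw [map_mul, map_mul, map_inv, hfg] at h1
  calc f * (γ x * x⁻¹) = γ x * ((γ x)⁻¹ * f * γ x) * x⁻¹ := by group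
    _ = γ x * (x⁻¹ * f * x) * x⁻¹ := by rw [h1]
    _ = (γ x * x⁻¹) * f := by group

theorem central {f : T} (hf : f ∈ U) (hfg : γ f = f) : ∀ x ∈ U, f * x = x * f := by
  have hT : closure {z | ∃ y ∈ U, z = γ y * y⁻¹} = U := by
    by_contra hne
    have hle : closure {z | ∃ y ∈ U, z = γ y * y⁻¹} ≤ U := by
      rw [closure_le]
      rintro z ⟨y, hy, rfl⟩
      exact U.mul_mem (H.ug y hy) (U.inv_mem hy)
    have hlt := lt_of_le_of_ne hle hne
    have hfix := H.hmin _ (closure_stable α _ (by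
      rintro z ⟨y, hy, rfl⟩
      exact ⟨α y, H.ua y hy, by rw [map_mul, map_inv, H.comm]⟩)) hlt
    obtain ⟨u, hu, hu'⟩ := H.hne
    obtain ⟨g, hg⟩ : ∃ g, g = γ u * u⁻¹ := ⟨_, rfl⟩
    have hgf : γ g = g := hfix g (subset_closure ⟨u, hu, hg⟩)
    have h1 : γ u = g * u := by rw [hg]; group
    have h2 : γ (γ u) = g * g * u := by rw [h1, map_mul, hgf, h1, mul_assoc]
    have h3 : γ (γ (γ u)) = g * g * g * u := by rw [h2, map_mul, map_mul, hgf, h1, mul_assoc (g * g)]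
    rw [H.g3] at h3
    have h4 : g * g * g = 1 := by
      have h5 : g * g * g * u = 1 * u := by rw [← h3, one_mul]
      exact mul_right_cancel h5
    have h5 := eq_one_of_cube H.base.p2 h4
    apply hu'
    rw [h1, h5, one_mul]
  intro x hx
  have hle : closure {z | ∃ y ∈ U, z = γ y * y⁻¹} ≤ centralizer {f} := by
    rw [closure_le]
    rintro z ⟨y, hy, rfl⟩
    rw [SetLike.mem_coe, mem_centralizer_singleton_iff]
    exact (H.comm_g hf hfg hy).symm
  rw [← hT] at hx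
  have h1 := hle hx
  rw [mem_centralizer_singleton_iff] at h1
  exact h1.symm

theorem E_le : E ≤ U := by
  obtain ⟨u, hu, hu'⟩ := H.hne
  have hnt : Nontrivial U := ⟨⟨⟨u, hu⟩, 1, fun h => hu' (by
    have h1 : u = 1 := congrArg Subtype.val h
    rw [h1, map_one])⟩⟩
  obtain ⟨n, hn⟩ := IsPGroup.iff_card.mp (H.base.p2.to_subgroup U)
  have h2 : 2 ∣ Nat.card U := by
    rw [hn]
    refine dvd_pow_self 2 ?_
    rintro rfl
    have h1 : Nat.card U = 1 := by simpa using hn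
    have := Finite.one_lt_card_iff_nontrivial.2 hnt
    omega
  haveI : Fact (Nat.Prime 2) := ⟨Nat.prime_two⟩
  obtain ⟨e, he⟩ := exists_prime_orderOf_dvd_card' 2 h2
  have he1 : (e : T) ≠ 1 := by
    intro h3
    have h4 : e = 1 := Subtype.ext h3
    rw [h4, orderOf_one] at he
    omega
  have he2 : (e : T) * e = 1 := by
    have h5 := pow_orderOf_eq_one e
    rw [he, pow_two] at h5
    have h6 := congrArg Subtype.val h5
    simpa using h6
  have heE := (H.base.inv_iff _).1 he2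
  intro e' he'
  rcases H.base.three heE he1 e' he' with h | h | h | h
  · rw [h]; exact U.one_mem
  · rw [h]; exact e.2
  · rw [h]; exact H.ua _ e.2
  · rw [h]; exact H.ua _ (H.ua _ e.2)

theorem c_fixed {x : T} (hx : x ∈ U) : γ (x * γ x * γ (γ x)) = x * γ x * γ (γ x) := by
  have hgx := H.ug x hx
  have hggx := H.ug _ hgx
  obtain ⟨c, hc⟩ : ∃ c, c = x * γ x * γ (γ x) := ⟨_, rfl⟩
  have hcU : c ∈ U := by
    rw [hc]
    exact U.mul_mem (U.mul_mem hx hgx) hggx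
  rw [← hc]
  have h1 : γ c = x⁻¹ * c * x := by
    rw [hc, map_mul, map_mul, H.g3]
    group
  obtain ⟨f, hf⟩ : ∃ f, f = c⁻¹ * x⁻¹ * (c⁻¹)⁻¹ * (x⁻¹)⁻¹ := ⟨_, rfl⟩
  have hff : γ f = f := by
    rw [hf]
    exact H.comm_fixed (U.inv_mem hcU) (U.inv_mem hx)
  have h2 : γ c = c * f := by
    rw [h1, hf]
    group
  have h3 : γ (γ c) = c * f * f := by rw [h2, map_mul, hff, h2]
  have h4 : γ (γ (γ c)) = c * f * f * f := by rw [h3, map_mul, map_mul, hff, h2]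
  rw [H.g3] at h4
  have h5 : f * f * f = 1 := by
    have h6 : c * (f * f * f) = c * 1 := by
      rw [mul_one, ← mul_assoc, ← mul_assoc]
      exact h4.symm
    exact mul_left_cancel h6
  have h6 := eq_one_of_cube H.base.p2 h5
  rw [h2, h6, mul_one]

omit H in
theorem exists_sq_ne_one (hp : IsPGroup 2 T) {g : T} (hg : g * g ≠ 1) :
    ∃ k : ℕ, (g ^ k) * (g ^ k) ≠ 1 ∧ ((g ^ k) * (g ^ k)) * ((g ^ k) * (g ^ k)) = 1 := by
  classical
  have hex : ∃ n : ℕ, g ^ (2 ^ n) = 1 := hp g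
  obtain ⟨n, hn, hmin⟩ : ∃ n : ℕ, g ^ (2 ^ n) = 1 ∧ ∀ m < n, g ^ (2 ^ m) ≠ 1 :=
    ⟨Nat.find hex, Nat.find_spec hex, fun m hm => Nat.find_min hex hm⟩
  have hn2 : 2 ≤ n := by
    by_contra hlt
    have hle : n ≤ 1 := by omega
    have h1 : g ^ 2 = 1 := by
      have h2 : (2 : ℕ) ^ 1 = 2 ^ n * 2 ^ (1 - n) := by
        rw [← pow_add]
        congr 1
        omega
      have h3 : g ^ (2 ^ 1) = 1 := by
        rw [h2, pow_mul, hn, one_pow]
      simpa using h3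
    rw [pow_two] at h1
    exact hg h1
  obtain ⟨m, rfl⟩ : ∃ m, n = m + 2 := ⟨n - 2, by omega⟩
  refine ⟨2 ^ m, ?_, ?_⟩
  · rw [← pow_add]
    have h1 := hmin (m + 1) (by omega)
    rwa [show 2 ^ m + 2 ^ m = 2 ^ (m + 1) by ring]
  · rw [← pow_add, ← pow_add]
    rwa [show 2 ^ m + 2 ^ m + (2 ^ m + 2 ^ m) = 2 ^ (m + 2) by ring]

theorem all_fixed {f₁ : T} (hf₁ : f₁ ∈ U) (hfg : γ f₁ = f₁) (hfE : f₁ ∉ E) : ∀ x ∈ U, γ x = x := by
  have hf₁1 : f₁ * f₁ ≠ 1 := fun h1 => hfE ((H.base.inv_iff _).1 h1)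
  obtain ⟨k, hk1, hk2⟩ := exists_sq_ne_one H.base.p2 hf₁1
  obtain ⟨f₂, hf₂⟩ : ∃ f₂, f₂ = f₁ ^ k := ⟨_, rfl⟩
  rw [← hf₂] at hk1 hk2
  have hf₂U : f₂ ∈ U := by
    rw [hf₂]
    exact U.pow_mem hf₁ k
  have hf₂g : γ f₂ = f₂ := by
    rw [hf₂, map_pow, hfg]
  have hE2 := (H.base.inv_iff _).1 hk2
  have hsq : ∀ e ∈ E, ∃ f' ∈ U, γ f' = f' ∧ f' * f' = e := by
    intro e he
    rcases H.base.three hE2 hk1 e he with h | h | h | h
    · exact ⟨1, U.one_mem, map_one γ, by rw [h, mul_one]⟩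
    · exact ⟨f₂, hf₂U, hf₂g, h.symm⟩
    · exact ⟨α f₂, H.ua _ hf₂U, by rw [H.comm, hf₂g], by rw [h, map_mul]⟩
    · exact ⟨α (α f₂), H.ua _ (H.ua _ hf₂U), by rw [H.comm, H.comm, hf₂g], by rw [h, map_mul, map_mul]⟩
  intro x hx
  have hv : γ x ∈ U := H.ug x hx
  have hw : γ (γ x) ∈ U := H.ug _ hv
  obtain ⟨v, hvd⟩ : ∃ v, v = γ x := ⟨_, rfl⟩
  obtain ⟨w, hwd⟩ : ∃ w, w = γ v := ⟨_, rfl⟩
  obtain ⟨s, hsd⟩ : ∃ s, s = x * x := ⟨_, rfl⟩
  obtain ⟨c, hcd⟩ : ∃ c, c = x * v * w := ⟨_, rfl⟩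
  obtain ⟨d, hdd⟩ : ∃ d, d = x * v * x⁻¹ * v⁻¹ := ⟨_, rfl⟩
  have hvU : v ∈ U := hvd ▸ hv
  have hwU : w ∈ U := by rw [hwd, hvd]; exact hw
  have hsU : s ∈ U := by rw [hsd]; exact U.mul_mem hx hx
  have hcU : c ∈ U := by rw [hcd]; exact U.mul_mem (U.mul_mem hx hvU) hwU
  have hdU : d ∈ U := by
    rw [hdd]
    exact U.mul_mem (U.mul_mem (U.mul_mem hx hvU) (U.inv_mem hx)) (U.inv_mem hvU)
  have hsf : γ s = s := by rw [hsd]; exact H.sq_fixed hx
  have hcf : γ c = c := by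
    rw [hcd, hwd, hvd]
    exact H.c_fixed hx
  have hdf : γ d = d := by
    rw [hdd]
    exact H.comm_fixed hx hvU
  have hsc := H.central hsU hsf
  have hcc := H.central hcU hcf
  have hdc := H.central hdU hdf
  have hvv : v * v = s := by
    rw [hvd, ← map_mul, ← hsd, hsf]
  have hww : w * w = s := by
    rw [hwd, ← map_mul, hvv, hsf]
  have hxv : x * v = d * v * x := by
    rw [hdd]
    group
  have hdd1 : d * d = 1 := by
    have h1 : x * (x * v) = x * (d * v * x) := by rw [← hxv]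
    have h2 : s * v = d * d * v * s := by
      calc s * v = x * x * v := by rw [hsd]
        _ = x * (x * v) := by rw [mul_assoc]
        _ = x * (d * v * x) := h1
        _ = (x * d) * v * x := by group
        _ = (d * x) * v * x := by rw [hdc x hx]
        _ = d * (x * v) * x := by group
        _ = d * (d * v * x) * x := by rw [hxv]
        _ = d * d * v * (x * x) := by group
        _ = d * d * v * s := by rw [hsd]
    rw [hsc v hvU] at h2
    have h3 : (d * d) * (v * s) = 1 * (v * s) := by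
      rw [one_mul, ← mul_assoc]
      exact h2.symm
    exact mul_right_cancel h3
  have h1 : (x * v) * (x * v) = d * (s * s) := by
    calc (x * v) * (x * v) = (d * v * x) * (x * v) := by rw [← hxv]
      _ = d * v * (x * x) * v := by group
      _ = d * v * s * v := by rw [hsd]
      _ = d * (s * v) * v := by rw [mul_assoc d v s, ← hsc v hvU, mul_assoc]
      _ = d * (s * (v * v)) := by group
      _ = d * (s * s) := by rw [hvv]
  have h2 : (x * v) * (x * v) = c * c * s⁻¹ := by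
    have h3 : x * v = c * w⁻¹ := by rw [hcd]; group
    have h4 : w⁻¹ * w⁻¹ = s⁻¹ := by rw [← hww]; group
    rw [h3]
    calc c * w⁻¹ * (c * w⁻¹) = (c * w⁻¹) * c * w⁻¹ := by group
      _ = (c * c * w⁻¹) * w⁻¹ := by rw [mul_assoc c w⁻¹ c, ← hcc _ (U.inv_mem hwU)]; group
      _ = c * c * (w⁻¹ * w⁻¹) := by group
      _ = c * c * s⁻¹ := by rw [h4]
  have h3 : d * (s * s) * s = c * c := by
    rw [← h1, h2]
    group
  have hdE : d ∈ E := (H.base.inv_iff d).1 hdd1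
  obtain ⟨f', hf'U, hf'g, hf'2⟩ := hsq d hdE
  have hf'c := H.central hf'U hf'g
  obtain ⟨y, hy⟩ : ∃ y, y = s * x * c⁻¹ * f'⁻¹ := ⟨_, rfl⟩
  have hy1 : y * y = 1 := by
    have h4 : (s * x * c⁻¹) * (s * x * c⁻¹) = d := by
      have h5 : s * x * c⁻¹ * (s * x * c⁻¹) = s * (s * (x * x)) * (c⁻¹ * c⁻¹) := by
        have h6 : c⁻¹ * (s * x) = (s * x) * c⁻¹ := by
          have h7 := hcc _ (U.mul_mem hsU hx)
          calc c⁻¹ * (s * x) = c⁻¹ * ((s * x) * c) * c⁻¹ := by group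
            _ = c⁻¹ * (c * (s * x)) * c⁻¹ := by rw [h7]
            _ = (s * x) * c⁻¹ := by group
        have h8 : x * s = s * x := (hsc x hx).symm
        calc s * x * c⁻¹ * (s * x * c⁻¹) = s * x * (c⁻¹ * (s * x)) * c⁻¹ := by group
          _ = s * x * ((s * x) * c⁻¹) * c⁻¹ := by rw [h6]
          _ = s * (x * s) * x * (c⁻¹ * c⁻¹) := by group
          _ = s * (s * x) * x * (c⁻¹ * c⁻¹) := by rw [h8]
          _ = s * (s * (x * x)) * (c⁻¹ * c⁻¹) := by group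
      rw [h5, ← hsd]
      have h6 : s * (s * s) = d * (c * c) := by
        have h7 : d * (d * (s * s) * s) = d * (c * c) := by rw [h3]
        rw [← h7, ← mul_assoc, ← mul_assoc, ← mul_assoc d, hdd1]
        group
      rw [h6]
      group
    have h5 : f'⁻¹ * (s * x * c⁻¹) = (s * x * c⁻¹) * f'⁻¹ := by
      have h7 := hf'c _ (U.mul_mem (U.mul_mem hsU hx) (U.inv_mem hcU))
      calc f'⁻¹ * (s * x * c⁻¹) = f'⁻¹ * ((s * x * c⁻¹) * f') * f'⁻¹ := by group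
        _ = f'⁻¹ * (f' * (s * x * c⁻¹)) * f'⁻¹ := by rw [h7]
        _ = (s * x * c⁻¹) * f'⁻¹ := by group
    rw [hy]
    calc s * x * c⁻¹ * f'⁻¹ * (s * x * c⁻¹ * f'⁻¹)
        = (s * x * c⁻¹) * (f'⁻¹ * (s * x * c⁻¹)) * f'⁻¹ := by group
      _ = (s * x * c⁻¹) * ((s * x * c⁻¹) * f'⁻¹) * f'⁻¹ := by rw [h5]
      _ = ((s * x * c⁻¹) * (s * x * c⁻¹)) * (f'⁻¹ * f'⁻¹) := by group
      _ = d * (f' * f')⁻¹ := by rw [h4, mul_inv_rev]
      _ = 1 := by rw [hf'2]; group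
  have hyE := (H.base.inv_iff y).1 hy1
  have hyf := H.gE y hyE
  rw [hy, map_mul, map_mul, map_mul, map_inv, map_inv, hsf, hcf, hf'g] at hyf
  have h5 : s * γ x = s * x := by
    have h6 := mul_right_cancel (mul_right_cancel hyf)
    exact h6
  exact mul_left_cancel h5

end GMin

end Cfsg.Agent.H05.Hig
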