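import Cfsg.Agent.Lib.H05.Hig3a

/-! The count finishing the minimal counterexample. -/

set_option autoImplicit false

namespace Cfsg.Agent.H05.Hig

open Subgroup

theorem three_dvd_of_fpf {X : Type*} [Fintype X] [DecidableEq X] (f : X → X)
    (h3 : ∀ x, f (f (f x)) = x) (hfp : ∀ x, f x ≠ x) : 3 ∣ Fintype.card X := by
  haveI : Fact (Nat.Prime 3) := ⟨Nat.prime_three⟩
  by_contra hnd
  let σ : Equiv.Perm X := ⟨f, fun x => f (f x), h3, h3⟩
  have hσ : σ ^ 3 ^ 1 = 1 := by
    ext x
    exact h3 x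
  obtain ⟨a, ha⟩ := Equiv.Perm.exists_fixed_point_of_prime hnd hσ
  exact hfp a ha

namespace GMin

variable {T : Type*} [Group T] [Finite T] {E : Subgroup T} {α γ : T ≃* T} {U : Subgroup T}
  (H : GMin E α γ U)

include H

theorem count (hZ : ∀ f ∈ U, γ f = f → f ∈ E) : False := by
  classical
  haveI := Fintype.ofFinite T
  have hsqE : ∀ x ∈ U, x * x ∈ E := fun x hx => hZ _ (U.mul_mem hx hx) (H.sq_fixed hx)
  have hEU := H.E_le
  have hc64 : Nat.card U ≤ 64 := by
    refine card_le_64 (U := U) (E.subgroupOf U) ?_ ?_ ?_ ?_ ?_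
    · intro e he x
      apply Subtype.ext
      exact H.base.central _ (mem_subgroupOf.1 he) _
    · rw [Nat.card_congr (subgroupOfEquivOfLe hEU).toEquiv]
      exact H.base.card4
    · intro e he
      apply Subtype.ext
      exact (H.base.inv_iff _).2 (mem_subgroupOf.1 he)
    · intro x
      exact mem_subgroupOf.2 (hsqE _ x.2)
    · intro x hx
      apply mem_subgroupOf.2
      apply (H.base.inv_iff _).1
      exact congrArg Subtype.val hx
  obtain ⟨u, huU, hu⟩ := H.hne
  have huE : u ∉ E := fun h1 => hu (H.gE u h1)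
  have hu1 : u * u ≠ 1 := fun h1 => huE ((H.base.inv_iff u).1 h1)
  obtain ⟨e₁, he₁⟩ : ∃ e₁, e₁ = u * u := ⟨_, rfl⟩
  have he₁E : e₁ ∈ E := he₁ ▸ hsqE u huU
  have he₁1 : e₁ ≠ 1 := he₁ ▸ hu1
  let F : T → Finset T := fun e => Finset.univ.filter (fun x : T => x ∈ U ∧ x * x = e)
  have hFα : ∀ e, (F e).card ≤ (F (α e)).card := by
    intro e
    refine Finset.card_le_card_of_injOn α ?_ α.injective.injOn
    intro x hx
    simp only [F, Finset.coe_filter, Finset.mem_univ, true_and, Set.mem_ofPred_eq] at hx ⊢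
    exact ⟨H.ua x hx.1, by rw [← map_mul, hx.2]⟩
  have h12 := hFα e₁
  have h23 := hFα (α e₁)
  have h31 := hFα (α (α e₁))
  rw [H.base.aaa he₁E he₁1] at h31
  have h3d : 3 ∣ (F e₁).card := by
    have h1 := three_dvd_of_fpf (X := {x // x ∈ F e₁}) (fun x => ⟨γ x.1, by
      have h2 := x.2
      simp only [F, Finset.mem_filter, Finset.mem_univ, true_and] at h2 ⊢
      refine ⟨H.ug _ h2.1, ?_⟩
      rw [← map_mul, h2.2]
      exact H.gE _ he₁E⟩) (fun x => Subtype.ext (H.g3 _)) (fun x hx => by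
        have h2 := x.2
        simp only [F, Finset.mem_filter, Finset.mem_univ, true_and] at h2
        have h3 : γ x.1 = x.1 := congrArg Subtype.val hx
        have h4 := hZ _ h2.1 h3
        exact he₁1 (h2.2.symm.trans ((H.base.inv_iff _).2 h4)))
    rwa [Fintype.card_coe] at h1
  have hF1 : (F 1).card = 4 := by
    have h1 : F 1 = Finset.univ.filter (fun x : T => x ∈ E) := by
      ext x
      simp only [F, Finset.mem_filter, Finset.mem_univ, true_and]
      constructor
      · rintro ⟨_, h2⟩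
        exact (H.base.inv_iff x).1 h2
      · intro h2
        exact ⟨hEU h2, (H.base.inv_iff x).2 h2⟩
    rw [h1, ← Fintype.card_subtype, ← Nat.card_eq_fintype_card]
    exact H.base.card4
  have n1 : (1 : T) ≠ e₁ := he₁1.symm
  have n2 : (1 : T) ≠ α e₁ := (H.base.map_ne_one he₁1).symm
  have n3 : (1 : T) ≠ α (α e₁) := (H.base.map_ne_one (H.base.map_ne_one he₁1)).symm
  have n5 : e₁ ≠ α e₁ := (H.base.ne_self he₁1).symm
  have n6 : e₁ ≠ α (α e₁) := (H.base.aa_ne he₁E he₁1).symm
  have n8 : α e₁ ≠ α (α e₁) := (H.base.ne_self (H.base.map_ne_one he₁1)).symm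
  have hU : Nat.card U = (F 1).card + ((F e₁).card + ((F (α e₁)).card + (F (α (α e₁))).card)) := by
    have h1 : Nat.card U = (Finset.univ.filter (fun x : T => x ∈ U)).card := by
      rw [← Fintype.card_subtype, ← Nat.card_eq_fintype_card]
    have h2 := Finset.card_eq_sum_card_fiberwise (f := fun x : T => x * x)
      (s := Finset.univ.filter (fun x : T => x ∈ U)) (t := {1, e₁, α e₁, α (α e₁)}) (by
      intro x hx
      have hx' : x ∈ U := by simpa using hx
      have h3 := H.base.three he₁E he₁1 _ (hsqE x hx')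
      simp only [Finset.coe_insert, Finset.coe_singleton, Set.mem_insert_iff, Set.mem_singleton_iff]
      exact h3)
    rw [h1, h2, Finset.sum_insert (by simp [n1, n2, n3]), Finset.sum_insert (by simp [n5, n6]),
      Finset.sum_insert (by simp [n8]), Finset.sum_singleton]
    simp only [F, Finset.filter_filter]
  have hpos : 0 < (F (u * u)).card := Finset.card_pos.2 ⟨u, by
    simp only [F, Finset.mem_filter, Finset.mem_univ, true_and]
    exact ⟨huU, trivial⟩⟩
  have h4 := H.base.three he₁E he₁1 _ (hsqE u huU)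
  have hpos' : 0 < (F e₁).card := by
    rcases h4 with h5 | h5 | h5 | h5
    · exact absurd h5 hu1
    · rwa [h5] at hpos
    · rw [h5] at hpos; omega
    · rw [h5] at hpos; omega
  obtain ⟨n, hn⟩ := IsPGroup.iff_card.mp (H.base.p2.to_subgroup U)
  obtain ⟨m, hm⟩ := h3d
  have hn6 : n ≤ 6 := by
    by_contra hlt
    have h5 : 2 ^ 7 ≤ 2 ^ n := Nat.pow_le_pow_right (by norm_num) (by omega)
    omega
  rw [hU, hF1] at hn
  interval_cases n <;> omega

end GMin

namespace Setup

theorem gamma_trivial {T : Type*} [Group T] [Finite T] {E : Subgroup T} {α : T ≃* T} (h : Setup E α)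
    (γ : T ≃* T) (h3 : ∀ x, γ (γ (γ x)) = x) (hcomm : ∀ x, γ (α x) = α (γ x))
    (hE : ∀ e ∈ E, γ e = e) (hinv : ∀ U : Subgroup T, (∀ u ∈ U, α u ∈ U) → ∀ u ∈ U, γ u ∈ U) :
    ∀ x, γ x = x := by
  classical
  by_contra hcon
  push Not at hcon
  obtain ⟨x₀, hx₀⟩ := hcon
  have hex : ∃ n, ∃ U : Subgroup T, Nat.card U = n ∧ (∀ u ∈ U, α u ∈ U) ∧ ∃ u ∈ U, γ u ≠ u :=
    ⟨_, ⊤, rfl, fun _ _ => mem_top _, x₀, mem_top _, hx₀⟩
  obtain ⟨U, hU, hUα, hne⟩ := Nat.find_spec hex
  have H : GMin E α γ U := {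
    base := h
    g3 := h3
    comm := hcomm
    gE := hE
    ua := hUα
    ug := hinv U hUα
    hmin := by
      intro V hVα hlt v hv
      by_contra hv'
      have h1 : Nat.card V < Nat.card U := by
        have h2 := Set.ncard_lt_ncard (s := (V : Set T)) (t := (U : Set T))
          (SetLike.coe_ssubset_coe.2 hlt) (Set.toFinite _)
        rwa [← Nat.card_coe_set_eq, ← Nat.card_coe_set_eq] at h2
      rw [hU] at h1
      exact Nat.find_min hex h1 ⟨V, rfl, hVα, v, hv, hv'⟩
    hne := hne }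
  by_cases hZ : ∃ f ∈ U, γ f = f ∧ f ∉ E
  · obtain ⟨f, hf, hfg, hfE⟩ := hZ
    obtain ⟨u, hu, hu'⟩ := hne
    exact hu' (H.all_fixed hf hfg hfE u hu)
  · push Not at hZ
    exact H.count hZ

end Setup

end Cfsg.Agent.H05.Hig
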