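import Cfsg.Agent.Lib.H05.Hig3b

/-! Structure: either homocyclic, or of order `64` with squares in `E`. -/

set_option autoImplicit false

namespace Cfsg.Agent.H05.Hig

open Subgroup

theorem zmod_two_torsion (k : ℕ) (a : ZMod (2 ^ (k + 1))) (h : a + a = 0) : a.val = 0 ∨ a.val = 2 ^ k := by
  have h1 := congrArg ZMod.val h
  rw [ZMod.val_add, ZMod.val_zero] at h1
  have h2 : a.val < 2 ^ (k + 1) := ZMod.val_lt a
  obtain ⟨c, hc⟩ := Nat.dvd_of_mod_eq_zero h1
  generalize a.val = v at hc h2 ⊢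
  rw [pow_succ] at hc h2
  have hc2 : c < 2 := by
    by_contra hlt
    have h3 : 2 ≤ c := by omega
    have h4 : 2 ^ k * 2 * 2 ≤ 2 ^ k * 2 * c := Nat.mul_le_mul_left _ h3
    omega
  interval_cases c
  · left
    omega
  · right
    omega

theorem exists_invol {G : Type*} [Group G] {z : G} (hp : ∃ n : ℕ, z ^ (2 ^ n) = 1) (hz : z ≠ 1) :
    ∃ k : ℕ, z ^ k ≠ 1 ∧ (z ^ k) * (z ^ k) = 1 := by
  classical
  obtain ⟨n, hn, hmin⟩ : ∃ n : ℕ, z ^ (2 ^ n) = 1 ∧ ∀ m < n, z ^ (2 ^ m) ≠ 1 :=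
    ⟨Nat.find hp, Nat.find_spec hp, fun m hm => Nat.find_min hp hm⟩
  have hn0 : n ≠ 0 := by
    rintro rfl
    apply hz
    simpa using hn
  obtain ⟨m, rfl⟩ : ∃ m, n = m + 1 := ⟨n - 1, by omega⟩
  refine ⟨2 ^ m, hmin m (by omega), ?_⟩
  rw [← pow_add, show 2 ^ m + 2 ^ m = 2 ^ (m + 1) by ring]
  exact hn

namespace Setup

variable {T : Type*} [Group T] [Finite T] {E : Subgroup T} {α : T ≃* T} (h : Setup E α)
  (h3 : ∀ x, α (α (α x)) = x)

include h h3

/-- If `y` and `a` have the same square then `y a⁻¹` squares into `E`. -/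
theorem sq_eq_imp {y a : T} (hya : y * y = a * a) : (y * a⁻¹) * (y * a⁻¹) ∈ E := by
  obtain ⟨c, hc⟩ : ∃ c, c = y⁻¹ * a⁻¹ * y := ⟨_, rfl⟩
  have h1 : a⁻¹ * c = c * a⁻¹ := by
    have h2 := s2 h3 h.fpf a⁻¹ y⁻¹
    simpa [hc, mul_assoc] using h2
  have h1' : a * c = c * a := by
    calc a * c = a * (c * a⁻¹) * a := by group
      _ = a * (a⁻¹ * c) * a := by rw [h1]
      _ = c * a := by group
  have h2 : c * c = (a * a)⁻¹ := by
    calc c * c = y⁻¹ * (a * a)⁻¹ * y := by rw [hc]; group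
      _ = y⁻¹ * (y * y)⁻¹ * y := by rw [hya]
      _ = (y * y)⁻¹ := by group
      _ = (a * a)⁻¹ := by rw [hya]
  have h4 : (c * a) * (c * a) = 1 := by
    calc (c * a) * (c * a) = c * (a * c) * a := by group
      _ = c * (c * a) * a := by rw [h1']
      _ = (c * c) * (a * a) := by group
      _ = 1 := by rw [h2]; group
  have h5 := (h.inv_iff _).1 h4
  have h6 : (y * a⁻¹) * (y * a⁻¹) = (y * y) * (c * a) * (a * a)⁻¹ := by
    rw [hc]
    group
  rw [h6, hya, mul_assoc, h.central _ h5, ← mul_assoc, ← mul_assoc, mul_inv_cancel, one_mul] 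
  exact h5

theorem sq_comm {v : T} (y : T) (hv : v * v ∈ E) : (y * y) * v = v * (y * y) := by
  obtain ⟨c, hc⟩ : ∃ c, c = y⁻¹ * v * y := ⟨_, rfl⟩
  have h1 : v * c = c * v := by
    have h2 := s2 h3 h.fpf v y⁻¹
    simpa [hc, mul_assoc] using h2
  have h2 : c * c = v * v := by
    calc c * c = y⁻¹ * (v * v) * y := by rw [hc]; group
      _ = ((v * v) * y⁻¹) * y := by rw [h.central _ hv y⁻¹]
      _ = (v * v) * (y⁻¹ * y) := by group
      _ = v * v := by group
  have h4 : (v⁻¹ * c) * (v⁻¹ * c) = 1 := by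
    have h5 : v⁻¹ * c = c * v⁻¹ := by
      calc v⁻¹ * c = v⁻¹ * (c * v) * v⁻¹ := by group
        _ = v⁻¹ * (v * c) * v⁻¹ := by rw [h1]
        _ = c * v⁻¹ := by group
    calc (v⁻¹ * c) * (v⁻¹ * c) = v⁻¹ * (c * v⁻¹) * c := by group
      _ = v⁻¹ * (v⁻¹ * c) * c := by rw [h5]
      _ = (v * v)⁻¹ * (c * c) := by group
      _ = 1 := by rw [h2]; group
  obtain ⟨d, hd⟩ : ∃ d, d = v⁻¹ * c := ⟨_, rfl⟩
  rw [← hd] at h4
  have hdE := (h.inv_iff _).1 h4
  have hc' : y⁻¹ * v * y = v * d := by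
    rw [hd, ← hc]
    group
  have h5 : y⁻¹ * (y⁻¹ * v * y) * y = v := by
    rw [hc']
    calc y⁻¹ * (v * d) * y = y⁻¹ * v * (d * y) := by group
      _ = y⁻¹ * v * (y * d) := by rw [h.central _ hdE]
      _ = (y⁻¹ * v * y) * d := by group
      _ = v * d * d := by rw [hc']
      _ = v * (d * d) := by group
      _ = v := by rw [h4, mul_one]
  calc (y * y) * v = (y * y) * (y⁻¹ * (y⁻¹ * v * y) * y) := by rw [h5]
    _ = v * (y * y) := by group

theorem all_comm_of_central {u : T} (hu : u * u ∈ E) (huE : u ∉ E) (hc : ∀ v, v * v ∈ E → u * v = v * u) :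
    ∀ y v, y * y ∈ E → v * v ∈ E → y * v = v * y := by
  have hu1 : u * u ≠ 1 := fun h1 => huE ((h.inv_iff u).1 h1)
  have hαE : ∀ v, v * v ∈ E → α v * α v ∈ E := by
    intro v hv
    rw [← map_mul]
    exact h.map_E hv
  have hc1 : ∀ z, (∀ v, v * v ∈ E → z * v = v * z) → ∀ v, v * v ∈ E → α z * v = v * α z := by
    intro z hz v hv
    have h1 := hz (α (α v)) (hαE _ (hαE _ hv))
    have h2 := congrArg α h1
    rw [map_mul, map_mul, h3] at h2
    exact h2
  have key : ∀ y, y * y ∈ E → ∃ z, (∀ v, v * v ∈ E → z * v = v * z) ∧ z * z = y * y := by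
    intro y hy
    rcases h.three hu hu1 _ hy with h1 | h1 | h1 | h1
    · exact ⟨1, by simp, by rw [h1, mul_one]⟩
    · exact ⟨u, hc, h1.symm⟩
    · exact ⟨α u, hc1 u hc, by rw [h1, map_mul]⟩
    · exact ⟨α (α u), hc1 _ (hc1 u hc), by rw [h1, map_mul, map_mul]⟩
  have hcen : ∀ y, y * y ∈ E → ∀ v, v * v ∈ E → y * v = v * y := by
    intro y hy v hv
    obtain ⟨z, hz, hzy⟩ := key y hy
    have h1 : (y * z⁻¹) * (y * z⁻¹) = 1 := by
      have h2 : z⁻¹ * y = y * z⁻¹ := by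
        calc z⁻¹ * y = z⁻¹ * (y * z) * z⁻¹ := by group
          _ = z⁻¹ * (z * y) * z⁻¹ := by rw [hz y hy]
          _ = y * z⁻¹ := by group
      calc (y * z⁻¹) * (y * z⁻¹) = y * (z⁻¹ * y) * z⁻¹ := by group
        _ = y * (y * z⁻¹) * z⁻¹ := by rw [h2]
        _ = (y * y) * (z * z)⁻¹ := by group
        _ = 1 := by rw [hzy]; group
    have h2 := (h.inv_iff _).1 h1
    have h4 : y = (y * z⁻¹) * z := by group
    rw [h4, mul_assoc, hz v hv, ← mul_assoc, h.central _ h2, mul_assoc]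
  exact fun y v hy hv => hcen y hy v hv

/-- If the elements of order at most four do not commute, then every element has order at most four. -/
theorem all_sq_mem (hT : IsPGroup 2 T) (hna : ¬ ∀ y v : T, y * y ∈ E → v * v ∈ E → y * v = v * y) :
    ∀ y : T, y * y ∈ E := by
  have key : ∀ j : ℕ, ∀ y : T, y ^ (2 ^ j) = 1 → y * y ∈ E := by
    intro j
    induction j with
    | zero =>
      intro y hy
      have h1 : y = 1 := by simpa using hy
      rw [h1, mul_one]
      exact E.one_mem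
    | succ j ih =>
      intro y hy
      have h1 : (y * y) ^ (2 ^ j) = 1 := by
        rw [← pow_two, ← pow_mul, ← pow_succ']
        exact hy
      have h2 := ih _ h1
      by_contra h4
      exact hna (h.all_comm_of_central h3 h2 h4 (fun v hv => h.sq_comm h3 y hv))
  intro y
  obtain ⟨j, hj⟩ := hT y
  exact key j y hj

end Setup

end Cfsg.Agent.H05.Hig
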