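import Cfsg.Agent.Lib.H05.Hig4

/-! The homocyclic subgroup generated by an element of maximal order and its image. -/

set_option autoImplicit false

namespace Cfsg.Agent.H05.Hig

open Subgroup

/-- The homomorphism from a product of cyclic groups given by two commuting elements. -/
noncomputable def pairHom {T : Type*} [Group T] (N : ℕ) [NeZero N] (x y : T) (hc : x * y = y * x)
    (hx : x ^ N = 1) (hy : y ^ N = 1) : Multiplicative (ZMod N × ZMod N) →* T :=
  MonoidHom.mk' (fun p => x ^ (Multiplicative.toAdd p).1.val * y ^ (Multiplicative.toAdd p).2.val) (by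
    intro a b
    have hcomm : Commute x y := hc
    simp only [toAdd_mul, Prod.fst_add, Prod.snd_add, ZMod.val_add]
    rw [← pow_eq_pow_mod _ hx, ← pow_eq_pow_mod _ hy, pow_add, pow_add]
    have h1 := (hcomm.pow_pow (Multiplicative.toAdd b).1.val (Multiplicative.toAdd a).2.val).eq
    simp only [mul_assoc]
    congr 1
    simp only [← mul_assoc]
    rw [← h1])

namespace Setup

variable {T : Type*} [Group T] [Finite T] {E : Subgroup T} {α : T ≃* T} (h : Setup E α)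
  (h3 : ∀ x, α (α (α x)) = x) {x : T} {k : ℕ} (hexp : ∀ y : T, y ^ (2 ^ (k + 1)) = 1)

/-- The map from the product of two cyclic groups. -/
noncomputable def FF : Multiplicative (ZMod (2 ^ (k + 1)) × ZMod (2 ^ (k + 1))) →* T :=
  pairHom (2 ^ (k + 1)) x (α x) (f2 h3 h.fpf x) (hexp x) (hexp (α x))

theorem FF_apply (p : Multiplicative (ZMod (2 ^ (k + 1)) × ZMod (2 ^ (k + 1)))) :
    (FF (x := x) h h3 hexp) p = x ^ (Multiplicative.toAdd p).1.val * (α x) ^ (Multiplicative.toAdd p).2.val := rfl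

theorem mem_range_iff (y : T) : y ∈ (FF (x := x) h h3 hexp).range ↔ ∃ i j : ℕ, y = x ^ i * (α x) ^ j := by
  constructor
  · rintro ⟨p, rfl⟩
    exact ⟨_, _, rfl⟩
  · rintro ⟨i, j, rfl⟩
    refine ⟨Multiplicative.ofAdd ((i : ZMod (2 ^ (k + 1))), (j : ZMod (2 ^ (k + 1)))), ?_⟩
    rw [FF_apply]
    simp only [toAdd_ofAdd, ZMod.val_natCast]
    rw [← pow_eq_pow_mod _ (hexp x), ← pow_eq_pow_mod _ (hexp (α x))]

theorem range_comm (a b : T) (ha : a ∈ (FF (x := x) h h3 hexp).range)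
    (hb : b ∈ (FF (x := x) h h3 hexp).range) : a * b = b * a := by
  obtain ⟨p, rfl⟩ := ha
  obtain ⟨q, rfl⟩ := hb
  rw [← map_mul, ← map_mul, mul_comm]

variable (hne : x ^ (2 ^ k) ≠ 1)

include h h3 hexp hne

theorem e0_mem : x ^ (2 ^ k) ∈ E := by
  apply (h.inv_iff _).1
  rw [← pow_add, show 2 ^ k + 2 ^ k = 2 ^ (k + 1) by ring]
  exact hexp x

theorem FF_inj : Function.Injective (FF (x := x) h h3 hexp) := by
  rw [injective_iff_map_eq_one]
  intro z hz
  by_contra hz1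
  obtain ⟨m, hm1, hm2⟩ := exists_invol (z := z) ⟨k + 1, by
    have h1 : ∀ w : ZMod (2 ^ (k + 1)), (2 ^ (k + 1) : ℕ) • w = 0 := fun w => by
      rw [nsmul_eq_mul, Nat.cast_pow]
      have h5 : ((2 : ℕ) : ZMod (2 ^ (k + 1))) ^ (k + 1) = 0 := by
        rw [← Nat.cast_pow]
        exact ZMod.natCast_self _
      rw [Nat.cast_ofNat] at h5
      rw [Nat.cast_ofNat, h5, zero_mul]
    have h2 : z ^ (2 ^ (k + 1)) = Multiplicative.ofAdd ((2 ^ (k + 1) : ℕ) • Multiplicative.toAdd z) := rfl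
    rw [h2]
    have h6 : (2 ^ (k + 1) : ℕ) • Multiplicative.toAdd z = 0 := by
      ext1
      · exact h1 _
      · exact h1 _
    rw [h6]
    rfl⟩ hz1
  obtain ⟨w, hw⟩ : ∃ w, w = z ^ m := ⟨_, rfl⟩
  rw [← hw] at hm1 hm2
  have hfw : FF (x := x) h h3 hexp w = 1 := by
    rw [hw, map_pow, hz, one_pow]
  rw [FF_apply] at hfw
  have hw1 : (Multiplicative.toAdd w).1 + (Multiplicative.toAdd w).1 = 0 := by
    have h2 := congrArg (fun q => (Multiplicative.toAdd q).1) hm2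
    exact h2
  have hw2 : (Multiplicative.toAdd w).2 + (Multiplicative.toAdd w).2 = 0 := by
    have h2 := congrArg (fun q => (Multiplicative.toAdd q).2) hm2
    exact h2
  have hαe : (α x) ^ (2 ^ k) = α (x ^ (2 ^ k)) := (map_pow α x _).symm
  have he := h.e0_mem h3 hexp hne
  rcases zmod_two_torsion k _ hw1 with h1 | h1 <;> rcases zmod_two_torsion k _ hw2 with h2 | h2
  · apply hm1
    have h4 : (Multiplicative.toAdd w).1 = 0 := (ZMod.val_eq_zero _).1 h1
    have h5 : (Multiplicative.toAdd w).2 = 0 := (ZMod.val_eq_zero _).1 h2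
    have h6 : Multiplicative.toAdd w = 0 := Prod.ext h4 h5
    exact h6
  · rw [h1, h2, pow_zero, one_mul, hαe] at hfw
    exact h.map_ne_one hne hfw
  · rw [h1, h2, pow_zero, mul_one] at hfw
    exact hne hfw
  · rw [h1, h2, hαe] at hfw
    have h5 := (h.inv_iff _).2 he
    have h6 : α (x ^ 2 ^ k) = x ^ 2 ^ k := by
      have h7 : x ^ 2 ^ k * α (x ^ 2 ^ k) = x ^ 2 ^ k * x ^ 2 ^ k := by rw [hfw, h5]
      exact mul_left_cancel h7
    exact h.ne_self hne h6

omit hne in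
theorem x_mem : x ∈ (FF (x := x) h h3 hexp).range :=
  (h.mem_range_iff h3 hexp x).2 ⟨1, 0, by simp⟩

omit hne in
theorem ax_mem : α x ∈ (FF (x := x) h h3 hexp).range :=
  (h.mem_range_iff h3 hexp _).2 ⟨0, 1, by simp⟩

omit hne in
theorem aax_mem : α (α x) ∈ (FF (x := x) h h3 hexp).range := by
  have h1 := f1 h3 h.fpf x
  have h2 : α (α x) = (x * α x)⁻¹ := eq_inv_of_mul_eq_one_right h1
  rw [h2]
  exact inv_mem (mul_mem (h.x_mem h3 hexp) (h.ax_mem h3 hexp))

omit hne in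
theorem range_stable : ∀ y ∈ (FF (x := x) h h3 hexp).range, α y ∈ (FF (x := x) h h3 hexp).range := by
  intro y hy
  obtain ⟨i, j, rfl⟩ := (h.mem_range_iff h3 hexp y).1 hy
  rw [map_mul, map_pow, map_pow]
  exact mul_mem (pow_mem (h.ax_mem h3 hexp) _) (pow_mem (h.aax_mem h3 hexp) _)

theorem E_le_range : E ≤ (FF (x := x) h h3 hexp).range := by
  intro e he
  have he0 := h.e0_mem h3 hexp hne
  have hm : x ^ 2 ^ k ∈ (FF (x := x) h h3 hexp).range := pow_mem (h.x_mem h3 hexp) _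
  rcases h.three he0 hne e he with h1 | h1 | h1 | h1
  · rw [h1]; exact one_mem _
  · rw [h1]; exact hm
  · rw [h1]; exact h.range_stable h3 hexp _ hm
  · rw [h1]; exact h.range_stable h3 hexp _ (h.range_stable h3 hexp _ hm)

/-- When the elements of order at most four commute they lie in the homocyclic subgroup. -/
theorem W_le_range (hab : ∀ y v : T, y * y ∈ E → v * v ∈ E → y * v = v * y) :
    ∀ y : T, y * y ∈ E → y ∈ (FF (x := x) h h3 hexp).range := by
  intro y hy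
  by_cases hy1 : y * y = 1
  · exact h.E_le_range h3 hexp hne ((h.inv_iff y).1 hy1)
  have hk : k ≠ 0 := by
    rintro rfl
    apply hy1
    have h1 := hexp y
    simp only [zero_add, pow_one] at h1
    rw [pow_two] at h1
    exact h1
  obtain ⟨k', rfl⟩ : ∃ k', k = k' + 1 := ⟨k - 1, by omega⟩
  obtain ⟨x₁, hx₁⟩ : ∃ x₁, x₁ = x ^ 2 ^ k' := ⟨_, rfl⟩
  have hx₁2 : x₁ * x₁ = x ^ 2 ^ (k' + 1) := by
    rw [hx₁, ← pow_add, show 2 ^ k' + 2 ^ k' = 2 ^ (k' + 1) by ring]
  have hx₁m : x₁ ∈ (FF (x := x) h h3 hexp).range := by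
    rw [hx₁]
    exact pow_mem (h.x_mem h3 hexp) _
  have he0 := h.e0_mem h3 hexp hne
  have key : ∃ a ∈ (FF (x := x) h h3 hexp).range, a * a = y * y := by
    rcases h.three he0 hne _ hy with h1 | h1 | h1 | h1
    · exact absurd h1 hy1
    · exact ⟨x₁, hx₁m, by rw [hx₁2, h1]⟩
    · exact ⟨α x₁, h.range_stable h3 hexp _ hx₁m, by rw [← map_mul, hx₁2, h1]⟩
    · exact ⟨α (α x₁), h.range_stable h3 hexp _ (h.range_stable h3 hexp _ hx₁m), by
        rw [← map_mul, ← map_mul, hx₁2, h1]⟩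
  obtain ⟨a, ham, haa⟩ := key
  have hya : y * a = a * y := hab y a hy (by rw [haa]; exact hy)
  have h1 : (y * a⁻¹) * (y * a⁻¹) = 1 := by
    have h2 : a⁻¹ * y = y * a⁻¹ := by
      calc a⁻¹ * y = a⁻¹ * (y * a) * a⁻¹ := by group
        _ = a⁻¹ * (a * y) * a⁻¹ := by rw [hya]
        _ = y * a⁻¹ := by group
    calc (y * a⁻¹) * (y * a⁻¹) = y * (a⁻¹ * y) * a⁻¹ := by group
      _ = y * (y * a⁻¹) * a⁻¹ := by rw [h2]
      _ = (y * y) * (a * a)⁻¹ := by group
      _ = 1 := by rw [haa]; group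
  have h2 := h.E_le_range h3 hexp hne ((h.inv_iff _).1 h1)
  have h4 : y = (y * a⁻¹) * a := by group
  rw [h4]
  exact mul_mem h2 ham

theorem pow_even_of (i j : ℕ) (hij : (x ^ 2 ^ k) ^ i * (α (x ^ 2 ^ k)) ^ j = 1) : Even i ∧ Even j := by
  have he0 := h.e0_mem h3 hexp hne
  have h5 := (h.inv_iff _).2 he0
  have h6 := (h.inv_iff _).2 (h.map_E he0)
  have hp : ∀ (e : T), e * e = 1 → ∀ n : ℕ, (Even n → e ^ n = 1) ∧ (¬ Even n → e ^ n = e) := by
    intro e he n
    constructor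
    · rintro ⟨m, rfl⟩
      rw [← two_mul, pow_mul, pow_two, he, one_pow]
    · intro hn
      obtain ⟨m, rfl⟩ := Nat.not_even_iff_odd.1 hn
      rw [pow_succ, pow_mul, pow_two, he, one_pow, one_mul]
  by_cases hi : Even i <;> by_cases hj : Even j
  · exact ⟨hi, hj⟩
  · exfalso
    rw [(hp _ h5 i).1 hi, (hp _ h6 j).2 hj, one_mul] at hij
    exact h.map_ne_one hne hij
  · exfalso
    rw [(hp _ h5 i).2 hi, (hp _ h6 j).1 hj, mul_one] at hij
    exact hne hij
  · exfalso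
    rw [(hp _ h5 i).2 hi, (hp _ h6 j).2 hj] at hij
    have h7 : α (x ^ 2 ^ k) = x ^ 2 ^ k := by
      have h8 : x ^ 2 ^ k * α (x ^ 2 ^ k) = x ^ 2 ^ k * x ^ 2 ^ k := by rw [hij, h5]
      exact mul_left_cancel h8
    exact h.ne_self hne h7

theorem step (hW : ∀ y : T, y * y ∈ E → y ∈ (FF (x := x) h h3 hexp).range) {y : T}
    (hy : y * y ∈ (FF (x := x) h h3 hexp).range) : y ∈ (FF (x := x) h h3 hexp).range := by
  obtain ⟨i, j, hij⟩ := (h.mem_range_iff h3 hexp _).1 hy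
  have hcomm : Commute x (α x) := f2 h3 h.fpf x
  have h1 : (y * y) ^ 2 ^ k = 1 := by
    rw [← pow_two, ← pow_mul, ← pow_succ']
    exact hexp y
  rw [hij, (hcomm.pow_pow i j).mul_pow, ← pow_mul, ← pow_mul, mul_comm i, mul_comm j, pow_mul, pow_mul,
    ← map_pow] at h1
  obtain ⟨⟨i', hi'⟩, ⟨j', hj'⟩⟩ := h.pow_even_of h3 hexp hne i j h1
  subst hi' hj'
  obtain ⟨a, ha⟩ : ∃ a, a = x ^ i' * (α x) ^ j' := ⟨_, rfl⟩
  have ham : a ∈ (FF (x := x) h h3 hexp).range := (h.mem_range_iff h3 hexp _).2 ⟨i', j', ha⟩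
  have haa : y * y = a * a := by
    rw [hij, ha, ← pow_two, (hcomm.pow_pow i' j').mul_pow, ← pow_mul, ← pow_mul, mul_two, mul_two]
  have h2 := h.sq_eq_imp h3 haa
  have h4 := hW _ h2
  have h5 : y = (y * a⁻¹) * a := by group
  rw [h5]
  exact mul_mem h4 ham

theorem FF_surj (hW : ∀ y : T, y * y ∈ E → y ∈ (FF (x := x) h h3 hexp).range) :
    Function.Surjective (FF (x := x) h h3 hexp) := by
  have key : ∀ (j : ℕ) (y : T), y ^ (2 ^ j) ∈ (FF (x := x) h h3 hexp).range →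
      y ∈ (FF (x := x) h h3 hexp).range := by
    intro j
    induction j with
    | zero =>
      intro y hy
      simpa using hy
    | succ j ih =>
      intro y hy
      have h1 : (y * y) ^ 2 ^ j = y ^ 2 ^ (j + 1) := by
        rw [← pow_two, ← pow_mul, ← pow_succ']
      rw [← h1] at hy
      exact h.step h3 hexp hne hW (ih _ hy)
  intro y
  have h1 : y ^ 2 ^ (k + 1) ∈ (FF (x := x) h h3 hexp).range := by
    rw [hexp y]
    exact one_mem _
  exact key _ _ h1

theorem card_range : Nat.card (FF (x := x) h h3 hexp).range = 2 ^ (k + 1) * 2 ^ (k + 1) := by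
  rw [← Nat.card_congr (MonoidHom.ofInjective (h.FF_inj h3 hexp hne)).toEquiv]
  have h1 : Nat.card (Multiplicative (ZMod (2 ^ (k + 1)) × ZMod (2 ^ (k + 1)))) =
      Nat.card (ZMod (2 ^ (k + 1)) × ZMod (2 ^ (k + 1))) := Nat.card_congr Multiplicative.toAdd
  rw [h1, Nat.card_prod, Nat.card_zmod]

end Setup

end Cfsg.Agent.H05.Hig
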