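import Cfsg.Agent.Lib.H05.Hig4a

/-! The dichotomy under the setup. -/

set_option autoImplicit false

namespace Cfsg.Agent.H05.Hig

open Subgroup

namespace Setup

variable {T : Type*} [Group T] [Finite T] {E : Subgroup T} {α : T ≃* T} (h : Setup E α)
  (h3 : ∀ x, α (α (α x)) = x)

include h h3

theorem dichotomy :
    (∃ n : ℕ, 1 ≤ n ∧ Nonempty (T ≃* Multiplicative (ZMod (2 ^ n) × ZMod (2 ^ n)))) ∨
      ((∀ x, x * x ∈ E) ∧ Nat.card T = 64) := by
  classical
  have hord : ∀ y : T, ∃ m : ℕ, orderOf y = 2 ^ m := by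
    intro y
    obtain ⟨m, hm⟩ := h.p2 y
    obtain ⟨m', -, hm'⟩ := (Nat.dvd_prime_pow Nat.prime_two).1 (orderOf_dvd_of_pow_eq_one hm)
    exact ⟨m', hm'⟩
  obtain ⟨x, hx⟩ := Finite.exists_max (fun y : T => orderOf y)
  obtain ⟨e, he⟩ := hord x
  have he0 : e ≠ 0 := by
    rintro rfl
    have h1 : ∀ y : T, y = 1 := by
      intro y
      have h2 := hx y
      rw [he, pow_zero] at h2
      have h4 : 0 < orderOf y := orderOf_pos y
      exact orderOf_eq_one_iff.1 (by omega)
    have h2 : Nat.card E = 1 := by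
      have h4 : Nat.card E ≤ Nat.card T := Subgroup.card_le_card_group E
      have h5 : Nat.card T = 1 := by
        rw [Nat.card_eq_one_iff_unique]
        exact ⟨⟨fun a b => by rw [h1 a, h1 b]⟩, ⟨1⟩⟩
      have h6 : 0 < Nat.card E := Nat.card_pos
      omega
    have h4 := h.card4
    omega
  obtain ⟨k, rfl⟩ : ∃ k, e = k + 1 := ⟨e - 1, by omega⟩
  have hexp : ∀ y : T, y ^ (2 ^ (k + 1)) = 1 := by
    intro y
    obtain ⟨m, hm⟩ := hord y
    have h1 := hx y
    rw [hm, he] at h1
    have h2 : m ≤ k + 1 := (Nat.pow_le_pow_iff_right (by norm_num)).1 h1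
    apply orderOf_dvd_iff_pow_eq_one.1
    rw [hm]
    exact pow_dvd_pow 2 h2
  have hne : x ^ (2 ^ k) ≠ 1 := by
    intro h1
    have h2 := orderOf_dvd_of_pow_eq_one h1
    rw [he] at h2
    have h4 := Nat.le_of_dvd (by positivity) h2
    have h5 : 2 ^ k < 2 ^ (k + 1) := Nat.pow_lt_pow_right (by norm_num) (by omega)
    omega
  by_cases hab : ∀ y v : T, y * y ∈ E → v * v ∈ E → y * v = v * y
  · left
    refine ⟨k + 1, by omega, ⟨(MulEquiv.ofBijective (FF (x := x) h h3 hexp)
      ⟨h.FF_inj h3 hexp hne, h.FF_surj h3 hexp hne (h.W_le_range h3 hexp hne hab)⟩).symm⟩⟩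
  · right
    have hall := h.all_sq_mem h3 h.p2 hab
    refine ⟨hall, ?_⟩
    have hle : Nat.card T ≤ 64 := card_le_64 E h.central h.card4
      (fun e he => (h.inv_iff e).2 he) hall (fun x hx => (h.inv_iff x).1 hx)
    have hk : k ≠ 0 := by
      rintro rfl
      apply hab
      intro y v _ _
      have h1 := hexp y
      simp only [zero_add, pow_one] at h1
      rw [pow_two] at h1
      exact h.central y ((h.inv_iff y).1 h1) v
    have hcard := h.card_range h3 hexp hne
    have hrne : (FF (x := x) h h3 hexp).range ≠ ⊤ := by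
      intro h1
      apply hab
      intro y v _ _
      exact h.range_comm h3 hexp y v (by rw [h1]; exact mem_top _) (by rw [h1]; exact mem_top _)
    have hlt : Nat.card (FF (x := x) h h3 hexp).range < Nat.card T := by
      have h2 := Set.ncard_lt_ncard (s := (((FF (x := x) h h3 hexp).range : Subgroup T) : Set T))
        (t := ((⊤ : Subgroup T) : Set T))
        (SetLike.coe_ssubset_coe.2 (lt_top_iff_ne_top.2 hrne)) (Set.toFinite _)
      rw [← Nat.card_coe_set_eq, ← Nat.card_coe_set_eq] at h2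
      have h4 : Nat.card ((⊤ : Subgroup T) : Set T) = Nat.card T := Subgroup.card_top
      rw [h4] at h2
      exact h2
    have h16 : 16 ≤ Nat.card (FF (x := x) h h3 hexp).range := by
      rw [hcard]
      have h5 : 2 ^ 2 ≤ 2 ^ (k + 1) := Nat.pow_le_pow_right (by norm_num) (by omega)
      have h6 : 2 ^ 2 * 2 ^ 2 ≤ 2 ^ (k + 1) * 2 ^ (k + 1) := Nat.mul_le_mul h5 h5
      omega
    obtain ⟨n, hn⟩ := IsPGroup.iff_card.mp h.p2
    haveI := Fintype.ofFinite T
    have hd : 3 ∣ Fintype.card {y : T // y ∉ E} := three_dvd_of_fpf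
      (fun y => ⟨α y.1, fun h1 => y.2 (by
        have h2 := h.map_E (h.map_E h1)
        rwa [h3] at h2)⟩)
      (fun y => Subtype.ext (h3 _))
      (fun y hy => y.2 (by
        have h1 : α y.1 = y.1 := congrArg Subtype.val hy
        rw [h.fpf _ h1]
        exact E.one_mem))
    rw [Fintype.card_subtype_compl, ← Nat.card_eq_fintype_card, ← Nat.card_eq_fintype_card] at hd
    have h4E : Nat.card {y : T // y ∈ E} = 4 := h.card4
    rw [h4E] at hd
    have hn6 : n ≤ 6 := by
      by_contra hlt'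
      have h5 : 2 ^ 7 ≤ 2 ^ n := Nat.pow_le_pow_right (by norm_num) (by omega)
      omega
    have hn5 : 5 ≤ n := by
      by_contra hlt'
      have h5 : 2 ^ n ≤ 2 ^ 4 := Nat.pow_le_pow_right (by norm_num) (by omega)
      omega
    rw [hn] at hd ⊢
    interval_cases n
    · omega
    · rfl

end Setup

end Cfsg.Agent.H05.Hig
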