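import Cfsg.Agent.Lib.H05.Hig4b
import Cfsg.Prelude.Def_CaseTheorems

/-! From the hypotheses of the statement to the setup. -/

set_option autoImplicit false

namespace Cfsg.Agent.H05.Hig

open Subgroup

theorem four_cases {T : Type*} [Group T] [Finite T] (E : Subgroup T) (h4 : Nat.card E = 4) {a b c d : T}
    (ha : a ∈ E) (hb : b ∈ E) (hc : c ∈ E) (hd : d ∈ E) (ab : a ≠ b) (ac : a ≠ c) (ad : a ≠ d) (bc : b ≠ c)
    (bd : b ≠ d) (cd : c ≠ d) : ∀ x ∈ E, x = a ∨ x = b ∨ x = c ∨ x = d := by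
  classical
  intro e' he'
  by_contra hcon
  push Not at hcon
  obtain ⟨h1, h2, h3, h5⟩ := hcon
  have hS : (({a, b, c, d, e'} : Finset T) : Set T) ⊆ (E : Set T) := by
    intro x hx
    simp only [Finset.coe_insert, Finset.coe_singleton, Set.mem_insert_iff, Set.mem_singleton_iff] at hx
    rcases hx with rfl | rfl | rfl | rfl | rfl <;> assumption
  have hcard : ({a, b, c, d, e'} : Finset T).card = 5 := by
    have n4 : a ≠ e' := fun h6 => h1 h6.symm
    have n7 : b ≠ e' := fun h6 => h2 h6.symm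
    have n9 : c ≠ e' := fun h6 => h3 h6.symm
    have n10 : d ≠ e' := fun h6 => h5 h6.symm
    rw [Finset.card_insert_of_notMem (by simp [ab, ac, ad, n4]),
      Finset.card_insert_of_notMem (by simp [bc, bd, n7]),
      Finset.card_insert_of_notMem (by simp [cd, n9]),
      Finset.card_insert_of_notMem (by simp [n10]), Finset.card_singleton]
  have h6 := Set.ncard_le_ncard hS (Set.toFinite _)
  rw [Set.ncard_coe_finset, hcard, ← Nat.card_coe_set_eq] at h6
  have h7 : Nat.card (E : Set T) = 4 := h4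
  rw [h7] at h6
  omega

theorem exists_ne3 {T : Type*} [Group T] [Finite T] (E : Subgroup T) (h4 : Nat.card E = 4) (a b c : T) :
    ∃ t ∈ E, t ≠ a ∧ t ≠ b ∧ t ≠ c := by
  classical
  by_contra hcon
  push Not at hcon
  have hS : (E : Set T) ⊆ (({a, b, c} : Finset T) : Set T) := by
    intro x hx
    simp only [Finset.coe_insert, Finset.coe_singleton, Set.mem_insert_iff, Set.mem_singleton_iff]
    by_cases h1 : x = a
    · exact Or.inl h1
    by_cases h2 : x = b
    · exact Or.inr (Or.inl h2)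
    exact Or.inr (Or.inr (hcon x hx h1 h2))
  have h6 := Set.ncard_le_ncard hS (Set.toFinite _)
  rw [Set.ncard_coe_finset, ← Nat.card_coe_set_eq] at h6
  have h7 : Nat.card (E : Set T) = 4 := h4
  rw [h7] at h6
  have h8 : ({a, b, c} : Finset T).card ≤ 3 := Finset.card_le_three
  omega

/-- The subgroup of elements of order at most two when all of them are central. -/
def invSub {T : Type*} [Group T] (hc : ∀ t : T, t * t = 1 → ∀ x, t * x = x * t) : Subgroup T where
  carrier := {x | x * x = 1}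
  mul_mem' := by
    intro a b ha hb
    have ha' : a * a = 1 := ha
    have hb' : b * b = 1 := hb
    show a * b * (a * b) = 1
    calc a * b * (a * b) = a * (b * a) * b := by group
      _ = a * (a * b) * b := by rw [hc a ha' b]
      _ = (a * a) * (b * b) := by group
      _ = 1 := by rw [ha', hb', one_mul]
  one_mem' := mul_one 1
  inv_mem' := by
    intro a ha
    have ha' : a * a = 1 := ha
    show a⁻¹ * a⁻¹ = 1
    rw [← mul_inv_rev, ha', inv_one]

theorem exists_setup {T : Type*} [Group T] [Finite T] (hT : IsPGroup 2 T) (h2 : Cfsg.PRankLE 2 2 T)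
    (h1 : ¬ Cfsg.PRankLE 2 1 T) (φ : MulAut T)
    (htrans : ∀ s t : T, orderOf s = 2 → orderOf t = 2 → ∃ k : ℕ, (φ ^ k) s = t) :
    ∃ (E : Subgroup T) (α : T ≃* T), Setup E α ∧ ∀ x, α (α (α x)) = x := by
  classical
  unfold Cfsg.PRankLE at h1
  push Not at h1
  obtain ⟨A, hAc, hA2, hAcard⟩ := h1
  have hnt : Nontrivial T := by
    by_contra hn
    rw [not_nontrivial_iff_subsingleton] at hn
    have h3 : Nat.card A = 1 := by
      have : Subsingleton A := inferInstance
      exact Nat.card_unique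
    omega
  have hcn := IsPGroup.center_nontrivial hT
  obtain ⟨c, hc1⟩ := exists_ne (1 : Subgroup.center T)
  obtain ⟨k₀, hk1, hk2⟩ := exists_invol (z := c) (by
    obtain ⟨n, hn⟩ := hT (c : T)
    exact ⟨n, Subtype.ext (by simpa using hn)⟩) hc1
  obtain ⟨s₀, hs₀⟩ : ∃ s₀ : T, s₀ = ((c ^ k₀ : Subgroup.center T) : T) := ⟨_, rfl⟩
  have hs₀c : ∀ x, s₀ * x = x * s₀ := by
    intro x
    rw [hs₀]
    exact ((Subgroup.mem_center_iff.1 (c ^ k₀).2 x)).symm
  have hs₀1 : s₀ ≠ 1 := by
    rw [hs₀]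
    intro h3
    exact hk1 (Subtype.ext h3)
  have hs₀2 : s₀ * s₀ = 1 := by
    rw [hs₀]
    have h3 := congrArg Subtype.val hk2
    simpa using h3
  have hord : ∀ s : T, s * s = 1 → s ≠ 1 → orderOf s = 2 := by
    intro s hs hs1
    exact orderOf_eq_prime (by rw [pow_two]; exact hs) hs1
  have hcen : ∀ t : T, t * t = 1 → ∀ x, t * x = x * t := by
    intro t ht x
    by_cases ht1 : t = 1
    · rw [ht1, one_mul, mul_one]
    obtain ⟨k, hk⟩ := htrans s₀ t (hord _ hs₀2 hs₀1) (hord _ ht ht1)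
    obtain ⟨y, rfl⟩ := (φ ^ k).surjective x
    rw [← hk, ← map_mul, ← map_mul, hs₀c]
  obtain ⟨E, hE⟩ : ∃ E : Subgroup T, E = invSub hcen := ⟨_, rfl⟩
  have hEm : ∀ x, x ∈ E ↔ x * x = 1 := by
    intro x
    rw [hE]
    exact Iff.rfl
  have hcard4 : Nat.card E = 4 := by
    have hle : Nat.card E ≤ 2 ^ 2 := h2 E ⟨⟨fun a b => Subtype.ext (hcen _ ((hEm _).1 a.2) _)⟩⟩ (by
      intro a ha
      rw [pow_two]
      exact (hEm a).1 ha)
    have hAE : A ≤ E := by
      intro a ha
      rw [hEm, ← pow_two]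
      exact hA2 a ha
    have hge := Subgroup.card_le_of_le hAE
    obtain ⟨n, hn⟩ := IsPGroup.iff_card.mp (hT.to_subgroup E)
    rw [hn] at hle hge ⊢
    have hn2 : n ≤ 2 := (Nat.pow_le_pow_iff_right (by norm_num)).1 hle
    interval_cases n
    · norm_num at hge; omega
    · norm_num at hge; omega
    · rfl
  have hφE : ∀ s, s ∈ E → φ s ∈ E := by
    intro s hs
    rw [hEm] at hs ⊢
    rw [← map_mul, hs, map_one]
  have hφ1 : ∀ s : T, s ≠ 1 → φ s ≠ 1 := by
    intro s hs h3
    exact hs (φ.injective (h3.trans (map_one φ).symm))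
  have hpow : ∀ (k : ℕ) (s : T), (φ ^ (k + 1)) s = φ ((φ ^ k) s) := by
    intro k s
    rw [pow_succ']
    rfl
  have hpow0 : ∀ s : T, (φ ^ 0) s = s := fun s => rfl
  have P1 : ∀ s, s ∈ E → s ≠ 1 → φ s ≠ s := by
    intro s hs hs1 hfix
    obtain ⟨t, ht, ht1, hts, -⟩ := exists_ne3 E hcard4 1 s s
    obtain ⟨k, hk⟩ := htrans s t (hord s ((hEm s).1 hs) hs1) (hord t ((hEm t).1 ht) ht1)
    have h3 : ∀ k : ℕ, (φ ^ k) s = s := by
      intro k
      induction k with
      | zero => rfl
      | succ k ih => rw [hpow, ih, hfix]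
    exact hts (hk.symm.trans (h3 k))
  have P2 : ∀ s, s ∈ E → s ≠ 1 → φ (φ s) ≠ s := by
    intro s hs hs1 hfix
    obtain ⟨t, ht, ht1, hts, hts'⟩ := exists_ne3 E hcard4 1 s (φ s)
    obtain ⟨k, hk⟩ := htrans s t (hord s ((hEm s).1 hs) hs1) (hord t ((hEm t).1 ht) ht1)
    have h3 : ∀ k : ℕ, (φ ^ k) s = s ∨ (φ ^ k) s = φ s := by
      intro k
      induction k with
      | zero => exact Or.inl rfl
      | succ k ih =>
        rw [hpow]
        rcases ih with h4 | h4
        · right
          rw [h4]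
        · left
          rw [h4, hfix]
    rcases h3 k with h4 | h4
    · exact hts (hk.symm.trans h4)
    · exact hts' (hk.symm.trans h4)
  have P3 : ∀ s, s ∈ E → s ≠ 1 → φ (φ (φ s)) = s := by
    intro s hs hs1
    have h3 := four_cases E hcard4 E.one_mem hs (hφE _ hs) (hφE _ (hφE _ hs)) hs1.symm (hφ1 s hs1).symm
      (hφ1 _ (hφ1 s hs1)).symm (P1 s hs hs1).symm (P2 s hs hs1).symm
      (P1 _ (hφE _ hs) (hφ1 s hs1)).symm (φ (φ (φ s))) (hφE _ (hφE _ (hφE _ hs)))
    rcases h3 with h4 | h4 | h4 | h4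
    · exact absurd h4 (hφ1 _ (hφ1 _ (hφ1 s hs1)))
    · exact h4
    · exfalso
      exact P2 s hs hs1 (φ.injective h4)
    · exfalso
      exact P1 s hs hs1 (φ.injective (φ.injective h4))
  have P4 : ∀ (q : ℕ) (s : T), s ∈ E → (φ ^ (3 * q)) s = s := by
    intro q s hs
    by_cases hs1 : s = 1
    · rw [hs1, map_one]
    induction q with
    | zero => rfl
    | succ q ih =>
      rw [show 3 * (q + 1) = (3 * q + 2) + 1 by ring, hpow,
        show 3 * q + 2 = (3 * q + 1) + 1 by ring, hpow, hpow, ih, P3 s hs hs1]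
  obtain ⟨j, m, hm, hN⟩ := Nat.exists_eq_pow_mul_and_not_dvd (n := orderOf φ) (orderOf_pos φ).ne' 3
    (by norm_num)
  have P5 : ∀ s, s ∈ E → s ≠ 1 → (φ ^ m) s ≠ s := by
    intro s hs hs1 hfix
    have hm' : m = 3 * (m / 3) + m % 3 := (Nat.div_add_mod m 3).symm
    have hr : m % 3 = 1 ∨ m % 3 = 2 := by omega
    have h3 : (φ ^ m) s = (φ ^ (m % 3)) ((φ ^ (3 * (m / 3))) s) := by
      conv_lhs => rw [hm', add_comm, pow_add]
      rfl
    rw [P4 _ _ hs, hfix] at h3
    rcases hr with hr | hr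
    · rw [hr] at h3
      exact P1 s hs hs1 h3.symm
    · rw [hr] at h3
      exact P2 s hs hs1 h3.symm
  have hfpf : ∀ x, (φ ^ m) x = x → x = 1 := by
    intro x hx
    by_contra hx1
    obtain ⟨k, hk1, hk2⟩ := exists_invol (z := x) (hT x) hx1
    have h3 : (φ ^ m) (x ^ k) = x ^ k := by rw [map_pow, hx]
    exact P5 _ ((hEm _).2 hk2) hk1 h3
  have hS : Setup E (φ ^ m) := {
    inv_iff := fun x => (hEm x).symm
    central := fun e he x => hcen e ((hEm e).1 he) x
    card4 := hcard4
    fpf := hfpf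
    p2 := hT }
  refine ⟨E, φ ^ m, hS, ?_⟩
  have hdesc : ∀ j : ℕ, (φ ^ m) ^ (3 ^ j) = 1 → (φ ^ m) ^ 3 = 1 := by
    intro j
    induction j with
    | zero =>
      intro h3
      have h4 : φ ^ m = 1 := by simpa using h3
      rw [h4, one_pow]
    | succ j ih =>
      intro h3
      rcases Nat.eq_zero_or_pos j with rfl | hj
      · simpa using h3
      obtain ⟨i, rfl⟩ : ∃ i, j = i + 1 := ⟨j - 1, by omega⟩
      apply ih
      obtain ⟨γ, hγ⟩ : ∃ γ : MulAut T, γ = (φ ^ m) ^ (3 ^ (i + 1)) := ⟨_, rfl⟩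
      have hγ3 : γ * γ * γ = 1 := by
        rw [hγ, ← pow_add, ← pow_add, ← h3]
        congr 1
        ring
      have htriv := hS.gamma_trivial γ (fun x => by
          have h4 := DFunLike.congr_fun hγ3 x
          exact h4)
        (fun x => by
          have h4 : γ * φ ^ m = φ ^ m * γ := by
            rw [hγ, ← pow_succ, ← pow_succ']
          exact DFunLike.congr_fun h4 x)
        (fun e he => by
          have h4 : γ = φ ^ (3 * (m * 3 ^ i)) := by
            rw [hγ, ← pow_mul]
            congr 1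
            ring
          rw [h4]
          exact P4 _ _ he)
        (fun U hU u hu => by
          rw [hγ]
          generalize 3 ^ (i + 1) = n
          induction n with
          | zero => exact hu
          | succ n ihn =>
            rw [pow_succ']
            exact hU _ ihn)
      rw [← hγ]
      ext x
      exact htriv x
  have hα3 := hdesc j (by
    rw [← pow_mul, mul_comm, ← hN, pow_orderOf_eq_one])
  intro x
  have h4 := DFunLike.congr_fun hα3 x
  rw [pow_succ, pow_two] at h4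
  exact h4

end Cfsg.Agent.H05.Hig
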