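import Mathlib

/-!
# Central extensions of elementary abelian 2-groups are determined by their squares
-/

set_option autoImplicit false
set_option linter.style.haveILetI false
set_option linter.unusedSectionVars false

namespace Cfsg.Agent.H05.SuzA

open Subgroup

/-- A retraction for elementary abelian 2-groups. -/
theorem exists_retract {A B : Type*} [Group A] [CommGroup B] [Finite A] [Finite B]
    (hA : ∀ a : A, a * a = 1) (hB : ∀ b : B, b * b = 1) (j : B →* A) (hj : Function.Injective j) :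
    ∃ r : A →* B, ∀ b, r (j b) = b := by
  classical
  letI iA : CommGroup A := { (inferInstance : Group A) with
    mul_comm := fun a b => by
      have h1 := hA (a * b)
      have h2 := hA a
      have h3 := hA b
      calc a * b = a * b * (b * a) * (b * a) := by
            rw [mul_assoc (a * b), hA (b * a), mul_one]
        _ = a * (b * b) * a * (b * a) := by simp only [mul_assoc]
        _ = b * a := by rw [h3, mul_one, h2, one_mul] }
  letI mA : Module (ZMod 2) (Additive A) := AddCommGroup.zmodModule (fun x => by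
    rw [two_nsmul]
    exact hA (Additive.toMul x))
  letI mB : Module (ZMod 2) (Additive B) := AddCommGroup.zmodModule (fun x => by
    rw [two_nsmul]
    exact hB (Additive.toMul x))
  let f : Additive B →ₗ[ZMod 2] Additive A := AddMonoidHom.toZModLinearMap 2 (MonoidHom.toAdditive j)
  have hf : LinearMap.ker f = ⊥ := by
    rw [LinearMap.ker_eq_bot]
    intro x y hxy
    exact hj hxy
  obtain ⟨g, hg⟩ := f.exists_leftInverse_of_injective hf
  refine ⟨MonoidHom.mk' (fun a => Additive.toMul (g (Additive.ofMul a))) (fun a b => ?_), fun b => ?_⟩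
  · have h1 := g.map_add (Additive.ofMul a) (Additive.ofMul b)
    exact h1
  · have h1 := LinearMap.congr_fun hg (Additive.ofMul b)
    exact h1

/-- Two central extensions with the same squares are isomorphic. -/
theorem iso_of_squares {P Q V B : Type*} [Group P] [Group Q] [CommGroup V] [CommGroup B] [Finite P] [Finite Q]
    (πP : P →* V) (πQ : Q →* V) (hπP : Function.Surjective πP) (hπQ : Function.Surjective πQ)
    (ιP : P → B) (ιQ : Q → B)
    (hιPmul : ∀ x y, πP x = 1 → πP y = 1 → ιP (x * y) = ιP x * ιP y)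
    (hιQmul : ∀ x y, πQ x = 1 → πQ y = 1 → ιQ (x * y) = ιQ x * ιQ y)
    (hιPinj : ∀ x, πP x = 1 → ιP x = 1 → x = 1)
    (hιQinj : ∀ x, πQ x = 1 → ιQ x = 1 → x = 1)
    (hιPsurj : ∀ b, ∃ x, πP x = 1 ∧ ιP x = b)
    (hιQsurj : ∀ b, ∃ x, πQ x = 1 ∧ ιQ x = b)
    (hcP : ∀ z, πP z = 1 → ∀ x, z * x = x * z)
    (hcQ : ∀ z, πQ z = 1 → ∀ x, z * x = x * z)
    (hV : ∀ v : V, v * v = 1) (hB : ∀ b : B, b * b = 1)
    (hsq : ∀ x y, πP x = πQ y → ιP (x * x) = ιQ (y * y)) : Nonempty (P ≃* Q) := by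
  classical
  haveI : Finite V := Finite.of_surjective πP hπP
  haveI : Finite B := by
    choose s hs using hιPsurj
    exact Finite.of_injective s (fun a b h => by
      have h1 := (hs a).2
      rw [h] at h1
      exact h1.symm.trans (hs b).2)
  let H : Subgroup (P × Q) := MonoidHom.eqLocus (πP.comp (MonoidHom.fst P Q)) (πQ.comp (MonoidHom.snd P Q))
  have hH : ∀ x y, (x, y) ∈ H ↔ πP x = πQ y := fun x y => Iff.rfl
  -- the diagonal central subgroup
  let NN : Subgroup H :=
    { carrier := {h | πP h.1.1 = 1 ∧ πQ h.1.2 = 1 ∧ ιP h.1.1 = ιQ h.1.2}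
      one_mem' := by
        refine ⟨map_one _, map_one _, ?_⟩
        have h1 : ιP 1 = 1 := by
          have := hιPmul 1 1 (map_one _) (map_one _)
          simpa using this
        have h2 : ιQ 1 = 1 := by
          have := hιQmul 1 1 (map_one _) (map_one _)
          simpa using this
        change ιP 1 = ιQ 1
        rw [h1, h2]
      mul_mem' := by
        rintro a b ⟨h1, h2, h3⟩ ⟨h4, h5, h6⟩
        refine ⟨?_, ?_, ?_⟩
        · change πP (a.1.1 * b.1.1) = 1
          rw [map_mul, h1, h4, one_mul]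
        · change πQ (a.1.2 * b.1.2) = 1
          rw [map_mul, h2, h5, one_mul]
        · change ιP (a.1.1 * b.1.1) = ιQ (a.1.2 * b.1.2)
          rw [hιPmul _ _ h1 h4, hιQmul _ _ h2 h5, h3, h6]
      inv_mem' := by
        rintro a ⟨h1, h2, h3⟩
        have hP1 : ιP 1 = 1 := by
          have := hιPmul 1 1 (map_one _) (map_one _)
          simpa using this
        have hQ1 : ιQ 1 = 1 := by
          have := hιQmul 1 1 (map_one _) (map_one _)
          simpa using this
        have ha : πP a.1.1⁻¹ = 1 := by rw [map_inv, h1, inv_one]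
        have hb : πQ a.1.2⁻¹ = 1 := by rw [map_inv, h2, inv_one]
        refine ⟨ha, hb, ?_⟩
        change ιP a.1.1⁻¹ = ιQ a.1.2⁻¹
        have h4 := hιPmul _ _ ha h1
        rw [inv_mul_cancel, hP1] at h4
        have h5 := hιQmul _ _ hb h2
        rw [inv_mul_cancel, hQ1, ← h3] at h5
        have h6 : ιP a.1.1⁻¹ * ιP a.1.1 = ιQ a.1.2⁻¹ * ιP a.1.1 := by rw [← h4, ← h5]
        exact mul_right_cancel h6 }
  have hNNmem : ∀ h : H, h ∈ NN ↔ πP h.1.1 = 1 ∧ πQ h.1.2 = 1 ∧ ιP h.1.1 = ιQ h.1.2 := fun h => Iff.rfl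
  haveI hNNn : NN.Normal := by
    refine ⟨fun n hn g => ?_⟩
    have h1 : g * n * g⁻¹ = n := by
      apply Subtype.ext
      apply Prod.ext
      · change g.1.1 * n.1.1 * g.1.1⁻¹ = n.1.1
        rw [← hcP _ hn.1 g.1.1]
        group
      · change g.1.2 * n.1.2 * g.1.2⁻¹ = n.1.2
        rw [← hcQ _ hn.2.1 g.1.2]
        group
    rw [h1]
    exact hn
  have hP1 : ιP 1 = 1 := by
    have := hιPmul 1 1 (map_one _) (map_one _)
    simpa using this
  have hQ1 : ιQ 1 = 1 := by
    have := hιQmul 1 1 (map_one _) (map_one _)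
    simpa using this
  -- choose inverse maps on the kernels
  choose sQ hsQ1 hsQ2 using hιQsurj
  choose sP hsP1 hsP2 using hιPsurj
  have hsQmul : ∀ a b, sQ (a * b) = sQ a * sQ b := by
    intro a b
    have h1 : πQ (sQ a * sQ b) = 1 := by rw [map_mul, hsQ1, hsQ1, one_mul]
    have h2 : ιQ (sQ a * sQ b) = a * b := by rw [hιQmul _ _ (hsQ1 a) (hsQ1 b), hsQ2, hsQ2]
    -- injectivity of `ιQ` on the kernel
    have h3 : πQ ((sQ (a * b))⁻¹ * (sQ a * sQ b)) = 1 := by
      rw [map_mul, map_inv, hsQ1, h1, inv_one, one_mul]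
    have h4 : ιQ ((sQ (a * b))⁻¹ * (sQ a * sQ b)) = 1 := by
      have h5 : πQ (sQ (a * b))⁻¹ = 1 := by rw [map_inv, hsQ1, inv_one]
      rw [hιQmul _ _ h5 h1, h2]
      have h6 := hιQmul _ _ h5 (hsQ1 (a * b))
      rw [inv_mul_cancel, hQ1, hsQ2] at h6
      exact h6.symm
    have h5 := hιQinj _ h3 h4
    rw [inv_mul_eq_one] at h5
    exact h5
  let j₀ : B →* H := MonoidHom.mk' (fun b => (⟨(1, sQ b), by
    rw [hH, map_one, hsQ1]⟩ : H)) (fun a b => by
    apply Subtype.ext
    apply Prod.ext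
    · change (1 : P) = 1 * 1
      simp
    · exact hsQmul a b)
  let j : B →* (H ⧸ NN) := (QuotientGroup.mk' NN).comp j₀
  have hj : Function.Injective j := by
    rw [injective_iff_map_eq_one]
    intro b hb
    have h1 : j₀ b ∈ NN := (QuotientGroup.eq_one_iff _).mp hb
    obtain ⟨-, -, h2⟩ := h1
    have h3 : ιP (1 : P) = ιQ (sQ b) := h2
    rw [hP1, hsQ2] at h3
    exact h3.symm
  have hsqA : ∀ a : H ⧸ NN, a * a = 1 := by
    intro a
    obtain ⟨h, rfl⟩ := QuotientGroup.mk_surjective a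
    rw [← QuotientGroup.mk_mul, QuotientGroup.eq_one_iff, hNNmem]
    have hh : πP h.1.1 = πQ h.1.2 := h.2
    refine ⟨?_, ?_, ?_⟩
    · change πP (h.1.1 * h.1.1) = 1
      rw [map_mul, hV]
    · change πQ (h.1.2 * h.1.2) = 1
      rw [map_mul, hV]
    · exact hsq _ _ hh
  obtain ⟨r, hr⟩ := exists_retract hsqA hB j hj
  let ρ : H →* B := r.comp (QuotientGroup.mk' NN)
  have hρ₀ : ∀ b, ρ (j₀ b) = b := hr
  let D : Subgroup H := ρ.ker
  have hρNN : ∀ n ∈ NN, ρ n = 1 := by
    intro n hn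
    have : (QuotientGroup.mk' NN) n = 1 := (QuotientGroup.eq_one_iff _).mpr hn
    change r ((QuotientGroup.mk' NN) n) = 1
    rw [this, map_one]
  -- the value on `(z, 1)`
  have hρP : ∀ (z : P) (hz : πP z = 1), ρ ⟨(z, 1), by rw [hH, hz, map_one]⟩ = ιP z := by
    intro z hz
    have h1 : (⟨(z, 1), by rw [hH, hz, map_one]⟩ : H) = ⟨(z, sQ (ιP z)), by rw [hH, hz, hsQ1]⟩ * (j₀ (ιP z))⁻¹ := by
      apply Subtype.ext
      apply Prod.ext
      · change z = z * (1 : P)⁻¹
        simp
      · change (1 : Q) = sQ (ιP z) * (sQ (ιP z))⁻¹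
        simp
    rw [h1, map_mul, map_inv, hρ₀, hρNN]
    · rw [one_mul]
      have := hB (ιP z)
      exact inv_eq_of_mul_eq_one_left this
    · rw [hNNmem]
      exact ⟨hz, hsQ1 _, (hsQ2 _).symm⟩
  -- projections of `D`
  let fP : D →* P := (MonoidHom.fst P Q).comp (H.subtype.comp D.subtype)
  let fQ : D →* Q := (MonoidHom.snd P Q).comp (H.subtype.comp D.subtype)
  have hfP : Function.Bijective fP := by
    constructor
    · rw [injective_iff_map_eq_one]
      rintro ⟨⟨⟨x, y⟩, hxy⟩, hD⟩ hf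
      have hx : x = 1 := hf
      subst hx
      have hy : πQ y = 1 := by
        have : πP (1 : P) = πQ y := hxy
        rw [← this, map_one]
      have h1 : (⟨(1, y), hxy⟩ : H) = j₀ (ιQ y) := by
        apply Subtype.ext
        apply Prod.ext
        · rfl
        · change y = sQ (ιQ y)
          have h3 : πQ (y⁻¹ * sQ (ιQ y)) = 1 := by rw [map_mul, map_inv, hy, hsQ1, inv_one, one_mul]
          have h4 : πQ y⁻¹ = 1 := by rw [map_inv, hy, inv_one]
          have h5 : ιQ (y⁻¹ * sQ (ιQ y)) = 1 := by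
            rw [hιQmul _ _ h4 (hsQ1 _), hsQ2]
            have h6 := hιQmul _ _ h4 hy
            rw [inv_mul_cancel, hQ1] at h6
            exact h6.symm
          have h7 := hιQinj _ h3 h5
          rw [inv_mul_eq_one] at h7
          exact h7
      have h2 : ρ ⟨(1, y), hxy⟩ = 1 := hD
      rw [h1, hρ₀] at h2
      have h3 := hιQinj y hy h2
      subst h3
      rfl
    · intro x
      obtain ⟨y₀, hy₀⟩ := hπQ (πP x)
      set c := ρ ⟨(x, y₀), by rw [hH, hy₀]⟩ with hc
      have hmem : (x, y₀ * sQ c) ∈ H := by rw [hH, map_mul, hsQ1, mul_one, hy₀]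
      have h1 : (⟨(x, y₀ * sQ c), hmem⟩ : H) = ⟨(x, y₀), by rw [hH, hy₀]⟩ * j₀ c := by
        apply Subtype.ext
        apply Prod.ext
        · change x = x * 1
          simp
        · rfl
      have h2 : ρ ⟨(x, y₀ * sQ c), hmem⟩ = 1 := by
        rw [h1, map_mul, hρ₀, ← hc]
        exact hB c
      exact ⟨⟨⟨(x, y₀ * sQ c), hmem⟩, h2⟩, rfl⟩
  have hfQ : Function.Bijective fQ := by
    constructor
    · rw [injective_iff_map_eq_one]
      rintro ⟨⟨⟨x, y⟩, hxy⟩, hD⟩ hf
      have hy : y = 1 := hf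
      subst hy
      have hx : πP x = 1 := by
        have : πP x = πQ (1 : Q) := hxy
        rw [this, map_one]
      have h2 : ρ ⟨(x, 1), hxy⟩ = 1 := hD
      rw [hρP x hx] at h2
      have h3 := hιPinj x hx h2
      subst h3
      rfl
    · intro y
      obtain ⟨x₀, hx₀⟩ := hπP (πQ y)
      set c := ρ ⟨(x₀, y), by rw [hH, hx₀]⟩ with hc
      have hmem : (x₀ * sP c, y) ∈ H := by rw [hH, map_mul, hsP1, mul_one, hx₀]
      have hmem2 : (sP c, (1 : Q)) ∈ H := by rw [hH, hsP1, map_one]
      have h1 : (⟨(x₀ * sP c, y), hmem⟩ : H) = ⟨(x₀, y), by rw [hH, hx₀]⟩ * ⟨(sP c, 1), hmem2⟩ := by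
        apply Subtype.ext
        apply Prod.ext
        · rfl
        · change y = y * 1
          simp
      have h2 : ρ ⟨(x₀ * sP c, y), hmem⟩ = 1 := by
        rw [h1, map_mul, hρP _ (hsP1 c), hsP2, ← hc]
        exact hB c
      exact ⟨⟨⟨(x₀ * sP c, y), hmem⟩, h2⟩, rfl⟩
  exact ⟨(MulEquiv.ofBijective fP hfP).symm.trans (MulEquiv.ofBijective fQ hfQ)⟩

end Cfsg.Agent.H05.SuzA
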