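import Cfsg.Agent.Lib.H05.Hig4c
import Cfsg.Agent.Lib.H05.SuzA1
import Cfsg.Agent.Lib.H03.F4

/-! Coordinates over the field with four elements. -/

set_option autoImplicit false

namespace Cfsg.Agent.H05.Hig

open Subgroup
open Cfsg.Agent.H03 (GF4)

/-- Scalar action of the field with four elements through `α`. -/
def rho {G : Type*} [Group G] (α : G ≃* G) : GF4 → G → G
  | GF4.o, _ => 1
  | GF4.i, u => u
  | GF4.w, u => α u
  | GF4.v, u => α (α u)

theorem klein_hom {Q : Type*} [Group Q] (f : GF4 → Q) (h0 : f GF4.o = 1) (pp : f GF4.i * f GF4.i = 1)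
    (qq : f GF4.w * f GF4.w = 1) (rr : f GF4.v * f GF4.v = 1) (pq : f GF4.i * f GF4.w = f GF4.w * f GF4.i)
    (pr : f GF4.i * f GF4.v = f GF4.v * f GF4.i) (qr : f GF4.w * f GF4.v = f GF4.v * f GF4.w)
    (pqr : f GF4.i * f GF4.w * f GF4.v = 1) : ∀ a b, f (a + b) = f a * f b := by
  have e1 : f GF4.i * f GF4.w = f GF4.v := by
    calc f GF4.i * f GF4.w = (f GF4.i * f GF4.w * f GF4.v) * f GF4.v := by
          rw [mul_assoc (f GF4.i * f GF4.w), rr, mul_one]
      _ = f GF4.v := by rw [pqr, one_mul]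
  have e3 : f GF4.i * f GF4.v = f GF4.w := by
    rw [← e1, ← mul_assoc, pp, one_mul]
  have e2 : f GF4.w * f GF4.v = f GF4.i := by
    rw [← e1, ← mul_assoc, ← pq, mul_assoc, qq, mul_one]
  intro a b
  cases a <;> cases b
  · show f GF4.o = f GF4.o * f GF4.o
    rw [h0, mul_one]
  · show f GF4.i = f GF4.o * f GF4.i
    rw [h0, one_mul]
  · show f GF4.w = f GF4.o * f GF4.w
    rw [h0, one_mul]
  · show f GF4.v = f GF4.o * f GF4.v
    rw [h0, one_mul]
  · show f GF4.i = f GF4.i * f GF4.o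
    rw [h0, mul_one]
  · show f GF4.o = f GF4.i * f GF4.i
    rw [h0, pp]
  · show f GF4.v = f GF4.i * f GF4.w
    exact e1.symm
  · show f GF4.w = f GF4.i * f GF4.v
    exact e3.symm
  · show f GF4.w = f GF4.w * f GF4.o
    rw [h0, mul_one]
  · show f GF4.v = f GF4.w * f GF4.i
    rw [← pq]
    exact e1.symm
  · show f GF4.o = f GF4.w * f GF4.w
    rw [h0, qq]
  · show f GF4.i = f GF4.w * f GF4.v
    exact e2.symm
  · show f GF4.v = f GF4.v * f GF4.o
    rw [h0, mul_one]
  · show f GF4.w = f GF4.v * f GF4.i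
    rw [← pr]
    exact e3.symm
  · show f GF4.i = f GF4.v * f GF4.w
    rw [← qr]
    exact e2.symm
  · show f GF4.o = f GF4.v * f GF4.v
    rw [h0, rr]

/-- Coordinates on `E`. -/
structure Coord {G : Type*} [Group G] (E : Subgroup G) (α : G ≃* G) (e₀ : G) (ι : G → GF4) : Prop where
  add : ∀ e ∈ E, ∀ e' ∈ E, ι (e * e') = ι e + ι e'
  alpha : ∀ e ∈ E, ι (α e) = GF4.w * ι e
  zero : ∀ e ∈ E, ι e = 0 → e = 1
  surj : ∀ a, ∃ e ∈ E, ι e = a
  base : ι e₀ = 1
  one : ι 1 = 0

theorem add_eq_zero_gf4 : ∀ a b : GF4, a + b = 0 → a = b := by decide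

namespace Setup

variable {G : Type*} [Group G] [Finite G] {E : Subgroup G} {α : G ≃* G} (h : Setup E α)
  (h3 : ∀ x, α (α (α x)) = x)

include h h3

theorem exists_coord {e₀ : G} (he : e₀ ∈ E) (he1 : e₀ ≠ 1) : ∃ ι : G → GF4, Coord E α e₀ ι := by
  have hf : ∀ a, rho α a e₀ ∈ E := by
    intro a
    cases a
    · exact E.one_mem
    · exact he
    · exact h.map_E he
    · exact h.map_E (h.map_E he)
  have hadd : ∀ a b, rho α (a + b) e₀ = rho α a e₀ * rho α b e₀ := by
    apply klein_hom (fun a => rho α a e₀) rfl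
    · exact (h.inv_iff _).2 (hf GF4.i)
    · exact (h.inv_iff _).2 (hf GF4.w)
    · exact (h.inv_iff _).2 (hf GF4.v)
    · exact h.central _ (hf GF4.i) _
    · exact h.central _ (hf GF4.i) _
    · exact h.central _ (hf GF4.w) _
    · exact f1 h3 h.fpf e₀
  have hne : ∀ a, rho α a e₀ = 1 → a = 0 := by
    intro a ha
    cases a
    · rfl
    · exact absurd ha he1
    · exact absurd ha (h.map_ne_one he1)
    · exact absurd ha (h.map_ne_one (h.map_ne_one he1))
  have hinj : Function.Injective (fun a => rho α a e₀) := by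
    intro a b hab
    have hab' : rho α a e₀ = rho α b e₀ := hab
    have h1 : rho α (a + b) e₀ = 1 := by
      rw [hadd, ← hab']
      exact (h.inv_iff _).2 (hf a)
    exact add_eq_zero_gf4 _ _ (hne _ h1)
  have hleft : Function.LeftInverse (Function.invFun (fun a => rho α a e₀)) (fun a => rho α a e₀) :=
    Function.leftInverse_invFun hinj
  have hex : ∀ e ∈ E, ∃ a, e = rho α a e₀ := by
    intro e hh
    rcases h.three he he1 e hh with h1 | h1 | h1 | h1
    · exact ⟨GF4.o, h1⟩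
    · exact ⟨GF4.i, h1⟩
    · exact ⟨GF4.w, h1⟩
    · exact ⟨GF4.v, h1⟩
  have hι : ∀ a, Function.invFun (fun a => rho α a e₀) (rho α a e₀) = a := fun a => hleft a
  have hαρ : ∀ a, α (rho α a e₀) = rho α (GF4.w * a) e₀ := by
    intro a
    cases a
    · exact map_one α
    · rfl
    · rfl
    · exact h3 e₀
  refine ⟨Function.invFun (fun a => rho α a e₀), ?_, ?_, ?_, ?_, ?_, ?_⟩
  · intro e hh e' hh'
    obtain ⟨a, rfl⟩ := hex e hh
    obtain ⟨b, rfl⟩ := hex e' hh'
    rw [← hadd, hι, hι, hι]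
  · intro e hh
    obtain ⟨a, rfl⟩ := hex e hh
    rw [hαρ, hι, hι]
  · intro e hh hz
    obtain ⟨a, rfl⟩ := hex e hh
    rw [hι] at hz
    rw [hz]
    rfl
  · intro a
    exact ⟨_, hf a, hι a⟩
  · exact hι GF4.i
  · exact hι GF4.o

end Setup

end Cfsg.Agent.H05.Hig
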