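import Cfsg.Agent.Lib.H05.Hig5a

/-! The quadratic and bilinear forms. -/

set_option autoImplicit false
set_option linter.unusedSectionVars false

namespace Cfsg.Agent.H05.Hig

open Subgroup
open Cfsg.Agent.H03 (GF4)

/-- The commutator form. -/
def bb {G : Type*} [Group G] (ι : G → GF4) (x y : G) : GF4 := ι (x * y * x⁻¹ * y⁻¹)

theorem gf4_r1 : ∀ p r : GF4, p + r + GF4.w * p = 0 → r = GF4.v * p := by decide

namespace Setup

variable {G : Type*} [Group G] [Finite G] {E : Subgroup G} {α : G ≃* G} (h : Setup E α)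
  (h3 : ∀ x, α (α (α x)) = x) (hsq : ∀ x, x * x ∈ E) {e₀ : G} {ι : G → GF4} (hι : Coord E α e₀ ι)

include h hsq

omit [Finite G] in
theorem hE2 : ∀ e ∈ E, e * e = 1 := fun e he => (h.inv_iff e).2 he

omit [Finite G] in
theorem ccm (u v : G) : u * v * u⁻¹ * v⁻¹ ∈ E := cc_mem E h.central (h.hE2 hsq) hsq u v

include hι

omit [Finite G] in
theorem Q_mul' (u v : G) : ι ((u * v) * (u * v)) = ι (u * u) + ι (v * v) + bb ι u v := by
  have hE2 := h.hE2 hsq
  have h1 : (u * v) * (u * v) = (u * v * u⁻¹ * v⁻¹) * (v * v) * (u * u) := by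
    rw [cc_eq E h.central hE2 hsq]
    have hu := hE2 _ (hsq u)
    have hv := hE2 _ (hsq v)
    calc (u * v) * (u * v) = (u * v) * (u * v) * ((u * u) * (u * u)) := by rw [hu, mul_one]
      _ = (u * v) * (u * v) * (u * u) * ((v * v) * (v * v)) * (u * u) := by
          rw [hv, mul_one]; group
      _ = _ := by group
  have hc := h.ccm hsq u v
  rw [h1, hι.add _ (E.mul_mem hc (hsq v)) _ (hsq u), hι.add _ hc _ (hsq v), bb]
  abel

omit [Finite G] in
theorem bb_left (u u' v : G) : bb ι (u * u') v = bb ι u v + bb ι u' v := by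
  have hE2 := h.hE2 hsq
  unfold bb
  rw [cc_mul_left E h.central hE2 hsq, hι.add _ (h.ccm hsq u' v) _ (h.ccm hsq u v)]
  abel

omit [Finite G] in
theorem bb_symm (u v : G) : bb ι u v = bb ι v u := by
  unfold bb
  rw [cc_symm E h.central (h.hE2 hsq) hsq u v]

omit [Finite G] in
theorem bb_right (u v v' : G) : bb ι u (v * v') = bb ι u v + bb ι u v' := by
  rw [h.bb_symm hsq hι, h.bb_left hsq hι, h.bb_symm hsq hι v, h.bb_symm hsq hι v']

omit [Finite G] in
theorem bb_one (x : G) : bb ι x 1 = 0 := by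
  unfold bb
  have h1 : x * 1 * x⁻¹ * 1⁻¹ = 1 := by group
  rw [h1, hι.one]

omit [Finite G] in
theorem bb_aa (x y : G) : bb ι (α x) (α y) = GF4.w * bb ι x y := by
  unfold bb
  rw [← hι.alpha _ (h.ccm hsq x y)]
  simp only [map_mul, map_inv]

include h3

theorem bb_self (z : G) : bb ι z (α z) = 0 := by
  unfold bb
  have h1 := f2 h3 h.fpf z
  rw [h1]
  have h2 : α z * z * z⁻¹ * (α z)⁻¹ = 1 := by group
  rw [h2, hι.one]

theorem bb_polar (x y : G) : bb ι x (α y) = bb ι y (α x) := by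
  have h1 := h.bb_self h3 hsq hι (x * y)
  rw [map_mul, h.bb_left hsq hι, h.bb_right hsq hι, h.bb_right hsq hι, h.bb_self h3 hsq hι,
    h.bb_self h3 hsq hι, zero_add, add_zero] at h1
  exact add_eq_zero_gf4 _ _ h1

theorem bb_r2 (x y : G) : bb ι x (α (α y)) = GF4.w * bb ι x y := by
  rw [h.bb_polar h3 hsq hι x (α y), h.bb_symm hsq hι, h.bb_aa hsq hι]

theorem bb_r1 (x y : G) : bb ι x (α y) = GF4.v * bb ι x y := by
  have h1 := f1 h3 h.fpf y
  have h2 := h.bb_one hsq hι x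
  rw [← h1, h.bb_right hsq hι, h.bb_right hsq hι, h.bb_r2 h3 hsq hι] at h2
  exact gf4_r1 _ _ h2

theorem bb_rho_right (c : GF4) (x y : G) : bb ι x (rho α c y) = (c * c) * bb ι x y := by
  cases c
  · show bb ι x 1 = 0 * bb ι x y
    rw [h.bb_one hsq hι, zero_mul]
  · show bb ι x y = 1 * bb ι x y
    rw [one_mul]
  · show bb ι x (α y) = GF4.v * bb ι x y
    exact h.bb_r1 h3 hsq hι x y
  · show bb ι x (α (α y)) = GF4.w * bb ι x y
    exact h.bb_r2 h3 hsq hι x y

theorem bb_rho_left (a : GF4) (x y : G) : bb ι (rho α a x) y = (a * a) * bb ι x y := by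
  rw [h.bb_symm hsq hι, h.bb_rho_right h3 hsq hι, h.bb_symm hsq hι]

omit h3 in
theorem q_rho (a : GF4) (u : G) : ι (rho α a u * rho α a u) = a * ι (u * u) := by
  cases a
  · show ι (1 * 1) = 0 * ι (u * u)
    rw [mul_one, hι.one, zero_mul]
  · show ι (u * u) = 1 * ι (u * u)
    rw [one_mul]
  · show ι (α u * α u) = GF4.w * ι (u * u)
    rw [← map_mul, hι.alpha _ (hsq u)]
  · show ι (α (α u) * α (α u)) = GF4.v * ι (u * u)
    rw [← map_mul, ← map_mul, hι.alpha _ (h.map_E (hsq u)), hι.alpha _ (hsq u), ← mul_assoc]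
    rfl

theorem formula (a c : GF4) (u u' : G) :
    ι ((rho α a u * rho α c u') * (rho α a u * rho α c u')) =
      a * ι (u * u) + c * ι (u' * u') + (a * a) * (c * c) * bb ι u u' := by
  rw [h.Q_mul' hsq hι, h.q_rho hsq hι, h.q_rho hsq hι, h.bb_rho_left h3 hsq hι, h.bb_rho_right h3 hsq hι,
    mul_assoc (a * a)]

end Setup

end Cfsg.Agent.H05.Hig
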