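import Cfsg.Agent.Lib.H05.Hig5b

/-! The normal form of the squaring map. -/

set_option autoImplicit false
set_option linter.unusedSectionVars false

namespace Cfsg.Agent.H05.Hig

open Subgroup
open Cfsg.Agent.H03 (GF4)

/-- The target of the projection. -/
abbrev VV : Type := Multiplicative (GF4 × GF4)

/-- The shape of the squaring map. -/
def Sk (κ a c : GF4) : GF4 := a + c + (a * a) * (c * c) * κ

/-- The normal form of a group in our class. -/
structure NF {G : Type*} [Group G] (E : Subgroup G) (π : G →* VV) (ι : G → GF4) : Prop where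
  surj : Function.Surjective π
  ker : ∀ x, π x = 1 ↔ x ∈ E
  add : ∀ e ∈ E, ∀ e' ∈ E, ι (e * e') = ι e + ι e'
  zero : ∀ e ∈ E, ι e = 0 → e = 1
  onto : ∀ a, ∃ e ∈ E, ι e = a
  sq : ∀ x, ι (x * x) = Sk GF4.w (Multiplicative.toAdd (π x)).1 (Multiplicative.toAdd (π x)).2

theorem Sk_zero_one : Sk 0 1 1 = 0 := by decide
theorem Sk_one_w : Sk 1 1 GF4.w = 0 := by decide
theorem kappa_cases : ∀ κ : GF4, κ ≠ 0 → κ ≠ 1 → κ = GF4.w ∨ κ = GF4.v := by decide
theorem aniso_w : ∀ a c : GF4, Sk GF4.w a c = 0 → a = 0 ∧ c = 0 := by decide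
theorem aniso_v : ∀ a c : GF4, Sk GF4.v a c = 0 → a = 0 ∧ c = 0 := by decide
theorem card_gf4 : Nat.card GF4 = 4 := by
  rw [Nat.card_eq_fintype_card]
  rfl

namespace Setup

variable {G : Type*} [Group G] [Finite G] {E : Subgroup G} {α : G ≃* G} (h : Setup E α)
  (h3 : ∀ x, α (α (α x)) = x) (hsq : ∀ x, x * x ∈ E) (hcard : Nat.card G = 64)

include h h3 hsq hcard

theorem exists_pair : ∃ (v₁ v₂ e₀ : G) (ι : G → GF4), e₀ ∈ E ∧ e₀ ≠ 1 ∧ Coord E α e₀ ι ∧ v₁ * v₁ = e₀ ∧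
    v₂ * v₂ = e₀ ∧ ∀ e ∈ E, v₂ ≠ v₁ * e := by
  obtain ⟨v₁, hv₁⟩ : ∃ v₁ : G, v₁ ∉ E := by
    by_contra hcon
    push Not at hcon
    have h1 : E = ⊤ := (Subgroup.eq_top_iff' E).2 hcon
    have h2 := h.card4
    rw [h1, Subgroup.card_top, hcard] at h2
    omega
  obtain ⟨e₀, he₀⟩ : ∃ e₀, e₀ = v₁ * v₁ := ⟨_, rfl⟩
  have he₀E : e₀ ∈ E := he₀ ▸ hsq v₁
  have he₀1 : e₀ ≠ 1 := by
    rw [he₀]
    exact fun h1 => hv₁ ((h.inv_iff _).1 h1)
  obtain ⟨ι, hι⟩ := h.exists_coord h3 he₀E he₀1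
  obtain ⟨y₀, hy₀⟩ : ∃ y₀ : G, ∀ a, ∀ e ∈ E, y₀ ≠ rho α a v₁ * e := by
    by_contra hcon
    push Not at hcon
    have hs : Function.Surjective (fun p : GF4 × E => rho α p.1 v₁ * (p.2 : G)) := by
      intro y
      obtain ⟨a, e, he, rfl⟩ := hcon y
      exact ⟨(a, ⟨e, he⟩), rfl⟩
    have h1 := Nat.card_le_card_of_surjective _ hs
    rw [Nat.card_prod, card_gf4, h.card4, hcard] at h1
    omega
  have hy₀E : y₀ ∉ E := by
    intro h1
    apply hy₀ GF4.o y₀ h1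
    show y₀ = 1 * y₀
    rw [one_mul]
  have hy₀1 : y₀ * y₀ ≠ 1 := fun h1 => hy₀E ((h.inv_iff _).1 h1)
  have hmul : ∀ e ∈ E, ∀ e' ∈ E, e * e' ∈ E := fun e he e' he' => E.mul_mem he he'
  rcases h.three he₀E he₀1 _ (hsq y₀) with h1 | h1 | h1 | h1
  · exact absurd h1 hy₀1
  · refine ⟨v₁, y₀, e₀, ι, he₀E, he₀1, hι, he₀.symm, h1, ?_⟩
    intro e he h2
    exact hy₀ GF4.i e he h2
  · refine ⟨v₁, α (α y₀), e₀, ι, he₀E, he₀1, hι, he₀.symm, ?_, ?_⟩
    · rw [← map_mul, ← map_mul, h1, h3]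
    · intro e he h2
      have h4 := congrArg α h2
      rw [h3, map_mul] at h4
      exact hy₀ GF4.w _ (h.map_E he) h4
  · refine ⟨v₁, α y₀, e₀, ι, he₀E, he₀1, hι, he₀.symm, ?_, ?_⟩
    · rw [← map_mul, h1, h3]
    · intro e he h2
      have h4 := congrArg (fun z => α (α z)) h2
      simp only [map_mul, h3] at h4
      exact hy₀ GF4.v _ (h.map_E (h.map_E he)) h4

/-- A version of the normal form with an unspecified constant. -/
theorem exists_kappa : ∃ (κ : GF4) (π : G →* VV) (ι : G → GF4), (κ = GF4.w ∨ κ = GF4.v) ∧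
    Function.Surjective π ∧ (∀ x, π x = 1 ↔ x ∈ E) ∧
    (∀ e ∈ E, ∀ e' ∈ E, ι (e * e') = ι e + ι e') ∧ (∀ e ∈ E, ι e = 0 → e = 1) ∧
    (∀ a, ∃ e ∈ E, ι e = a) ∧
    ∀ x, ι (x * x) = Sk κ (Multiplicative.toAdd (π x)).1 (Multiplicative.toAdd (π x)).2 := by
  classical
  obtain ⟨v₁, v₂, e₀, ι, he₀, he₀1, hι, hv₁, hv₂, hne⟩ := h.exists_pair h3 hsq hcard
  obtain ⟨κ, hκd⟩ : ∃ κ, κ = bb ι v₁ v₂ := ⟨_, rfl⟩
  have hS : ∀ a c, ι ((rho α a v₁ * rho α c v₂) * (rho α a v₁ * rho α c v₂)) = Sk κ a c := by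
    intro a c
    rw [h.formula h3 hsq hι, hv₁, hv₂, hι.base, mul_one, mul_one, ← hκd]
    rfl
  have hE0 : ∀ x, ι (x * x) = 0 → x ∈ E := by
    intro x hx
    exact (h.inv_iff x).1 (hι.zero _ (hsq x) hx)
  have he₀2 : e₀ * e₀ = 1 := (h.inv_iff _).2 he₀
  have hκ0 : κ ≠ 0 := by
    intro h0
    have h1 := hS GF4.i GF4.i
    rw [h0] at h1
    have h2 : ι ((v₁ * v₂) * (v₁ * v₂)) = 0 := h1.trans Sk_zero_one
    have h4 := hE0 _ h2
    apply hne (e₀ * (v₁ * v₂)) (E.mul_mem he₀ h4)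
    calc v₂ = (v₁ * v₁)⁻¹ * v₁ * (v₁ * v₂) := by group
      _ = e₀⁻¹ * v₁ * (v₁ * v₂) := by rw [hv₁]
      _ = e₀ * v₁ * (v₁ * v₂) := by rw [inv_eq_of_mul_eq_one_left he₀2]
      _ = v₁ * e₀ * (v₁ * v₂) := by rw [h.central _ he₀]
      _ = v₁ * (e₀ * (v₁ * v₂)) := by group
  have hκ1 : κ ≠ 1 := by
    intro h0
    have h1 := hS GF4.i GF4.w
    rw [h0] at h1
    have h2 : ι ((v₁ * α v₂) * (v₁ * α v₂)) = 0 := h1.trans Sk_one_w
    have h4 := hE0 _ h2
    obtain ⟨e, he⟩ : ∃ e, e = v₁ * α v₂ := ⟨_, rfl⟩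
    rw [← he] at h4
    have h5 : α v₂ = v₁⁻¹ * e := by rw [he]; group
    have h6 : α e₀ = e₀ := by
      have h7 : α v₂ * α v₂ = α e₀ := by rw [← map_mul, hv₂]
      rw [← h7, h5]
      calc v₁⁻¹ * e * (v₁⁻¹ * e) = v₁⁻¹ * (e * v₁⁻¹) * e := by group
        _ = v₁⁻¹ * (v₁⁻¹ * e) * e := by rw [h.central _ h4]
        _ = (v₁ * v₁)⁻¹ * (e * e) := by group
        _ = e₀⁻¹ := by rw [(h.inv_iff _).2 h4, hv₁, mul_one]
        _ = e₀ := inv_eq_of_mul_eq_one_left he₀2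
    exact h.ne_self he₀1 h6
  have hκc := kappa_cases κ hκ0 hκ1
  have haniso : ∀ a c : GF4, Sk κ a c = 0 → a = 0 ∧ c = 0 := by
    rcases hκc with h1 | h1
    · rw [h1]
      exact aniso_w
    · rw [h1]
      exact aniso_v
  haveI hEn : E.Normal := ⟨fun e he g => by
    rw [← h.central e he g]
    simpa using he⟩
  have hV : ∀ z : G ⧸ E, z * z = 1 := by
    intro z
    obtain ⟨u, rfl⟩ := QuotientGroup.mk_surjective z
    rw [← QuotientGroup.mk_mul, QuotientGroup.eq_one_iff]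
    exact hsq u
  have hcomm : ∀ a b : G ⧸ E, a * b = b * a := by
    intro a b
    calc a * b = a * b * (b * a) * (b * a) := by
          rw [mul_assoc (a * b), hV (b * a), mul_one]
      _ = a * (b * b) * a * (b * a) := by simp only [mul_assoc]
      _ = b * a := by rw [hV b, mul_one, hV a, one_mul]
  have hadd : ∀ (u : G) (a b : GF4), ((rho α (a + b) u : G) : G ⧸ E) = (rho α a u : G) * (rho α b u : G) := by
    intro u
    apply klein_hom (fun a => ((rho α a u : G) : G ⧸ E)) rfl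
    · exact hV _
    · exact hV _
    · exact hV _
    · exact hcomm _ _
    · exact hcomm _ _
    · exact hcomm _ _
    · show ((u : G) : G ⧸ E) * ((α u : G) : G ⧸ E) * ((α (α u) : G) : G ⧸ E) = 1
      rw [← QuotientGroup.mk_mul, ← QuotientGroup.mk_mul, f1 h3 h.fpf u]
      rfl
  let f : VV →* (G ⧸ E) := MonoidHom.mk'
    (fun p => ((rho α (Multiplicative.toAdd p).1 v₁ * rho α (Multiplicative.toAdd p).2 v₂ : G) : G ⧸ E))
    (by
      intro p q
      simp only [toAdd_mul, Prod.fst_add, Prod.snd_add, QuotientGroup.mk_mul, hadd]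
      rw [mul_assoc, mul_assoc]
      congr 1
      rw [← mul_assoc, ← mul_assoc, hcomm ((rho α (Multiplicative.toAdd p).2 v₂ : G) : G ⧸ E)])
  have hfapply : ∀ p, f p = ((rho α (Multiplicative.toAdd p).1 v₁ * rho α (Multiplicative.toAdd p).2 v₂ : G) : G ⧸ E) :=
    fun p => rfl
  have hfinj : Function.Injective f := by
    rw [injective_iff_map_eq_one]
    intro p hp
    rw [hfapply, QuotientGroup.eq_one_iff] at hp
    have h1 := hS (Multiplicative.toAdd p).1 (Multiplicative.toAdd p).2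
    rw [(h.inv_iff _).2 hp, hι.one] at h1
    obtain ⟨h2, h4⟩ := haniso _ _ h1.symm
    have h5 : Multiplicative.toAdd p = 0 := Prod.ext h2 h4
    exact h5
  have hfbij : Function.Bijective f := by
    refine (Nat.bijective_iff_injective_and_card f).2 ⟨hfinj, ?_⟩
    have h1 : Nat.card VV = 16 := by
      have h2 : Nat.card VV = Nat.card (GF4 × GF4) := Nat.card_congr Multiplicative.toAdd
      rw [h2, Nat.card_prod, card_gf4]
    have h2 := Subgroup.card_eq_card_quotient_mul_card_subgroup E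
    rw [h.card4, hcard] at h2
    rw [h1]
    omega
  let e : VV ≃* (G ⧸ E) := MulEquiv.ofBijective f hfbij
  have hefe : ∀ p, e p = f p := fun p => rfl
  let π : G →* VV := e.symm.toMonoidHom.comp (QuotientGroup.mk' E)
  have hπ : ∀ x, f (π x) = (x : G ⧸ E) := by
    intro x
    rw [← hefe]
    exact e.apply_symm_apply _
  refine ⟨κ, π, ι, hκc, ?_, ?_, hι.add, hι.zero, hι.surj, ?_⟩
  · intro p
    obtain ⟨x, hx⟩ := QuotientGroup.mk_surjective (e p)
    refine ⟨x, ?_⟩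
    show e.symm (x : G ⧸ E) = p
    rw [hx, e.symm_apply_apply]
  · intro x
    constructor
    · intro h1
      have h2 := hπ x
      rw [h1, map_one] at h2
      exact (QuotientGroup.eq_one_iff x).1 h2.symm
    · intro h1
      have h2 := hπ x
      rw [(QuotientGroup.eq_one_iff x).2 h1] at h2
      exact hfinj (h2.trans (map_one f).symm)
  · intro x
    have h1 := hπ x
    rw [hfapply] at h1
    obtain ⟨g, hg⟩ : ∃ g, g = rho α (Multiplicative.toAdd (π x)).1 v₁ * rho α (Multiplicative.toAdd (π x)).2 v₂ :=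
      ⟨_, rfl⟩
    have h2 := hS (Multiplicative.toAdd (π x)).1 (Multiplicative.toAdd (π x)).2
    rw [← hg] at h1 h2
    rw [← h2]
    have h4 : g⁻¹ * x ∈ E := QuotientGroup.eq.1 h1
    obtain ⟨d, hd⟩ : ∃ d, d = g⁻¹ * x := ⟨_, rfl⟩
    rw [← hd] at h4
    have h5 : x = g * d := by rw [hd]; group
    have h6 : x * x = g * g := by
      rw [h5]
      calc g * d * (g * d) = g * (d * g) * d := by group
        _ = g * (g * d) * d := by rw [h.central _ h4]
        _ = g * g * (d * d) := by group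
        _ = g * g := by rw [(h.inv_iff _).2 h4, mul_one]
    rw [h6]

end Setup

end Cfsg.Agent.H05.Hig
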