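import Cfsg.Agent.Lib.H05.Hig5c

/-! Two groups in the class are isomorphic. -/

set_option autoImplicit false
set_option linter.unusedSectionVars false

namespace Cfsg.Agent.H05.Hig

open Subgroup
open Cfsg.Agent.H03 (GF4)

/-- Frobenius. -/
def sg (x : GF4) : GF4 := x * x

theorem sg_add : ∀ a b : GF4, sg (a + b) = sg a + sg b := by decide
theorem sg_zero : ∀ a : GF4, sg a = 0 → a = 0 := by decide
theorem sg_sg : ∀ a : GF4, sg (sg a) = a := by decide
theorem sg_Sk : ∀ a c : GF4, sg (Sk GF4.v a c) = Sk GF4.w (sg a) (sg c) := by decide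
theorem gf4_double : ∀ a : GF4, a + a = 0 := by decide

/-- Frobenius on the coordinates. -/
def sgV : VV →* VV := MonoidHom.mk'
  (fun p => Multiplicative.ofAdd (sg (Multiplicative.toAdd p).1, sg (Multiplicative.toAdd p).2)) (by
    intro p q
    simp only [toAdd_mul, Prod.fst_add, Prod.snd_add, sg_add]
    rfl)

theorem sgV_sgV (p : VV) : sgV (sgV p) = p := by
  show Multiplicative.ofAdd (sg (sg (Multiplicative.toAdd p).1), sg (sg (Multiplicative.toAdd p).2)) = p
  rw [sg_sg, sg_sg]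
  rfl

namespace Setup

variable {G : Type*} [Group G] [Finite G] {E : Subgroup G} {α : G ≃* G} (h : Setup E α)
  (h3 : ∀ x, α (α (α x)) = x) (hsq : ∀ x, x * x ∈ E) (hcard : Nat.card G = 64)

include h h3 hsq hcard

theorem exists_nf : ∃ (π : G →* VV) (ι : G → GF4), NF E π ι := by
  obtain ⟨κ, π, ι, hκ, hs, hk, hadd, hz, honto, hsq'⟩ := h.exists_kappa h3 hsq hcard
  rcases hκ with rfl | rfl
  · exact ⟨π, ι, hs, hk, hadd, hz, honto, hsq'⟩
  · refine ⟨sgV.comp π, fun x => sg (ι x), ?_, ?_, ?_, ?_, ?_, ?_⟩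
    · intro p
      obtain ⟨x, hx⟩ := hs (sgV p)
      refine ⟨x, ?_⟩
      show sgV (π x) = p
      rw [hx, sgV_sgV]
    · intro x
      rw [← hk x]
      constructor
      · intro h1
        have h2 : sgV (π x) = 1 := h1
        have h4 := congrArg sgV h2
        rw [sgV_sgV, map_one] at h4
        exact h4
      · intro h1
        show sgV (π x) = 1
        rw [h1, map_one]
    · intro e he e' he'
      show sg (ι (e * e')) = sg (ι e) + sg (ι e')
      rw [hadd e he e' he', sg_add]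
    · intro e he h1
      exact hz e he (sg_zero _ h1)
    · intro a
      obtain ⟨e, he, h1⟩ := honto (sg a)
      refine ⟨e, he, ?_⟩
      show sg (ι e) = a
      rw [h1, sg_sg]
    · intro x
      show sg (ι (x * x)) = _
      rw [hsq', sg_Sk]
      rfl

end Setup

theorem iso_of_nf {P Q : Type*} [Group P] [Group Q] [Finite P] [Finite Q] {EP : Subgroup P} {EQ : Subgroup Q}
    (hcP : ∀ e ∈ EP, ∀ x, e * x = x * e) (hcQ : ∀ e ∈ EQ, ∀ x, e * x = x * e)
    {πP : P →* VV} {πQ : Q →* VV} {ιP : P → GF4} {ιQ : Q → GF4} (hP : NF EP πP ιP) (hQ : NF EQ πQ ιQ) :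
    Nonempty (P ≃* Q) := by
  letI : CommGroup VV := inferInstance
  refine SuzA.iso_of_squares (V := VV) (B := Multiplicative GF4) πP πQ hP.surj hQ.surj
    (fun x => Multiplicative.ofAdd (ιP x)) (fun x => Multiplicative.ofAdd (ιQ x)) ?_ ?_ ?_ ?_ ?_ ?_ ?_ ?_ ?_ ?_ ?_
  · intro x y hx hy
    show Multiplicative.ofAdd (ιP (x * y)) = Multiplicative.ofAdd (ιP x + ιP y)
    rw [hP.add x ((hP.ker x).1 hx) y ((hP.ker y).1 hy)]
  · intro x y hx hy
    show Multiplicative.ofAdd (ιQ (x * y)) = Multiplicative.ofAdd (ιQ x + ιQ y)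
    rw [hQ.add x ((hQ.ker x).1 hx) y ((hQ.ker y).1 hy)]
  · intro x hx h1
    exact hP.zero x ((hP.ker x).1 hx) h1
  · intro x hx h1
    exact hQ.zero x ((hQ.ker x).1 hx) h1
  · intro b
    obtain ⟨e, he, h1⟩ := hP.onto (Multiplicative.toAdd b)
    exact ⟨e, (hP.ker e).2 he, by rw [h1]; rfl⟩
  · intro b
    obtain ⟨e, he, h1⟩ := hQ.onto (Multiplicative.toAdd b)
    exact ⟨e, (hQ.ker e).2 he, by rw [h1]; rfl⟩
  · intro z hz x
    exact hcP z ((hP.ker z).1 hz) x
  · intro z hz x
    exact hcQ z ((hQ.ker z).1 hz) x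
  · intro v
    show Multiplicative.ofAdd ((Multiplicative.toAdd v).1 + (Multiplicative.toAdd v).1,
      (Multiplicative.toAdd v).2 + (Multiplicative.toAdd v).2) = 1
    rw [gf4_double, gf4_double]
    rfl
  · intro b
    show Multiplicative.ofAdd (Multiplicative.toAdd b + Multiplicative.toAdd b) = 1
    rw [gf4_double]
    rfl
  · intro x y hxy
    show Multiplicative.ofAdd (ιP (x * x)) = Multiplicative.ofAdd (ιQ (y * y))
    rw [hP.sq, hQ.sq, hxy]

end Cfsg.Agent.H05.Hig
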