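import Cfsg.Agent.Lib.H05.Comp6
import Cfsg.Agent.Lib.H05.PComp
import Cfsg.Agent.Lib.H13.CharP2
import Cfsg.Agent.Lib.H13.PMin2
import Cfsg.Agent.Lib.H09.CentralSylow

/-! Elements of the preimage of the layer of `N_G(P)/O_{p'}(N_G(P))` normalize the components of `G`:
preliminaries. -/

set_option autoImplicit false

open Cfsg Subgroup
open scoped commutatorElement

universe u

namespace Cfsg.Agent.H05.LB

variable {G : Type u} [Group G] {p : ℕ}

/-- conjugate of a subgroup -/
abbrev cj (g : G) (L : Subgroup G) : Subgroup G := L.map (MulAut.conj g).toMonoidHom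

theorem cj_mul (g h : G) (L : Subgroup G) : cj (g * h) L = cj g (cj h L) :=
  (H13.map_conj_mul g h L).symm

theorem cj_one (L : Subgroup G) : cj 1 L = L := H13.map_conj_one L

theorem cj_comm_pow {b x : G} (hbx : b * x = x * b) {L : Subgroup G} (h : cj b L = cj x L) (n : ℕ) :
    cj (b ^ n) L = cj (x ^ n) L := by
  induction n with
  | zero => simp [cj_one]
  | succ n ih =>
    have h1 : b ^ n * x = x * b ^ n := (Commute.pow_left (show Commute b x from hbx) n)
    rw [pow_succ, pow_succ, cj_mul, h, ← cj_mul, h1, cj_mul, ih, ← cj_mul,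
      (Commute.pow_left (Commute.refl x) n).eq]

/-- If `b` is a `p'`-element commuting with the `p`-element `x`, and `b`, `x` move `L` to the same
place, then `b` normalizes `L`. -/
theorem orbit_fix [Finite G] {b x : G} (hbx : b * x = x * b) (hb : (orderOf b).Coprime p) {k : ℕ}
    (hx : x ^ p ^ k = 1) {L : Subgroup G} (h : cj b L = cj x L) : cj b L = L := by
  have h1 := cj_comm_pow hbx h (orderOf b)
  rw [pow_orderOf_eq_one, cj_one] at h1
  have hcop : Nat.Coprime (orderOf b) (orderOf x) :=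
    Nat.Coprime.coprime_dvd_right (orderOf_dvd_of_pow_eq_one hx) (Nat.Coprime.pow_right k hb)
  obtain ⟨m, hm⟩ := exists_pow_eq_self_of_coprime hcop
  have h2 : ∀ j : ℕ, cj ((x ^ orderOf b) ^ j) L = L := by
    intro j
    induction j with
    | zero => simp [cj_one]
    | succ j ih => rw [pow_succ, cj_mul, ← h1, ih]
  have h3 : cj x L = L := by
    have := h2 m
    rwa [hm] at this
  rw [h, h3]

/-- If a `p`-element `g` has a `p'`-power commuting with `m`, then `g` commutes with `m`. -/
theorem comm_of_pow_comm [Finite G] {g m : G} {k n : ℕ} (hg : g ^ p ^ k = 1) (hn : n.Coprime p)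
    (h : g ^ n * m = m * g ^ n) : g * m = m * g := by
  have hcop : Nat.Coprime n (orderOf g) :=
    Nat.Coprime.coprime_dvd_right (orderOf_dvd_of_pow_eq_one hg) (Nat.Coprime.pow_right k hn)
  obtain ⟨j, hj⟩ := exists_pow_eq_self_of_coprime hcop
  have h1 : Commute ((g ^ n) ^ j) m := Commute.pow_left h j
  rw [hj] at h1
  exact h1

theorem perfect_central_sylow {X : Type*} [Group X] [Finite X] [hp : Fact p.Prime]
    (hperf : commutator X = ⊤) (hc : ∀ R : Sylow p X, (R : Subgroup X) ≤ center X) :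
    (Nat.card X).Coprime p := by
  classical
  let R : Sylow p X := default
  have hR := H09.sup_pPrimeCore_of_central_aux (R : Subgroup X) R.isPGroup' R.not_dvd_index (hc R)
  haveI hOn := pp_normal (G := X) p
  have hcomm : commutator X ≤ pPrimeCore p X := by
    rw [commutator_def, Subgroup.commutator_le]
    intro x _ y _
    have hx : x ∈ (R : Subgroup X) ⊔ pPrimeCore p X := by rw [hR]; trivial
    have hy : y ∈ (R : Subgroup X) ⊔ pPrimeCore p X := by rw [hR]; trivial
    obtain ⟨r, hr, o, ho, rfl⟩ := mem_sup_of_normal_right.1 hx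
    obtain ⟨r', hr', o', ho', rfl⟩ := mem_sup_of_normal_right.1 hy
    rw [← QuotientGroup.eq_one_iff, ← QuotientGroup.mk'_apply, map_commutatorElement,
      commutatorElement_eq_one_iff_mul_comm]
    have ho1 : (QuotientGroup.mk' (pPrimeCore p X)) o = 1 := by
      rw [QuotientGroup.mk'_apply, QuotientGroup.eq_one_iff]; exact ho
    have ho2 : (QuotientGroup.mk' (pPrimeCore p X)) o' = 1 := by
      rw [QuotientGroup.mk'_apply, QuotientGroup.eq_one_iff]; exact ho'
    rw [map_mul, map_mul, ho1, ho2, mul_one, mul_one, ← map_mul, ← map_mul]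
    have : r * r' = r' * r := (mem_center_iff.1 (hc R hr) r').symm
    rw [this]
  have hO : pPrimeCore p X = ⊤ := by
    rw [eq_top_iff, ← hperf]
    exact hcomm
  have h := pp_coprime (G := X) p
  rw [hO] at h
  rwa [Nat.card_congr Subgroup.topEquiv.toEquiv] at h

theorem exists_mod_central [Finite G] [hp : Fact p.Prime] {S T W : Subgroup G} (hS : IsPGroup p S)
    (hTS : T ≤ S) (hT : S ≤ normalizer (T : Set G)) (hW : S ≤ normalizer (W : Set G))
    (hne : ¬ T ≤ W) : ∃ y ∈ T, y ∉ W ∧ ∀ s ∈ S, s * y * s⁻¹ * y⁻¹ ∈ W := by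
  classical
  let W' : Subgroup S := W.subgroupOf S
  haveI hW' : W'.Normal := by
    constructor
    intro x hx g
    rw [mem_subgroupOf] at hx ⊢
    exact (mem_normalizer_iff.mp (hW g.2) _).mp hx
  let T' : Subgroup S := T.subgroupOf S
  let R : Subgroup (S ⧸ W') := T'.map (QuotientGroup.mk' W')
  have hQ : IsPGroup p (S ⧸ W') := hS.to_quotient W'
  have hR1 : R ≠ ⊥ := by
    intro h
    apply hne
    intro t ht
    have h1 : (QuotientGroup.mk' W') (⟨t, hTS ht⟩ : S) ∈ R := ⟨⟨t, hTS ht⟩, ht, rfl⟩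
    rw [h, mem_bot, QuotientGroup.mk'_apply, QuotientGroup.eq_one_iff] at h1
    exact h1
  have hRn : (⊤ : Subgroup (S ⧸ W')) ≤ normalizer (R : Set (S ⧸ W')) := by
    intro z _
    obtain ⟨s, rfl⟩ := QuotientGroup.mk'_surjective W' z
    rw [mem_normalizer_iff]
    intro r
    constructor
    · rintro ⟨t, ht, rfl⟩
      refine ⟨s * t * s⁻¹, ?_, by simp⟩
      have ht' : (t : G) ∈ T := ht
      show ((s * t * s⁻¹ : S) : G) ∈ T
      exact (mem_normalizer_iff.mp (hT s.2) _).mp ht'
    · rintro ⟨t, ht, hte⟩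
      refine ⟨s⁻¹ * t * s, ?_, ?_⟩
      · have ht' : (t : G) ∈ T := ht
        show ((s⁻¹ * t * s : S) : G) ∈ T
        have := (mem_normalizer_iff.mp (hT (S.inv_mem s.2)) _).mp ht'
        simpa using this
      · have hte' : (QuotientGroup.mk' W') t = (QuotientGroup.mk' W') s * r * ((QuotientGroup.mk' W') s)⁻¹ := hte
        show (QuotientGroup.mk' W') (s⁻¹ * t * s) = r
        rw [map_mul, map_mul, hte', map_inv]
        group
  have hc := H13.inf_center_ne_bot_of_pgroup (G := S ⧸ W') (R := R) (T := ⊤)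
    (hQ.to_subgroup ⊤) le_top hR1 hRn
  obtain ⟨⟨z, hz⟩, hz1⟩ := Subgroup.ne_bot_iff_exists_ne_one.1 hc
  have hz1' : z ≠ 1 := fun h => hz1 (Subtype.ext h)
  clear hz1
  obtain ⟨hzR, -, hzc⟩ := hz
  obtain ⟨t, ht, rfl⟩ := hzR
  refine ⟨t, ht, ?_, ?_⟩
  · intro htW
    apply hz1'
    rw [QuotientGroup.mk'_apply, QuotientGroup.eq_one_iff]
    exact htW
  · intro s hs
    have h1 := (mem_centralizer_iff.1 hzc) (QuotientGroup.mk' W' (⟨s, hs⟩ : S)) (by simp)
    have h2 : (⟨s, hs⟩ : S) * t * (⟨s, hs⟩ : S)⁻¹ * t⁻¹ ∈ W' := by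
      rw [← QuotientGroup.eq_one_iff, ← QuotientGroup.mk'_apply, map_mul, map_mul, map_mul, map_inv, map_inv, h1]
      group
    exact h2

theorem exists_noncentral [Finite G] [hp : Fact p.Prime] {P M : Subgroup G} (hP : IsPGroup p P)
    (hPM : P ≤ normalizer (M : Set G)) (hperf : ⁅M, M⁆ = M) (hd : p ∣ Nat.card M) :
    ∃ y ∈ M, (∃ k, y ^ p ^ k = 1) ∧ (¬ ∀ m ∈ M, y * m = m * y) ∧
      ∀ x ∈ P, ∀ m ∈ M, (x * y * x⁻¹ * y⁻¹) * m = m * (x * y * x⁻¹ * y⁻¹) := by
  classical
  set X := normalizer (M : Set G) with hX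
  have hP' : IsPGroup p (P.subgroupOf X) := isPGroup_subgroupOf' hP
  obtain ⟨S', hS'⟩ := hP'.exists_le_sylow
  let S : Subgroup G := (S' : Subgroup X).map X.subtype
  have hSp : IsPGroup p S := S'.isPGroup'.map X.subtype
  have hPS : P ≤ S := by
    intro x hx
    exact ⟨⟨x, hPM hx⟩, hS' (by simpa [mem_subgroupOf] using hx), rfl⟩
  have hSX : S ≤ X := by
    rintro _ ⟨s, -, rfl⟩
    exact s.2
  let C : Subgroup G := centralizer (M : Set G)
  have hCn : X ≤ normalizer (C : Set G) := by
    intro g hg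
    rw [mem_normalizer_iff]
    intro c
    have hgm := mem_normalizer_iff.mp hg
    constructor
    · intro hc
      rw [mem_centralizer_iff] at hc ⊢
      intro m hm
      have h1 := hc (g⁻¹ * m * g) (by
        have := (hgm (g⁻¹ * m * g)).mpr (by simpa [mul_assoc] using hm)
        exact this)
      calc m * (g * c * g⁻¹) = g * ((g⁻¹ * m * g) * c) * g⁻¹ := by group
        _ = g * (c * (g⁻¹ * m * g)) * g⁻¹ := by rw [h1]
        _ = (g * c * g⁻¹) * m := by group
    · intro hc
      rw [mem_centralizer_iff] at hc ⊢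
      intro m hm
      have h1 := hc (g * m * g⁻¹) ((hgm m).mp hm)
      have h2 : g * (m * c) * g⁻¹ = g * (c * m) * g⁻¹ := by
        calc g * (m * c) * g⁻¹ = (g * m * g⁻¹) * (g * c * g⁻¹) := by group
          _ = (g * c * g⁻¹) * (g * m * g⁻¹) := h1
          _ = g * (c * m) * g⁻¹ := by group
      exact mul_left_cancel (mul_right_cancel h2)
  let T : Subgroup G := S ⊓ M
  let W : Subgroup G := T ⊓ C
  have hSnS : S ≤ normalizer (S : Set G) := le_normalizer
  have hTn : S ≤ normalizer (T : Set G) := by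
    intro s hs
    rw [mem_normalizer_iff]
    intro t
    have h1 := mem_normalizer_iff.mp (hSnS hs) t
    have h2 := mem_normalizer_iff.mp (hSX hs) t
    exact and_congr h1 h2
  have hWn : S ≤ normalizer (W : Set G) := by
    intro s hs
    rw [mem_normalizer_iff]
    intro t
    have h1 := mem_normalizer_iff.mp (hTn hs) t
    have h2 := mem_normalizer_iff.mp (hCn (hSX hs)) t
    exact and_congr h1 h2
  have hne : ¬ T ≤ W := by
    intro hTW
    have hTC : T ≤ C := fun t ht => (hTW ht).2
    have hcop : (Nat.card M).Coprime p := by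
      apply perfect_central_sylow (p := p)
      · rw [eq_top_iff]
        intro x _
        have hx : (x : G) ∈ ⁅M, M⁆ := by rw [hperf]; exact x.2
        rw [← Subgroup.map_subtype_commutator] at hx
        obtain ⟨c, hc, hce⟩ := hx
        have : c = x := Subtype.ext hce
        rw [← this]
        exact hc
      · intro R r hr
        rw [mem_center_iff]
        intro m
        -- move `R` into `S`
        let R₁ : Subgroup X := ((R : Subgroup M).map M.subtype).subgroupOf X
        have hR₁p : IsPGroup p R₁ := isPGroup_subgroupOf' (R.isPGroup'.map M.subtype)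
        obtain ⟨S₂, hS₂⟩ := hR₁p.exists_le_sylow
        obtain ⟨g, hg⟩ := H13.sylow_conj S' S₂
        have hMX : M ≤ X := le_normalizer
        have hr₁ : (⟨(r : G), hMX r.2⟩ : X) ∈ (S₂ : Subgroup X) := by
          apply hS₂
          show (r : G) ∈ (R : Subgroup M).map M.subtype
          exact ⟨r, hr, rfl⟩
        have hr₂ : (⟨(r : G), hMX r.2⟩ : X) ∈ (S' : Subgroup X).map (MulAut.conj g).toMonoidHom := by
          rw [← hg]; exact hr₁
        rw [H13.mem_map_conj] at hr₂
        have hs1 : (g : G)⁻¹ * (r : G) * g ∈ S := ⟨_, hr₂, by simp⟩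
        have hgM := mem_normalizer_iff.mp g.2
        have hs2 : (g : G)⁻¹ * (r : G) * g ∈ M := by
          have := (mem_normalizer_iff.mp (X.inv_mem g.2) (r : G)).mp r.2
          simpa using this
        have hs3 : (g : G)⁻¹ * (r : G) * g ∈ C := hTC ⟨hs1, hs2⟩
        have hm2 : (g : G)⁻¹ * (m : G) * g ∈ M := by
          have := (mem_normalizer_iff.mp (X.inv_mem g.2) (m : G)).mp m.2
          simpa using this
        have h3 := (mem_centralizer_iff.1 hs3) _ hm2
        apply Subtype.ext
        have h4 : (g : G) * (((g : G)⁻¹ * (m : G) * g) * ((g : G)⁻¹ * (r : G) * g)) * (g : G)⁻¹ =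
            (g : G) * (((g : G)⁻¹ * (r : G) * g) * ((g : G)⁻¹ * (m : G) * g)) * (g : G)⁻¹ := by rw [h3]
        have h5 : (m : G) * r = r * m := by
          calc (m : G) * r = (g : G) * (((g : G)⁻¹ * (m : G) * g) * ((g : G)⁻¹ * (r : G) * g)) * (g : G)⁻¹ := by group
            _ = (g : G) * (((g : G)⁻¹ * (r : G) * g) * ((g : G)⁻¹ * (m : G) * g)) * (g : G)⁻¹ := h4
            _ = r * m := by group
        exact h5
    have := (Nat.Coprime.coprime_dvd_right hd hcop.symm)
    simp at this
    exact hp.out.ne_one this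
  obtain ⟨y, hyT, hyW, hy⟩ := exists_mod_central hSp inf_le_left hTn hWn hne
  refine ⟨y, hyT.2, ?_, ?_, ?_⟩
  · obtain ⟨k, hk⟩ := hSp ⟨y, hyT.1⟩
    exact ⟨k, by simpa using congrArg Subtype.val hk⟩
  · intro hall
    apply hyW
    refine ⟨hyT, ?_⟩
    show y ∈ centralizer (M : Set G)
    rw [mem_centralizer_iff]
    intro m hm
    exact (hall m hm).symm
  · intro x hx m hm
    have h1 := hy x (hPS hx)
    have h2 := (mem_centralizer_iff.1 h1.2) m hm
    exact h2.symm

end Cfsg.Agent.H05.LB
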