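import Cfsg.Agent.Lib.H05.LB1

/-! The `P`-orbit product of a component and the key lemma. -/

set_option autoImplicit false

open Cfsg Subgroup
open scoped commutatorElement

universe u

namespace Cfsg.Agent.H05.LB

variable {G : Type u} [Group G] {p : ℕ}

/-- The product of the `P`-orbit of `L`. -/
def orb (P L : Subgroup G) : Subgroup G := ⨆ x : P, cj (x : G) L

theorem le_orb (P L : Subgroup G) : L ≤ orb P L := by
  have := le_iSup (fun x : P => cj (x : G) L) 1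
  have h1 : cj ((1 : P) : G) L = L := by simp [cj_one]
  rw [h1] at this
  exact this

theorem cj_le_orb (P L : Subgroup G) {x : G} (hx : x ∈ P) : cj x L ≤ orb P L :=
  le_iSup (fun x : P => cj (x : G) L) ⟨x, hx⟩

theorem cj_iSup {ι : Sort*} (g : G) (f : ι → Subgroup G) : cj g (⨆ i, f i) = ⨆ i, cj g (f i) :=
  Subgroup.map_iSup _ _

theorem cj_orb_of_mem {P L : Subgroup G} {x : G} (hx : x ∈ P) : cj x (orb P L) = orb P L := by
  unfold orb
  rw [cj_iSup]
  apply le_antisymm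
  · refine iSup_le fun y => ?_
    rw [← cj_mul]
    exact cj_le_orb P L (P.mul_mem hx y.2)
  · refine iSup_le fun y => ?_
    have h1 := le_iSup (fun i : P => cj x (cj (i : G) L)) ⟨x⁻¹ * y, P.mul_mem (P.inv_mem hx) y.2⟩
    refine le_trans ?_ h1
    show cj (y : G) L ≤ cj x (cj (x⁻¹ * y) L)
    rw [← cj_mul]
    simp

theorem orb_normalized {P L : Subgroup G} : P ≤ normalizer (orb P L : Set G) := fun _ hx =>
  H13.mem_normalizer_of_map_conj_eq (cj_orb_of_mem hx)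

theorem cj_orb_of_comm {P L : Subgroup G} {g : G} (hg : ∀ x ∈ P, g * x = x * g) :
    cj g (orb P L) = orb P (cj g L) := by
  unfold orb
  rw [cj_iSup]
  congr 1
  funext x
  rw [← cj_mul, hg x x.2, cj_mul]

theorem orb_perfect {P L : Subgroup G} (hL : ⁅L, L⁆ = L) : ⁅orb P L, orb P L⁆ = orb P L := by
  apply le_antisymm
  · rw [Subgroup.commutator_le]
    intro a ha b hb
    rw [commutatorElement_def]
    exact mul_mem (mul_mem (mul_mem ha hb) (inv_mem ha)) (inv_mem hb)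
  · refine iSup_le fun x => ?_
    have h1 : cj (x : G) L = ⁅cj (x : G) L, cj (x : G) L⁆ := by
      conv_lhs => rw [← hL]
      exact Subgroup.map_commutator _ _ _
    rw [h1]
    exact Subgroup.commutator_mono (cj_le_orb P L x.2) (cj_le_orb P L x.2)

theorem orb_le_layer [Finite G] {P L : Subgroup G} (hL : IsComponent L) : orb P L ≤ layer G :=
  iSup_le fun x => comp_le_layer (H13.isComponent_map_conj hL _)

theorem orb_comm [Finite G] {P L L' : Subgroup G} (hL : IsComponent L) (hL' : IsComponent L')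
    (h : ∀ x ∈ P, L' ≠ cj x L) : ∀ u ∈ orb P L, ∀ v ∈ orb P L', u * v = v * u := by
  have key : orb P L ≤ centralizer (orb P L' : Set G) := by
    refine iSup_le fun x => ?_
    rw [Subgroup.le_centralizer_iff]
    refine iSup_le fun x' => ?_
    intro v hv
    rw [mem_centralizer_iff]
    intro u hu
    have hc := comp_eq_or_comm (H13.isComponent_map_conj hL (x : G)) (H13.isComponent_map_conj hL' (x' : G))
    rcases hc with hc | hc
    · exfalso
      apply h ((x' : G)⁻¹ * x) (P.mul_mem (P.inv_mem x'.2) x.2)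
      rw [cj_mul, show cj (x : G) L = cj (x' : G) L' from hc, ← cj_mul]
      simp [cj_one]
    · exact (comm_bot_iff.1 hc) u hu v hv
  intro u hu v hv
  exact ((mem_centralizer_iff.1 (key hu)) v hv).symm

/-- The centre of the layer, as a subgroup of `G`. -/
def VV (G : Type u) [Group G] : Subgroup G := layer G ⊓ centralizer (layer G : Set G)

theorem VV_normal : (VV G).Normal := by
  haveI := layer_normal (G := G)
  unfold VV
  infer_instance

theorem VV_pgroup [Finite G] [hp : Fact p.Prime] (hO : pPrimeCore p G = ⊥) : IsPGroup p (VV G) := by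
  classical
  haveI hVn := VV_normal (G := G)
  have hcomm : ∀ a ∈ VV G, ∀ b ∈ VV G, a * b = b * a := by
    intro a ha b hb
    exact ((mem_centralizer_iff.1 ha.2) b hb.1).symm
  have hw1 : ∀ w ∈ VV G, (orderOf w).Coprime p → w = 1 := by
    intro w hw hcop
    let K : Subgroup (VV G) := zpowers (⟨w, hw⟩ : VV G)
    haveI hK : K.Normal := by
      constructor
      intro n _ g
      have h1 : g * n * g⁻¹ = n := by
        apply Subtype.ext
        have := hcomm g g.2 n n.2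
        simp only [Subgroup.coe_mul, Subgroup.coe_inv]
        rw [this]
        group
      rw [h1]
      assumption
    have hsn : (K.map (VV G).subtype).IsSubnormal := hK.isSubnormal.trans' hVn.isSubnormal
    have hcard : (Nat.card (K.map (VV G).subtype)).Coprime p := by
      rw [Subgroup.card_map_of_injective (VV G).subtype_injective, Nat.card_zpowers]
      simpa [Subgroup.orderOf_mk] using hcop
    have h2 := sn_coprime_le_pp hsn hcard
    rw [hO] at h2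
    have h3 : w ∈ K.map (VV G).subtype := ⟨⟨w, hw⟩, mem_zpowers _, rfl⟩
    exact (mem_bot.1 (h2 h3))
  rintro ⟨v, hv⟩
  obtain ⟨a, m, hm, hvo⟩ := Nat.exists_eq_pow_mul_and_not_dvd (n := orderOf v) (orderOf_pos v).ne' p
    hp.out.ne_one
  refine ⟨a, ?_⟩
  apply Subtype.ext
  have h4 : (orderOf (v ^ p ^ a)).Coprime p := by
    rw [orderOf_pow, hvo]
    have : Nat.gcd (p ^ a * m) (p ^ a) = p ^ a := Nat.gcd_eq_right (Dvd.intro _ rfl)
    rw [this, Nat.mul_div_cancel_left _ (pow_pos hp.out.pos a)]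
    exact ((Nat.Prime.coprime_iff_not_dvd hp.out).mpr hm).symm
  simpa using hw1 _ (pow_mem hv _) h4

theorem center_orb_le [Finite G] {P L : Subgroup G} (hL : IsComponent L) {z : G} (hz : z ∈ orb P L)
    (hc : ∀ m ∈ orb P L, z * m = m * z) : z ∈ VV G := by
  classical
  refine ⟨orb_le_layer hL hz, ?_⟩
  have h1 : layer G ≤ centralizer ({z} : Set G) := by
    refine sSup_le fun K hK => ?_
    intro k hk
    rw [mem_centralizer_singleton_iff]
    by_cases hex : ∃ x ∈ P, K = cj x L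
    · obtain ⟨x, hx, rfl⟩ := hex
      exact (hc k (cj_le_orb P L hx hk)).symm
    · push Not at hex
      have h2 : orb P L ≤ centralizer (K : Set G) := by
        refine iSup_le fun x => ?_
        intro u hu
        rw [mem_centralizer_iff]
        intro v hv
        rcases comp_eq_or_comm hK (H13.isComponent_map_conj hL (x : G)) with h3 | h3
        · exact absurd h3 (hex x x.2)
        · exact (comm_bot_iff.1 h3) v hv u hu
      exact ((mem_centralizer_iff.1 (h2 hz)) k hk)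
  show z ∈ centralizer (layer G : Set G)
  rw [mem_centralizer_iff]
  intro k hk
  have := h1 hk
  rw [mem_centralizer_singleton_iff] at this
  exact this

theorem comp_perfect {L : Subgroup G} (hL : IsComponent L) : ⁅L, L⁆ = L :=
  (Subgroup.isPerfect_iff).mp hL.2.1

theorem prime_dvd_comp [Finite G] [hp : Fact p.Prime] (hO : pPrimeCore p G = ⊥) {L : Subgroup G}
    (hL : IsComponent L) : p ∣ Nat.card L := by
  by_contra hnd
  have hcop : (Nat.card L).Coprime p := ((Nat.Prime.coprime_iff_not_dvd hp.out).mpr hnd).symm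
  have h1 := sn_coprime_le_pp hL.1 hcop
  rw [hO] at h1
  haveI := qs_nontrivial hL.2
  obtain ⟨x, hx⟩ := exists_ne (1 : L)
  apply hx
  apply Subtype.ext
  exact mem_bot.1 (h1 x.2)

/-- Key lemma. -/
theorem lemmaM [Finite G] [hp : Fact p.Prime] (hO : pPrimeCore p G = ⊥) {P : Subgroup G} (hP : IsPGroup p P)
    {a : G} (ha : (orderOf a).Coprime p) (haP : ∀ x ∈ P, a * x = x * a)
    (hcomm : ∀ u ∈ layer G, (∀ x ∈ P, u * x = x * u) → (orderOf (u⁻¹ * (a⁻¹ * u * a))).Coprime p)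
    {L₀ : Subgroup G} (hL₀ : IsComponent L₀) : cj a L₀ = L₀ := by
  classical
  by_contra hne
  have hb : (orderOf a⁻¹).Coprime p := by simpa using ha
  have hbP : ∀ x ∈ P, a⁻¹ * x = x * a⁻¹ := fun x hx =>
    (Commute.inv_left (show Commute a x from haP x hx))
  have hne' : cj a⁻¹ L₀ ≠ L₀ := fun h => hne (by
    have h1 : cj a (cj a⁻¹ L₀) = L₀ := by rw [← cj_mul]; simp [cj_one]
    rwa [h] at h1)
  have hPel : ∀ x ∈ P, ∃ k, x ^ p ^ k = 1 := fun x hx => by
    obtain ⟨k, hk⟩ := hP ⟨x, hx⟩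
    exact ⟨k, by simpa using congrArg Subtype.val hk⟩
  have hL₁ : IsComponent (cj a⁻¹ L₀) := H13.isComponent_map_conj hL₀ _
  have h01 : ∀ x ∈ P, cj a⁻¹ L₀ ≠ cj x L₀ := fun x hx h => by
    obtain ⟨k, hk⟩ := hPel x hx
    exact hne' (orbit_fix (hbP x hx) hb hk h)
  have hMM₁ := orb_comm hL₀ hL₁ h01
  have hM₁ : cj a⁻¹ (orb P L₀) = orb P (cj a⁻¹ L₀) := cj_orb_of_comm hbP
  have hM₂ : cj a⁻¹ (orb P (cj a⁻¹ L₀)) = orb P (cj a⁻¹ (cj a⁻¹ L₀)) := cj_orb_of_comm hbP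
  have hconj1 : ∀ m ∈ orb P L₀, a⁻¹ * m * a ∈ orb P (cj a⁻¹ L₀) := by
    intro m hm
    rw [← hM₁]
    exact ⟨m, hm, by simp⟩
  have hconj2 : ∀ m ∈ orb P (cj a⁻¹ L₀), a⁻¹ * m * a ∈ orb P (cj a⁻¹ (cj a⁻¹ L₀)) := by
    intro m hm
    rw [← hM₂]
    exact ⟨m, hm, by simp⟩
  have hconj1' : ∀ m ∈ orb P (cj a⁻¹ L₀), a * m * a⁻¹ ∈ orb P L₀ := by
    intro m hm
    rw [← hM₁] at hm
    obtain ⟨n, hn, rfl⟩ := hm
    have : a * ((MulAut.conj a⁻¹).toMonoidHom n) * a⁻¹ = n := by simp [mul_assoc]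
    rw [this]
    exact hn
  have hconj2' : ∀ m ∈ orb P (cj a⁻¹ (cj a⁻¹ L₀)), a * m * a⁻¹ ∈ orb P (cj a⁻¹ L₀) := by
    intro m hm
    rw [← hM₂] at hm
    obtain ⟨n, hn, rfl⟩ := hm
    have : a * ((MulAut.conj a⁻¹).toMonoidHom n) * a⁻¹ = n := by simp [mul_assoc]
    rw [this]
    exact hn
  have hM₁M₂ : ∀ u ∈ orb P (cj a⁻¹ L₀), ∀ v ∈ orb P (cj a⁻¹ (cj a⁻¹ L₀)), u * v = v * u := by
    intro u hu v hv
    have h1 := hMM₁ _ (hconj1' u hu) _ (hconj2' v hv)
    have h2 : a * (u * v) * a⁻¹ = a * (v * u) * a⁻¹ := by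
      calc a * (u * v) * a⁻¹ = (a * u * a⁻¹) * (a * v * a⁻¹) := by group
        _ = (a * v * a⁻¹) * (a * u * a⁻¹) := h1
        _ = a * (v * u) * a⁻¹ := by group
    exact mul_left_cancel (mul_right_cancel h2)
  -- the element `y`
  have hperf := orb_perfect (P := P) (comp_perfect hL₀)
  have hd : p ∣ Nat.card (orb P L₀) :=
    dvd_trans (prime_dvd_comp hO hL₀) (Subgroup.card_dvd_of_le (le_orb P L₀))
  obtain ⟨y, hyM, ⟨k, hyk⟩, hync, hy⟩ := exists_noncentral hP orb_normalized hperf hd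
  -- `a` centralizes the centre of the layer
  haveI hVn := VV_normal (G := G)
  have hVp := VV_pgroup (G := G) hO
  have haV : ∀ c ∈ VV G, a * c = c * a := by
    refine ab_lemma hVp hP ha haP (fun x _ => (normalizer_eq_top_iff.mpr hVn) ▸ mem_top x)
      ((normalizer_eq_top_iff.mpr hVn) ▸ mem_top a) ?_
    intro c hc hcP
    have h1 := hcomm c hc.1 hcP
    have h2 : c⁻¹ * (a⁻¹ * c * a) ∈ VV G := by
      refine mul_mem (inv_mem hc) ?_
      have := hVn.conj_mem c hc a⁻¹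
      simpa using this
    have h3 := eq_one_of_coprime_of_pGroup hVp h2 h1
    have h4 : a⁻¹ * c * a = c := by
      rw [inv_mul_eq_one] at h3
      exact h3.symm
    calc a * c = a * (a⁻¹ * c * a) := by rw [h4]
      _ = c * a := by group
  have hxconj : ∀ x ∈ P, ∀ {w : G}, w ∈ orb P L₀ → x * w * x⁻¹ ∈ orb P L₀ := fun x hx w hw =>
    (mem_normalizer_iff.1 (orb_normalized hx) w).1 hw
  obtain ⟨y₁, hy₁def⟩ : ∃ y₁, y₁ = a⁻¹ * y * a := ⟨_, rfl⟩
  obtain ⟨y₂, hy₂def⟩ : ∃ y₂, y₂ = a⁻¹ * y₁ * a := ⟨_, rfl⟩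
  have hy₁M : y₁ ∈ orb P (cj a⁻¹ L₀) := hy₁def ▸ hconj1 y hyM
  have hy₂M : y₂ ∈ orb P (cj a⁻¹ (cj a⁻¹ L₀)) := hy₂def ▸ hconj2 y₁ hy₁M
  have hu : ∀ x ∈ P, (y⁻¹ * y₁) * x = x * (y⁻¹ * y₁) := by
    intro x hx
    have hcM : x * y * x⁻¹ * y⁻¹ ∈ orb P L₀ := mul_mem (hxconj x hx hyM) (inv_mem hyM)
    have hcV := center_orb_le hL₀ hcM (hy x hx)
    have hac := haV _ hcV
    obtain ⟨c, hcdef⟩ : ∃ c, c = x * y * x⁻¹ * y⁻¹ := ⟨_, rfl⟩
    rw [← hcdef] at hac
    have h1 : x * y * x⁻¹ = c * y := by rw [hcdef]; group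
    have hax : a⁻¹ * x * a = x := by
      have := haP x hx
      calc a⁻¹ * x * a = a⁻¹ * (x * a) := by group
        _ = a⁻¹ * (a * x) := by rw [this]
        _ = x := by group
    have hcc : a⁻¹ * c * a = c := by
      calc a⁻¹ * c * a = a⁻¹ * (c * a) := by group
        _ = a⁻¹ * (a * c) := by rw [hac]
        _ = c := by group
    have h2 : x * y₁ * x⁻¹ * y₁⁻¹ = c := by
      calc x * y₁ * x⁻¹ * y₁⁻¹ = (a⁻¹ * x * a) * y₁ * (a⁻¹ * x * a)⁻¹ * y₁⁻¹ := by rw [hax]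
        _ = a⁻¹ * (x * y * x⁻¹ * y⁻¹) * a := by rw [hy₁def]; group
        _ = c := by rw [← hcdef, hcc]
    have h3 : x * y₁ * x⁻¹ = c * y₁ := by rw [← h2]; group
    calc y⁻¹ * y₁ * x = (c * y)⁻¹ * (c * y₁) * x := by group
      _ = (x * y * x⁻¹)⁻¹ * (x * y₁ * x⁻¹) * x := by rw [h1, h3]
      _ = x * (y⁻¹ * y₁) := by group
  have huL : y⁻¹ * y₁ ∈ layer G :=
    mul_mem (inv_mem (orb_le_layer hL₀ hyM)) (orb_le_layer hL₁ hy₁M)
  have hr := hcomm _ huL hu
  have hyy₁ : y * y₁ = y₁ * y := hMM₁ y hyM y₁ hy₁M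
  have hy₁y₂ : y₁ * y₂ = y₂ * y₁ := hM₁M₂ y₁ hy₁M y₂ hy₂M
  have hreq : (y⁻¹ * y₁)⁻¹ * (a⁻¹ * (y⁻¹ * y₁) * a) = (y₁⁻¹ * y₁⁻¹) * (y * y₂) := by
    have h1 : a⁻¹ * (y⁻¹ * y₁) * a = y₁⁻¹ * y₂ := by
      rw [hy₂def, hy₁def]; group
    have h2 : y * y₁⁻¹ = y₁⁻¹ * y := (Commute.inv_right (show Commute y y₁ from hyy₁))
    rw [h1]
    calc (y⁻¹ * y₁)⁻¹ * (y₁⁻¹ * y₂) = y₁⁻¹ * (y * y₁⁻¹) * y₂ := by group
      _ = y₁⁻¹ * (y₁⁻¹ * y) * y₂ := by rw [h2]
      _ = _ := by group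
  rw [hreq] at hr
  have hfe : Commute (y₁⁻¹ * y₁⁻¹) (y * y₂) := by
    have h1 : Commute y₁⁻¹ y := (Commute.inv_left (show Commute y₁ y from hyy₁.symm))
    have h2 : Commute y₁⁻¹ y₂ := (Commute.inv_left (show Commute y₁ y₂ from hy₁y₂))
    exact Commute.mul_left (Commute.mul_right h1 h2) (Commute.mul_right h1 h2)
  have hr1 := pow_orderOf_eq_one ((y₁⁻¹ * y₁⁻¹) * (y * y₂))
  obtain ⟨k', hk'⟩ : ∃ k', k' = orderOf ((y₁⁻¹ * y₁⁻¹) * (y * y₂)) := ⟨_, rfl⟩
  rw [← hk'] at hr hr1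
  rw [hfe.mul_pow] at hr1
  have hy₁k : y₁ ^ p ^ k = 1 := by
    have h1 := conj_pow (a := a⁻¹) (b := y) (i := p ^ k)
    rw [inv_inv, hyk] at h1
    rw [hy₁def, h1]
    simp
  rcases eq_or_ne p 2 with h2 | h2
  · subst h2
    have hL₂ : IsComponent (cj a⁻¹ (cj a⁻¹ L₀)) := H13.isComponent_map_conj hL₁ _
    have hb2 : ∀ x ∈ P, cj a⁻¹ (cj a⁻¹ L₀) ≠ cj x L₀ := by
      intro x hx h
      obtain ⟨k₁, hk₁⟩ := hPel x hx
      have hbx : (a⁻¹ * a⁻¹) * x = x * (a⁻¹ * a⁻¹) := by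
        have h1 : Commute a⁻¹ x := hbP x hx
        exact h1.mul_left h1
      have hbo : (orderOf (a⁻¹ * a⁻¹)).Coprime 2 := by
        have h1 : orderOf (a⁻¹ * a⁻¹) ∣ orderOf a⁻¹ := by
          rw [← pow_two]
          exact orderOf_pow_dvd 2
        exact Nat.Coprime.coprime_dvd_left h1 hb
      have h3 := orbit_fix hbx hbo hk₁ (by rw [cj_mul]; exact h)
      obtain ⟨m, hm⟩ := exists_pow_eq_self_of_coprime (x := a⁻¹) (n := 2) hb.symm
      have h4 : ∀ j : ℕ, cj ((a⁻¹ * a⁻¹) ^ j) L₀ = L₀ := by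
        intro j
        induction j with
        | zero => simp [cj_one]
        | succ j ih => rw [pow_succ, cj_mul, h3, ih]
      have h5 := h4 m
      rw [← pow_two, hm] at h5
      exact hne' h5
    have hML₂ := orb_comm hL₀ hL₂ hb2
    apply hync
    intro m hm
    have hc1 : Commute (y₁⁻¹ * y₁⁻¹) m := by
      have h1 : Commute y₁⁻¹ m := Commute.inv_left (show Commute y₁ m from (hMM₁ m hm y₁ hy₁M).symm)
      exact h1.mul_left h1
    have hc2 : Commute y₂ m := (hML₂ m hm y₂ hy₂M).symm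
    have hyy₂ : Commute y y₂ := hML₂ y hyM y₂ hy₂M
    rw [hyy₂.mul_pow] at hr1
    have h3 : y ^ k' = ((y₁⁻¹ * y₁⁻¹) ^ k')⁻¹ * (y₂ ^ k')⁻¹ := by
      calc y ^ k' = ((y₁⁻¹ * y₁⁻¹) ^ k')⁻¹ * ((y₁⁻¹ * y₁⁻¹) ^ k' * (y ^ k' * y₂ ^ k')) * (y₂ ^ k')⁻¹ := by
            simp [mul_assoc]
        _ = _ := by rw [hr1, mul_one]
    have h4 : y ^ k' * m = m * y ^ k' := by
      rw [h3]
      exact Commute.mul_left ((hc1.pow_left k').inv_left) ((hc2.pow_left k').inv_left)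
    exact comm_of_pow_comm hyk hr h4
  · have hp2 : Nat.Coprime 2 p := by
      exact (Nat.coprime_primes Nat.prime_two hp.out).mpr h2.symm
    apply hync
    have hy₁c : ∀ m ∈ orb P (cj a⁻¹ L₀), y₁ * m = m * y₁ := by
      intro m hm
      have hc1 : Commute y m := hMM₁ y hyM m hm
      have hc2 : Commute y₂ m := (hM₁M₂ m hm y₂ hy₂M).symm
      have hce : Commute (y * y₂) m := hc1.mul_left hc2
      have h3 : (y₁⁻¹ * y₁⁻¹) ^ k' = ((y * y₂) ^ k')⁻¹ := eq_inv_of_mul_eq_one_left hr1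
      have h4 : (y₁⁻¹) ^ (2 * k') * m = m * (y₁⁻¹) ^ (2 * k') := by
        rw [pow_mul, pow_two, h3]
        exact (hce.pow_left k').inv_left
      have hg : (y₁⁻¹) ^ p ^ k = 1 := by rw [inv_pow, hy₁k, inv_one]
      have h5 := comm_of_pow_comm hg (Nat.Coprime.mul_left hp2 hr) h4
      have h6 : Commute y₁⁻¹ m := h5
      have h7 := h6.inv_left
      rw [inv_inv] at h7
      exact h7
    intro m hm
    have h1 := hy₁c _ (hconj1 m hm)
    rw [hy₁def] at h1
    have h2' : a⁻¹ * (y * m) * a = a⁻¹ * (m * y) * a := by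
      calc a⁻¹ * (y * m) * a = (a⁻¹ * y * a) * (a⁻¹ * m * a) := by group
        _ = (a⁻¹ * m * a) * (a⁻¹ * y * a) := h1
        _ = _ := by group
    exact mul_left_cancel (mul_right_cancel h2')

end Cfsg.Agent.H05.LB
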