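import Cfsg.Agent.Lib.H05.LB2

/-! Elements of the preimage of the layer of `N_G(P)/O_{p'}(N_G(P))` normalize the components of `G`. -/

set_option autoImplicit false

open Cfsg Subgroup
open scoped commutatorElement

universe u

namespace Cfsg.Agent.H05.LB

variable {G : Type u} [Group G] {p : ℕ}

/-- Elements normalizing every component. -/
def DG (G : Type u) [Group G] : Subgroup G where
  carrier := {g | ∀ L : Subgroup G, IsComponent L → cj g L = L}
  one_mem' := fun L _ => cj_one L
  mul_mem' := fun {a b} ha hb L hL => by rw [cj_mul, hb L hL, ha L hL]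
  inv_mem' := fun {a} ha L hL => by
    have h1 : cj a⁻¹ (cj a L) = L := by rw [← cj_mul]; simp
    rw [ha L hL] at h1
    exact h1

theorem DG_normal [Finite G] : (DG G).Normal := ⟨fun g hg h L hL => by
  have hL' := H13.isComponent_map_conj hL h⁻¹
  rw [cj_mul, cj_mul, hg _ hL', ← cj_mul]
  simp⟩

theorem layer_le_DG [Finite G] : layer G ≤ DG G := by
  refine sSup_le fun K hK => ?_
  intro k hk L hL
  rcases comp_eq_or_comm hK hL with rfl | h
  · exact H13.map_conj_eq_of_mem_normalizer (Subgroup.le_normalizer hk)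
  · exact H13.map_conj_eq_of_mem_normalizer (mem_normalizer_of_comm fun b hb =>
      comm_bot_iff.1 h k hk b hb)

/-- p'-lift -/
theorem exists_coprime_lift {X Y : Type*} [Group X] [Group Y] [Finite X] [Finite Y] [hp : Fact p.Prime]
    (f : X →* Y) {k : Y} {n : X} (hn : f n = k) (hk : (orderOf k).Coprime p) :
    ∃ a : X, f a = k ∧ (orderOf a).Coprime p := by
  obtain ⟨e, b, hb, hnb⟩ := Nat.exists_eq_pow_mul_and_not_dvd (n := orderOf n) (orderOf_pos n).ne' p
    hp.out.ne_one
  have hcop : Nat.Coprime (p ^ e) (orderOf k) := Nat.Coprime.pow_left e hk.symm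
  obtain ⟨s, hs⟩ := exists_pow_eq_self_of_coprime hcop
  refine ⟨(n ^ p ^ e) ^ s, ?_, ?_⟩
  · rw [map_pow, map_pow, hn, hs]
  · have h1 : ((n ^ p ^ e) ^ s) ^ b = 1 := by
      have h0 : p ^ e * (s * b) = orderOf n * s := by rw [hnb]; ring
      rw [← pow_mul, ← pow_mul, h0, pow_mul, pow_orderOf_eq_one, one_pow]
    have h2 := orderOf_dvd_of_pow_eq_one h1
    exact Nat.Coprime.coprime_dvd_left h2 ((Nat.Prime.coprime_iff_not_dvd hp.out).mpr hb).symm

section main

variable [Finite G] [hp : Fact p.Prime]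

/-- the key lemma in `N` -/
theorem key_N (hO : pPrimeCore p G = ⊥) {P : Subgroup G} (hP : IsPGroup p P)
    {N : Subgroup G} (hN : N = normalizer (P : Set G))
    {a : N} (ha : (orderOf a).Coprime p)
    (hY : ∀ y : N, (y : G) ∈ P ∨ (y : G) ∈ layer G → ⁅a, y⁆ ∈ pPrimeCore p N) : (a : G) ∈ DG G := by
  haveI hOn := pp_normal (G := N) p
  have hPN : P ≤ N := hN ▸ Subgroup.le_normalizer
  have hPn : (P.subgroupOf N).Normal := (normal_subgroupOf_iff_le_normalizer hPN).mpr (hN ▸ le_rfl)
  have ha' : (orderOf (a : G)).Coprime p := by simpa using ha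
  intro L hL
  apply lemmaM hO hP ha' _ _ hL
  · intro x hx
    have h1 := hY ⟨x, hPN hx⟩ (Or.inl hx)
    have h2 : ⁅a, (⟨x, hPN hx⟩ : N)⁆ ∈ P.subgroupOf N := by
      rw [commutatorElement_def]
      have h3 : (⟨x, hPN hx⟩ : N) ∈ P.subgroupOf N := by simpa [mem_subgroupOf] using hx
      have := hPn.conj_mem _ h3 a
      exact mul_mem this (inv_mem h3)
    have h4 := eq_one_of_coprime_of_pGroup (isPGroup_subgroupOf' hP) h2 (pp_order_coprime p h1)
    have h5 := commutatorElement_eq_one_iff_mul_comm.mp h4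
    exact congrArg Subtype.val h5
  · intro u hu huP
    have huN : u ∈ N := hN ▸ mem_normalizer_of_comm huP
    have h1 := hY ⟨u, huN⟩ (Or.inr hu)
    -- the commutator lies in `O`
    obtain ⟨v, hv⟩ : ∃ v : N, v = ⟨u, huN⟩ := ⟨_, rfl⟩
    rw [← hv] at h1
    have h2 : v⁻¹ * (a⁻¹ * v * a) ∈ pPrimeCore p N := by
      have h3 : v⁻¹ * (a⁻¹ * v * a) = a⁻¹ * (v⁻¹ * ⁅a, v⁆⁻¹ * v) * a := by
        rw [commutatorElement_def]; group
      rw [h3]
      have h4 := hOn.conj_mem _ (hOn.conj_mem _ (inv_mem h1) v⁻¹) a⁻¹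
      simpa using h4
    have h4 := pp_order_coprime p h2
    have h5 : orderOf ((v⁻¹ * (a⁻¹ * v * a) : N) : G) = orderOf (v⁻¹ * (a⁻¹ * v * a)) :=
      Subgroup.orderOf_coe _
    rw [← h5] at h4
    have h6 : ((v⁻¹ * (a⁻¹ * v * a) : N) : G) = u⁻¹ * ((a : G)⁻¹ * u * a) := by
      rw [hv]; simp
    rwa [h6] at h4

theorem O_le_D (hO : pPrimeCore p G = ⊥) {P : Subgroup G} (hP : IsPGroup p P)
    {N : Subgroup G} (hN : N = normalizer (P : Set G)) {a : N} (ha : a ∈ pPrimeCore p N) :
    (a : G) ∈ DG G := by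
  haveI hOn := pp_normal (G := N) p
  apply key_N hO hP hN (pp_order_coprime p ha)
  intro y _
  rw [commutatorElement_def, show a * y * a⁻¹ * y⁻¹ = a * (y * a⁻¹ * y⁻¹) by group]
  exact mul_mem ha (hOn.conj_mem _ (inv_mem ha) y)

/-- Components of `N/O` lie in the image of `D`. -/
theorem comp_le_D_abs {N : Type u} [Group N] [Finite N] (O D Pn E : Subgroup N) [hO : O.Normal]
    [hD : D.Normal] [hPnn : Pn.Normal] [hEn : E.Normal] (hPn : IsPGroup p Pn) (hED : E ≤ D)
    (hkey : ∀ a : N, (orderOf a).Coprime p → (∀ y ∈ Pn ⊔ E, ⁅a, y⁆ ∈ O) → a ∈ D)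
    {K : Subgroup (N ⧸ O)} (hK : IsComponent K) : K ≤ D.map (QuotientGroup.mk' O) := by
  classical
  have hfs := QuotientGroup.mk'_surjective O
  obtain ⟨f, hf⟩ : ∃ f, f = QuotientGroup.mk' O := ⟨_, rfl⟩
  rw [← hf] at hfs ⊢
  have hDb : (D.map f).Normal := hD.map f hfs
  have hYn : (Pn ⊔ E).Normal := inferInstance
  have hYb : ((Pn ⊔ E).map f).Normal := hYn.map f hfs
  have hEb : (E.map f).Normal := hEn.map f hfs
  have hpe : ∀ k ∈ K, (orderOf k).Coprime p → k ∈ D.map f := by
    intro k hk hko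
    rcases comp_le_or_comm hK.1 hK.2 hYb.isSubnormal with h | h
    · obtain ⟨y, hy, hyk⟩ := h hk
      obtain ⟨x, hx, e, he, rfl⟩ := mem_sup_of_normal_right.1 hy
      have h1 : QuotientGroup.mk' (E.map f) k = QuotientGroup.mk' (E.map f) (f x) := by
        rw [← hyk, map_mul, map_mul]
        have : QuotientGroup.mk' (E.map f) (f e) = 1 := by
          rw [QuotientGroup.mk'_apply, QuotientGroup.eq_one_iff]
          exact ⟨e, he, rfl⟩
        rw [this, mul_one]
      obtain ⟨j, hj⟩ := hPn ⟨x, hx⟩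
      have hj' : x ^ p ^ j = 1 := by simpa using congrArg Subtype.val hj
      have h2 : (QuotientGroup.mk' (E.map f) k) ^ p ^ j = 1 := by
        rw [h1, ← map_pow, ← map_pow, hj', map_one, map_one]
      have h3 : (QuotientGroup.mk' (E.map f) k) ^ orderOf k = 1 := by
        rw [← map_pow, pow_orderOf_eq_one, map_one]
      have h4 : QuotientGroup.mk' (E.map f) k = 1 := by
        have h5 := orderOf_dvd_of_pow_eq_one h2
        have h6 := orderOf_dvd_of_pow_eq_one h3
        have h7 : Nat.Coprime (p ^ j) (orderOf k) := Nat.Coprime.pow_left j hko.symm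
        have h8 := Nat.dvd_gcd h5 h6
        rw [h7] at h8
        exact orderOf_eq_one_iff.mp (Nat.dvd_one.mp h8)
      rw [QuotientGroup.mk'_apply, QuotientGroup.eq_one_iff] at h4
      exact Subgroup.map_mono hED h4
    · obtain ⟨n, hn⟩ := hfs k
      obtain ⟨a, ha, hao⟩ := exists_coprime_lift f hn hko
      refine ⟨a, hkey a hao ?_, ha⟩
      intro y hy
      rw [← QuotientGroup.eq_one_iff, ← QuotientGroup.mk'_apply, ← hf, map_commutatorElement,
        commutatorElement_eq_one_iff_mul_comm, ha]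
      exact comm_bot_iff.1 h k hk (f y) ⟨y, hy, rfl⟩
  let W : Subgroup K := (D.map f).subgroupOf K
  haveI hWn : W.Normal := inferInstance
  have hWtop : W = ⊤ := eq_top_of_perfect_mod W
    (fun y hy => hpe y y.2 (by simpa using hy)) (by rw [qs_perfect hK.2]; simp)
  intro k hk
  have : (⟨k, hk⟩ : K) ∈ W := by rw [hWtop]; trivial
  exact this

/-- `S1269` in general form. -/
theorem preimage_normalizes (hO : pPrimeCore p G = ⊥) {P : Subgroup G} (hP : IsPGroup p P)
    {N : Subgroup G} (hN : N = normalizer (P : Set G)) {L : Subgroup G} (hL : IsComponent L) {x : G}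
    (hx : x ∈ ((layer (N ⧸ pPrimeCore p N)).comap (QuotientGroup.mk' (pPrimeCore p N))).map N.subtype) :
    cj x L = L := by
  classical
  haveI hOn := pp_normal (G := N) p
  haveI hDG := DG_normal (G := G)
  haveI hLn := layer_normal (G := G)
  have hPN : P ≤ N := hN ▸ Subgroup.le_normalizer
  haveI hPn : (P.subgroupOf N).Normal := (normal_subgroupOf_iff_le_normalizer hPN).mpr (hN ▸ le_rfl)
  have hle : layer (N ⧸ pPrimeCore p N) ≤
      ((DG G).subgroupOf N).map (QuotientGroup.mk' (pPrimeCore p N)) := by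
    refine sSup_le fun K hK => ?_
    refine comp_le_D_abs (p := p) _ _ (P.subgroupOf N) ((layer G).subgroupOf N)
      (isPGroup_subgroupOf' hP) ?_ ?_ hK
    · intro e he
      exact layer_le_DG (G := G) he
    · intro a hao ha
      apply key_N hO hP hN hao
      intro y hy
      apply ha
      rcases hy with hy | hy
      · exact mem_sup_left (by simpa [mem_subgroupOf] using hy)
      · exact mem_sup_right (by simpa [mem_subgroupOf] using hy)
  obtain ⟨n, hn, rfl⟩ := hx
  obtain ⟨d, hd, hdn⟩ := hle hn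
  have h1 : d⁻¹ * n ∈ pPrimeCore p N := by
    rw [← QuotientGroup.eq]
    exact hdn
  have h2 := O_le_D hO hP hN h1
  have h3 : ((d * (d⁻¹ * n) : N) : G) ∈ DG G := by
    rw [Subgroup.coe_mul]
    exact mul_mem hd h2
  have h4 : d * (d⁻¹ * n) = n := by group
  rw [h4] at h3
  exact h3 L hL

end main

end Cfsg.Agent.H05.LB
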