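import Cfsg.Agent.Lib.H05.OneFix
import Cfsg.Agent.Lib.H13.Basic
import Cfsg.Agent.Lib.H06.Dade

/-!
# The rank one set-up: basic facts
-/

set_option autoImplicit false
set_option linter.style.haveILetI false
set_option linter.unusedSectionVars false

namespace Cfsg.Agent.H05

open Subgroup Cfsg MulAction

section rankone
variable {G Ω : Type*} [Group G] [Finite G] [MulAction G Ω] {a : Ω} {t : G} {Q : Subgroup G}

/-- The two point stabilizer. -/
abbrev DD (a : Ω) (t : G) : Subgroup G := stabilizer G a ⊓ stabilizer G (t • a)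

theorem R1.two_trans (hS : IsRankOneSetup G Ω a t Q) {x y x' y' : Ω} (h : x ≠ y) (h' : x' ≠ y') :
    ∃ g : G, g • x = x' ∧ g • y = y' := by
  have := hS.two_transitive
  rw [is_two_pretransitive_iff] at this
  exact this h h'

theorem R1.hta (hS : IsRankOneSetup G Ω a t Q) : t • a ≠ a := fun h => hS.not_mem (mem_stabilizer_iff.mpr h)

theorem R1.hat (hS : IsRankOneSetup G Ω a t Q) : a ≠ t • a := fun h => R1.hta hS h.symm

theorem R1.tinv (hS : IsRankOneSetup G Ω a t Q) : t⁻¹ = t := inv_eq_self_of_mul hS.mul_self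

theorem R1.ttsmul (hS : IsRankOneSetup G Ω a t Q) (x : Ω) : t • t • x = x := by
  rw [smul_smul, hS.mul_self, one_smul]

theorem R1.Qa (hS : IsRankOneSetup G Ω a t Q) {x : G} (hx : x ∈ Q) : x • a = a :=
  mem_stabilizer_iff.mp (hS.le hx)

/-- `Q` is semiregular on `Ω` minus `a`. -/
theorem R1.eq_one_of_fix (hS : IsRankOneSetup G Ω a t Q) {x : G} (hx : x ∈ Q) {c : Ω} (hc : c ≠ a)
    (hxc : x • c = c) : x = 1 := by
  obtain ⟨h, ha, hb⟩ := R1.two_trans hS (R1.hat hS) hc.symm
  have hh : h ∈ stabilizer G a := mem_stabilizer_iff.mpr ha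
  have h1 : h⁻¹ * x * h⁻¹⁻¹ ∈ Q := hS.conj_mem _ (inv_mem hh) x hx
  rw [inv_inv] at h1
  have h2 : h⁻¹ * x * h ∈ stabilizer G (t • a) := by
    rw [mem_stabilizer_iff, mul_smul, mul_smul, hb, hxc, inv_smul_eq_iff, hb]
  have h3 : h⁻¹ * x * h ∈ Q ⊓ stabilizer G (t • a) := mem_inf.mpr ⟨h1, h2⟩
  rw [hS.inf_eq_bot, mem_bot] at h3
  have : x = h * (h⁻¹ * x * h) * h⁻¹ := by group
  rw [this, h3]
  group

theorem R1.D_norm (hS : IsRankOneSetup G Ω a t Q) : ∀ d ∈ DD a t, ∀ n ∈ Q, d * n * d⁻¹ ∈ Q :=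
  fun d hd n hn => hS.conj_mem d (mem_inf.mp hd).1 n hn

/-- Factorization of the point stabilizer. -/
theorem R1.factor (hS : IsRankOneSetup G Ω a t Q) {h : G} (hh : h ∈ stabilizer G a) :
    ∃ n ∈ Q, ∃ d ∈ DD a t, h = n * d := by
  apply H06.mem_sup_of_normalizes (R1.D_norm hS)
  rw [hS.sup_eq]
  exact hh

theorem R1.trans (hS : IsRankOneSetup G Ω a t Q) {c : Ω} (hc : c ≠ a) : ∃ x ∈ Q, x • (t • a) = c := by
  obtain ⟨h, ha, hb⟩ := R1.two_trans hS (R1.hat hS) hc.symm
  obtain ⟨n, hn, d, hd, rfl⟩ := R1.factor hS (mem_stabilizer_iff.mpr ha)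
  refine ⟨n, hn, ?_⟩
  have hd2 : d • (t • a) = t • a := mem_stabilizer_iff.mp (mem_inf.mp hd).2
  rw [mul_smul, hd2] at hb
  exact hb

theorem R1.fix_eq (hS : IsRankOneSetup G Ω a t Q) {x y : G} (hx : x ∈ Q) (hy : y ∈ Q) {c : Ω} (hc : c ≠ a)
    (h : x • c = y • c) : x = y := by
  have h1 : y⁻¹ * x ∈ Q := mul_mem (inv_mem hy) hx
  have h2 : (y⁻¹ * x) • c = c := by rw [mul_smul, h, inv_smul_smul]
  exact inv_mul_eq_one.mp (R1.eq_one_of_fix hS h1 hc h2) |>.symm

theorem R1.regular (hS : IsRankOneSetup G Ω a t Q) {c d : Ω} (hc : c ≠ a) (hd : d ≠ a) :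
    ∃! x : Q, (x : G) • c = d := by
  obtain ⟨x, hx, hxc⟩ := R1.trans hS hc
  obtain ⟨y, hy, hyd⟩ := R1.trans hS hd
  refine ⟨⟨y * x⁻¹, mul_mem hy (inv_mem hx)⟩, ?_, ?_⟩
  · show (y * x⁻¹) • c = d
    rw [← hxc, mul_smul, inv_smul_smul, hyd]
  · rintro ⟨z, hz⟩ hzc
    have hzc' : z • c = d := hzc
    apply Subtype.ext
    show z = y * x⁻¹
    have e : (y * x⁻¹) • c = d := by rw [← hxc, mul_smul, inv_smul_smul, hyd]
    exact R1.fix_eq hS hz (mul_mem hy (inv_mem hx)) hc (hzc'.trans e.symm)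

/-- The bijection `Option Q ≃ Ω`. -/
theorem R1.bij (hS : IsRankOneSetup G Ω a t Q) :
    Function.Bijective (fun o : Option Q => match o with
      | none => a
      | some x => (x : G) • (t • a)) := by
  constructor
  · intro o o' h
    rcases o with _ | x <;> rcases o' with _ | y
    · rfl
    · exfalso
      have h' : a = (y : G) • (t • a) := h
      apply R1.hta hS
      have := congrArg (fun w => (y : G)⁻¹ • w) h'
      simp only [inv_smul_smul] at this
      rw [← this, inv_smul_eq_iff]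
      exact (R1.Qa hS y.2).symm
    · exfalso
      have h' : (x : G) • (t • a) = a := h
      apply R1.hta hS
      have := congrArg (fun w => (x : G)⁻¹ • w) h'
      simp only [inv_smul_smul] at this
      rw [this, inv_smul_eq_iff]
      exact (R1.Qa hS x.2).symm
    · have h' : (x : G) • (t • a) = (y : G) • (t • a) := h
      rw [Subtype.ext (R1.fix_eq hS x.2 y.2 (R1.hta hS) h')]
  · intro c
    by_cases hc : c = a
    · exact ⟨none, hc.symm⟩
    · obtain ⟨x, hx, hxc⟩ := R1.trans hS hc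
      exact ⟨some ⟨x, hx⟩, hxc⟩

theorem R1.finite (hS : IsRankOneSetup G Ω a t Q) : Finite Ω :=
  Finite.of_surjective _ (R1.bij hS).2

theorem R1.card_Ω (hS : IsRankOneSetup G Ω a t Q) : Nat.card Ω = Nat.card Q + 1 := by
  rw [← Nat.card_congr (Equiv.ofBijective _ (R1.bij hS)), Finite.card_option]

theorem R1.card_stab (hS : IsRankOneSetup G Ω a t Q) :
    Nat.card (stabilizer G a) = Nat.card Q * Nat.card (DD a t) := by
  rw [← Nat.card_prod]
  symm
  apply Nat.card_congr
  refine Equiv.ofBijective (fun p : Q × DD a t => ⟨(p.1 : G) * p.2, mul_mem (hS.le p.1.2) (mem_inf.mp p.2.2).1⟩) ⟨?_, ?_⟩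
  · rintro ⟨x, d⟩ ⟨y, e⟩ h
    have h' : (x : G) * d = y * e := congrArg Subtype.val h
    have h1 : (y : G)⁻¹ * x = e * (d : G)⁻¹ := by
      rw [inv_mul_eq_iff_eq_mul, ← mul_assoc, ← h']
      group
    have h2 : (y : G)⁻¹ * x ∈ Q ⊓ stabilizer G (t • a) := by
      refine mem_inf.mpr ⟨mul_mem (inv_mem y.2) x.2, ?_⟩
      rw [h1]
      exact mul_mem (mem_inf.mp e.2).2 (inv_mem (mem_inf.mp d.2).2)
    rw [hS.inf_eq_bot, mem_bot] at h2
    have hxy : (x : G) = y := (inv_mul_eq_one.mp h2).symm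
    have hde : (d : G) = e := by
      rw [hxy] at h'
      exact mul_left_cancel h'
    exact Prod.ext (Subtype.ext hxy) (Subtype.ext hde)
  · rintro ⟨h, hh⟩
    obtain ⟨n, hn, d, hd, rfl⟩ := R1.factor hS hh
    exact ⟨(⟨n, hn⟩, ⟨d, hd⟩), rfl⟩

theorem R1.card_G (hS : IsRankOneSetup G Ω a t Q) :
    Nat.card G = Nat.card Q * Nat.card (DD a t) * (Nat.card Q + 1) := by
  have htr : IsPretransitive G Ω := isPretransitive_of_is_two_pretransitive (h2 := hS.two_transitive)
  haveI := R1.finite hS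
  have h1 : (stabilizer G a).index = Nat.card Ω := by
    rw [index_stabilizer, orbit_eq_univ, Set.ncard_univ]
  have h2 := (stabilizer G a).card_mul_index
  rw [h1, R1.card_stab hS, R1.card_Ω hS] at h2
  exact h2.symm

theorem R1.odd_Ω (hS : IsRankOneSetup G Ω a t Q) : Odd (Nat.card Ω) := by
  rw [R1.card_Ω hS]
  exact hS.even_card.add_one

theorem R1.odd_order (hS : IsRankOneSetup G Ω a t Q) {d : G} (hd : d ∈ DD a t) : Odd (orderOf d) := by
  have h1 : orderOf d ∣ Nat.card (DD a t) := by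
    have := orderOf_dvd_natCard (⟨d, hd⟩ : DD a t)
    rwa [Subgroup.orderOf_mk] at this
  exact Odd.of_dvd_nat hS.odd_card h1

theorem eq_one_of_mul_self_of_odd {d : G} (h : Odd (orderOf d)) (hd : d * d = 1) : d = 1 := by
  have h1 : orderOf d ∣ 2 := orderOf_dvd_of_pow_eq_one (by rw [pow_two]; exact hd)
  have h2 : orderOf d = 1 := by
    have := (Nat.dvd_prime Nat.prime_two).mp h1
    rcases this with h3 | h3
    · exact h3
    · rw [h3] at h
      exact absurd h (by decide)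
  exact orderOf_eq_one_iff.mp h2

/-- Every involution has a unique fixed point. -/
theorem R1.oneFix (hS : IsRankOneSetup G Ω a t Q) : OneFix G Ω := by
  haveI := R1.finite hS
  intro s hs hs1
  have hord : orderOf s = 2 := orderOf_eq_prime (by rw [pow_two]; exact hs) hs1
  have hp : IsPGroup 2 (zpowers s) := by
    apply IsPGroup.of_card (n := 1)
    rw [Nat.card_zpowers, hord, pow_one]
  have hnd : ¬ 2 ∣ Nat.card Ω := by
    have := R1.odd_Ω hS
    exact this.not_two_dvd_nat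
  obtain ⟨x, hx⟩ := hp.nonempty_fixed_point_of_prime_not_dvd_card Ω hnd
  have hsx : s • x = x := hx ⟨s, mem_zpowers s⟩
  refine ⟨x, hsx, ?_⟩
  intro y hy
  by_contra hne
  obtain ⟨g, ha, hb⟩ := R1.two_trans hS (x := x) (y := y) (fun h => hne h.symm) (R1.hat hS)
  have hmem : g * s * g⁻¹ ∈ DD a t := by
    refine mem_inf.mpr ⟨?_, ?_⟩
    · rw [mem_stabilizer_iff, mul_smul, mul_smul, ← ha, inv_smul_smul, hsx]
    · rw [mem_stabilizer_iff, mul_smul, mul_smul, ← hb, inv_smul_smul, hy]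
  have h1 := R1.odd_order hS hmem
  have h2 : g * s * g⁻¹ * (g * s * g⁻¹) = 1 := by
    calc g * s * g⁻¹ * (g * s * g⁻¹) = g * (s * s) * g⁻¹ := by group
      _ = 1 := by rw [hs]; group
  have h3 := eq_one_of_mul_self_of_odd h1 h2
  apply hs1
  have : s = g⁻¹ * (g * s * g⁻¹) * g := by group
  rw [this, h3]
  group

/-- Every involution fixing `a` lies in `Q`. -/
theorem R1.invol_mem (hS : IsRankOneSetup G Ω a t Q) {s : G} (hs : s ∈ stabilizer G a) (hss : s * s = 1) :
    s ∈ Q := by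
  obtain ⟨n, hn, d, hd, rfl⟩ := R1.factor hS hs
  have h1 : d * d = (n * (d * n * d⁻¹))⁻¹ := by
    apply eq_inv_of_mul_eq_one_right
    calc n * (d * n * d⁻¹) * (d * d) = n * d * (n * d) := by group
      _ = 1 := hss
  have h2 : d * d ∈ Q := by
    rw [h1]
    exact Subgroup.inv_mem _ (mul_mem hn (R1.D_norm hS d hd n hn))
  have h3 : d * d ∈ Q ⊓ stabilizer G (t • a) := mem_inf.mpr ⟨h2, mul_mem (mem_inf.mp hd).2 (mem_inf.mp hd).2⟩
  rw [hS.inf_eq_bot, mem_bot] at h3
  rw [eq_one_of_mul_self_of_odd (R1.odd_order hS hd) h3, mul_one]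
  exact hn

/-- Transport of the set-up by conjugation. -/
theorem R1.conj (hS : IsRankOneSetup G Ω a t Q) (g : G) :
    IsRankOneSetup G Ω (g • a) (g * t * g⁻¹) (Q.map (MulAut.conj g).toMonoidHom) := by
  have hsm : (g * t * g⁻¹) • (g • a) = g • (t • a) := by
    rw [mul_smul, mul_smul, inv_smul_smul]
  have hst : ∀ x : Ω, stabilizer G (g • x) = (stabilizer G x).map (MulAut.conj g).toMonoidHom :=
    fun x => stabilizer_smul_eq_stabilizer_map_conj g x
  have hinj : Function.Injective (MulAut.conj g).toMonoidHom := (MulAut.conj g).injective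
  refine ⟨hS.two_transitive, ?_, ?_, ?_, ?_, ?_, ?_, ?_, ?_, ?_⟩
  · calc g * t * g⁻¹ * (g * t * g⁻¹) = g * (t * t) * g⁻¹ := by group
      _ = 1 := by rw [hS.mul_self]; group
  · intro h
    apply hS.ne_one
    have : t = g⁻¹ * (g * t * g⁻¹) * g := by group
    rw [this, h]
    group
  · rw [mem_stabilizer_iff, hsm]
    intro h
    exact R1.hta hS (smul_left_cancel g h)
  · rw [hst]
    exact Subgroup.map_mono hS.le
  · intro h hh x hx
    rw [hst, H13.mem_map_conj] at hh
    rw [H13.mem_map_conj] at hx ⊢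
    have := hS.conj_mem _ hh _ hx
    convert this using 1
    group
  · rw [hsm, hst, ← Subgroup.map_inf _ _ _ hinj, hS.inf_eq_bot, Subgroup.map_bot]
  · rw [hsm, hst, hst, ← Subgroup.map_inf _ _ _ hinj, ← Subgroup.map_sup, hS.sup_eq]
  · rw [Subgroup.card_map_of_injective hinj]
    exact hS.even_card
  · rw [hsm, hst, hst, ← Subgroup.map_inf _ _ _ hinj, Subgroup.card_map_of_injective hinj]
    exact hS.odd_card

/-- The set-up at the image point `t • a`. -/
theorem R1.swap (hS : IsRankOneSetup G Ω a t Q) :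
    IsRankOneSetup G Ω (t • a) t (Q.map (MulAut.conj t).toMonoidHom) := by
  have := R1.conj hS t
  have h1 : t * t * t⁻¹ = t := by group
  rwa [h1] at this

/-- S1118. -/
theorem R1.normalizer_le (hS : IsRankOneSetup G Ω a t Q) (X : Set G) (hX : X ⊆ (Q : Set G))
    (hx : ∃ x ∈ X, x ≠ 1) : normalizer X ≤ stabilizer G a := by
  obtain ⟨x, hxX, hx1⟩ := hx
  intro g hg
  rw [mem_stabilizer_iff]
  by_contra hne
  have hg' : g⁻¹ ∈ normalizer X := Subgroup.inv_mem _ hg
  have h1 : g⁻¹ * x * g⁻¹⁻¹ ∈ X := (mem_set_normalizer_iff.mp hg' x).mp hxX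
  rw [inv_inv] at h1
  have h2 : (g⁻¹ * x * g) • a = a := R1.Qa hS (hX h1)
  apply hx1
  apply R1.eq_one_of_fix hS (hX hxX) hne
  have h3 := congrArg (fun w => g • w) h2
  simp only [mul_smul, smul_inv_smul] at h3
  exact h3

theorem R1.Q_ne_bot (hS : IsRankOneSetup G Ω a t Q) : ∃ x ∈ Q, x ≠ 1 := by
  by_contra h
  push Not at h
  have : Q = ⊥ := eq_bot_iff.mpr fun x hx => by simpa using h x hx
  have h2 := hS.even_card
  rw [this] at h2
  simp at h2

theorem R1.normalizer_Q (hS : IsRankOneSetup G Ω a t Q) : normalizer (Q : Set G) = stabilizer G a := by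
  apply le_antisymm
  · obtain ⟨x, hx, hx1⟩ := R1.Q_ne_bot hS
    exact R1.normalizer_le hS _ (le_refl _) ⟨x, hx, hx1⟩
  · intro h hh
    rw [mem_normalizer_iff]
    intro x
    constructor
    · exact hS.conj_mem h hh x
    · intro hx
      have := hS.conj_mem h⁻¹ (inv_mem hh) _ hx
      convert this using 1
      group

theorem R1.normalizer_stab (hS : IsRankOneSetup G Ω a t Q) :
    normalizer (stabilizer G a : Set G) = stabilizer G a := by
  apply le_antisymm
  · intro g hg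
    obtain ⟨x, hx, hx1⟩ := R1.Q_ne_bot hS
    have h1 : g * x * g⁻¹ ∈ stabilizer G a := (mem_normalizer_iff.mp hg x).mp (hS.le hx)
    rw [mem_stabilizer_iff]
    by_contra hne
    have hne' : g⁻¹ • a ≠ a := by
      intro h
      apply hne
      rw [inv_smul_eq_iff] at h
      exact h.symm
    apply hx1
    apply R1.eq_one_of_fix hS hx hne'
    have h2 := mem_stabilizer_iff.mp h1
    rw [mul_smul, mul_smul] at h2
    rw [eq_inv_smul_iff]
    exact h2
  · exact Subgroup.le_normalizer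

theorem R1.exists_inv (hS : IsRankOneSetup G Ω a t Q) : ∃ s ∈ Q, s ≠ 1 ∧ s * s = 1 := by
  have h2 : 2 ∣ Nat.card Q := hS.even_card.two_dvd
  obtain ⟨s, hs⟩ := exists_prime_orderOf_dvd_card' 2 h2
  refine ⟨s, s.2, ?_, ?_⟩
  · intro h
    have : s = 1 := Subtype.ext h
    rw [this, orderOf_one] at hs
    exact absurd hs (by decide)
  · have := pow_orderOf_eq_one s
    rw [hs, pow_two] at this
    exact congrArg Subtype.val this

/-- Sylow `2`-subgroups lie in `Q`. -/
theorem R1.sylow_le (hS : IsRankOneSetup G Ω a t Q) : ∃ P : Sylow 2 G, (P : Subgroup G) ≤ Q := by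
  obtain ⟨R⟩ : Nonempty (Sylow 2 Q) := inferInstance
  have hR : IsPGroup 2 ((R : Subgroup Q).map Q.subtype) := R.2.map _
  have hidx : ¬ 2 ∣ ((R : Subgroup Q).map Q.subtype).index := by
    have h1 := ((R : Subgroup Q).map Q.subtype).card_mul_index
    have h2 := (R : Subgroup Q).card_mul_index
    have h3 : Nat.card ((R : Subgroup Q).map Q.subtype) = Nat.card (R : Subgroup Q) :=
      Subgroup.card_map_of_injective Q.subtype_injective
    rw [R1.card_G hS, h3, ← h2] at h1
    have hpos : 0 < Nat.card (R : Subgroup Q) := Nat.card_pos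
    have h4 : ((R : Subgroup Q).map Q.subtype).index =
        (R : Subgroup Q).index * Nat.card (DD a t) * (Nat.card Q + 1) := by
      apply Nat.eq_of_mul_eq_mul_left hpos
      rw [h1, ← h2]
      ring
    rw [h4]
    have h5 : ¬ 2 ∣ (R : Subgroup Q).index := R.not_dvd_index
    have h6 : ¬ 2 ∣ Nat.card (DD a t) := hS.odd_card.not_two_dvd_nat
    have h7 : ¬ 2 ∣ Nat.card Q + 1 := (hS.even_card.add_one).not_two_dvd_nat
    intro h
    rcases (Nat.prime_two.dvd_mul).mp h with h | h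
    · rcases (Nat.prime_two.dvd_mul).mp h with h | h
      · exact h5 h
      · exact h6 h
    · exact h7 h
  refine ⟨hR.toSylow hidx, ?_⟩
  rw [IsPGroup.toSylow_coe]
  rintro _ ⟨x, -, rfl⟩
  exact x.2

/-- The canonical form. -/
theorem R1.canonical (hS : IsRankOneSetup G Ω a t Q) (g : G) (hg : g ∉ stabilizer G a) :
    ∃! p : G × G, p.1 ∈ stabilizer G a ∧ p.2 ∈ Q ∧ g = p.1 * t * p.2 := by
  have hc : g⁻¹ • a ≠ a := by
    intro h
    apply hg
    rw [mem_stabilizer_iff]
    rw [inv_smul_eq_iff] at h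
    exact h.symm
  obtain ⟨x, hx, hxc⟩ := R1.trans hS hc
  refine ⟨(g * x * t, x⁻¹), ⟨?_, Subgroup.inv_mem _ hx, ?_⟩, ?_⟩
  · show g * x * t ∈ stabilizer G a
    rw [mem_stabilizer_iff, mul_smul, mul_smul, hxc, smul_inv_smul]
  · show g = g * x * t * t * x⁻¹
    rw [mul_assoc (g * x), hS.mul_self, mul_one]
    group
  · rintro ⟨p, q⟩ ⟨hp, hq, hpq⟩
    simp only at hp hq hpq
    have h1 : q⁻¹ • (t • a) = g⁻¹ • a := by
      rw [hpq]
      have hpa : p⁻¹ • a = a := by rw [inv_smul_eq_iff, mem_stabilizer_iff.mp hp]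
      rw [mul_inv_rev, mul_inv_rev, R1.tinv hS, mul_smul, mul_smul, hpa]
    have h2 : q⁻¹ = x := R1.fix_eq hS (Subgroup.inv_mem _ hq) hx (R1.hta hS) (h1.trans hxc.symm)
    have h3 : q = x⁻¹ := by rw [← h2, inv_inv]
    refine Prod.ext ?_ h3
    show p = g * x * t
    rw [hpq, h3]
    have : p * t * x⁻¹ * x * t = p * (t * t) := by group
    rw [this, hS.mul_self, mul_one]

end rankone

end Cfsg.Agent.H05
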