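import Cfsg.Agent.Lib.H05.RankOne

/-!
# The rank one set-up: involutions, inverted elements, fixed points of subsets of the two point stabilizer
-/

set_option autoImplicit false
set_option linter.style.haveILetI false
set_option linter.unusedSectionVars false

namespace Cfsg.Agent.H05

open Subgroup Cfsg MulAction

section sq
variable {G : Type*} [Group G] [Finite G]

/-- An odd order element is a square of one of its powers. -/
theorem exists_pow_sq {z : G} (h : Odd (orderOf z)) : ∃ m : ℕ, z ^ m * z ^ m = z := by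
  obtain ⟨k, hk⟩ := h
  refine ⟨k + 1, ?_⟩
  rw [← pow_add]
  have : k + 1 + (k + 1) = orderOf z + 1 := by omega
  rw [this, pow_succ, pow_orderOf_eq_one, one_mul]

theorem comm_of_sq_comm {z x : G} (h : Odd (orderOf z)) (hc : z * z * x = x * (z * z)) : z * x = x * z := by
  obtain ⟨m, hm⟩ := exists_pow_sq h
  have h1 : z = (z * z) ^ m := by
    have hc' : Commute z z := Commute.refl z
    rw [hc'.mul_pow, hm]
  have h2 : Commute (z * z) x := hc
  have h3 : Commute ((z * z) ^ m) x := h2.pow_left m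
  rw [← h1] at h3
  exact h3

theorem mem_invertedBy_pow {D : Subgroup G} {t k : G} (hk : k ∈ invertedBy D t) (m : ℕ) :
    k ^ m ∈ invertedBy D t := by
  refine ⟨pow_mem hk.1 m, ?_⟩
  rw [← conj_pow, hk.2, inv_pow]

theorem mem_invertedBy_inv {D : Subgroup G} {t k : G} (hk : k ∈ invertedBy D t) :
    k⁻¹ ∈ invertedBy D t := by
  refine ⟨inv_mem hk.1, ?_⟩
  rw [← conj_inv, hk.2]

theorem mem_C_iff {a y : G} : y ∈ centralizer ({a} : Set G) ↔ a * y = y * a := by
  rw [mem_centralizer_iff]; simp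

theorem sq_inj_of_odd_card {X : Subgroup G} (hodd : Odd (Nat.card X)) {u v : G} (hu : u ∈ X) (hv : v ∈ X)
    (h : u * u = v * v) : u = v := by
  obtain ⟨k, hk⟩ := hodd
  have key : ∀ y ∈ X, y = (y * y) ^ (k + 1) := by
    intro y hy
    have h1 : y ^ Nat.card X = 1 := by
      have := pow_card_eq_one' (x := (⟨y, hy⟩ : X))
      exact congrArg Subtype.val this
    rw [(Commute.refl y).mul_pow, ← pow_add]
    have : k + 1 + (k + 1) = Nat.card X + 1 := by omega
    rw [this, pow_succ, h1, one_mul]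
  rw [key u hu, key v hv, h]

/-- S1124: part of the factorization. -/
theorem fix_inv_factor {t : G} (ht : t * t = 1) {X : Subgroup G} (hodd : Odd (Nat.card X))
    (hnorm : ∀ x ∈ X, t * x * t⁻¹ ∈ X) (x : G) (hx : x ∈ X) :
    ∃! p : G × G, p.1 ∈ X ⊓ centralizer {t} ∧ p.2 ∈ invertedBy X t ∧ x = p.1 * p.2 := by
  have htinv : t⁻¹ = t := inv_eq_self_of_mul ht
  have hoddX : ∀ y ∈ X, Odd (orderOf y) := by
    intro y hy
    have h1 : orderOf y ∣ Nat.card X := by
      have := orderOf_dvd_natCard (⟨y, hy⟩ : X)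
      rwa [Subgroup.orderOf_mk] at this
    exact Odd.of_dvd_nat hodd h1
  have τmul : ∀ u v : G, t * (u * v) * t⁻¹ = (t * u * t⁻¹) * (t * v * t⁻¹) := fun u v => by group
  have τinv : ∀ u : G, t * u⁻¹ * t⁻¹ = (t * u * t⁻¹)⁻¹ := fun u => by group
  have ττ : ∀ u : G, t * (t * u * t⁻¹) * t⁻¹ = u := fun u => by
    rw [htinv]
    calc t * (t * u * t) * t = (t * t) * u * (t * t) := by simp only [mul_assoc]
      _ = u := by rw [ht, one_mul, mul_one]
  set z₀ := x⁻¹ * (t * x * t⁻¹) with hz₀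
  have hz₀K : z₀ ∈ invertedBy X t := by
    refine ⟨mul_mem (inv_mem hx) (hnorm x hx), ?_⟩
    rw [hz₀, τmul, τinv, ττ]
    group
  obtain ⟨m, hm⟩ := exists_pow_sq (hoddX z₀ hz₀K.1)
  set w := z₀ ^ m with hw
  have hwK : w ∈ invertedBy X t := mem_invertedBy_pow hz₀K m
  have hwK' : w⁻¹ ∈ invertedBy X t := mem_invertedBy_inv hwK
  refine ⟨(x * w, w⁻¹), ⟨?_, hwK', ?_⟩, ?_⟩
  · refine mem_inf.mpr ⟨mul_mem hx hwK.1, ?_⟩
    rw [mem_C_iff, ← mul_inv_eq_iff_eq_mul, τmul, hwK.2]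
    have h1 : t * x * t⁻¹ = x * z₀ := by rw [hz₀]; group
    rw [h1, ← hm]
    group
  · show x = x * w * w⁻¹
    group
  · rintro ⟨y, z⟩ ⟨hy, hz, hxyz⟩
    simp only at hy hz hxyz
    have hyt : t * y * t⁻¹ = y := by
      rw [mul_inv_eq_iff_eq_mul]
      exact mem_C_iff.mp (mem_inf.mp hy).2
    have h1 : t * x * t⁻¹ = y * z⁻¹ := by
      rw [hxyz, τmul, hyt, hz.2]
    have h2 : z₀ = z⁻¹ * z⁻¹ := by
      rw [hz₀, h1, hxyz]
      group
    have h3 : z = w⁻¹ := by
      apply sq_inj_of_odd_card hodd hz.1 hwK'.1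
      calc z * z = (z⁻¹ * z⁻¹)⁻¹ := by rw [mul_inv_rev, inv_inv]
        _ = z₀⁻¹ := by rw [h2]
        _ = (w * w)⁻¹ := by rw [hm]
        _ = w⁻¹ * w⁻¹ := by rw [mul_inv_rev]
    refine Prod.ext ?_ h3
    show y = x * w
    rw [hxyz, h3]
    group

/-- S1124: the count. -/
theorem fix_inv_card {t : G} (ht : t * t = 1) {X : Subgroup G} (hodd : Odd (Nat.card X))
    (hnorm : ∀ x ∈ X, t * x * t⁻¹ ∈ X) :
    Nat.card X = Nat.card ↥(X ⊓ centralizer {t}) * Nat.card (invertedBy X t) := by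
  rw [← Nat.card_prod]
  symm
  apply Nat.card_congr
  refine Equiv.ofBijective (fun p : ↥(X ⊓ centralizer {t}) × invertedBy X t =>
    (⟨(p.1 : G) * p.2, mul_mem (mem_inf.mp p.1.2).1 p.2.2.1⟩ : X)) ⟨?_, ?_⟩
  · rintro ⟨y, z⟩ ⟨y', z'⟩ h
    have h' : (y : G) * z = y' * z' := congrArg Subtype.val h
    obtain ⟨p, -, hp⟩ := fix_inv_factor ht hodd hnorm ((y : G) * z) (mul_mem (mem_inf.mp y.2).1 z.2.1)
    have h1 := hp ((y : G), (z : G)) ⟨y.2, z.2, rfl⟩
    have h2 := hp ((y' : G), (z' : G)) ⟨y'.2, z'.2, h'⟩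
    have h3 := h1.trans h2.symm
    have h4 : (y : G) = y' := congrArg Prod.fst h3
    have h5 : (z : G) = z' := congrArg Prod.snd h3
    exact Prod.ext (Subtype.ext h4) (Subtype.ext h5)
  · rintro ⟨x, hx⟩
    obtain ⟨⟨y, z⟩, ⟨hy, hz, hxyz⟩, -⟩ := fix_inv_factor ht hodd hnorm x hx
    exact ⟨(⟨y, hy⟩, ⟨z, hz⟩), Subtype.ext hxyz.symm⟩

/-- S1124: normality of the closure of inverted elements. -/
theorem closure_inverted_conj {t : G} (ht : t * t = 1) {X : Subgroup G} (hodd : Odd (Nat.card X))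
    (hnorm : ∀ x ∈ X, t * x * t⁻¹ ∈ X) {x : G} (hx : x ∈ X) :
    (closure (invertedBy X t)).map (MulAut.conj x).toMonoidHom = closure (invertedBy X t) := by
  have key : ∀ x ∈ X, (closure (invertedBy X t)).map (MulAut.conj x).toMonoidHom ≤ closure (invertedBy X t) := by
    intro x hx
    obtain ⟨⟨y, z⟩, ⟨hy, hz, hxyz⟩, -⟩ := fix_inv_factor ht hodd hnorm x hx
    simp only at hy hz hxyz
    have hyt : t * y * t⁻¹ = y := by
      rw [mul_inv_eq_iff_eq_mul]
      exact mem_C_iff.mp (mem_inf.mp hy).2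
    have hycl : closure (invertedBy X t) ≤ (closure (invertedBy X t)).comap (MulAut.conj y).toMonoidHom := by
      refine (closure_le _).mpr ?_
      intro c hc
      apply Subgroup.subset_closure
      refine ⟨?_, ?_⟩
      · exact mul_mem (mul_mem (mem_inf.mp hy).1 hc.1) (inv_mem (mem_inf.mp hy).1)
      · have h1 : t * (y * c * y⁻¹) * t⁻¹ = (t * y * t⁻¹) * (t * c * t⁻¹) * (t * y * t⁻¹)⁻¹ := by group
        show t * (y * c * y⁻¹) * t⁻¹ = (y * c * y⁻¹)⁻¹
        rw [h1, hyt, hc.2]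
        group
    rw [Subgroup.map_le_iff_le_comap]
    intro c hc
    rw [mem_comap]
    show x * c * x⁻¹ ∈ closure (invertedBy X t)
    have hzcl : z ∈ closure (invertedBy X t) := Subgroup.subset_closure hz
    have h2 : z * c * z⁻¹ ∈ closure (invertedBy X t) := mul_mem (mul_mem hzcl hc) (inv_mem hzcl)
    have h3 := hycl h2
    rw [mem_comap] at h3
    have h4 : x * c * x⁻¹ = y * (z * c * z⁻¹) * y⁻¹ := by rw [hxyz]; group
    rw [h4]
    exact h3
  apply le_antisymm (key x hx)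
  have h := key x⁻¹ (inv_mem hx)
  intro c hc
  refine ⟨x⁻¹ * c * x, h ⟨c, hc, ?_⟩, ?_⟩
  · simp
  · simp [MulAut.conj_apply]
    group

end sq

section conjall
variable {G Ω : Type*} [Group G] [Finite G] [MulAction G Ω]

/-- All involutions are conjugate. -/
theorem OneFix.conj_all (hF : OneFix G Ω) (hT : ∀ x y : Ω, ∃ g : G, g • x = y)
    (hN : ∀ x : Ω, ∃ z : Ω, z ≠ x) {u v : G} (hu : u * u = 1) (hu1 : u ≠ 1) (hv : v * v = 1) (hv1 : v ≠ 1) :
    ∃ g : G, g * u * g⁻¹ = v := by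
  obtain ⟨x, hx, -⟩ := hF u hu hu1
  obtain ⟨y, hy, -⟩ := hF v hv hv1
  by_cases hxy : x = y
  · obtain ⟨z, hz⟩ := hN x
    obtain ⟨g₀, hg₀⟩ := hT x z
    set u' := g₀ * u * g₀⁻¹ with hu'
    have hu'u : u' * u' = 1 := by
      calc u' * u' = g₀ * (u * u) * g₀⁻¹ := by rw [hu']; group
        _ = 1 := by rw [hu]; group
    have hu'1 : u' ≠ 1 := by
      intro h
      apply hu1
      have : u = g₀⁻¹ * u' * g₀ := by rw [hu']; group
      rw [this, h]
      group
    have hu'f : u' • z = z := by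
      rw [hu', ← hg₀, mul_smul, mul_smul, inv_smul_smul, hx]
    have hzy : z ≠ y := fun h => hz (h.trans hxy.symm)
    obtain ⟨k, h1, h2⟩ := hF.exists_mid hu'u hu'1 hv hv1 hu'f hy hzy
    set w := (u' * v) ^ k * u' with hw
    refine ⟨w * g₀, ?_⟩
    have e : w * g₀ * u * (w * g₀)⁻¹ = w * u' * w⁻¹ := by rw [hu']; group
    rw [e, inv_eq_self_of_mul h1]
    exact h2
  · obtain ⟨k, h1, h2⟩ := hF.exists_mid hu hu1 hv hv1 hx hy hxy
    set w := (u * v) ^ k * u with hw
    refine ⟨w, ?_⟩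
    rw [inv_eq_self_of_mul h1]
    exact h2

end conjall

end Cfsg.Agent.H05
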