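import Cfsg.Agent.Lib.H05.RankOne2

/-!
# The rank one set-up: canonical forms, fixed points of subsets of the two point stabilizer
-/

set_option autoImplicit false
set_option linter.style.haveILetI false
set_option linter.unusedSectionVars false

namespace Cfsg.Agent.H05

open Subgroup Cfsg MulAction

section rankone
variable {G Ω : Type*} [Group G] [Finite G] [MulAction G Ω] {a : Ω} {t : G} {Q : Subgroup G}

/-- S1121. -/
theorem R1.odd_conj (hS : IsRankOneSetup G Ω a t Q) :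
    (∀ s u : G, s ∈ stabilizer G a → s ≠ 1 → s * s = 1 → u ∉ stabilizer G a → u ≠ 1 → u * u = 1 →
      Odd (orderOf (s * u))) ∧
      ∀ u v : G, u ≠ 1 → u * u = 1 → v ≠ 1 → v * v = 1 → ∃ g : G, g * u * g⁻¹ = v := by
  have hF := R1.oneFix hS
  constructor
  · intro s u hs hs1 hss hu hu1 huu
    obtain ⟨y, hy, -⟩ := hF u huu hu1
    have hne : a ≠ y := by
      rintro rfl
      exact hu (mem_stabilizer_iff.mpr hy)
    exact hF.odd_mul hss hs1 huu hu1 (mem_stabilizer_iff.mp hs) hy hne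
  · intro u v hu1 hu hv1 hv
    refine hF.conj_all ?_ ?_ hu hu1 hv hv1
    · intro x y
      by_cases hxy : x = y
      · exact ⟨1, by rw [one_smul, hxy]⟩
      · obtain ⟨g, hg, -⟩ := R1.two_trans hS hxy (fun h : y = x => hxy h.symm)
        exact ⟨g, hg⟩
    · intro x
      by_cases hx : x = a
      · exact ⟨t • a, by rw [hx]; exact R1.hta hS⟩
      · exact ⟨a, fun h => hx h.symm⟩

theorem R1.involutions_nonempty (hS : IsRankOneSetup G Ω a t Q) :
    (involutionsIn (stabilizer G a : Set G)).Nonempty := by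
  obtain ⟨s, hs, hs1, hss⟩ := R1.exists_inv hS
  exact ⟨s, hS.le hs, hs1, hss⟩

/-- S1122. -/
theorem R1.card_K (hS : IsRankOneSetup G Ω a t Q) :
    Nat.card (invertedBy (DD a t) t) = Nat.card (involutionsIn (stabilizer G a : Set G)) :=
  (R1.oneFix hS).card_K hS.mul_self (R1.hta hS) (R1.involutions_nonempty hS)

/-- S1123. -/
theorem R1.unique_sr (hS : IsRankOneSetup G Ω a t Q) :
    ∃! p : G × G, p.1 ∈ involutionsIn (stabilizer G a : Set G) ∧ p.2 ∈ Q ∧ t * p.1 * t = p.2⁻¹ * t * p.2 := by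
  have hF := R1.oneFix hS
  have htt := hS.mul_self
  obtain ⟨c, hc, -⟩ := hF t htt hS.ne_one
  have hca : c ≠ a := by
    rintro rfl
    exact R1.hta hS hc
  obtain ⟨r, hr, hrc⟩ := R1.trans hS hca
  have hdef : t * (t * r⁻¹ * t * r * t) * t = r⁻¹ * t * r := by
    calc t * (t * r⁻¹ * t * r * t) * t = (t * t) * r⁻¹ * t * r * (t * t) := by simp only [mul_assoc]
      _ = r⁻¹ * t * r := by rw [htt, one_mul, mul_one]
  refine ⟨(t * r⁻¹ * t * r * t, r), ⟨?_, hr, hdef⟩, ?_⟩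
  · rw [mem_invo]
    refine ⟨?_, ?_, ?_⟩
    · simp only [mul_smul]
      rw [hrc, hc, ← hrc, inv_smul_smul, R1.ttsmul hS]
    · intro h
      have h' : t * r⁻¹ * t * r * t = 1 := h
      rw [h', mul_one, htt] at hdef
      apply hS.ne_one
      have : t = r * (r⁻¹ * t * r) * r⁻¹ := by group
      rw [this, ← hdef]
      group
    · have hu : (r⁻¹ * t * r) * (r⁻¹ * t * r) = 1 := by
        calc (r⁻¹ * t * r) * (r⁻¹ * t * r) = r⁻¹ * (t * t) * r := by group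
          _ = 1 := by rw [htt]; group
      show (t * r⁻¹ * t * r * t) * (t * r⁻¹ * t * r * t) = 1
      calc t * r⁻¹ * t * r * t * (t * r⁻¹ * t * r * t)
          = t * (r⁻¹ * t * r) * (t * t) * (r⁻¹ * t * r) * t := by simp only [mul_assoc]
        _ = t * ((r⁻¹ * t * r) * (r⁻¹ * t * r)) * t := by rw [htt, mul_one]; simp only [mul_assoc]
        _ = 1 := by rw [hu, mul_one, htt]
  · rintro ⟨s, q⟩ ⟨hs, hq, hsq⟩
    simp only at hs hq hsq
    rw [mem_invo] at hs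
    obtain ⟨h1, h2, h3⟩ := hs
    -- the involution `t s t` fixes `t a`
    have hinv : (t * s * t) * (t * s * t) = 1 := by
      calc (t * s * t) * (t * s * t) = t * s * (t * t) * s * t := by simp only [mul_assoc]
        _ = t * (s * s) * t := by rw [htt, mul_one]; simp only [mul_assoc]
        _ = 1 := by rw [h3, mul_one, htt]
    have hne : t * s * t ≠ 1 := by
      intro h
      apply h2
      have : s = t * (t * s * t) * t := by
        calc s = (t * t) * s * (t * t) := by rw [htt, one_mul, mul_one]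
          _ = t * (t * s * t) * t := by simp only [mul_assoc]
      rw [this, h, mul_one, htt]
    have hf1 : (t * s * t) • (t • a) = t • a := by
      simp only [mul_smul]
      rw [R1.ttsmul hS, h1]
    have hf2 : (t * s * t) • (q⁻¹ • c) = q⁻¹ • c := by
      rw [hsq]
      simp only [mul_smul, smul_inv_smul, hc]
    have hfp := hF.eq hinv hne hf1 hf2
    have hqc : q • (t • a) = c := by
      rw [hfp, smul_inv_smul]
    have hqr : q = r := R1.fix_eq hS hq hr (R1.hta hS) (hqc.trans hrc.symm)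
    refine Prod.ext ?_ hqr
    show s = t * r⁻¹ * t * r * t
    rw [← hqr]
    calc s = (t * t) * s * (t * t) := by rw [htt, one_mul, mul_one]
      _ = t * (t * s * t) * t := by simp only [mul_assoc]
      _ = t * (q⁻¹ * t * q) * t := by rw [hsq]
      _ = t * q⁻¹ * t * q * t := by simp only [mul_assoc]

/-- A subset of the two point stabilizer has the elements of `Q` carrying `t a` to fixed points
in its centralizer. -/
theorem R1.fixQ (hS : IsRankOneSetup G Ω a t Q) {X : Set G} (hX : X ⊆ (DD a t : Set G)) {c : Ω}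
    (hcF : ∀ x ∈ X, x • c = c) (hc : c ≠ a) : ∃ r ∈ centralizer X ⊓ Q, r • (t • a) = c := by
  obtain ⟨r, hr, hrc⟩ := R1.trans hS hc
  refine ⟨r, mem_inf.mpr ⟨?_, hr⟩, hrc⟩
  rw [mem_centralizer_iff]
  intro x hx
  have hxD := hX hx
  have hxb : x⁻¹ • (t • a) = t • a := by
    rw [inv_smul_eq_iff]
    exact (mem_stabilizer_iff.mp (mem_inf.mp hxD).2).symm
  have h1 : x * r * x⁻¹ ∈ Q := R1.D_norm hS x hxD r hr
  have h2 : (x * r * x⁻¹) • (t • a) = r • (t • a) := by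
    simp only [mul_smul]
    rw [hxb, hrc, hcF x hx]
  have h3 := R1.fix_eq hS h1 hr (R1.hta hS) h2
  calc x * r = (x * r * x⁻¹) * x := by group
    _ = r * x := by rw [h3]

theorem R1.swap_D (hS : IsRankOneSetup G Ω a t Q) : DD (t • a) t = DD a t := by
  show stabilizer G (t • a) ⊓ stabilizer G (t • t • a) = stabilizer G a ⊓ stabilizer G (t • a)
  rw [R1.ttsmul hS, inf_comm]

theorem R1.third (hS : IsRankOneSetup G Ω a t Q) {X : Set G}
    (h3 : ∃ b c d : Ω, b ≠ c ∧ b ≠ d ∧ c ≠ d ∧ ∀ x ∈ X, x • b = b ∧ x • c = c ∧ x • d = d) :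
    ∃ c : Ω, c ≠ a ∧ c ≠ t • a ∧ ∀ x ∈ X, x • c = c := by
  obtain ⟨b, c, d, hbc, hbd, hcd, h⟩ := h3
  by_cases hb : b ≠ a ∧ b ≠ t • a
  · exact ⟨b, hb.1, hb.2, fun x hx => (h x hx).1⟩
  by_cases hc : c ≠ a ∧ c ≠ t • a
  · exact ⟨c, hc.1, hc.2, fun x hx => (h x hx).2.1⟩
  refine ⟨d, ?_, ?_, fun x hx => (h x hx).2.2⟩
  · rintro rfl
    have hb' : b = t • d := by
      by_contra hne
      exact hb ⟨hbd, hne⟩
    have hc' : c = t • d := by
      by_contra hne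
      exact hc ⟨hcd, hne⟩
    exact hbc (hb'.trans hc'.symm)
  · rintro rfl
    have hb' : b = a := by
      by_contra hne
      exact hb ⟨hne, hbd⟩
    have hc' : c = a := by
      by_contra hne
      exact hc ⟨hne, hcd⟩
    exact hbc (hb'.trans hc'.symm)

variable {X : Set G}

theorem R1.fixSwap (hS : IsRankOneSetup G Ω a t Q) (hX : X ⊆ (DD a t : Set G)) {c : Ω}
    (hcF : ∀ x ∈ X, x • c = c) (hc : c ≠ t • a) : ∃ r ∈ centralizer X, r • a = c ∧ r • (t • a) = t • a := by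
  have hS' := R1.swap hS
  have hX' : X ⊆ (DD (t • a) t : Set G) := by rw [R1.swap_D hS]; exact hX
  obtain ⟨r, hr, hrc⟩ := R1.fixQ hS' hX' hcF hc
  rw [R1.ttsmul hS] at hrc
  exact ⟨r, (mem_inf.mp hr).1, hrc, R1.Qa hS' (mem_inf.mp hr).2⟩

/-- `C(X)` is transitive on the fixed points of `X`. -/
theorem R1.C_trans (hS : IsRankOneSetup G Ω a t Q) (hX : X ⊆ (DD a t : Set G))
    (h3 : ∃ b c d : Ω, b ≠ c ∧ b ≠ d ∧ c ≠ d ∧ ∀ x ∈ X, x • b = b ∧ x • c = c ∧ x • d = d) {y : Ω}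
    (hy : ∀ x ∈ X, x • y = y) : ∃ g ∈ centralizer X, g • a = y := by
  obtain ⟨c₀, hc₀a, hc₀b, hc₀⟩ := R1.third hS h3
  by_cases hya : y = a
  · exact ⟨1, one_mem _, by rw [one_smul, hya]⟩
  by_cases hyb : y = t • a
  · obtain ⟨r', hr', hr'a, -⟩ := R1.fixSwap hS hX hc₀ hc₀b
    obtain ⟨r, hr, hrb⟩ := R1.fixQ hS hX hc₀ hc₀a
    refine ⟨r⁻¹ * r', mul_mem (Subgroup.inv_mem _ (mem_inf.mp hr).1) hr', ?_⟩
    rw [mul_smul, hr'a, hyb, inv_smul_eq_iff, hrb]
  · obtain ⟨r', hr', hr'a, -⟩ := R1.fixSwap hS hX hy hyb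
    exact ⟨r', hr', hr'a⟩

theorem fix_of_centralizer {g : G} (hg : g ∈ centralizer X) {y : Ω} (hy : ∀ x ∈ X, x • y = y) :
    ∀ x ∈ X, x • (g • y) = g • y := by
  intro x hx
  have h1 := mem_centralizer_iff.mp hg x hx
  rw [smul_smul, h1, mul_smul, hy x hx]

/-- Any pair of distinct fixed points can be carried to `a, t a`. -/
theorem R1.C_pair (hS : IsRankOneSetup G Ω a t Q) (hX : X ⊆ (DD a t : Set G))
    (h3 : ∃ b c d : Ω, b ≠ c ∧ b ≠ d ∧ c ≠ d ∧ ∀ x ∈ X, x • b = b ∧ x • c = c ∧ x • d = d) {b₁ b₂ : Ω}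
    (hb₁ : ∀ x ∈ X, x • b₁ = b₁) (hb₂ : ∀ x ∈ X, x • b₂ = b₂) (hne : b₁ ≠ b₂) :
    ∃ h ∈ centralizer X, h • b₁ = a ∧ h • b₂ = t • a := by
  obtain ⟨g, hg, hga⟩ := R1.C_trans hS hX h3 hb₁
  have hg' : g⁻¹ ∈ centralizer X := Subgroup.inv_mem _ hg
  have h1 : g⁻¹ • b₁ = a := by rw [inv_smul_eq_iff, hga]
  have h2 : g⁻¹ • b₂ ≠ a := by
    intro h
    rw [inv_smul_eq_iff, hga] at h
    exact hne h.symm
  obtain ⟨r, hr, hrb⟩ := R1.fixQ hS hX (fix_of_centralizer hg' hb₂) h2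
  have hrC := (mem_inf.mp hr).1
  refine ⟨r⁻¹ * g⁻¹, mul_mem (Subgroup.inv_mem _ hrC) hg', ?_, ?_⟩
  · rw [mul_smul, h1, inv_smul_eq_iff]
    exact (R1.Qa hS (mem_inf.mp hr).2).symm
  · rw [mul_smul, inv_smul_eq_iff, hrb]

/-- `C(X)` is doubly transitive on the fixed points of `X`. -/
theorem R1.C_two (hS : IsRankOneSetup G Ω a t Q) (hX : X ⊆ (DD a t : Set G))
    (h3 : ∃ b c d : Ω, b ≠ c ∧ b ≠ d ∧ c ≠ d ∧ ∀ x ∈ X, x • b = b ∧ x • c = c ∧ x • d = d) {b₁ b₂ c₁ c₂ : Ω}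
    (hf : ∀ x ∈ X, x • b₁ = b₁ ∧ x • b₂ = b₂ ∧ x • c₁ = c₁ ∧ x • c₂ = c₂) (hb : b₁ ≠ b₂) (hc : c₁ ≠ c₂) :
    ∃ g ∈ centralizer X, g • b₁ = c₁ ∧ g • b₂ = c₂ := by
  obtain ⟨h₁, hh₁, h₁a, h₁b⟩ := R1.C_pair hS hX h3 (fun x hx => (hf x hx).1) (fun x hx => (hf x hx).2.1) hb
  obtain ⟨h₂, hh₂, h₂a, h₂b⟩ := R1.C_pair hS hX h3 (fun x hx => (hf x hx).2.2.1) (fun x hx => (hf x hx).2.2.2) hc
  refine ⟨h₂⁻¹ * h₁, mul_mem (Subgroup.inv_mem _ hh₂) hh₁, ?_, ?_⟩
  · rw [mul_smul, h₁a, inv_smul_eq_iff, h₂a]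
  · rw [mul_smul, h₁b, inv_smul_eq_iff, h₂b]

/-- `C_Q(X)` contains an involution. -/
theorem R1.exists_inv_C (hS : IsRankOneSetup G Ω a t Q) (hX : X ⊆ (DD a t : Set G))
    (h3 : ∃ b c d : Ω, b ≠ c ∧ b ≠ d ∧ c ≠ d ∧ ∀ x ∈ X, x • b = b ∧ x • c = c ∧ x • d = d) :
    ∃ s ∈ centralizer X ⊓ Q, s ≠ 1 ∧ s * s = 1 := by
  have hF := R1.oneFix hS
  have hfa : ∀ x ∈ X, x • a = a := fun x hx => mem_stabilizer_iff.mp (mem_inf.mp (hX hx)).1
  have hfb : ∀ x ∈ X, x • (t • a) = t • a := fun x hx => mem_stabilizer_iff.mp (mem_inf.mp (hX hx)).2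
  obtain ⟨w, hw, hwa, hwb⟩ := R1.C_two hS hX h3 (b₁ := a) (b₂ := t • a) (c₁ := t • a) (c₂ := a)
    (fun x hx => ⟨hfa x hx, hfb x hx, hfb x hx, hfa x hx⟩) (R1.hat hS) (R1.hta hS)
  have heven : Even (orderOf w) := by
    by_contra hodd
    rw [Nat.not_even_iff_odd] at hodd
    obtain ⟨m, hm⟩ := exists_pow_sq hodd
    have h1 : ∀ n : ℕ, (w * w) ^ n • a = a := by
      intro n
      induction n with
      | zero => simp
      | succ n ih => rw [pow_succ, mul_smul, mul_smul, hwa, hwb, ih]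
    have h2 : w = (w * w) ^ m := by
      rw [(Commute.refl w).mul_pow, hm]
    have h3 : w • a = a := by
      rw [h2]
      exact h1 m
    exact R1.hta hS (hwa.symm.trans h3)
  obtain ⟨m, hm⟩ := heven
  have hpos : 0 < orderOf w := orderOf_pos w
  have hm1 : 0 < m := by omega
  set j := w ^ m with hj
  have hj1 : j ≠ 1 := pow_ne_one_of_lt_orderOf hm1.ne' (by omega)
  have hjj : j * j = 1 := by rw [hj, ← pow_add, ← hm, pow_orderOf_eq_one]
  have hjC : j ∈ centralizer X := pow_mem hw m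
  obtain ⟨e, he, -⟩ := hF j hjj hj1
  have heF : ∀ x ∈ X, x • e = e := fun x hx =>
    hF.comm_fix hjj hj1 he (mem_centralizer_iff.mp hjC x hx)
  obtain ⟨g, hg, hga⟩ := R1.C_trans hS hX h3 heF
  refine ⟨g⁻¹ * j * g, mem_inf.mpr ⟨mul_mem (mul_mem (Subgroup.inv_mem _ hg) hjC) hg, ?_⟩, ?_, ?_⟩
  · apply R1.invol_mem hS
    · rw [mem_stabilizer_iff, mul_smul, mul_smul, hga, he, inv_smul_eq_iff, hga]
    · calc g⁻¹ * j * g * (g⁻¹ * j * g) = g⁻¹ * (j * j) * g := by group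
        _ = 1 := by rw [hjj]; group
  · intro h
    apply hj1
    have : j = g * (g⁻¹ * j * g) * g⁻¹ := by group
    rw [this, h]
    group
  · calc g⁻¹ * j * g * (g⁻¹ * j * g) = g⁻¹ * (j * j) * g := by group
      _ = 1 := by rw [hjj]; group

/-- The involution in `C(X)` interchanging `a` and `t a`. -/
theorem R1.exists_swap (hS : IsRankOneSetup G Ω a t Q) (hX : X ⊆ (DD a t : Set G))
    (h3 : ∃ b c d : Ω, b ≠ c ∧ b ≠ d ∧ c ≠ d ∧ ∀ x ∈ X, x • b = b ∧ x • c = c ∧ x • d = d) :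
    ∃ w ∈ centralizer X, w * w = 1 ∧ w • a = t • a := by
  have hF := R1.oneFix hS
  have hS' := R1.swap hS
  have hX' : X ⊆ (DD (t • a) t : Set G) := by rw [R1.swap_D hS]; exact hX
  obtain ⟨s, hs, hs1, hss⟩ := R1.exists_inv_C hS hX h3
  obtain ⟨u, hu, hu1, huu⟩ := R1.exists_inv_C hS' hX' h3
  have hsf : s • a = a := R1.Qa hS (mem_inf.mp hs).2
  have huf : u • (t • a) = t • a := R1.Qa hS' (mem_inf.mp hu).2
  obtain ⟨k, h1, h2⟩ := hF.exists_mid hss hs1 huu hu1 hsf huf (R1.hat hS)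
  refine ⟨(s * u) ^ k * s, mul_mem (pow_mem (mul_mem (mem_inf.mp hs).1 (mem_inf.mp hu).1) k) (mem_inf.mp hs).1, h1, ?_⟩
  exact hF.mid_smul huu hu1 hsf huf h1 h2

/-- S1125. -/
theorem R1.fix_three (hS : IsRankOneSetup G Ω a t Q) (hX : X ⊆ (DD a t : Set G))
    (h3 : ∃ b c d : Ω, b ≠ c ∧ b ≠ d ∧ c ≠ d ∧ ∀ x ∈ X, x • b = b ∧ x • c = c ∧ x • d = d) :
    (∀ b₁ b₂ c₁ c₂ : Ω, (∀ x ∈ X, x • b₁ = b₁ ∧ x • b₂ = b₂ ∧ x • c₁ = c₁ ∧ x • c₂ = c₂) →
        b₁ ≠ b₂ → c₁ ≠ c₂ → ∃ g ∈ centralizer X, g • b₁ = c₁ ∧ g • b₂ = c₂) ∧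
      Even (Nat.card ↥(centralizer X ⊓ Q)) ∧
      (centralizer X ⊓ Q) ⊔ (centralizer X ⊓ DD a t) = centralizer X ⊓ stabilizer G a := by
  refine ⟨fun b₁ b₂ c₁ c₂ hf hb hc => R1.C_two hS hX h3 hf hb hc, ?_, ?_⟩
  · obtain ⟨s, hs, hs1, hss⟩ := R1.exists_inv_C hS hX h3
    have h1 : orderOf s = 2 := orderOf_eq_prime (by rw [pow_two]; exact hss) hs1
    have h2 : orderOf s ∣ Nat.card ↥(centralizer X ⊓ Q) := by
      have := orderOf_dvd_natCard (⟨s, hs⟩ : ↥(centralizer X ⊓ Q))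
      rwa [Subgroup.orderOf_mk] at this
    rw [h1] at h2
    exact (even_iff_two_dvd).mpr h2
  · apply le_antisymm
    · refine sup_le ?_ ?_
      · exact le_inf inf_le_left (inf_le_right.trans hS.le)
      · exact le_inf inf_le_left (inf_le_right.trans inf_le_left)
    · intro y hy
      have hyC := (mem_inf.mp hy).1
      have hya : y • a = a := mem_stabilizer_iff.mp (mem_inf.mp hy).2
      have hfb : ∀ x ∈ X, x • (t • a) = t • a := fun x hx => mem_stabilizer_iff.mp (mem_inf.mp (hX hx)).2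
      have h1 : y • (t • a) ≠ a := by
        intro h
        apply R1.hta hS
        have h2 : y⁻¹ • a = a := by rw [inv_smul_eq_iff, hya]
        rw [← h] at h2
        rw [inv_smul_smul] at h2
        rw [h2, h]
      obtain ⟨r, hr, hrb⟩ := R1.fixQ hS hX (fix_of_centralizer hyC hfb) h1
      have h2 : r⁻¹ * y ∈ centralizer X ⊓ DD a t := by
        refine mem_inf.mpr ⟨mul_mem (Subgroup.inv_mem _ (mem_inf.mp hr).1) hyC, mem_inf.mpr ⟨?_, ?_⟩⟩
        · rw [mem_stabilizer_iff, mul_smul, hya, inv_smul_eq_iff]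
          exact (R1.Qa hS (mem_inf.mp hr).2).symm
        · rw [mem_stabilizer_iff, mul_smul, inv_smul_eq_iff, hrb]
      have h3' : y = r * (r⁻¹ * y) := by group
      rw [h3']
      exact mul_mem (mem_sup_left hr) (mem_sup_right h2)

/-- S1126. -/
theorem R1.conj_into_V (hS : IsRankOneSetup G Ω a t Q) (hX : X ⊆ (DD a t : Set G))
    (h3 : ∃ b c d : Ω, b ≠ c ∧ b ≠ d ∧ c ≠ d ∧ ∀ x ∈ X, x • b = b ∧ x • c = c ∧ x • d = d) :
    ∃ k ∈ DD a t, ∀ x ∈ X, (k * x * k⁻¹) * t = t * (k * x * k⁻¹) := by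
  obtain ⟨w, hw, hww, hwa⟩ := R1.exists_swap hS hX h3
  have htt := hS.mul_self
  have hwb : w • (t • a) = a := by rw [← hwa, smul_smul, hww, one_smul]
  set z := t * w with hz
  have hzK : z ∈ invertedBy (DD a t) t := by
    rw [mem_inv]
    refine ⟨?_, ?_, ?_⟩
    · rw [hz, mul_smul, hwa, R1.ttsmul hS]
    · rw [hz, mul_smul, hwb]
    · rw [hz, R1.tinv hS, mul_inv_rev, R1.tinv hS, inv_eq_self_of_mul hww]
      calc t * (t * w) * t = (t * t) * w * t := by simp only [mul_assoc]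
        _ = w * t := by rw [htt, one_mul]
  obtain ⟨m, hm⟩ := exists_pow_sq (R1.odd_order hS hzK.1)
  set l := z ^ m with hl
  have hlK : l ∈ invertedBy (DD a t) t := mem_invertedBy_pow hzK m
  refine ⟨l, hlK.1, ?_⟩
  have hlt : t * l = l⁻¹ * t := by
    have h := hlK.2
    rw [mul_inv_eq_iff_eq_mul] at h
    exact h
  have hwl : w = l⁻¹ * t * l := by
    have h1 : w = t * z := by rw [hz, ← mul_assoc, htt, one_mul]
    rw [h1, ← hm, ← mul_assoc, hlt]
  intro x hx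
  have hxw : x * w = w * x := mem_centralizer_iff.mp hw x hx
  calc l * x * l⁻¹ * t = l * x * (l⁻¹ * t * l) * l⁻¹ := by group
    _ = l * (x * w) * l⁻¹ := by rw [← hwl]; group
    _ = l * (w * x) * l⁻¹ := by rw [hxw]
    _ = l * (l⁻¹ * t * l) * x * l⁻¹ := by rw [← hwl]; group
    _ = t * (l * x * l⁻¹) := by group

/-- S1128. -/
theorem R1.fpf_K (hS : IsRankOneSetup G Ω a t Q) {x : G} (hx : x ∈ invertedBy (DD a t) t) (hx1 : x ≠ 1) :
    Q ⊓ centralizer {x} = ⊥ := by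
  rw [eq_bot_iff]
  intro r hr
  by_contra hr1
  rw [mem_bot] at hr1
  have hrQ := (mem_inf.mp hr).1
  have hrc : x * r = r * x := mem_C_iff.mp (mem_inf.mp hr).2
  have hxD := hx.1
  have hfa : x • a = a := mem_stabilizer_iff.mp (mem_inf.mp hxD).1
  have hfb : x • (t • a) = t • a := mem_stabilizer_iff.mp (mem_inf.mp hxD).2
  have hX : ({x} : Set G) ⊆ (DD a t : Set G) := by
    rintro _ rfl
    exact hxD
  have h3 : ∃ b c d : Ω, b ≠ c ∧ b ≠ d ∧ c ≠ d ∧ ∀ y ∈ ({x} : Set G), y • b = b ∧ y • c = c ∧ y • d = d := by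
    refine ⟨a, t • a, r • (t • a), R1.hat hS, ?_, ?_, ?_⟩
    · intro h
      apply R1.hta hS
      have h1 : r⁻¹ • a = a := by rw [inv_smul_eq_iff]; exact (R1.Qa hS hrQ).symm
      calc t • a = r⁻¹ • r • (t • a) := (inv_smul_smul r _).symm
        _ = r⁻¹ • a := by rw [← h]
        _ = a := h1
    · intro h
      exact hr1 (R1.eq_one_of_fix hS hrQ (R1.hta hS) h.symm)
    · rintro _ rfl
      refine ⟨hfa, hfb, ?_⟩
      rw [smul_smul, hrc, mul_smul, hfb]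
  obtain ⟨w, hw, hww, hwa⟩ := R1.exists_swap hS hX h3
  have htt := hS.mul_self
  have hwb : w • (t • a) = a := by rw [← hwa, smul_smul, hww, one_smul]
  set z := t * w with hz
  have hzD : z ∈ DD a t := by
    refine mem_inf.mpr ⟨?_, ?_⟩
    · rw [mem_stabilizer_iff, hz, mul_smul, hwa, R1.ttsmul hS]
    · rw [mem_stabilizer_iff, hz, mul_smul, hwb]
  have hxw : x * w = w * x := mem_centralizer_iff.mp hw x rfl
  have hzx : z * x * z⁻¹ = x⁻¹ := by
    have h1 : z * x * z⁻¹ = t * (w * x * w⁻¹) * t⁻¹ := by rw [hz]; group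
    have h2 : w * x * w⁻¹ = x := by rw [← hxw]; group
    rw [h1, h2, hx.2]
  have hcomm : z * z * x = x * (z * z) := by
    have h1 : z * x⁻¹ * z⁻¹ = x := by
      have : z * x⁻¹ * z⁻¹ = (z * x * z⁻¹)⁻¹ := by group
      rw [this, hzx, inv_inv]
    calc z * z * x = z * (z * x * z⁻¹) * z := by group
      _ = z * x⁻¹ * z⁻¹ * z * z := by rw [hzx]; group
      _ = x * (z * z) := by rw [h1]; group
  have hzc : z * x = x * z := comm_of_sq_comm (R1.odd_order hS hzD) hcomm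
  have hxx : x * x = 1 := by
    have h1 : z * x * z⁻¹ = x := by rw [hzc]; group
    rw [hzx] at h1
    calc x * x = x⁻¹ * x := by rw [h1]
      _ = 1 := inv_mul_cancel x
  exact hx1 (eq_one_of_mul_self_of_odd (R1.odd_order hS hxD) hxx)

end rankone

end Cfsg.Agent.H05
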