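import Cfsg.Agent.Lib.H05.RankOne3
import Cfsg.Agent.Lib.H05.Sig

/-!
# The rank one set-up: `O_{2'}(G)`, the element `s`, fusion in `V`, canonical forms
-/

set_option autoImplicit false
set_option linter.style.haveILetI false
set_option linter.unusedSectionVars false

namespace Cfsg.Agent.H05

open Subgroup Cfsg MulAction

section klein
variable {G : Type*} [Group G] [Finite G]

theorem klein_elem {x y : G} (hx : x * x = 1) (hy : y * y = 1) (hxy : x * y = y * x) :
    IsElementaryAbelian 2 (closure {x, y} : Subgroup G) := by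
  have hc : ∀ a ∈ ({x, y} : Set G), ∀ b ∈ ({x, y} : Set G), a * b = b * a := by
    rintro a (rfl | rfl) b (rfl | rfl)
    · rfl
    · exact hxy
    · exact hxy.symm
    · rfl
  have hcomm : IsMulCommutative (closure {x, y} : Subgroup G) := isMulCommutative_closure hc
  refine ⟨hcomm, ?_⟩
  intro u hu
  rw [pow_two]
  induction hu using closure_induction with
  | mem a ha =>
    rcases ha with rfl | rfl
    · exact hx
    · exact hy
  | one => simp
  | mul a b ha hb h1 h2 =>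
    have hab : a * b = b * a := congrArg Subtype.val (hcomm.is_comm.comm (⟨a, ha⟩ : (closure {x, y} : Subgroup G)) ⟨b, hb⟩)
    calc a * b * (a * b) = a * (b * a) * b := by simp only [mul_assoc]
      _ = a * (a * b) * b := by rw [hab]
      _ = (a * a) * (b * b) := by simp only [mul_assoc]
      _ = 1 := by rw [h1, h2, one_mul]
  | inv a ha h1 =>
    rw [← mul_inv_rev, h1, inv_one]

end klein

section rankone
variable {G Ω : Type*} [Group G] [Finite G] [MulAction G Ω] {a : Ω} {t : G} {Q : Subgroup G}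

/-- S1120. -/
theorem R1.core (hS : IsRankOneSetup G Ω a t Q)
    (h2 : ∃ x y : G, x ≠ 1 ∧ y ≠ 1 ∧ x ≠ y ∧ x * x = 1 ∧ y * y = 1 ∧ x * y = y * x) :
    pPrimeCore 2 G = (stabilizer G a).normalCore := by
  have hF := R1.oneFix hS
  apply le_antisymm
  · haveI hNn := pp_normal (G := G) 2
    rw [normal_le_normalCore]
    obtain ⟨x, y, hx1, hy1, hxy, hxx, hyy, hcomm⟩ := h2
    obtain ⟨p, hp, -⟩ := hF x hxx hx1
    have hyp : y • p = p := hF.comm_fix hxx hx1 hp hcomm.symm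
    set U : Subgroup G := closure {x, y} with hU
    have hUe : IsElementaryAbelian 2 U := klein_elem hxx hyy hcomm
    have hUp : U ≤ stabilizer G p := by
      rw [hU, closure_le]
      rintro _ (rfl | rfl)
      · exact hp
      · exact hyp
    have hU3 : 3 ≤ Nat.card U := by
      have hs : ({1, x, y} : Set G) ⊆ (U : Set G) := by
        rintro _ (rfl | rfl | rfl)
        · exact one_mem _
        · exact Subgroup.subset_closure (Set.mem_insert _ _)
        · exact Subgroup.subset_closure (Set.mem_insert_of_mem _ rfl)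
      have hn : ({1, x, y} : Set G).ncard = 3 := by
        rw [Set.ncard_eq_three]
        exact ⟨1, x, y, hx1.symm, hy1.symm, hxy, rfl⟩
      rw [← hn]
      exact Set.ncard_le_ncard hs (Set.toFinite _)
    have hNle : pPrimeCore 2 G ≤ stabilizer G p := by
      rw [gen_hyp hUe (pp_coprime 2) (by rw [normalizer_eq_top]; exact le_top)]
      refine iSup_le ?_
      rintro ⟨B, hB⟩
      obtain ⟨b, hb, hb1⟩ : ∃ b ∈ B, b ≠ 1 := by
        by_contra hcon
        push Not at hcon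
        have hbot : B = ⊥ := eq_bot_iff.mpr fun z hz => by simpa using hcon z hz
        have h1 := relIndex_le_of_hypFam hUe hB
        rw [hbot, relIndex_bot_left] at h1
        omega
      have hbU : b ∈ U := hB.1 hb
      have hbb : b * b = 1 := by
        have := hUe.2 b hbU
        rwa [pow_two] at this
      intro n hn
      have hnC := (mem_inf.mp hn).2
      have hbp : b • p = p := hUp hbU
      exact hF.comm_fix hbb hb1 hbp (mem_centralizer_iff.mp hnC b hb).symm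
    intro n hn
    have htr : IsPretransitive G Ω := isPretransitive_of_is_two_pretransitive (h2 := hS.two_transitive)
    obtain ⟨g, hg⟩ := exists_smul_eq G p a
    have h1 : g⁻¹ * n * g ∈ pPrimeCore 2 G := by
      have := hNn.conj_mem n hn g⁻¹
      simpa using this
    have h3 : (g⁻¹ * n * g) • p = p := hNle h1
    rw [mem_stabilizer_iff, ← hg]
    have h4 := congrArg (fun w => g • w) h3
    simp only [mul_smul, smul_inv_smul] at h4
    exact h4
  · apply le_pp (normalCore_normal _)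
    have hle : (stabilizer G a).normalCore ≤ DD a t := by
      refine le_inf (normalCore_le _) ?_
      intro g hg
      rw [mem_stabilizer_iff]
      have h1 : t⁻¹ * g * t ∈ stabilizer G a := by
        have := (normalCore_normal (stabilizer G a)).conj_mem g hg t⁻¹
        have h2 := normalCore_le _ this
        simpa using h2
      have h2 := mem_stabilizer_iff.mp h1
      simp only [mul_smul] at h2
      rwa [inv_smul_eq_iff] at h2
    have hdvd : Nat.card (stabilizer G a).normalCore ∣ Nat.card (DD a t) := card_dvd_of_le hle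
    have hodd : Odd (Nat.card (stabilizer G a).normalCore) := Odd.of_dvd_nat hS.odd_card hdvd
    exact Nat.Coprime.symm (Nat.Prime.coprime_iff_not_dvd Nat.prime_two |>.mpr hodd.not_two_dvd_nat)

theorem R1.t_norm_D (hS : IsRankOneSetup G Ω a t Q) {d : G} (hd : d ∈ DD a t) : t * d * t⁻¹ ∈ DD a t := by
  have h1 : d • a = a := mem_stabilizer_iff.mp (mem_inf.mp hd).1
  have h2 : d • (t • a) = t • a := mem_stabilizer_iff.mp (mem_inf.mp hd).2
  rw [R1.tinv hS]
  refine mem_inf.mpr ⟨?_, ?_⟩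
  · rw [mem_stabilizer_iff]
    simp only [mul_smul]
    rw [h2, R1.ttsmul hS]
  · rw [mem_stabilizer_iff]
    simp only [mul_smul]
    rw [R1.ttsmul hS, h1]

theorem R1.t_norm_D' (hS : IsRankOneSetup G Ω a t Q) {d : G} (hd : d ∈ DD a t) : t * d * t ∈ DD a t := by
  have := R1.t_norm_D hS hd
  rwa [R1.tinv hS] at this

/-- S1127, first part. -/
theorem R1.cent_D (hS : IsRankOneSetup G Ω a t Q) {s r : G} (hs : s ∈ involutionsIn (stabilizer G a : Set G))
    (hr : r ∈ Q) (h : t * s * t = r⁻¹ * t * r) :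
    DD a t ⊓ centralizer {t} = DD a t ⊓ centralizer {s} := by
  have hF := R1.oneFix hS
  have key : DD a t ⊓ centralizer {t} ≤ DD a t ⊓ centralizer {s} := by
    intro d hd
    have hdD := (mem_inf.mp hd).1
    have hdt : t * d = d * t := mem_C_iff.mp (mem_inf.mp hd).2
    have hdt' : t * d⁻¹ = d⁻¹ * t := by
      have := (Commute.inv_right (show Commute t d from hdt)).eq
      exact this
    have hda : d • a = a := mem_stabilizer_iff.mp (mem_inf.mp hdD).1
    refine mem_inf.mpr ⟨hdD, mem_C_iff.mpr ?_⟩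
    obtain ⟨p, -, huniq⟩ := R1.unique_sr hS
    have h1 := huniq (s, r) ⟨hs, hr, h⟩
    have h2 := huniq (d * s * d⁻¹, d * r * d⁻¹) ⟨invo_conj hda hs, R1.D_norm hS d hdD r hr, by
      show t * (d * s * d⁻¹) * t = (d * r * d⁻¹)⁻¹ * t * (d * r * d⁻¹)
      calc t * (d * s * d⁻¹) * t = (t * d) * s * (d⁻¹ * t) := by simp only [mul_assoc]
        _ = d * (t * s * t) * d⁻¹ := by rw [hdt, ← hdt']; simp only [mul_assoc]
        _ = d * (r⁻¹ * t * r) * d⁻¹ := by rw [h]
        _ = d * r⁻¹ * d⁻¹ * (d * t * d⁻¹) * (d * r * d⁻¹) := by group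
        _ = (d * r * d⁻¹)⁻¹ * t * (d * r * d⁻¹) := by
          rw [← hdt, mul_inv_cancel_right]
          group⟩
    have h3 : d * s * d⁻¹ = s := by
      have := h2.trans h1.symm
      exact congrArg Prod.fst this
    calc s * d = (d * s * d⁻¹) * d := by rw [h3]
      _ = d * s := by group
  apply le_antisymm key
  intro d hd
  have hdD := (mem_inf.mp hd).1
  have hds : s * d = d * s := mem_C_iff.mp (mem_inf.mp hd).2
  obtain ⟨⟨y, z⟩, ⟨hy, hz, hdyz⟩, -⟩ := fix_inv_factor hS.mul_self hS.odd_card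
    (fun x hx => R1.t_norm_D hS hx) d hdD
  simp only at hy hz hdyz
  have hys : s * y = y * s := mem_C_iff.mp (mem_inf.mp (key hy)).2
  have hzD := hz.1
  have hzs : z⁻¹ * s * z = s := by
    have h1 : z = y⁻¹ * d := by rw [hdyz]; group
    have h2 : s * z = z * s := by
      rw [h1]
      have h3 : s * y⁻¹ = y⁻¹ * s := (Commute.inv_right (show Commute s y from hys)).eq
      calc s * (y⁻¹ * d) = (s * y⁻¹) * d := by group
        _ = y⁻¹ * (s * d) := by rw [h3]; group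
        _ = y⁻¹ * d * s := by rw [hds]; group
    rw [mul_assoc, h2]
    group
  have hz1K : (1 : G) ∈ invertedBy (DD a t) t := by
    refine ⟨one_mem _, ?_⟩
    group
  have hz1 : z = 1 := hF.K_unique hS.mul_self (R1.hta hS) hs hs hz hzs hz1K (by group)
  rw [hdyz, hz1, mul_one]
  exact hy

/-- S1127, second part. -/
theorem R1.cent_K (hS : IsRankOneSetup G Ω a t Q) :
    DD a t ⊓ centralizer {t} ⊓ centralizer (invertedBy (DD a t) t) =
      DD a t ⊓ centralizer (involutionsIn (stabilizer G a : Set G)) := by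
  have hF := R1.oneFix hS
  obtain ⟨⟨s, r⟩, ⟨hs, hr, hsr⟩, -⟩ := R1.unique_sr hS
  simp only at hs hr hsr
  have hcD := R1.cent_D hS hs hr hsr
  apply le_antisymm
  · intro d hd
    have h1 := mem_inf.mp hd
    have h2 := mem_inf.mp h1.1
    refine mem_inf.mpr ⟨h2.1, ?_⟩
    have h3 : d ∈ DD a t ⊓ centralizer {s} := by
      rw [← hcD]
      exact h1.1
    have hds : s * d = d * s := mem_C_iff.mp (mem_inf.mp h3).2
    rw [mem_centralizer_iff]
    intro s' hs'
    obtain ⟨k, hk, hks⟩ := hF.K_exists hS.mul_self (R1.hta hS) hs hs'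
    have hkd : k * d = d * k := mem_centralizer_iff.mp h1.2 k hk
    have hkd' : k⁻¹ * d = d * k⁻¹ := (Commute.inv_left (show Commute k d from hkd)).eq
    rw [← hks]
    calc k⁻¹ * s * k * d = k⁻¹ * s * (k * d) := by group
      _ = k⁻¹ * (s * d) * k := by rw [hkd]; group
      _ = (k⁻¹ * d) * s * k := by rw [hds]; group
      _ = d * (k⁻¹ * s * k) := by rw [hkd']; group
  · intro d hd
    have h1 := mem_inf.mp hd
    have hdC : ∀ s' ∈ involutionsIn (stabilizer G a : Set G), s' * d = d * s' :=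
      fun s' hs' => mem_centralizer_iff.mp h1.2 s' hs'
    have h3 : d ∈ DD a t ⊓ centralizer {s} := mem_inf.mpr ⟨h1.1, mem_C_iff.mpr (hdC s hs)⟩
    rw [← hcD] at h3
    refine mem_inf.mpr ⟨h3, ?_⟩
    rw [mem_centralizer_iff]
    intro k hk
    have hkK := (mem_inv.mp hk)
    have hdt : t * d = d * t := mem_C_iff.mp (mem_inf.mp h3).2
    have hda := mem_stabilizer_iff.mp (mem_inf.mp h1.1).1
    have hdD := h1.1
    -- `d k d⁻¹` is again inverted
    have hk' : d * k * d⁻¹ ∈ invertedBy (DD a t) t := by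
      refine ⟨mul_mem (mul_mem hdD hk.1) (Subgroup.inv_mem _ hdD), ?_⟩
      have h4 : t * (d * k * d⁻¹) * t⁻¹ = (t * d * t⁻¹) * (t * k * t⁻¹) * (t * d * t⁻¹)⁻¹ := by group
      have h5 : t * d * t⁻¹ = d := by rw [hdt]; group
      rw [h4, h5, hk.2]
      group
    have hs' : k⁻¹ * s * k ∈ involutionsIn (stabilizer G a : Set G) := by
      have hka : k⁻¹ • a = a := by rw [inv_smul_eq_iff, hkK.1]
      simpa using invo_conj hka hs
    have h6 : (d * k * d⁻¹)⁻¹ * s * (d * k * d⁻¹) = k⁻¹ * s * k := by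
      have h7 := hdC s hs
      have h8 := hdC _ hs'
      have h9 : d⁻¹ * s * d = s := by rw [mul_assoc, h7]; group
      calc (d * k * d⁻¹)⁻¹ * s * (d * k * d⁻¹) = d * k⁻¹ * (d⁻¹ * s * d) * k * d⁻¹ := by group
        _ = d * (k⁻¹ * s * k) * d⁻¹ := by rw [h9]; group
        _ = k⁻¹ * s * k := by rw [← h8]; group
    have h10 := hF.K_unique hS.mul_self (R1.hta hS) hs hs' hk' h6 hk rfl
    calc k * d = (d * k * d⁻¹) * d := by rw [h10]
      _ = d * k := by group

/-- S1134. -/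
theorem R1.fusion_V (hS : IsRankOneSetup G Ω a t Q) {X : Set G}
    (hX : X ⊆ ((DD a t ⊓ centralizer {t} : Subgroup G) : Set G)) (g : G)
    (hY : (fun x => g * x * g⁻¹) '' X ⊆ ((DD a t ⊓ centralizer {t} : Subgroup G) : Set G)) :
    ∃ v ∈ DD a t ⊓ centralizer {t}, (fun x => v * x * v⁻¹) '' X = (fun x => g * x * g⁻¹) '' X := by
  have hF := R1.oneFix hS
  have htt := hS.mul_self
  obtain ⟨c, hc, -⟩ := hF t htt hS.ne_one
  have hca : c ≠ a := by
    rintro rfl
    exact R1.hta hS hc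
  have hcb : c ≠ t • a := by
    rintro rfl
    rw [R1.ttsmul hS] at hc
    exact R1.hat hS hc
  have hXD : X ⊆ (DD a t : Set G) := fun x hx => (mem_inf.mp (hX hx)).1
  have hV : ∀ v ∈ DD a t ⊓ centralizer {t}, v • a = a ∧ v • (t • a) = t • a ∧ v • c = c := by
    intro v hv
    have h1 := mem_inf.mp (mem_inf.mp hv).1
    refine ⟨mem_stabilizer_iff.mp h1.1, mem_stabilizer_iff.mp h1.2, ?_⟩
    exact hF.comm_fix htt hS.ne_one hc (mem_C_iff.mp (mem_inf.mp hv).2).symm
  have h3 : ∃ b c d : Ω, b ≠ c ∧ b ≠ d ∧ c ≠ d ∧ ∀ x ∈ X, x • b = b ∧ x • c = c ∧ x • d = d :=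
    ⟨a, t • a, c, R1.hat hS, hca.symm, hcb.symm, fun x hx => hV x (hX hx)⟩
  have hYV : ∀ x ∈ X, g * x * g⁻¹ ∈ DD a t ⊓ centralizer {t} := fun x hx => hY ⟨x, hx, rfl⟩
  have hfix : ∀ x ∈ X, ∀ b : Ω, (g * x * g⁻¹) • b = b → x • (g⁻¹ • b) = g⁻¹ • b := by
    intro x _ b hb
    simp only [mul_smul] at hb
    rw [eq_inv_smul_iff]
    exact hb
  obtain ⟨z, hz, hza, hzb⟩ := R1.C_two hS hXD h3 (b₁ := a) (b₂ := t • a) (c₁ := g⁻¹ • a) (c₂ := g⁻¹ • (t • a))
    (fun x hx => ⟨(hV x (hX hx)).1, (hV x (hX hx)).2.1, hfix x hx a (hV _ (hYV x hx)).1,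
      hfix x hx _ (hV _ (hYV x hx)).2.1⟩) (R1.hat hS)
    (fun h => R1.hat hS (smul_left_cancel _ h))
  set d := g * z with hd
  have hdD : d ∈ DD a t := by
    refine mem_inf.mpr ⟨?_, ?_⟩
    · rw [mem_stabilizer_iff, hd, mul_smul, hza, smul_inv_smul]
    · rw [mem_stabilizer_iff, hd, mul_smul, hzb, smul_inv_smul]
  have hdx : ∀ x ∈ X, d * x * d⁻¹ = g * x * g⁻¹ := by
    intro x hx
    have h1 : x * z = z * x := mem_centralizer_iff.mp hz x hx
    calc d * x * d⁻¹ = g * (z * x) * z⁻¹ * g⁻¹ := by rw [hd]; group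
      _ = g * (x * z) * z⁻¹ * g⁻¹ := by rw [h1]
      _ = g * x * g⁻¹ := by group
  obtain ⟨⟨y, k⟩, ⟨hy, hk, hdyk⟩, -⟩ := fix_inv_factor htt hS.odd_card (fun x hx => R1.t_norm_D hS hx) d hdD
  simp only at hy hk hdyk
  refine ⟨y, hy, ?_⟩
  apply Set.image_congr
  intro x hx
  rw [← hdx x hx, hdyk]
  have hyt : t * y = y * t := mem_C_iff.mp (mem_inf.mp hy).2
  have hxt : t * x = x * t := mem_C_iff.mp (mem_inf.mp (hX hx)).2
  -- `e = k x k⁻¹` lies in `V`
  have he : k * x * k⁻¹ ∈ DD a t ⊓ centralizer {t} := by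
    have h1 := (DD a t ⊓ centralizer {t}).mul_mem ((DD a t ⊓ centralizer {t}).mul_mem
      ((DD a t ⊓ centralizer {t}).inv_mem hy) (hYV x hx)) hy
    rw [← hdx x hx, hdyk] at h1
    have h2 : y⁻¹ * (y * k * x * (y * k)⁻¹) * y = k * x * k⁻¹ := by group
    rwa [h2] at h1
  have het : t * (k * x * k⁻¹) * t⁻¹ = k * x * k⁻¹ := by
    rw [mul_inv_eq_iff_eq_mul]
    exact mem_C_iff.mp (mem_inf.mp he).2
  have het2 : t * (k * x * k⁻¹) * t⁻¹ = k⁻¹ * x * k := by
    have h1 : t * (k * x * k⁻¹) * t⁻¹ = (t * k * t⁻¹) * (t * x * t⁻¹) * (t * k * t⁻¹)⁻¹ := by group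
    have h2 : t * x * t⁻¹ = x := by rw [hxt]; group
    rw [h1, hk.2, h2, inv_inv]
  have hkx : k * x * k⁻¹ = k⁻¹ * x * k := het.symm.trans het2
  have hcomm : k * k * x = x * (k * k) := by
    calc k * k * x = k * (k * x * k⁻¹) * k := by group
      _ = k * (k⁻¹ * x * k) * k := by rw [hkx]
      _ = x * (k * k) := by group
  have hkc := comm_of_sq_comm (R1.odd_order hS hk.1) hcomm
  show y * x * y⁻¹ = y * k * x * (y * k)⁻¹
  have : y * k * x * (y * k)⁻¹ = y * (k * x) * k⁻¹ * y⁻¹ := by group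
  rw [this, hkc]
  group

/-- Uniqueness of the canonical form. -/
theorem R1.canon_unique (hS : IsRankOneSetup G Ω a t Q) {p q p' q' : G} (hp : p ∈ stabilizer G a) (hq : q ∈ Q)
    (hp' : p' ∈ stabilizer G a) (hq' : q' ∈ Q) (h : p * t * q = p' * t * q') : p = p' ∧ q = q' := by
  have hg : p * t * q ∉ stabilizer G a := by
    intro hmem
    have h1 : t ∈ stabilizer G a := by
      have : t = p⁻¹ * (p * t * q) * q⁻¹ := by group
      rw [this]
      exact mul_mem (mul_mem (Subgroup.inv_mem _ hp) hmem) (Subgroup.inv_mem _ (hS.le hq))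
    exact hS.not_mem h1
  obtain ⟨w, -, hw⟩ := R1.canonical hS _ hg
  have h1 := hw (p, q) ⟨hp, hq, rfl⟩
  have h2 := hw (p', q') ⟨hp', hq', h⟩
  have h3 := h1.trans h2.symm
  exact ⟨congrArg Prod.fst h3, congrArg Prod.snd h3⟩

/-- Uniqueness of the factorization `Q D`. -/
theorem R1.QD_unique (hS : IsRankOneSetup G Ω a t Q) {n d n' d' : G} (hn : n ∈ Q) (hd : d ∈ DD a t) (hn' : n' ∈ Q)
    (hd' : d' ∈ DD a t) (h : n * d = n' * d') : n = n' ∧ d = d' := by
  have h1 : n'⁻¹ * n = d' * d⁻¹ := by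
    calc n'⁻¹ * n = n'⁻¹ * (n * d) * d⁻¹ := by group
      _ = d' * d⁻¹ := by rw [h]; group
  have h2 : n'⁻¹ * n ∈ Q ⊓ stabilizer G (t • a) := by
    refine mem_inf.mpr ⟨mul_mem (Subgroup.inv_mem _ hn') hn, ?_⟩
    rw [h1]
    exact mul_mem (mem_inf.mp hd').2 (Subgroup.inv_mem _ (mem_inf.mp hd).2)
  rw [hS.inf_eq_bot, mem_bot] at h2
  have h3 : n = n' := (inv_mul_eq_one.mp h2).symm
  rw [h3] at h
  exact ⟨h3, mul_left_cancel h⟩

theorem R1.mem_stab_of (hS : IsRankOneSetup G Ω a t Q) {n d : G} (hn : n ∈ Q) (hd : d ∈ DD a t) :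
    n * d ∈ stabilizer G a := mul_mem (hS.le hn) (mem_inf.mp hd).1

/-- S1165. -/
theorem R1.H_rel (hS : IsRankOneSetup G Ω a t Q)
    (x g h f : G) (hxQ' : x ∈ Q) (hg : g ∈ Q) (hh : h ∈ DD a t) (hf : f ∈ Q)
    (heq : t * x * t = g * h * t * f) :
    (∀ g₁ h₁ f₁ : G, g₁ ∈ Q → h₁ ∈ DD a t → f₁ ∈ Q → t * x⁻¹ * t = g₁ * h₁ * t * f₁ →
        f₁ = g⁻¹ ∧ h₁ = t * h⁻¹ * t) ∧
      (∀ g₂ h₂ f₂ : G, g₂ ∈ Q → h₂ ∈ DD a t → f₂ ∈ Q → t * f * t = g₂ * h₂ * t * f₂ →
        f₂ = x ∧ h₂ = h⁻¹) ∧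
      ∀ c ∈ DD a t, ∀ g₃ h₃ f₃ : G, g₃ ∈ Q → h₃ ∈ DD a t → f₃ ∈ Q →
        t * (c⁻¹ * x * c) * t = g₃ * h₃ * t * f₃ →
          f₃ = (t * c * t)⁻¹ * f * (t * c * t) ∧ h₃ = (t * c * t)⁻¹ * h * c := by
  have htt := hS.mul_self
  have hti := R1.tinv hS
  have hxQ : ∀ {u : G}, u ∈ Q → u ∈ stabilizer G a := fun hu => hS.le hu
  refine ⟨?_, ?_, ?_⟩
  · intro g₁ h₁ f₁ hg₁ hh₁ hf₁ e
    have hd : t * h⁻¹ * t ∈ DD a t := R1.t_norm_D' hS (Subgroup.inv_mem _ hh)
    have e2 : t * x⁻¹ * t = f⁻¹ * (t * h⁻¹ * t) * t * g⁻¹ := by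
      have h1 : t * x⁻¹ * t = (t * x * t)⁻¹ := by
        rw [mul_inv_rev, mul_inv_rev, hti]
        simp only [mul_assoc]
      rw [h1, heq, mul_inv_rev, mul_inv_rev, mul_inv_rev, hti]
      calc f⁻¹ * (t * (h⁻¹ * g⁻¹)) = f⁻¹ * t * h⁻¹ * (t * t) * g⁻¹ := by
            rw [htt, mul_one]; simp only [mul_assoc]
        _ = f⁻¹ * (t * h⁻¹ * t) * t * g⁻¹ := by simp only [mul_assoc]
    rw [e] at e2
    have h2 := R1.canon_unique hS (R1.mem_stab_of hS hg₁ hh₁) hf₁
      (R1.mem_stab_of hS (Subgroup.inv_mem _ hf) hd) (Subgroup.inv_mem _ hg) e2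
    exact ⟨h2.2, (R1.QD_unique hS hg₁ hh₁ (Subgroup.inv_mem _ hf) hd h2.1).2⟩
  · intro g₂ h₂ f₂ hg₂ hh₂ hf₂ e
    have hn : h⁻¹ * g⁻¹ * h⁻¹⁻¹ ∈ Q := R1.D_norm hS _ (Subgroup.inv_mem _ hh) _ (Subgroup.inv_mem _ hg)
    have e2 : t * f * t = (h⁻¹ * g⁻¹ * h⁻¹⁻¹) * h⁻¹ * t * x := by
      have h1 : t * f = h⁻¹ * g⁻¹ * (t * x * t) := by rw [heq]; simp only [mul_assoc]; group
      calc t * f * t = h⁻¹ * g⁻¹ * (t * x * t) * t := by rw [h1]
        _ = h⁻¹ * g⁻¹ * t * x * (t * t) := by simp only [mul_assoc]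
        _ = (h⁻¹ * g⁻¹ * h⁻¹⁻¹) * h⁻¹ * t * x := by rw [htt]; group
    rw [e] at e2
    have h2 := R1.canon_unique hS (R1.mem_stab_of hS hg₂ hh₂) hf₂
      (R1.mem_stab_of hS hn (Subgroup.inv_mem _ hh)) hxQ' e2
    exact ⟨h2.2, (R1.QD_unique hS hg₂ hh₂ hn (Subgroup.inv_mem _ hh) h2.1).2⟩
  · intro c hc g₃ h₃ f₃ hg₃ hh₃ hf₃ e
    set b := t * c * t with hb
    have hbD : b ∈ DD a t := R1.t_norm_D' hS hc
    have hbi : b⁻¹ = t * c⁻¹ * t := by
      rw [hb, mul_inv_rev, mul_inv_rev, hti]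
      simp only [mul_assoc]
    have hn : b⁻¹ * g * b⁻¹⁻¹ ∈ Q := R1.D_norm hS _ (Subgroup.inv_mem _ hbD) _ hg
    have hd : b⁻¹ * h * c ∈ DD a t := mul_mem (mul_mem (Subgroup.inv_mem _ hbD) hh) hc
    have hfq : b⁻¹ * f * b ∈ Q := by
      have := R1.D_norm hS _ (Subgroup.inv_mem _ hbD) _ hf
      simpa using this
    have e2 : t * (c⁻¹ * x * c) * t = (b⁻¹ * g * b⁻¹⁻¹) * (b⁻¹ * h * c) * t * (b⁻¹ * f * b) := by
      have h1 : t * (c⁻¹ * x * c) * t = b⁻¹ * (t * x * t) * b := by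
        rw [hbi, hb]
        calc t * (c⁻¹ * x * c) * t = t * c⁻¹ * (t * t) * x * (t * t) * c * t := by
              rw [htt, mul_one, mul_one]; simp only [mul_assoc]
          _ = t * c⁻¹ * t * (t * x * t) * (t * c * t) := by simp only [mul_assoc]
      have h2 : t * b = c * t := by
        rw [hb]
        calc t * (t * c * t) = (t * t) * c * t := by simp only [mul_assoc]
          _ = c * t := by rw [htt, one_mul]
      rw [h1, heq]
      calc b⁻¹ * (g * h * t * f) * b = b⁻¹ * g * h * (t * b) * (b⁻¹ * f * b) := by group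
        _ = b⁻¹ * g * h * c * t * (b⁻¹ * f * b) := by rw [h2]; simp only [mul_assoc]
        _ = (b⁻¹ * g * b⁻¹⁻¹) * (b⁻¹ * h * c) * t * (b⁻¹ * f * b) := by group
    rw [e] at e2
    have h2 := R1.canon_unique hS (R1.mem_stab_of hS hg₃ hh₃) hf₃ (R1.mem_stab_of hS hn hd) hfq e2
    exact ⟨h2.2, (R1.QD_unique hS hg₃ hh₃ hn hd h2.1).2⟩

/-- S1166. -/
theorem R1.H_rel2 (hS : IsRankOneSetup G Ω a t Q)
    (x y gx hx fx gy hy fy : G) (hxQ : x ∈ Q) (hyQ : y ∈ Q) (hxy : x * y ≠ 1)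
    (hgx : gx ∈ Q) (hhx : hx ∈ DD a t) (hfx : fx ∈ Q) (ex : t * x * t = gx * hx * t * fx)
    (hgy : gy ∈ Q) (hhy : hy ∈ DD a t) (hfy : fy ∈ Q) (ey : t * y * t = gy * hy * t * fy) :
    fx * gy ≠ 1 ∧
      ∀ gz hz fz g' h' f' : G, gz ∈ Q → hz ∈ DD a t → fz ∈ Q → t * (fx * gy) * t = gz * hz * t * fz →
        g' ∈ Q → h' ∈ DD a t → f' ∈ Q → t * (x * y) * t = g' * h' * t * f' →
          f' = (t * hy * t)⁻¹ * fz * (t * hy * t) * fy ∧ h' = hx * hz * hy := by
  have htt := hS.mul_self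
  have hti := R1.tinv hS
  have hprod : t * (x * y) * t = gx * hx * t * (fx * gy) * hy * t * fy := by
    calc t * (x * y) * t = t * x * (t * t) * y * t := by rw [htt, mul_one]; simp only [mul_assoc]
      _ = (t * x * t) * (t * y * t) := by simp only [mul_assoc]
      _ = gx * hx * t * (fx * gy) * hy * t * fy := by rw [ex, ey]; simp only [mul_assoc]
  constructor
  · intro h0
    apply hxy
    rw [h0, mul_one] at hprod
    have hb : t * hy * t ∈ DD a t := R1.t_norm_D' hS hhy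
    have h1 : t * (x * y) * t ∈ stabilizer G a := by
      rw [hprod]
      have : gx * hx * t * hy * t * fy = (gx * hx) * (t * hy * t) * fy := by simp only [mul_assoc]
      rw [this]
      exact mul_mem (mul_mem (R1.mem_stab_of hS hgx hhx) (mem_inf.mp hb).1) (hS.le hfy)
    have h2 : (t * (x * y) * t) • a = a := mem_stabilizer_iff.mp h1
    simp only [mul_smul] at h2
    have h3 : (x * y) • (t • a) = t • a := by
      rw [mul_smul]
      have := congrArg (fun w => t • w) h2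
      simp only [R1.ttsmul hS] at this
      exact this
    exact R1.eq_one_of_fix hS (mul_mem hxQ hyQ) (R1.hta hS) h3
  · intro gz hz fz g' h' f' hgz hhz hfz ez hg' hh' hf' e'
    set b := t * hy * t with hb
    have hbD : b ∈ DD a t := R1.t_norm_D' hS hhy
    have h2 : t * b = hy * t := by
      rw [hb]
      calc t * (t * hy * t) = (t * t) * hy * t := by simp only [mul_assoc]
        _ = hy * t := by rw [htt, one_mul]
    have hn : gx * (hx * gz * hx⁻¹) ∈ Q := mul_mem hgx (R1.D_norm hS _ hhx _ hgz)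
    have hd : hx * hz * hy ∈ DD a t := mul_mem (mul_mem hhx hhz) hhy
    have hq : b⁻¹ * fz * b * fy ∈ Q := by
      refine mul_mem ?_ hfy
      have := R1.D_norm hS _ (Subgroup.inv_mem _ hbD) _ hfz
      simpa using this
    have e2 : t * (x * y) * t = (gx * (hx * gz * hx⁻¹)) * (hx * hz * hy) * t * (b⁻¹ * fz * b * fy) := by
      rw [hprod]
      calc gx * hx * t * (fx * gy) * hy * t * fy
          = gx * hx * (t * (fx * gy)) * (t * t) * hy * t * fy := by
            rw [htt, mul_one]; simp only [mul_assoc]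
        _ = gx * hx * (t * (fx * gy) * t) * (t * hy * t) * fy := by simp only [mul_assoc]
        _ = gx * hx * (gz * hz * t * fz) * b * fy := by rw [ez]
        _ = gx * hx * gz * hz * (t * b) * (b⁻¹ * fz * b * fy) := by group
        _ = (gx * (hx * gz * hx⁻¹)) * (hx * hz * hy) * t * (b⁻¹ * fz * b * fy) := by
            rw [h2]; group
    rw [e'] at e2
    have h3 := R1.canon_unique hS (R1.mem_stab_of hS hg' hh') hf' (R1.mem_stab_of hS hn hd) hq e2
    exact ⟨h3.2, (R1.QD_unique hS hg' hh' hn hd h3.1).2⟩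

end rankone

end Cfsg.Agent.H05
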