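import Cfsg.Agent.Lib.H05.RankOne4
import Cfsg.Agent.Lib.H01.Coprime3

/-!
# The rank one set-up: the involutions of `G_a` are central in `Q`
-/

set_option autoImplicit false
set_option linter.style.haveILetI false
set_option linter.unusedSectionVars false

namespace Cfsg.Agent.H05

open Subgroup Cfsg MulAction

section fpf
variable {G : Type*} [Group G] [Finite G]

/-- An element of prime order `r` acting without fixed points has order prime to `|Q|`. -/
theorem not_dvd_of_fpf {x : G} {r : ℕ} [hr : Fact r.Prime] (hx : orderOf x = r) {Q : Subgroup G}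
    (hn : ∀ y ∈ Q, x * y * x⁻¹ ∈ Q) (hfpf : Q ⊓ centralizer {x} = ⊥) : ¬ r ∣ Nat.card Q := by
  classical
  haveI : Fintype Q := Fintype.ofFinite _
  let f : Function.End Q := fun y => ⟨x * y * x⁻¹, hn y y.2⟩
  have hpow : ∀ n : ℕ, ∀ y : Q, ((f ^ n) y : G) = x ^ n * y * (x ^ n)⁻¹ := by
    intro n
    induction n with
    | zero =>
      intro y
      show (y : G) = x ^ 0 * y * (x ^ 0)⁻¹
      simp
    | succ n ih =>
      intro y
      rw [pow_succ]
      have : (f ^ n * f) y = (f ^ n) (f y) := rfl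
      rw [this, ih]
      show x ^ n * (x * y * x⁻¹) * (x ^ n)⁻¹ = x ^ (n + 1) * y * (x ^ (n + 1))⁻¹
      rw [pow_succ]
      group
  have hf : f ^ r ^ 1 = 1 := by
    funext y
    apply Subtype.ext
    rw [hpow, pow_one, ← hx, pow_orderOf_eq_one]
    show (1 : G) * y * (1 : G)⁻¹ = y
    simp
  have h1 := Equiv.Perm.card_fixedPoints_modEq hf
  have h2 : Fintype.card (Function.fixedPoints f) = 1 := by
    rw [Fintype.card_eq_one_iff]
    refine ⟨⟨1, ?_⟩, ?_⟩
    · show f 1 = 1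
      ext
      show x * 1 * x⁻¹ = 1
      group
    · rintro ⟨y, hy⟩
      have hy' : x * (y : G) * x⁻¹ = y := congrArg Subtype.val hy
      have h3 : (y : G) ∈ Q ⊓ centralizer {x} := by
        refine mem_inf.mpr ⟨y.2, mem_C_iff.mpr ?_⟩
        rw [mul_inv_eq_iff_eq_mul] at hy'
        exact hy'
      rw [hfpf, mem_bot] at h3
      exact Subtype.ext (Subtype.ext h3)
  rw [h2] at h1
  intro hd
  have h3 : Nat.card Q = Fintype.card Q := Nat.card_eq_fintype_card
  rw [h3] at hd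
  have h4 : 1 % r = 0 := by
    have := Nat.mod_eq_zero_of_dvd hd
    rw [h1] at this
    exact this
  have h5 : 1 < r := hr.out.one_lt
  rw [Nat.mod_eq_of_lt h5] at h4
  omega

end fpf

section rankone
variable {G Ω : Type*} [Group G] [Finite G] [MulAction G Ω] {a : Ω} {t : G} {Q : Subgroup G}

/-- Every prime dividing the number of inverted elements is the order of an inverted element. -/
theorem R1.prime_K (hS : IsRankOneSetup G Ω a t Q) {r : ℕ} [hr : Fact r.Prime]
    (hd : r ∣ Nat.card (invertedBy (DD a t) t)) : ∃ x ∈ invertedBy (DD a t) t, orderOf x = r := by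
  have htt := hS.mul_self
  have hD := hS.odd_card
  have hnorm : ∀ x ∈ DD a t, t * x * t⁻¹ ∈ DD a t := fun x hx => R1.t_norm_D hS hx
  have hAK : zpowers t ≤ normalizer ((DD a t : Subgroup G) : Set G) := by
    rw [zpowers_le]
    rw [mem_normalizer_iff]
    intro x
    constructor
    · exact hnorm x
    · intro hx
      have := hnorm _ hx
      rwa [show t * (t * x * t⁻¹) * t⁻¹ = x by
        rw [R1.tinv hS]
        calc t * (t * x * t) * t = (t * t) * x * (t * t) := by simp only [mul_assoc]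
          _ = x := by rw [htt, one_mul, mul_one]] at this
  have hcard2 : Nat.card (zpowers t) = 2 := by
    rw [Nat.card_zpowers]
    exact orderOf_eq_prime (by rw [pow_two]; exact htt) hS.ne_one
  have hcop : (Nat.card (zpowers t)).Coprime (Nat.card (DD a t)) := by
    rw [hcard2]
    exact (Nat.Prime.coprime_iff_not_dvd Nat.prime_two).mpr hD.not_two_dvd_nat
  haveI : IsCyclic (zpowers t) := inferInstance
  obtain ⟨P, hP⟩ := H01.exists_invariant_sylow hAK hcop (Or.inl inferInstance) r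
  set R : Subgroup G := (P : Subgroup (DD a t)).map (DD a t).subtype with hR
  have hRle : R ≤ DD a t := by
    rintro _ ⟨y, -, rfl⟩
    exact y.2
  have hRodd : Odd (Nat.card R) := by
    apply Odd.of_dvd_nat hD
    exact card_dvd_of_le hRle
  have htR : t ∈ normalizer (R : Set G) := hP (mem_zpowers t)
  have hRn : ∀ x ∈ R, t * x * t⁻¹ ∈ R := fun x hx => (mem_normalizer_iff.mp htR x).mp hx
  by_cases hall : ∀ z ∈ invertedBy R t, z = 1
  · exfalso
    have hRV : R ≤ DD a t ⊓ centralizer {t} := by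
      intro y hy
      refine mem_inf.mpr ⟨hRle hy, ?_⟩
      obtain ⟨⟨y', z⟩, ⟨hy', hz, e⟩, -⟩ := fix_inv_factor htt hRodd hRn y hy
      simp only at hy' hz e
      rw [e, hall z hz, mul_one]
      exact (mem_inf.mp hy').2
    have h1 : Nat.card R ∣ Nat.card ↥(DD a t ⊓ centralizer {t}) := card_dvd_of_le hRV
    have h2 := fix_inv_card htt hD hnorm
    have h3 : Nat.card R * r ∣ Nat.card (DD a t) := by
      rw [h2]
      exact Nat.mul_dvd_mul h1 hd
    have h4 : Nat.card R = Nat.card (P : Subgroup (DD a t)) :=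
      Subgroup.card_map_of_injective (DD a t).subtype_injective
    have h5 := (P : Subgroup (DD a t)).card_mul_index
    rw [← h5, h4] at h3
    have hpos : 0 < Nat.card (P : Subgroup (DD a t)) := Nat.card_pos
    have h6 : r ∣ (P : Subgroup (DD a t)).index := Nat.dvd_of_mul_dvd_mul_left hpos h3
    exact P.not_dvd_index h6
  · push Not at hall
    obtain ⟨z, hz, hz1⟩ := hall
    have hRp : IsPGroup r R := P.2.map _
    have hzR := hz.1
    obtain ⟨e, he⟩ := (IsPGroup.iff_orderOf.mp hRp) ⟨z, hzR⟩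
    rw [Subgroup.orderOf_mk] at he
    have he0 : e ≠ 0 := by
      rintro rfl
      rw [pow_zero, orderOf_eq_one_iff] at he
      exact hz1 he
    have hdvd : r ∣ orderOf z := by
      rw [he]
      exact dvd_pow_self r he0
    refine ⟨z ^ (orderOf z / r), ?_, orderOf_pow_orderOf_div (orderOf_pos z).ne' hdvd⟩
    have hzK : z ∈ invertedBy (DD a t) t := ⟨hRle hzR, hz.2⟩
    exact mem_invertedBy_pow hzK _

/-- The number of inverted elements is prime to `|Q|`. -/
theorem R1.coprime_K (hS : IsRankOneSetup G Ω a t Q) {r : ℕ} [hr : Fact r.Prime]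
    (hd : r ∣ Nat.card (invertedBy (DD a t) t)) : ¬ r ∣ Nat.card Q := by
  obtain ⟨x, hx, hxr⟩ := R1.prime_K hS hd
  have hx1 : x ≠ 1 := by
    rintro rfl
    rw [orderOf_one] at hxr
    exact hr.out.one_lt.ne hxr
  exact not_dvd_of_fpf hxr (R1.D_norm hS x hx.1) (R1.fpf_K hS hx hx1)

/-- Conjugation action on the involutions of the stabilizer. -/
def invoAction (P : Subgroup G) (hP : P ≤ stabilizer G a) :
    MulAction P (involutionsIn (stabilizer G a : Set G)) where
  smul g s := ⟨(g : G) * s * (g : G)⁻¹, invo_conj (mem_stabilizer_iff.mp (hP g.2)) s.2⟩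
  one_smul s := by
    apply Subtype.ext
    show (1 : G) * s * (1 : G)⁻¹ = s
    group
  mul_smul g h s := by
    apply Subtype.ext
    show ((g : G) * h) * s * ((g : G) * h)⁻¹ = (g : G) * ((h : G) * s * (h : G)⁻¹) * (g : G)⁻¹
    group

/-- A `p`-subgroup of the stabilizer with `p` not dividing the number of involutions
centralizes an involution. -/
theorem R1.exists_fixed (hS : IsRankOneSetup G Ω a t Q) {p : ℕ} [hp : Fact p.Prime] {P : Subgroup G}
    (hPa : P ≤ stabilizer G a) (hPp : IsPGroup p P) (hnd : ¬ p ∣ Nat.card (invertedBy (DD a t) t)) :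
    ∃ s ∈ involutionsIn (stabilizer G a : Set G), ∀ g ∈ P, g * s = s * g := by
  letI := invoAction (a := a) P hPa
  rw [R1.card_K hS] at hnd
  obtain ⟨s, hs⟩ := hPp.nonempty_fixed_point_of_prime_not_dvd_card _ hnd
  refine ⟨s, s.2, ?_⟩
  intro g hg
  have h1 : (⟨g, hg⟩ : P) • s = s := hs ⟨g, hg⟩
  have h2 : g * s * g⁻¹ = s := congrArg Subtype.val h1
  rw [mul_inv_eq_iff_eq_mul] at h2
  exact h2

/-- S1130, first part. -/
theorem R1.invo_central (hS : IsRankOneSetup G Ω a t Q) {s : G}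
    (hs : s ∈ involutionsIn (stabilizer G a : Set G)) : ∀ x ∈ Q, s * x = x * s := by
  have hF := R1.oneFix hS
  set H : Subgroup Q := (centralizer {s}).subgroupOf Q with hH
  suffices h : H = ⊤ by
    intro x hx
    have h1 : (⟨x, hx⟩ : Q) ∈ H := by rw [h]; exact mem_top _
    exact mem_C_iff.mp (mem_subgroupOf.mp h1)
  rw [← Subgroup.index_eq_one]
  by_contra hne
  obtain ⟨p, hpp, hpd⟩ := Nat.exists_prime_and_dvd hne
  haveI : Fact p.Prime := ⟨hpp⟩
  have hpQ : p ∣ Nat.card Q := by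
    have := H.card_mul_index
    rw [← this]
    exact Dvd.dvd.mul_left hpd _
  have hnd : ¬ p ∣ Nat.card (invertedBy (DD a t) t) := fun h => R1.coprime_K hS h hpQ
  obtain ⟨P⟩ : Nonempty (Sylow p Q) := inferInstance
  have hPle : (P : Subgroup Q).map Q.subtype ≤ stabilizer G a := by
    rintro _ ⟨y, -, rfl⟩
    exact hS.le y.2
  obtain ⟨s', hs', hcomm⟩ := R1.exists_fixed hS hPle (P.2.map _) hnd
  -- transport to `s` by an inverted element
  obtain ⟨k, hk, hks⟩ := hF.K_exists hS.mul_self (R1.hta hS) hs' hs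
  have hkD := hk.1
  have hkinv : k⁻¹ ∈ normalizer (Q : Set G) := by
    rw [mem_normalizer_iff]
    intro y
    constructor
    · intro hy
      exact R1.D_norm hS k⁻¹ (inv_mem hkD) y hy
    · intro hy
      have := R1.D_norm hS k hkD _ hy
      rwa [show k * (k⁻¹ * y * k⁻¹⁻¹) * k⁻¹ = y by group] at this
  let φ : MulAut Q := Q.normalizerMonoidHom ⟨k⁻¹, hkinv⟩
  have hφ : ∀ y : Q, ((φ y : Q) : G) = k⁻¹ * y * k⁻¹⁻¹ := fun y => rfl
  have hle : (φ • P : Sylow p Q).toSubgroup ≤ H := by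
    intro y hy
    have hy' : y ∈ ((φ • P : Sylow p Q) : Subgroup Q) := hy
    rw [Sylow.pointwise_smul_def, Subgroup.mem_smul_pointwise_iff_exists] at hy'
    obtain ⟨w, hw, rfl⟩ := hy'
    rw [hH, mem_subgroupOf, mem_C_iff]
    show s * ((φ w : Q) : G) = ((φ w : Q) : G) * s
    rw [hφ, ← hks, inv_inv]
    have h1 := hcomm w ⟨w, hw, rfl⟩
    calc k⁻¹ * s' * k * (k⁻¹ * w * k) = k⁻¹ * (s' * w) * k := by group
      _ = k⁻¹ * (w * s') * k := by rw [h1]
      _ = k⁻¹ * w * k * (k⁻¹ * s' * k) := by group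
  have h2 : H.index ∣ (φ • P : Sylow p Q).toSubgroup.index := Subgroup.index_dvd_of_le hle
  exact (φ • P : Sylow p Q).not_dvd_index (hpd.trans h2)

/-- S1130. -/
theorem R1.invo_center (hS : IsRankOneSetup G Ω a t Q) :
    (∀ s ∈ involutionsIn (stabilizer G a : Set G), s ∈ Q ∧ ∀ x ∈ Q, s * x = x * s) ∧
      ∀ s ∈ involutionsIn (stabilizer G a : Set G), ∀ s' ∈ involutionsIn (stabilizer G a : Set G),
        s * s' = 1 ∨ s * s' ∈ involutionsIn (stabilizer G a : Set G) := by
  refine ⟨fun s hs => ⟨R1.invol_mem hS hs.1 hs.2.2, R1.invo_central hS hs⟩, ?_⟩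
  intro s hs s' hs'
  by_cases h : s * s' = 1
  · exact Or.inl h
  · refine Or.inr ⟨mul_mem hs.1 hs'.1, h, ?_⟩
    have hc := R1.invo_central hS hs s' (R1.invol_mem hS hs'.1 hs'.2.2)
    calc s * s' * (s * s') = s * (s' * s) * s' := by simp only [mul_assoc]
      _ = s * (s * s') * s' := by rw [hc]
      _ = (s * s) * (s' * s') := by simp only [mul_assoc]
      _ = 1 := by rw [hs.2.2, hs'.2.2, one_mul]

/-- A conjugate of `t` moving a given point. -/
theorem R1.conj_pair (hS : IsRankOneSetup G Ω a t Q) {u : G} (huu : u * u = 1) (hu1 : u ≠ 1) {a' : Ω}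
    (ha' : u • a' ≠ a') : ∃ g : G, g • a = a' ∧ g * t * g⁻¹ = u := by
  have hF := R1.oneFix hS
  have htt := hS.mul_self
  obtain ⟨c, hc, -⟩ := hF t htt hS.ne_one
  obtain ⟨f, hf, -⟩ := hF u huu hu1
  have hca : a ≠ c := by
    rintro rfl
    exact R1.hta hS hc
  have hfa : a' ≠ f := by
    rintro rfl
    exact ha' hf
  obtain ⟨g₁, hg₁a, hg₁c⟩ := R1.two_trans hS hca hfa
  set t₁ := g₁ * t * g₁⁻¹ with ht₁
  have ht₁t₁ : t₁ * t₁ = 1 := by
    calc t₁ * t₁ = g₁ * (t * t) * g₁⁻¹ := by rw [ht₁]; group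
      _ = 1 := by rw [htt]; group
  have ht₁1 : t₁ ≠ 1 := by
    intro h
    apply hS.ne_one
    have : t = g₁⁻¹ * t₁ * g₁ := by rw [ht₁]; group
    rw [this, h]
    group
  have ht₁f : t₁ • f = f := by
    rw [ht₁, ← hg₁c, mul_smul, mul_smul, inv_smul_smul, hc]
  obtain ⟨s, hsQ, hs1, hss⟩ := R1.exists_inv hS
  set s' := g₁ * s * g₁⁻¹ with hs'
  have hs's' : s' * s' = 1 := by
    calc s' * s' = g₁ * (s * s) * g₁⁻¹ := by rw [hs']; group
      _ = 1 := by rw [hss]; group
  have hs'1 : s' ≠ 1 := by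
    intro h
    apply hs1
    have : s = g₁⁻¹ * s' * g₁ := by rw [hs']; group
    rw [this, h]
    group
  have hs'f : s' • a' = a' := by
    rw [hs', ← hg₁a, mul_smul, mul_smul, inv_smul_smul, R1.Qa hS hsQ]
  obtain ⟨k, hw, hws⟩ := hF.exists_mid huu hu1 hs's' hs'1 hf hs'f hfa.symm
  set w := (u * s') ^ k * u with hwd
  have hwf : w • f = a' := hF.mid_smul hs's' hs'1 hf hs'f hw hws
  have hwne : w • f ≠ f := by rw [hwf]; exact hfa
  have hI₁ : t₁ ∈ involutionsIn (stabilizer G f : Set G) := mem_invo.mpr ⟨ht₁f, ht₁1, ht₁t₁⟩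
  have hI₂ : u ∈ involutionsIn (stabilizer G f : Set G) := mem_invo.mpr ⟨hf, hu1, huu⟩
  obtain ⟨l, hl, hlu⟩ := hF.K_exists hw hwne hI₁ hI₂
  have hl' := mem_inv.mp hl
  have hla : l • a' = a' := by
    have := hl'.2.1
    rwa [hwf] at this
  refine ⟨l⁻¹ * g₁, ?_, ?_⟩
  · rw [mul_smul, hg₁a, inv_smul_eq_iff, hla]
  · rw [← hlu, ht₁]
    group

/-- A nontrivial element inverted by an involution fixes at most two points. -/
theorem R1.no_inverted (hS : IsRankOneSetup G Ω a t Q) {w x : G} (hww : w * w = 1) (hw1 : w ≠ 1)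
    (hx : w * x * w⁻¹ = x⁻¹) (hx1 : x ≠ 1) {e₁ e₂ e₃ : Ω} (h₁₂ : e₁ ≠ e₂) (h₁₃ : e₁ ≠ e₃) (h₂₃ : e₂ ≠ e₃)
    (f₁ : x • e₁ = e₁) (f₂ : x • e₂ = e₂) (f₃ : x • e₃ = e₃) : False := by
  have hF := R1.oneFix hS
  have hwF : ∀ e : Ω, x • e = e → x • (w • e) = w • e := by
    intro e he
    have h1 : x * w = w * x⁻¹ := by
      rw [← hx, inv_eq_self_of_mul hww]
      calc x * w = (w * w) * x * w := by rw [hww, one_mul]
        _ = w * (w * x * w) := by simp only [mul_assoc]
    rw [smul_smul, h1, mul_smul]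
    congr 1
    rw [inv_smul_eq_iff, he]
  -- a point moved by `w`
  obtain ⟨a', ha'F, ha'⟩ : ∃ a' : Ω, x • a' = a' ∧ w • a' ≠ a' := by
    by_contra hcon
    push Not at hcon
    exact h₁₂ (hF.eq hww hw1 (hcon e₁ f₁) (hcon e₂ f₂))
  obtain ⟨g, hga, hgt⟩ := R1.conj_pair hS hww hw1 ha'
  have hS' := R1.conj hS g
  rw [hga, hgt] at hS'
  have hxK : x ∈ invertedBy (DD a' w) w := by
    rw [mem_inv]
    exact ⟨ha'F, hwF a' ha'F, hx⟩
  have hfpf := R1.fpf_K hS' hxK hx1
  have h3 : ∃ b c d : Ω, b ≠ c ∧ b ≠ d ∧ c ≠ d ∧ ∀ y ∈ ({x} : Set G), y • b = b ∧ y • c = c ∧ y • d = d := by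
    refine ⟨e₁, e₂, e₃, h₁₂, h₁₃, h₂₃, ?_⟩
    rintro _ rfl
    exact ⟨f₁, f₂, f₃⟩
  obtain ⟨c₀, hc₀a, hc₀b, hc₀⟩ := R1.third hS' h3
  have hX : ({x} : Set G) ⊆ (DD a' w : Set G) := by
    rintro _ rfl
    exact hxK.1
  obtain ⟨r, hr, hrb⟩ := R1.fixQ hS' hX hc₀ hc₀a
  have hrx : r ∈ _ ⊓ centralizer {x} := mem_inf.mpr ⟨(mem_inf.mp hr).2, (mem_inf.mp hr).1⟩
  rw [hfpf, mem_bot] at hrx
  apply hc₀b
  rw [← hrb, hrx, one_smul]

theorem R1.no_inv_comm (hS : IsRankOneSetup G Ω a t Q) {u v x j : G} (hu2 : u * u = 1) (hu1 : u ≠ 1)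
    (hv2 : v * v = 1) (hv1 : v ≠ 1) {p q : Ω} (hp : u • p = p) (hq : v • q = q) (hpq : p ≠ q) (hx1 : x ≠ 1)
    (hu_inv : u * x * u⁻¹ = x⁻¹) (hv_inv : v * x * v⁻¹ = x⁻¹) (hjj : j * j = 1) (hj1 : j ≠ 1)
    (hjc : x * j = j * x) : False := by
  have hF := R1.oneFix hS
  obtain ⟨e, he, -⟩ := hF j hjj hj1
  have hxe : x • e = e := hF.comm_fix hjj hj1 he hjc
  -- one of `u, v` moves `e`
  obtain ⟨w, hww, hw1, hw_inv, hwe⟩ : ∃ w : G, w * w = 1 ∧ w ≠ 1 ∧ w * x * w⁻¹ = x⁻¹ ∧ w • e ≠ e := by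
    by_cases hue : u • e = e
    · refine ⟨v, hv2, hv1, hv_inv, ?_⟩
      intro hve
      exact hpq ((hF.eq hu2 hu1 hp hue).trans (hF.eq hv2 hv1 hve hq))
    · exact ⟨u, hu2, hu1, hu_inv, hue⟩
  have hwF : ∀ f : Ω, x • f = f → x • (w • f) = w • f := by
    intro f hf
    have h1 : x * w = w * x⁻¹ := by
      rw [← hw_inv, inv_eq_self_of_mul hww]
      calc x * w = (w * w) * x * w := by rw [hww, one_mul]
        _ = w * (w * x * w) := by simp only [mul_assoc]
    rw [smul_smul, h1, mul_smul]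
    congr 1
    rw [inv_smul_eq_iff, hf]
  have hjF : ∀ f : Ω, x • f = f → x • (j • f) = j • f := by
    intro f hf
    rw [smul_smul, hjc, mul_smul, hf]
  set e₂ := w • e with he₂
  have h₂ : j • e₂ ≠ e₂ := by
    intro h
    exact hwe (hF.eq hjj hj1 h he)
  have h₃ : j • e₂ ≠ e := by
    intro h
    have h4 : e₂ = e := by
      have h5 := congrArg (fun y => j⁻¹ • y) h
      simp only [inv_smul_smul] at h5
      rw [h5, inv_smul_eq_iff, he]
    exact hwe h4
  exact R1.no_inverted hS hww hw1 hw_inv hx1 (e₁ := e) (e₂ := e₂) (e₃ := j • e₂)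
    (fun h => hwe h.symm) (fun h => h₃ h.symm) (fun h => h₂ h.symm) hxe (hwF e hxe) (hjF _ (hwF e hxe))

/-- S1135. -/
theorem R1.mul_two_invol (hS : IsRankOneSetup G Ω a t Q) {u v : G} (hu1 : u ≠ 1) (hu2 : u * u = 1) (hv1 : v ≠ 1)
    (hv2 : v * v = 1) (hx : (u * v) * (u * v) ≠ 1) :
    (∃ g : G, ∃ u' ∈ involutionsIn (stabilizer G a : Set G), g * (u * v) * g⁻¹ = u' * t) ∧
      Odd (Nat.card ↥(centralizer {u * v})) := by
  have hF := R1.oneFix hS
  have htt := hS.mul_self
  obtain ⟨p, hp, -⟩ := hF u hu2 hu1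
  obtain ⟨q, hq, -⟩ := hF v hv2 hv1
  have hpq : p ≠ q := by
    rintro rfl
    apply hx
    -- both fix a common point, hence commute
    have htr : IsPretransitive G Ω := isPretransitive_of_is_two_pretransitive (h2 := hS.two_transitive)
    obtain ⟨g, hg⟩ := exists_smul_eq G p a
    have hgpa : g⁻¹ • a = p := by rw [inv_smul_eq_iff, hg]
    have h1 : g * u * g⁻¹ ∈ involutionsIn (stabilizer G a : Set G) := by
      rw [mem_invo]
      refine ⟨?_, ?_, ?_⟩
      · rw [mul_smul, mul_smul, hgpa, hp, hg]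
      · intro h
        apply hu1
        have : u = g⁻¹ * (g * u * g⁻¹) * g := by group
        rw [this, h]
        group
      · calc g * u * g⁻¹ * (g * u * g⁻¹) = g * (u * u) * g⁻¹ := by group
          _ = 1 := by rw [hu2]; group
    have h2 : g * v * g⁻¹ ∈ involutionsIn (stabilizer G a : Set G) := by
      rw [mem_invo]
      refine ⟨?_, ?_, ?_⟩
      · rw [mul_smul, mul_smul, hgpa, hq, hg]
      · intro h
        apply hv1
        have : v = g⁻¹ * (g * v * g⁻¹) * g := by group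
        rw [this, h]
        group
      · calc g * v * g⁻¹ * (g * v * g⁻¹) = g * (v * v) * g⁻¹ := by group
          _ = 1 := by rw [hv2]; group
    have h3 := R1.invo_central hS h1 _ (R1.invol_mem hS h2.1 h2.2.2)
    have h4 : u * v = v * u := by
      have h5 : g * (u * v) * g⁻¹ = g * (v * u) * g⁻¹ := by
        calc g * (u * v) * g⁻¹ = (g * u * g⁻¹) * (g * v * g⁻¹) := by group
          _ = (g * v * g⁻¹) * (g * u * g⁻¹) := h3
          _ = g * (v * u) * g⁻¹ := by group
      exact mul_left_cancel (mul_right_cancel h5)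
    calc u * v * (u * v) = u * (v * u) * v := by simp only [mul_assoc]
      _ = u * (u * v) * v := by rw [h4]
      _ = (u * u) * (v * v) := by simp only [mul_assoc]
      _ = 1 := by rw [hu2, hv2, one_mul]
  constructor
  · have hvp : v • p ≠ p := fun h => hpq (hF.eq hv2 hv1 h hq)
    obtain ⟨g, hgp, hgt⟩ := R1.conj_pair hS hv2 hv1 hvp
    refine ⟨g⁻¹, g⁻¹ * u * g, ?_, ?_⟩
    · rw [mem_invo]
      refine ⟨?_, ?_, ?_⟩
      · rw [mul_smul, mul_smul, hgp, hp, inv_smul_eq_iff, hgp]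
      · intro h
        apply hu1
        have : u = g * (g⁻¹ * u * g) * g⁻¹ := by group
        rw [this, h]
        group
      · calc g⁻¹ * u * g * (g⁻¹ * u * g) = g⁻¹ * (u * u) * g := by group
          _ = 1 := by rw [hu2]; group
    · rw [← hgt]
      group
  · by_contra hodd
    rw [Nat.not_odd_iff_even] at hodd
    have h2 : 2 ∣ Nat.card ↥(centralizer {u * v}) := hodd.two_dvd
    obtain ⟨j, hj⟩ := exists_prime_orderOf_dvd_card' 2 h2
    have hjj : (j : G) * j = 1 := by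
      have := pow_orderOf_eq_one j
      rw [hj, pow_two] at this
      exact congrArg Subtype.val this
    have hj1 : (j : G) ≠ 1 := by
      intro h
      have : j = 1 := Subtype.ext h
      rw [this, orderOf_one] at hj
      exact absurd hj (by decide)
    have hjc : (u * v) * (j : G) = j * (u * v) := mem_C_iff.mp j.2
    have hx1 : u * v ≠ 1 := by
      intro h
      apply hx
      rw [h, one_mul]
    have hu_inv : u * (u * v) * u⁻¹ = (u * v)⁻¹ := by
      rw [mul_inv_of_inv hu2 hv2, inv_eq_self_of_mul hu2]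
      calc u * (u * v) * u = (u * u) * v * u := by simp only [mul_assoc]
        _ = v * u := by rw [hu2, one_mul]
    have hv_inv : v * (u * v) * v⁻¹ = (u * v)⁻¹ := by
      rw [mul_inv_of_inv hu2 hv2, inv_eq_self_of_mul hv2]
      calc v * (u * v) * v = v * u * (v * v) := by simp only [mul_assoc]
        _ = v * u := by rw [hv2, mul_one]
    exact R1.no_inv_comm hS hu2 hu1 hv2 hv1 hp hq hpq hx1 hu_inv hv_inv hjj hj1 hjc

end rankone

end Cfsg.Agent.H05
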