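import Cfsg.Agent.Lib.H05.RankOne3
import Cfsg.Agent.Lib.H01.StrongEmb
import Cfsg.Agent.Lib.H01.SZ2
import Cfsg.Agent.Lib.H05.PComp3

/-!
# Strongly embedded subgroups: the action on cosets
-/

set_option autoImplicit false
set_option linter.style.haveILetI false
set_option linter.unusedSectionVars false

namespace Cfsg.Agent.H05

open Subgroup Cfsg MulAction

section onefix
variable {G Ω : Type*} [Group G] [Finite G] [MulAction G Ω]

/-- The involutions carrying a point to another one. -/
theorem OneFix.card_J (hF : OneFix G Ω) {x y : Ω} (hxy : x ≠ y)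
    (hx : (involutionsIn (stabilizer G x : Set G)).Nonempty)
    (hy : (involutionsIn (stabilizer G y : Set G)).Nonempty) :
    Nat.card {i : G // orderOf i = 2 ∧ i • x = y} = Nat.card (involutionsIn (stabilizer G x : Set G)) := by
  obtain ⟨s, hs⟩ := hx
  obtain ⟨u, hu⟩ := hy
  have hs' := mem_invo.mp hs
  have hu' := mem_invo.mp hu
  obtain ⟨k, h1, h2⟩ := hF.exists_mid hs'.2.2 hs'.2.1 hu'.2.2 hu'.2.1 hs'.1 hu'.1 hxy
  set t := (s * u) ^ k * s with ht
  have htx : t • x = y := hF.mid_smul hu'.2.2 hu'.2.1 hs'.1 hu'.1 h1 h2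
  have hty : t • y = x := by rw [← htx, smul_smul, h1, one_smul]
  have htinv : t⁻¹ = t := inv_eq_self_of_mul h1
  have hne : (⟨s, hs'.2.2⟩ : {z : G // z * z = 1}).1 = s := rfl
  have htxne : t • x ≠ x := by rw [htx]; exact hxy.symm
  have hK := hF.card_K h1 htxne ⟨s, hs⟩
  rw [← hK]
  apply Nat.card_congr
  have hJ : ∀ i : G, orderOf i = 2 → i * i = 1 := by
    intro i hi
    have := pow_orderOf_eq_one i
    rwa [hi, pow_two] at this
  refine
    { toFun := fun i => ⟨(i : G) * t, ?_⟩
      invFun := fun k => ⟨(k : G) * t, ?_⟩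
      left_inv := ?_
      right_inv := ?_ }
  · rw [mem_inv, htx]
    obtain ⟨i, hi2, hix⟩ := i
    have hii := hJ i hi2
    have hiy : i • y = x := by rw [← hix, smul_smul, hii, one_smul]
    refine ⟨?_, ?_, ?_⟩
    · show (i * t) • x = x
      rw [mul_smul, htx, hiy]
    · show (i * t) • y = y
      rw [mul_smul, hty, hix]
    · show t * (i * t) * t⁻¹ = (i * t)⁻¹
      rw [htinv, mul_inv_rev, htinv, inv_eq_self_of_mul hii]
      calc t * (i * t) * t = t * i * (t * t) := by simp only [mul_assoc]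
        _ = t * i := by rw [h1, mul_one]
  · obtain ⟨k, hk⟩ := k
    have hk' := mem_inv.mp hk
    rw [htx] at hk'
    have hkt : t * k * t = k⁻¹ := by
      have := hk'.2.2
      rwa [htinv] at this
    have hkt' : k * t * k = t := by
      calc k * t * k = k * (t * k * t) * t := by simp only [mul_assoc, h1, mul_one]
        _ = t := by rw [hkt, mul_inv_cancel, one_mul]
    have hktk : (k * t) * (k * t) = 1 := by
      calc (k * t) * (k * t) = (k * t * k) * t := by simp only [mul_assoc]
        _ = 1 := by rw [hkt', h1]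
    refine ⟨orderOf_eq_prime (by rw [pow_two]; exact hktk) ?_, ?_⟩
    · intro h
      have h3 : (k * t) • x = y := by rw [mul_smul, htx]; exact hk'.2.1
      rw [h, one_smul] at h3
      exact hxy h3
    · have h3 : (k * t) • x = y := by rw [mul_smul, htx]; exact hk'.2.1
      exact h3
  · rintro ⟨i, hi⟩
    apply Subtype.ext
    show i * t * t = i
    rw [mul_assoc, h1, mul_one]
  · rintro ⟨k, hk⟩
    apply Subtype.ext
    show k * t * t = k
    rw [mul_assoc, h1, mul_one]

end onefix

section se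
variable {G : Type*} [Group G] [Finite G] {H : Subgroup G}

theorem SE.conj_mem (hH : IsStronglyEmbedded H) {s g : G} (hs : s ∈ H) (hss : s * s = 1) (hs1 : s ≠ 1)
    (hg : g⁻¹ * s * g ∈ H) : g ∈ H := by
  have hord : orderOf s = 2 := orderOf_eq_prime (by rw [pow_two]; exact hss) hs1
  exact (H01.stronglyEmbedded_iff H hH.1 hH.2.1).mp hH s hs hord g hg

/-- A strongly embedded subgroup has odd index. -/
theorem SE.not_dvd_index (hH : IsStronglyEmbedded H) : ¬ 2 ∣ H.index := by
  obtain ⟨P⟩ : Nonempty (Sylow 2 H) := inferInstance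
  set R : Subgroup G := (P : Subgroup H).map H.subtype with hR
  have hRp : IsPGroup 2 R := P.2.map _
  have hPbot : (P : Subgroup H) ≠ ⊥ := P.ne_bot_of_dvd_card hH.2.1.two_dvd
  have hRbot : R ≠ ⊥ := by
    intro h
    exact hPbot ((Subgroup.map_eq_bot_iff_of_injective _ H.subtype_injective).mp h)
  have hRH : R ≤ H := by
    rintro _ ⟨x, -, rfl⟩
    exact x.2
  obtain ⟨S, hS⟩ := hRp.exists_le_sylow
  have hRS : R = S := by
    by_contra hne
    have hlt : R < S := lt_of_le_of_ne hS hne
    have hlt2 := lt_inf_normalizer S.2 hlt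
    -- an involution of `R`
    have h2 : 2 ∣ Nat.card R := by
      rw [hR, Subgroup.card_map_of_injective H.subtype_injective]
      obtain ⟨k, hk⟩ := IsPGroup.iff_card.mp P.2
      rw [hk]
      have hk0 : k ≠ 0 := by
        rintro rfl
        rw [pow_zero] at hk
        exact hPbot (Subgroup.eq_bot_of_card_eq _ hk)
      exact dvd_pow_self 2 hk0
    obtain ⟨i, hi⟩ := exists_prime_orderOf_dvd_card' 2 h2
    have hii : (i : G) * i = 1 := by
      have := pow_orderOf_eq_one i
      rw [hi, pow_two] at this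
      exact congrArg Subtype.val this
    have hi1 : (i : G) ≠ 1 := by
      intro h
      have : i = 1 := Subtype.ext h
      rw [this, orderOf_one] at hi
      exact absurd hi (by decide)
    have hle : (S : Subgroup G) ⊓ normalizer (R : Set G) ≤ H := by
      intro y hy
      have hyN := (mem_inf.mp hy).2
      have hyN' : y⁻¹ ∈ normalizer (R : Set G) := Subgroup.inv_mem _ hyN
      have h3 : y⁻¹ * i * y⁻¹⁻¹ ∈ R := (mem_normalizer_iff.mp hyN' i).mp i.2
      rw [inv_inv] at h3
      exact SE.conj_mem hH (hRH i.2) hii hi1 (hRH h3)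
    have h4 : IsPGroup 2 ↥((S : Subgroup G) ⊓ normalizer (R : Set G)) := S.2.to_le inf_le_left
    have h5 : IsPGroup 2 ↥(((S : Subgroup G) ⊓ normalizer (R : Set G)).subgroupOf H) := isPGroup_subgroupOf' h4
    have h6 : (P : Subgroup H) ≤ ((S : Subgroup G) ⊓ normalizer (R : Set G)).subgroupOf H := by
      intro x hx
      rw [mem_subgroupOf]
      exact hlt2.le ⟨x, hx, rfl⟩
    have h7 := P.is_maximal' h5 h6
    apply hlt2.not_ge
    intro y hy
    have h8 : (⟨y, hle hy⟩ : H) ∈ ((S : Subgroup G) ⊓ normalizer (R : Set G)).subgroupOf H := by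
      rw [mem_subgroupOf]
      exact hy
    rw [h7] at h8
    exact ⟨_, h8, rfl⟩
  have hSH : (S : Subgroup G) ≤ H := by rw [← hRS]; exact hRH
  intro hd
  exact S.not_dvd_index (hd.trans (Subgroup.index_dvd_of_le hSH))

theorem SE.smul_mk (s g : G) : s • (QuotientGroup.mk g : G ⧸ H) = QuotientGroup.mk (s * g) := rfl

theorem SE.fix_iff {s g : G} : s • (QuotientGroup.mk g : G ⧸ H) = QuotientGroup.mk g ↔ g⁻¹ * s * g ∈ H := by
  rw [SE.smul_mk, eq_comm, QuotientGroup.eq, mul_assoc]

/-- Every involution has a unique fixed point on the cosets. -/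
theorem SE.oneFix (hH : IsStronglyEmbedded H) : OneFix G (G ⧸ H) := by
  intro s hs hs1
  have hord : orderOf s = 2 := orderOf_eq_prime (by rw [pow_two]; exact hs) hs1
  have hp : IsPGroup 2 (zpowers s) := by
    apply IsPGroup.of_card (n := 1)
    rw [Nat.card_zpowers, hord, pow_one]
  obtain ⟨x, hx⟩ := hp.nonempty_fixed_point_of_prime_not_dvd_card (G ⧸ H) (SE.not_dvd_index hH)
  have hsx : s • x = x := hx ⟨s, mem_zpowers s⟩
  refine ⟨x, hsx, ?_⟩
  intro y hy
  induction x using QuotientGroup.induction_on with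
  | H g =>
  induction y using QuotientGroup.induction_on with
  | H g' =>
  rw [SE.fix_iff] at hsx hy
  have h1 : g⁻¹ * g' ∈ H := by
    apply SE.conj_mem hH hsx (s := g⁻¹ * s * g)
    · calc g⁻¹ * s * g * (g⁻¹ * s * g) = g⁻¹ * (s * s) * g := by group
        _ = 1 := by rw [hs]; group
    · intro h
      apply hs1
      have : s = g * (g⁻¹ * s * g) * g⁻¹ := by group
      rw [this, h]
      group
    · convert hy using 1
      group
  rw [eq_comm, QuotientGroup.eq]
  exact h1

theorem SE.hT : ∀ x y : G ⧸ H, ∃ g : G, g • x = y := fun x y => exists_smul_eq G x y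

theorem SE.hN (hH : IsStronglyEmbedded H) : ∀ x : G ⧸ H, ∃ z : G ⧸ H, z ≠ x := by
  obtain ⟨g, hg⟩ : ∃ g, g ∉ H := by
    by_contra hcon
    push Not at hcon
    exact hH.1 (eq_top_iff.mpr fun x _ => hcon x)
  intro x
  induction x using QuotientGroup.induction_on with
  | H g₀ =>
  refine ⟨QuotientGroup.mk (g₀ * g), ?_⟩
  intro h
  rw [eq_comm, QuotientGroup.eq] at h
  apply hg
  convert h using 1
  group

theorem SE.stab_one : stabilizer G (QuotientGroup.mk 1 : G ⧸ H) = H := by
  ext g
  rw [mem_stabilizer_iff, show (QuotientGroup.mk 1 : G ⧸ H) = (1 : G) • (QuotientGroup.mk 1 : G ⧸ H) from (one_smul _ _).symm]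
  rw [SE.smul_mk, SE.smul_mk, mul_one, eq_comm, QuotientGroup.eq]
  simp

theorem SE.stab_smul (g : G) : stabilizer G (g • (QuotientGroup.mk 1 : G ⧸ H)) = H.map (MulAut.conj g).toMonoidHom := by
  rw [stabilizer_smul_eq_stabilizer_map_conj, SE.stab_one]

/-- The involutions in `H` and the involutions fixing a point are equinumerous. -/
theorem SE.card_invo (x : G ⧸ H) :
    Nat.card (involutionsIn (stabilizer G x : Set G)) = Nat.card {t : G // orderOf t = 2 ∧ t ∈ H} := by
  induction x using QuotientGroup.induction_on with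
  | H g =>
  apply Nat.card_congr
  have hfix : ∀ s : G, s • (QuotientGroup.mk g : G ⧸ H) = QuotientGroup.mk g ↔ g⁻¹ * s * g ∈ H := fun s => SE.fix_iff
  have hord : ∀ {s : G} {w : G}, s ≠ 1 → s * s = 1 → w = g⁻¹ * s * g → orderOf w = 2 := by
    intro s w hs1 hss hw
    apply orderOf_eq_prime
    · rw [pow_two, hw]
      calc g⁻¹ * s * g * (g⁻¹ * s * g) = g⁻¹ * (s * s) * g := by group
        _ = 1 := by rw [hss]; group
    · intro h
      apply hs1
      have : s = g * (g⁻¹ * s * g) * g⁻¹ := by group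
      rw [this, ← hw, h]
      group
  refine
    { toFun := fun s => ⟨g⁻¹ * s * g, ?_⟩
      invFun := fun t => ⟨g * t * g⁻¹, ?_⟩
      left_inv := ?_
      right_inv := ?_ }
  · obtain ⟨s, hs⟩ := s
    have hs' := mem_invo.mp hs
    exact ⟨hord hs'.2.1 hs'.2.2 rfl, (hfix s).mp hs'.1⟩
  · obtain ⟨t, ht2, htH⟩ := t
    have htt : t * t = 1 := by
      have := pow_orderOf_eq_one t
      rwa [ht2, pow_two] at this
    have ht1 : t ≠ 1 := by
      rintro rfl
      rw [orderOf_one] at ht2
      exact absurd ht2 (by decide)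
    rw [mem_invo]
    refine ⟨?_, ?_, ?_⟩
    · rw [hfix]
      convert htH using 1
      group
    · intro h
      apply ht1
      have : t = g⁻¹ * (g * t * g⁻¹) * g := by group
      rw [this, h]
      group
    · calc g * t * g⁻¹ * (g * t * g⁻¹) = g * (t * t) * g⁻¹ := by group
        _ = 1 := by rw [htt]; group
  · rintro ⟨s, hs⟩
    apply Subtype.ext
    show g * (g⁻¹ * s * g) * g⁻¹ = s
    group
  · rintro ⟨t, ht⟩
    apply Subtype.ext
    show g⁻¹ * (g * t * g⁻¹) * g = t
    group

theorem SE.exists_invo (hH : IsStronglyEmbedded H) : ∃ t ∈ H, t ≠ 1 ∧ t * t = 1 := by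
  obtain ⟨s, hs⟩ := exists_prime_orderOf_dvd_card' 2 hH.2.1.two_dvd
  refine ⟨s, s.2, ?_, ?_⟩
  · intro h
    have : s = 1 := Subtype.ext h
    rw [this, orderOf_one] at hs
    exact absurd hs (by decide)
  · have := pow_orderOf_eq_one s
    rw [hs, pow_two] at this
    exact congrArg Subtype.val this

theorem SE.invo_nonempty (hH : IsStronglyEmbedded H) (x : G ⧸ H) :
    (involutionsIn (stabilizer G x : Set G)).Nonempty := by
  induction x using QuotientGroup.induction_on with
  | H g =>
  obtain ⟨t, htH, ht1, htt⟩ := SE.exists_invo hH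
  refine ⟨g * t * g⁻¹, ?_⟩
  rw [mem_invo]
  refine ⟨?_, ?_, ?_⟩
  · rw [SE.fix_iff]
    convert htH using 1
    group
  · intro h
    apply ht1
    have : t = g⁻¹ * (g * t * g⁻¹) * g := by group
    rw [this, h]
    group
  · calc g * t * g⁻¹ * (g * t * g⁻¹) = g * (t * t) * g⁻¹ := by group
      _ = 1 := by rw [htt]; group

/-- S1224. -/
theorem SE.card_swap (hH : IsStronglyEmbedded H) {x y : G ⧸ H} (hxy : x ≠ y) :
    Nat.card {i : G // orderOf i = 2 ∧ i • x = y} = Nat.card {t : G // orderOf t = 2 ∧ t ∈ H} := by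
  rw [(SE.oneFix hH).card_J hxy (SE.invo_nonempty hH x) (SE.invo_nonempty hH y), SE.card_invo]

/-- S1225. -/
theorem SE.conj_invo (hH : IsStronglyEmbedded H) {u : G} (hu : orderOf u = 2) (huH : u ∉ H) {s t : G}
    (hs : orderOf s = 2) (hsH : s ∈ H) (ht : orderOf t = 2) (htH : t ∈ H) :
    (∃ d ∈ (H ⊓ H.map (MulAut.conj u).toMonoidHom), d * s * d⁻¹ = t) ∧
      ∀ a b : G, orderOf a = 2 → orderOf b = 2 → IsConj a b := by
  have hF := SE.oneFix hH
  have hsq : ∀ {i : G}, orderOf i = 2 → i * i = 1 := by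
    intro i hi
    have := pow_orderOf_eq_one i
    rwa [hi, pow_two] at this
  have hne1 : ∀ {i : G}, orderOf i = 2 → i ≠ 1 := by
    rintro i hi rfl
    rw [orderOf_one] at hi
    exact absurd hi (by decide)
  constructor
  · set o : G ⧸ H := QuotientGroup.mk 1 with ho
    have hstab : stabilizer G o = H := SE.stab_one
    have huo : u • o ≠ o := by
      intro h
      apply huH
      rw [← hstab]
      exact mem_stabilizer_iff.mpr h
    have hIs : s ∈ involutionsIn (stabilizer G o : Set G) := by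
      rw [hstab]
      exact ⟨hsH, hne1 hs, hsq hs⟩
    have hIt : t ∈ involutionsIn (stabilizer G o : Set G) := by
      rw [hstab]
      exact ⟨htH, hne1 ht, hsq ht⟩
    obtain ⟨k, hk, hks⟩ := hF.K_exists (hsq hu) huo hIs hIt
    refine ⟨k⁻¹, ?_, by rw [inv_inv]; exact hks⟩
    have hkD := hk.1
    have h1 : stabilizer G (u • o) = H.map (MulAut.conj u).toMonoidHom := SE.stab_smul u
    have hk1 : k ∈ H := by rw [← hstab]; exact (mem_inf.mp hkD).1
    have hk2 : k ∈ H.map (MulAut.conj u).toMonoidHom := by rw [← h1]; exact (mem_inf.mp hkD).2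
    exact Subgroup.inv_mem _ (mem_inf.mpr ⟨hk1, hk2⟩)
  · intro a b ha hb
    obtain ⟨g, hg⟩ := hF.conj_all SE.hT (SE.hN hH) (hsq ha) (hne1 ha) (hsq hb) (hne1 hb)
    rw [isConj_iff]
    exact ⟨g, hg⟩

end se

end Cfsg.Agent.H05
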