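import Cfsg.Agent.Lib.H05.SE
import Cfsg.Agent.Lib.H05.RankOne2

/-!
# Actions in which involution centralizers are elementary abelian
-/

set_option autoImplicit false
set_option linter.style.haveILetI false
set_option linter.unusedSectionVars false

namespace Cfsg.Agent.H05

open Subgroup Cfsg MulAction

section act
variable {G Ω : Type*} [Group G] [Finite G] [MulAction G Ω]

/-- The abstract situation. -/
structure EAct (G Ω : Type*) [Group G] [MulAction G Ω] : Prop where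
  hF : OneFix G Ω
  hI : ∀ x : Ω, ∃ s : G, s • x = x ∧ s ≠ 1 ∧ s * s = 1
  hC : ∀ t : G, t * t = 1 → t ≠ 1 → ∀ c : G, c * t = t * c → c * c = 1
  hcomm : ∀ (x : Ω) (s s' : G), s • x = x → s * s = 1 → s' • x = x → s' * s' = 1 → s * s' = s' * s

theorem EAct.swap (h : EAct G Ω) {p q : Ω} (hpq : p ≠ q) : ∃ w : G, w * w = 1 ∧ w ≠ 1 ∧ w • p = q := by
  obtain ⟨s, hs, hs1, hss⟩ := h.hI p
  obtain ⟨u, hu, hu1, huu⟩ := h.hI q
  obtain ⟨k, h1, h2⟩ := h.hF.exists_mid hss hs1 huu hu1 hs hu hpq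
  refine ⟨_, h1, ?_, h.hF.mid_smul huu hu1 hs hu h1 h2⟩
  intro h3
  have h4 := h.hF.mid_smul huu hu1 hs hu h1 h2
  rw [h3, one_smul] at h4
  exact hpq h4

theorem EAct.odd_card (h : EAct G Ω) {p q : Ω} (hpq : p ≠ q) :
    Odd (Nat.card ↥(stabilizer G p ⊓ stabilizer G q)) := by
  by_contra hodd
  obtain ⟨t, ht, h2⟩ := H01.exists_invol_of_not_odd _ hodd
  have htt : t * t = 1 := by
    have := pow_orderOf_eq_one t
    rwa [h2, pow_two] at this
  have ht1 : t ≠ 1 := by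
    rintro rfl
    rw [orderOf_one] at h2
    exact absurd h2 (by decide)
  exact hpq (h.hF.eq htt ht1 (mem_inf.mp ht).1 (mem_inf.mp ht).2)

theorem EAct.odd_order (h : EAct G Ω) {p q : Ω} (hpq : p ≠ q) {d : G} (hp : d • p = p) (hq : d • q = q) :
    Odd (orderOf d) := by
  have h1 : orderOf d ∣ Nat.card ↥(stabilizer G p ⊓ stabilizer G q) := by
    have := orderOf_dvd_natCard (⟨d, mem_inf.mpr ⟨hp, hq⟩⟩ : ↥(stabilizer G p ⊓ stabilizer G q))
    rwa [Subgroup.orderOf_mk] at this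
  exact Odd.of_dvd_nat (h.odd_card hpq) h1

/-- An involution carrying one point to another inverts everything that fixes both. -/
theorem EAct.invert (h : EAct G Ω) {p : Ω} {w d : G} (hww : w * w = 1) (hwp : w • p ≠ p)
    (hd : d • p = p) (hd' : d • (w • p) = w • p) : w * d * w⁻¹ = d⁻¹ := by
  set X : Subgroup G := stabilizer G p ⊓ stabilizer G (w • p) with hX
  have hw1 : w ≠ 1 := by
    rintro rfl
    exact hwp (one_smul _ _)
  have hwinv : w⁻¹ = w := inv_eq_self_of_mul hww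
  have hodd : Odd (Nat.card X) := h.odd_card hwp.symm
  have hnorm : ∀ x ∈ X, w * x * w⁻¹ ∈ X := by
    intro x hx
    obtain ⟨h1, h2⟩ := mem_inf.mp hx
    have h1' : x • p = p := h1
    have h2' : x • (w • p) = w • p := h2
    refine mem_inf.mpr ⟨?_, ?_⟩
    · rw [mem_stabilizer_iff, hwinv, mul_smul, mul_smul, h2', smul_smul, hww, one_smul]
    · rw [mem_stabilizer_iff, hwinv, mul_smul, mul_smul, smul_smul w w, hww, one_smul, h1']
  have hdX : d ∈ X := mem_inf.mpr ⟨hd, hd'⟩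
  obtain ⟨⟨y, z⟩, ⟨hy, hz, hdyz⟩, -⟩ := fix_inv_factor hww hodd hnorm d hdX
  simp only at hy hz hdyz
  have hyX := (mem_inf.mp hy).1
  have hyC := (mem_inf.mp hy).2
  have hyy : y * y = 1 := by
    apply h.hC w hww hw1
    exact mem_centralizer_iff.mp hyC w rfl |>.symm
  have hy1 : y = 1 := by
    apply eq_one_of_mul_self_of_odd _ hyy
    exact h.odd_order hwp.symm (mem_inf.mp hyX).1 (mem_inf.mp hyX).2
  rw [hy1, one_mul] at hdyz
  rw [hdyz]
  exact hz.2

theorem EAct.comm (h : EAct G Ω) {p : Ω} {w d e : G} (hww : w * w = 1) (hwp : w • p ≠ p)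
    (hd : d • p = p) (hd' : d • (w • p) = w • p) (he : e • p = p) (he' : e • (w • p) = w • p) :
    d * e = e * d := by
  have h1 := h.invert hww hwp hd hd'
  have h2 := h.invert hww hwp he he'
  have h3 := h.invert hww hwp (d := d * e) (by rw [mul_smul, he, hd]) (by rw [mul_smul, he', hd'])
  have h4 : w * (d * e) * w⁻¹ = (w * d * w⁻¹) * (w * e * w⁻¹) := by group
  rw [h4, h1, h2, mul_inv_rev] at h3
  have h5 : (d⁻¹ * e⁻¹)⁻¹ = (e⁻¹ * d⁻¹)⁻¹ := by rw [h3]
  simp only [mul_inv_rev, inv_inv] at h5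
  exact h5.symm

theorem EAct.factor (h : EAct G Ω) {p : Ω} {w y s : G} (hww : w * w = 1) (hwp : w • p ≠ p)
    (hy : y • p = p) (hs : s • p = p) (hs1 : s ≠ 1) (hss : s * s = 1) :
    ∃ k : G, k • p = p ∧ k • (w • p) = w • p ∧ (k * y) * s = s * (k * y) := by
  have h1 : s ∈ involutionsIn (stabilizer G p : Set G) := mem_invo.mpr ⟨hs, hs1, hss⟩
  have h2 := invo_conj (k := y) hy h1
  obtain ⟨k, hk, hk'⟩ := h.hF.K_exists hww hwp h1 h2
  have hk2 := mem_inv.mp hk
  refine ⟨k, hk2.1, hk2.2.1, ?_⟩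
  have h3 : s * k = k * (y * s * y⁻¹) := by
    rw [← hk']
    group
  calc k * y * s = k * (y * s * y⁻¹) * y := by group
    _ = s * k * y := by rw [h3]
    _ = s * (k * y) := by group

/-- **Lemma C**: a nontrivial element fixes at most two points. -/
theorem EAct.two_fix (h : EAct G Ω) {d : G} {p q e : Ω} (hpq : p ≠ q) (hpe : p ≠ e) (hqe : q ≠ e)
    (hp : d • p = p) (hq : d • q = q) (he : d • e = e) : d = 1 := by
  obtain ⟨w₁, hw₁, hw₁1, hw₁p⟩ := h.swap hpq
  obtain ⟨w₂, hw₂, hw₂1, hw₂p⟩ := h.swap hpe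
  have hinv1 : w₁ * d * w₁⁻¹ = d⁻¹ :=
    h.invert hw₁ (by rw [hw₁p]; exact hpq.symm) hp (by rw [hw₁p]; exact hq)
  have hinv2 : w₂ * d * w₂⁻¹ = d⁻¹ :=
    h.invert hw₂ (by rw [hw₂p]; exact hpe.symm) hp (by rw [hw₂p]; exact he)
  set c := w₁ * w₂ with hc
  have hcd : c * d * c⁻¹ = d := by
    have : c * d * c⁻¹ = w₁ * (w₂ * d * w₂⁻¹) * w₁⁻¹ := by rw [hc]; group
    rw [this, hinv2]
    have h3 : w₁ * d⁻¹ * w₁⁻¹ = (w₁ * d * w₁⁻¹)⁻¹ := by group
    rw [h3, hinv1, inv_inv]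
  have hcd' : c * d = d * c := by
    calc c * d = c * d * c⁻¹ * c := by group
      _ = d * c := by rw [hcd]
  set x := c • p with hx
  have hxp : x ≠ p := by
    intro h3
    rw [hx, hc, mul_smul, hw₂p] at h3
    have h4 : w₁ • (w₁ • e) = w₁ • p := by rw [h3]
    rw [smul_smul, hw₁, one_smul, hw₁p] at h4
    exact hqe h4.symm
  have hdx : d • x = x := by
    rw [hx, smul_smul, ← hcd', mul_smul, hp]
  obtain ⟨w₃, hw₃, hw₃1, hw₃p⟩ := h.swap hxp.symm
  have hinv3 : w₃ * d * w₃⁻¹ = d⁻¹ :=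
    h.invert hw₃ (by rw [hw₃p]; exact hxp) hp (by rw [hw₃p]; exact hdx)
  set y := w₃ * c with hy
  have hyp : y • p = p := by
    rw [hy, mul_smul, ← hx, ← hw₃p, smul_smul, hw₃, one_smul]
  have hyd : y * d * y⁻¹ = d⁻¹ := by
    have : y * d * y⁻¹ = w₃ * (c * d * c⁻¹) * w₃⁻¹ := by rw [hy]; group
    rw [this, hcd, hinv3]
  obtain ⟨s, hs, hs1, hss⟩ := h.hI p
  obtain ⟨k, hk, hk', hks⟩ := h.factor hw₃ (by rw [hw₃p]; exact hxp) hyp hs hs1 hss
  set τ := k * y with hτ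
  have hττ : τ * τ = 1 := h.hC s hss hs1 τ hks
  have hτp : τ • p = p := by rw [hτ, mul_smul, hyp, hk]
  have hkd : k * d = d * k :=
    h.comm hw₃ (by rw [hw₃p]; exact hxp) hk hk' hp (by rw [hw₃p]; exact hdx)
  have hτd : τ * d * τ⁻¹ = d⁻¹ := by
    have : τ * d * τ⁻¹ = k * (y * d * y⁻¹) * k⁻¹ := by rw [hτ]; group
    rw [this, hyd]
    have h3 : k * d⁻¹ * k⁻¹ = (k * d * k⁻¹)⁻¹ := by group
    rw [h3]
    congr 1
    rw [hkd]
    group
  have hodd : Odd (orderOf d) := h.odd_order hpq hp hq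
  by_cases hτ1 : τ = 1
  · rw [hτ1] at hτd
    simp only [one_mul, inv_one, mul_one] at hτd
    apply eq_one_of_mul_self_of_odd hodd
    nth_rw 1 [hτd]
    simp
  · -- the conjugate involution
    set τ' := d * τ * d⁻¹ with hτ'
    have hτ'p : τ' • p = p := by
      rw [hτ', mul_smul, mul_smul]
      have : d⁻¹ • p = p := by rw [inv_smul_eq_iff, hp]
      rw [this, hτp, hp]
    have hτ'τ' : τ' * τ' = 1 := by
      calc τ' * τ' = d * (τ * τ) * d⁻¹ := by rw [hτ']; group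
        _ = 1 := by rw [hττ]; group
    have hcm : τ' * τ = τ * τ' := h.hcomm p τ' τ hτ'p hτ'τ' hτp hττ
    have hτinv : τ⁻¹ = τ := inv_eq_self_of_mul hττ
    rw [hτinv] at hτd
    have h5 : τ' * τ = d * d := by
      calc τ' * τ = d * (τ * d⁻¹ * τ) := by rw [hτ']; group
        _ = d * (τ * d * τ)⁻¹ := by
            congr 1
            have h7 : (τ * d * τ)⁻¹ = τ⁻¹ * d⁻¹ * τ⁻¹ := by group
            rw [h7, hτinv]
        _ = d * d := by rw [hτd, inv_inv]
    have h6 : (d * d) * (d * d) = 1 := by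
      rw [← h5]
      calc τ' * τ * (τ' * τ) = τ' * (τ * τ') * τ := by group
        _ = τ' * (τ' * τ) * τ := by rw [hcm]
        _ = (τ' * τ') * (τ * τ) := by group
        _ = 1 := by rw [hτ'τ', hττ, one_mul]
    apply eq_one_of_mul_self_of_odd hodd
    apply eq_one_of_mul_self_of_odd _ h6
    exact Odd.of_dvd_nat hodd (by
      have : orderOf (d * d) ∣ orderOf d := by
        rw [← pow_two]
        exact orderOf_pow_dvd _ |>.trans (by simp) 
      exact this)

end act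

end Cfsg.Agent.H05
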