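import Cfsg.Agent.Lib.H05.SE2
import Cfsg.Agent.Lib.H05.Sig

/-!
# Groups with elementary abelian involution centralizers
-/

set_option autoImplicit false
set_option linter.style.haveILetI false
set_option linter.unusedSectionVars false

namespace Cfsg.Agent.H05

open Subgroup Cfsg MulAction
open scoped Pointwise

section ea
variable {G : Type*} [Group G] [Finite G]

/-- The hypotheses. -/
structure EA (T : Sylow 2 G) : Prop where
  nc : ¬ IsCyclic (T : Subgroup G)
  nn : ¬ (T : Subgroup G).Normal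
  hC : ∀ t : G, orderOf t = 2 → IsMulCommutative (centralizer ({t} : Set G)) ∧ ∀ c ∈ centralizer ({t} : Set G), c ^ 2 = 1

/-- The normalizer. -/
abbrev NT (T : Sylow 2 G) : Subgroup G := normalizer ((T : Subgroup G) : Set G)

variable {T : Sylow 2 G}

theorem EA.ord_of (_h : EA T) {t : G} (htt : t * t = 1) (ht1 : t ≠ 1) : orderOf t = 2 :=
  orderOf_eq_prime (by rw [pow_two]; exact htt) ht1

theorem mul_self_of_ord {t : G} (h : orderOf t = 2) : t * t = 1 := by
  have := pow_orderOf_eq_one t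
  rwa [h, pow_two] at this

theorem ne_one_of_ord {t : G} (h : orderOf t = 2) : t ≠ 1 := by
  rintro rfl
  rw [orderOf_one] at h
  exact absurd h (by decide)

theorem EA.hC' (h : EA T) {t c : G} (htt : t * t = 1) (ht1 : t ≠ 1) (hc : c * t = t * c) : c * c = 1 := by
  have h1 := (h.hC t (h.ord_of htt ht1)).2 c (mem_centralizer_iff.mpr (by
    intro y hy
    rw [Set.mem_singleton_iff.mp hy]
    exact hc.symm))
  rwa [pow_two] at h1

theorem EA.ne_bot (h : EA T) : (T : Subgroup G) ≠ ⊥ := by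
  intro hb
  apply h.nc
  rw [hb]
  exact isCyclic_of_subsingleton

theorem EA.exists_center (h : EA T) : ∃ z ∈ (T : Subgroup G), orderOf z = 2 ∧ ∀ x ∈ (T : Subgroup G), x * z = z * x := by
  haveI : Nontrivial (T : Subgroup G) := (T : Subgroup G).nontrivial_iff_ne_bot.mpr h.ne_bot
  haveI := T.2.center_nontrivial
  have h1 : IsPGroup 2 (center (T : Subgroup G)) := T.2.to_subgroup _
  have h2 : 2 ∣ Nat.card (center (T : Subgroup G)) := by
    obtain ⟨k, hk⟩ := IsPGroup.iff_card.mp h1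
    have hk0 : k ≠ 0 := by
      rintro rfl
      rw [pow_zero] at hk
      have := (Nat.card_eq_one_iff_unique.mp hk).1
      exact not_subsingleton _ this
    rw [hk]
    exact dvd_pow_self 2 hk0
  obtain ⟨z, hz⟩ := exists_prime_orderOf_dvd_card' 2 h2
  refine ⟨((z : (T : Subgroup G)) : G), (z : (T : Subgroup G)).2, ?_, ?_⟩
  · rw [Subgroup.orderOf_coe, Subgroup.orderOf_coe]
    exact hz
  · intro x hx
    have := mem_center_iff.mp z.2 ⟨x, hx⟩
    exact congrArg Subtype.val this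

theorem EA.sq (h : EA T) {x : G} (hx : x ∈ (T : Subgroup G)) : x * x = 1 := by
  obtain ⟨z, -, hz2, hz⟩ := h.exists_center
  exact h.hC' (mul_self_of_ord hz2) (ne_one_of_ord hz2) (hz x hx)

theorem EA.cm (h : EA T) {x y : G} (hx : x ∈ (T : Subgroup G)) (hy : y ∈ (T : Subgroup G)) : x * y = y * x := by
  have h1 := h.sq hx
  have h2 := h.sq hy
  have h3 := h.sq (mul_mem hx hy)
  calc x * y = x * y * (y * x * (y * x)) := by
        rw [show y * x * (y * x) = (y * x) * (y * x) from rfl]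
        have := h.sq (mul_mem hy hx)
        rw [this, mul_one]
    _ = x * (y * y) * x * (y * x) := by group
    _ = y * x := by rw [h2, mul_one, h1, one_mul]

theorem EA.ne_one_of_mem (h : EA T) {t : G} (hT : t ∈ (T : Subgroup G)) (ht : t ≠ 1) : orderOf t = 2 :=
  h.ord_of (h.sq hT) ht

theorem EA.cent_eq (h : EA T) {t : G} (ht : t ∈ (T : Subgroup G)) (htt : t * t = 1) (ht1 : t ≠ 1) :
    centralizer ({t} : Set G) = T := by
  have hp : IsPGroup 2 (centralizer ({t} : Set G)) := by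
    intro g
    refine ⟨1, ?_⟩
    apply Subtype.ext
    show (g : G) ^ 2 ^ 1 = 1
    rw [pow_one]
    have h1 := (h.hC t (h.ord_of htt ht1)).2 g g.2
    exact h1
  apply T.is_maximal' hp
  intro x hx
  exact mem_centralizer_iff.mpr (by
    intro y hy
    rw [Set.mem_singleton_iff.mp hy]
    exact h.cm ht hx)

theorem EA.cent_eq' (h : EA T) {t : G} (ht : t ∈ (T : Subgroup G)) (htt : t * t = 1) (ht1 : t ≠ 1) {x : G}
    (hx : x * t = t * x) : x ∈ (T : Subgroup G) := by
  rw [← h.cent_eq ht htt ht1]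
  exact mem_centralizer_iff.mpr (by
    intro y hy
    rw [Set.mem_singleton_iff.mp hy]
    exact hx.symm)

theorem EA.invol_norm (_h : EA T) {s : G} (hs : s ∈ NT T) (hss : s * s = 1) : s ∈ (T : Subgroup G) := by
  have h1 : IsPGroup 2 (zpowers s) := by
    by_cases hs1 : s = 1
    · rw [hs1, zpowers_one_eq_bot]
      exact IsPGroup.of_bot
    · apply IsPGroup.of_card (n := 1)
      rw [Nat.card_zpowers, orderOf_eq_prime (by rw [pow_two]; exact hss) hs1, pow_one]
  have h2 : zpowers s ≤ normalizer ((T : Subgroup G) : Set G) := Subgroup.zpowers_le.mpr hs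
  have h3 := h1.to_sup_of_normal_right' T.2 h2
  have h4 := T.is_maximal' h3 le_sup_right
  rw [← h4]
  exact (le_sup_left : zpowers s ≤ _) (mem_zpowers s)

theorem EA.T_le (_h : EA T) : (T : Subgroup G) ≤ NT T := le_normalizer

theorem EA.H_ne_top (h : EA T) : NT T ≠ ⊤ := by
  intro ht
  apply h.nn
  exact normalizer_eq_top_iff.mp ht

theorem EA.H_even (h : EA T) : Even (Nat.card (NT T)) := by
  obtain ⟨z, hzT, hz2, -⟩ := h.exists_center
  have h1 : orderOf (⟨z, h.T_le hzT⟩ : NT T) ∣ Nat.card (NT T) := orderOf_dvd_natCard _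
  rw [Subgroup.orderOf_mk, hz2] at h1
  exact even_iff_two_dvd.mpr h1

/-- S1226. -/
theorem EA.se (h : EA T) : IsStronglyEmbedded (NT T) := by
  rw [H01.stronglyEmbedded_iff _ h.H_ne_top h.H_even]
  intro t ht ht2 g hg
  have htt := mul_self_of_ord ht2
  have ht1 := ne_one_of_ord ht2
  have htT := h.invol_norm ht htt
  have hg2 : (g⁻¹ * t * g) * (g⁻¹ * t * g) = 1 := by
    calc (g⁻¹ * t * g) * (g⁻¹ * t * g) = g⁻¹ * (t * t) * g := by group
      _ = 1 := by rw [htt]; group
  have hg1 : g⁻¹ * t * g ≠ 1 := by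
    intro h3
    apply ht1
    have : t = g * (g⁻¹ * t * g) * g⁻¹ := by group
    rw [this, h3]
    group
  have hgT := h.invol_norm hg hg2
  have h1 : g⁻¹ ∈ NT T := by
    apply normalizer_of_conj
    intro x hx
    rw [inv_inv]
    apply h.cent_eq' hgT hg2 hg1
    have h3 : x * t = t * x := h.cm hx htT
    calc g⁻¹ * x * g * (g⁻¹ * t * g) = g⁻¹ * (x * t) * g := by group
      _ = g⁻¹ * (t * x) * g := by rw [h3]
      _ = g⁻¹ * t * g * (g⁻¹ * x * g) := by group
  have := Subgroup.inv_mem _ h1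
  rwa [inv_inv] at this

/-- The base point. -/
abbrev oo (T : Sylow 2 G) : G ⧸ NT T := QuotientGroup.mk 1

theorem EA.stab_o (_h : EA T) : stabilizer G (oo T) = NT T := SE.stab_one

theorem EA.T_fix (h : EA T) {t : G} (ht : t ∈ (T : Subgroup G)) : t • oo T = oo T := by
  have : t ∈ stabilizer G (oo T) := by
    rw [h.stab_o]
    exact h.T_le ht
  exact this

theorem EA.act (h : EA T) : EAct G (G ⧸ NT T) where
  hF := SE.oneFix h.se
  hI := by
    intro x
    obtain ⟨s, hs⟩ := SE.invo_nonempty h.se x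
    exact ⟨s, (mem_invo.mp hs).1, (mem_invo.mp hs).2.1, (mem_invo.mp hs).2.2⟩
  hC := fun t htt ht1 c hc => h.hC' htt ht1 hc
  hcomm := by
    intro x s s' hs hss hs' hss'
    induction x using QuotientGroup.induction_on with
    | H g =>
    rw [SE.fix_iff] at hs hs'
    have h1 := h.invol_norm hs (s := g⁻¹ * s * g) (by
      calc (g⁻¹ * s * g) * (g⁻¹ * s * g) = g⁻¹ * (s * s) * g := by group
        _ = 1 := by rw [hss]; group)
    have h2 := h.invol_norm hs' (s := g⁻¹ * s' * g) (by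
      calc (g⁻¹ * s' * g) * (g⁻¹ * s' * g) = g⁻¹ * (s' * s') * g := by group
        _ = 1 := by rw [hss']; group)
    have h3 := h.cm h1 h2
    have h4 : g⁻¹ * (s * s') * g = g⁻¹ * (s' * s) * g := by
      calc g⁻¹ * (s * s') * g = g⁻¹ * s * g * (g⁻¹ * s' * g) := by group
        _ = g⁻¹ * s' * g * (g⁻¹ * s * g) := h3
        _ = g⁻¹ * (s' * s) * g := by group
    have h5 := mul_right_cancel h4
    exact mul_left_cancel h5

theorem EA.invo_card (h : EA T) :
    Nat.card (involutionsIn (stabilizer G (oo T) : Set G)) = Nat.card (T : Subgroup G) - 1 := by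
  have h1 : involutionsIn (stabilizer G (oo T) : Set G) = ((T : Subgroup G) : Set G) \ {1} := by
    ext s
    rw [mem_invo]
    constructor
    · rintro ⟨h1, h2, h3⟩
      exact ⟨h.invol_norm (by rw [← h.stab_o]; exact h1) h3, h2⟩
    · rintro ⟨h1, h2⟩
      exact ⟨h.T_fix h1, h2, h.sq h1⟩
  rw [h1, Nat.card_coe_set_eq, Set.ncard_sdiff_singleton_of_mem (one_mem (T : Subgroup G))]
  rfl

/-- the two-point stabilizer has the expected size -/
theorem EA.card_D (h : EA T) {w : G} (hww : w * w = 1) (hwo : w • oo T ≠ oo T) :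
    Nat.card ↥(DD (oo T) w) = Nat.card (T : Subgroup G) - 1 := by
  have hA := h.act
  have h1 := hA.hF.card_K hww hwo (SE.invo_nonempty h.se (oo T))
  rw [h.invo_card] at h1
  rw [← h1]
  apply Nat.card_congr
  refine
    { toFun := fun d => ⟨d, ?_⟩
      invFun := fun d => ⟨d, ?_⟩
      left_inv := ?_
      right_inv := ?_ }
  · have h2 := mem_inf.mp d.2
    exact mem_inv.mpr ⟨h2.1, h2.2, hA.invert hww hwo h2.1 h2.2⟩
  · exact d.2.1
  · intro d
    rfl
  · intro d
    rfl

theorem EA.D_eq (_h : EA T) (u : G) :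
    (NT T ⊓ (NT T).map (MulAut.conj u).toMonoidHom) = DD (oo T) u := by
  rw [DD, SE.stab_smul, SE.stab_one]

theorem EA.D_le (_h : EA T) (u : G) : DD (oo T) u ≤ NT T := by
  intro d hd
  have := (mem_inf.mp hd).1
  rwa [SE.stab_one] at this

theorem EA.disj (h : EA T) {w : G} (hwo : w • oo T ≠ oo T) :
    Disjoint (DD (oo T) w) (T : Subgroup G) := by
  rw [Subgroup.disjoint_def]
  intro x hx hxT
  have hodd := h.act.odd_order hwo.symm (mem_inf.mp hx).1 (mem_inf.mp hx).2
  exact eq_one_of_mul_self_of_odd hodd (h.sq hxT)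

theorem EA.factor (h : EA T) {w y : G} (hww : w * w = 1) (hwo : w • oo T ≠ oo T) (hy : y ∈ NT T) :
    ∃ k ∈ DD (oo T) w, k * y ∈ (T : Subgroup G) := by
  obtain ⟨z, hzT, hz2, -⟩ := h.exists_center
  have hy' : y • oo T = oo T := by
    have : y ∈ stabilizer G (oo T) := by rw [h.stab_o]; exact hy
    exact this
  obtain ⟨k, hk, hk', hks⟩ := h.act.factor hww hwo hy' (h.T_fix hzT) (ne_one_of_ord hz2) (mul_self_of_ord hz2)
  exact ⟨k, mem_inf.mpr ⟨hk, hk'⟩, h.cent_eq' hzT (mul_self_of_ord hz2) (ne_one_of_ord hz2) hks⟩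

/-- The two-point stabilizer is a complement. -/
theorem EA.compl (h : EA T) {w : G} (hww : w * w = 1) (hwo : w • oo T ≠ oo T) :
    IsComplement' ((DD (oo T) w).subgroupOf (NT T)) ((T : Subgroup G).subgroupOf (NT T)) := by
  apply isComplement'_of_disjoint_and_mul_eq_univ
  · rw [Subgroup.disjoint_def]
    intro x hx hxT
    rw [mem_subgroupOf] at hx hxT
    have := Subgroup.disjoint_def.mp (h.disj hwo) hx hxT
    exact Subtype.ext this
  · rw [Set.eq_univ_iff_forall]
    intro y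
    obtain ⟨k, hk, hky⟩ := h.factor hww hwo y.2
    refine Set.mem_mul.mpr ⟨⟨k⁻¹, Subgroup.inv_mem _ (h.D_le w hk)⟩, ?_, ⟨k * y, h.T_le hky⟩, ?_, ?_⟩
    · rw [SetLike.mem_coe, mem_subgroupOf]
      exact Subgroup.inv_mem _ hk
    · rw [SetLike.mem_coe, mem_subgroupOf]
      exact hky
    · apply Subtype.ext
      show k⁻¹ * (k * y) = y
      group

theorem EA.card_H (h : EA T) {w : G} (hww : w * w = 1) (hwo : w • oo T ≠ oo T) :
    Nat.card (NT T) = Nat.card (T : Subgroup G) * (Nat.card (T : Subgroup G) - 1) := by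
  have h1 := (h.compl hww hwo).card_mul_card
  rw [Nat.card_congr (subgroupOfEquivOfLe (h.D_le w)).toEquiv,
    Nat.card_congr (subgroupOfEquivOfLe h.T_le).toEquiv, h.card_D hww hwo] at h1
  rw [← h1, mul_comm]

/-- A point other than the base point gives an involution. -/
theorem EA.exists_w (h : EA T) {x : G ⧸ NT T} (hx : x ≠ oo T) : ∃ w : G, w * w = 1 ∧ w ≠ 1 ∧ w • oo T = x :=
  h.act.swap hx.symm

theorem EA.H_fix (h : EA T) {y : G} (hy : y ∈ NT T) : y • oo T = oo T := by
  have : y ∈ stabilizer G (oo T) := by rw [h.stab_o]; exact hy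
  exact this

/-- `H` is transitive on the other points. -/
theorem EA.H_trans (h : EA T) {x y : G ⧸ NT T} (hx : x ≠ oo T) (hy : y ≠ oo T) :
    ∃ g ∈ NT T, g • x = y := by
  obtain ⟨w₁, hw₁, -, hw₁o⟩ := h.exists_w hx
  obtain ⟨w₂, hw₂, -, hw₂o⟩ := h.exists_w hy
  have hc1 := h.compl hw₁ (by rw [hw₁o]; exact hx)
  have hc2 := h.compl hw₂ (by rw [hw₂o]; exact hy)
  haveI : ((T : Subgroup G).subgroupOf (NT T)).Normal := normal_in_normalizer
  have hp : IsPGroup 2 ((T : Subgroup G).subgroupOf (NT T)) := isPGroup_subgroupOf' T.2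
  have hcop : (Nat.card ((T : Subgroup G).subgroupOf (NT T))).Coprime ((T : Subgroup G).subgroupOf (NT T)).index := by
    rw [hc1.index_eq_card]
    rw [Nat.card_congr (subgroupOfEquivOfLe h.T_le).toEquiv,
      Nat.card_congr (subgroupOfEquivOfLe (h.D_le w₁)).toEquiv]
    obtain ⟨k, hk⟩ := IsPGroup.iff_card.mp T.2
    rw [hk]
    apply Nat.Coprime.pow_left
    rw [Nat.coprime_two_left]
    have hodd := h.act.odd_card (p := oo T) (q := w₁ • oo T) (by rw [hw₁o]; exact hx.symm)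
    exact hodd
  have hsolv : Group.IsSolvable ((T : Subgroup G).subgroupOf (NT T)) := by
    apply Group.isSolvable_of_comm
    intro a b
    apply Subtype.ext
    apply Subtype.ext
    exact h.cm a.2 b.2
  obtain ⟨g, hg⟩ := H01.sz_conj _ hcop _ _ hc1.symm hc2.symm (Or.inl hsolv)
  refine ⟨g, g.2, ?_⟩
  -- a nontrivial element of the second complement
  have hbig : 1 < Nat.card ↥(DD (oo T) w₂) := by
    rw [h.card_D hw₂ (by rw [hw₂o]; exact hy)]
    by_contra hcon
    have h2 : Nat.card (T : Subgroup G) ≤ 2 := by omega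
    have h3 : Nat.card (T : Subgroup G) = 1 ∨ Nat.card (T : Subgroup G) = 2 := by
      have : 0 < Nat.card (T : Subgroup G) := Nat.card_pos
      omega
    rcases h3 with h3 | h3
    · exact h.ne_bot (Subgroup.eq_bot_of_card_eq _ h3)
    · exact h.nc (isCyclic_of_prime_card h3)
  haveI : Nontrivial ↥(DD (oo T) w₂) := Finite.one_lt_card_iff_nontrivial.mp hbig
  obtain ⟨d, hd⟩ := exists_ne (1 : ↥(DD (oo T) w₂))
  have hdH : (d : G) ∈ NT T := h.D_le w₂ d.2
  have hmem : (⟨d, hdH⟩ : NT T) ∈ MulAut.conj g • ((DD (oo T) w₁).subgroupOf (NT T)) := by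
    rw [hg, mem_subgroupOf]
    exact d.2
  obtain ⟨e, he, hed⟩ := Subgroup.mem_smul_pointwise_iff_exists _ _ _ |>.mp hmem
  have hed' : (g : G) * ((e : NT T) : G) * (g : G)⁻¹ = d := by
    have := congrArg Subtype.val hed
    simpa [MulAut.conj_apply] using this
  rw [mem_subgroupOf] at he
  have he1 := mem_inf.mp he
  have he2 : ((e : NT T) : G) • x = x := by
    have := he1.2
    rw [hw₁o] at this
    exact this
  have hdo : (d : G) • oo T = oo T := (mem_inf.mp d.2).1
  have hdy : (d : G) • y = y := by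
    have := (mem_inf.mp d.2).2
    rw [hw₂o] at this
    exact this
  have hd3 : (d : G) • ((g : G) • x) = (g : G) • x := by
    rw [← hed', mul_smul, mul_smul, inv_smul_smul, he2]
  have hgo : (g : G) • oo T = oo T := h.H_fix g.2
  have hne : (g : G) • x ≠ oo T := by
    intro h3
    rw [← hgo] at h3
    exact hx (smul_left_cancel _ h3)
  by_contra hcon
  have := h.act.two_fix (d := (d : G)) (p := oo T) (q := y) (e := (g : G) • x) hy.symm hne.symm (fun h3 => hcon h3.symm) hdo hdy hd3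
  apply hd
  exact Subtype.ext this

/-- `T` is transitive on the other points. -/
theorem EA.T_trans (h : EA T) {x y : G ⧸ NT T} (hx : x ≠ oo T) (hy : y ≠ oo T) :
    ∃ t ∈ (T : Subgroup G), t • x = y := by
  obtain ⟨g, hg, hgx⟩ := h.H_trans hx hy
  obtain ⟨w, hw, -, hwo⟩ := h.exists_w hx
  obtain ⟨k, hk, hkg⟩ := h.factor hw (by rw [hwo]; exact hx) (Subgroup.inv_mem _ hg)
  -- `k * g⁻¹ = τ` so `g = τ⁻¹ * k`
  refine ⟨(k * g⁻¹)⁻¹, Subgroup.inv_mem _ hkg, ?_⟩
  have hkx : k • x = x := by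
    have := (mem_inf.mp hk).2
    rw [hwo] at this
    exact this
  have : (k * g⁻¹)⁻¹ = g * k⁻¹ := by group
  rw [this, mul_smul]
  have h2 : k⁻¹ • x = x := by rw [inv_smul_eq_iff, hkx]
  rw [h2, hgx]

/-- Unique transitivity. -/
theorem EA.T_uniq (h : EA T) {x : G ⧸ NT T} (hx : x ≠ oo T) {t t' : G} (ht : t ∈ (T : Subgroup G))
    (ht' : t' ∈ (T : Subgroup G)) (he : t • x = t' • x) : t = t' := by
  have h1 : (t⁻¹ * t') • x = x := by
    rw [mul_smul, ← he, inv_smul_smul]
  have h2 : t⁻¹ * t' ∈ (T : Subgroup G) := mul_mem (Subgroup.inv_mem _ ht) ht'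
  have h3 : t⁻¹ * t' = 1 := by
    by_contra hne
    exact hx (h.act.hF.eq (h.sq h2) hne h1 (h.T_fix h2))
  have : t' = t * (t⁻¹ * t') := by group
  rw [this, h3, mul_one]

/-- Triple transitivity. -/
theorem EA.triple (h : EA T) {x₁ x₂ x₃ y₁ y₂ y₃ : G ⧸ NT T} (h12 : x₁ ≠ x₂) (h13 : x₁ ≠ x₃) (h23 : x₂ ≠ x₃)
    (k12 : y₁ ≠ y₂) (k13 : y₁ ≠ y₃) (k23 : y₂ ≠ y₃) : ∃ g : G, g • x₁ = y₁ ∧ g • x₂ = y₂ ∧ g • x₃ = y₃ := by
  obtain ⟨g₁, hg₁⟩ := exists_smul_eq G x₁ (oo T)
  obtain ⟨g₂, hg₂⟩ := exists_smul_eq G y₁ (oo T)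
  have h2o : g₁ • x₂ ≠ oo T := by
    rw [← hg₁]
    exact fun h3 => h12 (smul_left_cancel _ h3).symm
  have h3o : g₁ • x₃ ≠ oo T := by
    rw [← hg₁]
    exact fun h3 => h13 (smul_left_cancel _ h3).symm
  have k2o : g₂ • y₂ ≠ oo T := by
    rw [← hg₂]
    exact fun h3 => k12 (smul_left_cancel _ h3).symm
  have k3o : g₂ • y₃ ≠ oo T := by
    rw [← hg₂]
    exact fun h3 => k13 (smul_left_cancel _ h3).symm
  obtain ⟨τ, hτ, hτx⟩ := h.T_trans h2o k2o
  set b := g₂ • y₂ with hb
  have hc' : τ • g₁ • x₃ ≠ oo T := by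
    intro h3
    rw [← h.T_fix hτ] at h3
    exact h3o (smul_left_cancel _ h3)
  have hcb : τ • g₁ • x₃ ≠ b := by
    rw [← hτx]
    intro h3
    have := smul_left_cancel _ (smul_left_cancel _ h3)
    exact h23 this.symm
  have kcb : g₂ • y₃ ≠ b := by
    intro h3
    exact k23 (smul_left_cancel _ h3).symm
  obtain ⟨τ', hτ', hτ'x⟩ := h.T_trans k2o hc'
  obtain ⟨τ₀, hτ₀, hτ₀x⟩ := h.T_trans k2o k3o
  have hτ'1 : τ' ≠ 1 := by
    rintro rfl
    rw [one_smul] at hτ'x
    exact hcb hτ'x.symm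
  have hτ₀1 : τ₀ ≠ 1 := by
    rintro rfl
    rw [one_smul] at hτ₀x
    exact kcb hτ₀x.symm
  obtain ⟨w, hw, -, hwo⟩ := h.exists_w k2o
  have hw' : w • oo T ≠ oo T := by rw [hwo]; exact k2o
  have i1 : τ₀ ∈ involutionsIn (stabilizer G (oo T) : Set G) := mem_invo.mpr ⟨h.T_fix hτ₀, hτ₀1, h.sq hτ₀⟩
  have i2 : τ' ∈ involutionsIn (stabilizer G (oo T) : Set G) := mem_invo.mpr ⟨h.T_fix hτ', hτ'1, h.sq hτ'⟩
  obtain ⟨k, hk, hks⟩ := h.act.hF.K_exists hw hw' i1 i2
  have hk' := mem_inv.mp hk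
  have hkb : k • b = b := by
    have := hk'.2.1
    rwa [hwo] at this
  refine ⟨g₂⁻¹ * (k * τ * g₁), ?_, ?_, ?_⟩
  · rw [mul_smul, inv_smul_eq_iff]
    simp only [mul_smul]
    rw [hg₁, h.T_fix hτ, hk'.1, hg₂]
  · rw [mul_smul, inv_smul_eq_iff]
    simp only [mul_smul]
    rw [hτx, hkb]
  · rw [mul_smul, inv_smul_eq_iff]
    simp only [mul_smul]
    rw [← hτ'x, ← hτ₀x, ← hks]
    have : k • (k⁻¹ * τ₀ * k) • b = τ₀ • k • b := by
      simp only [mul_smul, smul_inv_smul]
    rw [this, hkb]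

theorem EA.one_lt_D (h : EA T) {w : G} (hww : w * w = 1) (hwo : w • oo T ≠ oo T) :
    1 < Nat.card ↥(DD (oo T) w) := by
  rw [h.card_D hww hwo]
  by_contra hcon
  have h2 : Nat.card (T : Subgroup G) ≤ 2 := by omega
  have h3 : Nat.card (T : Subgroup G) = 1 ∨ Nat.card (T : Subgroup G) = 2 := by
    have : 0 < Nat.card (T : Subgroup G) := Nat.card_pos
    omega
  rcases h3 with h3 | h3
  · exact h.ne_bot (Subgroup.eq_bot_of_card_eq _ h3)
  · exact h.nc (isCyclic_of_prime_card h3)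

theorem EA.fixD (h : EA T) {u : G} (huu : u * u = 1) (hu : u • oo T ≠ oo T) (x : G ⧸ NT T) :
    (∀ d ∈ DD (oo T) u, d • x = x) ↔ x = oo T ∨ x = u • oo T := by
  constructor
  · intro hx
    haveI : Nontrivial ↥(DD (oo T) u) := Finite.one_lt_card_iff_nontrivial.mp (h.one_lt_D huu hu)
    obtain ⟨d, hd⟩ := exists_ne (1 : ↥(DD (oo T) u))
    by_contra hcon
    push Not at hcon
    have := h.act.two_fix (d := (d : G)) (p := oo T) (q := u • oo T) (e := x) hu.symm hcon.1.symm hcon.2.symm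
      (mem_inf.mp d.2).1 (mem_inf.mp d.2).2 (hx d d.2)
    exact hd (Subtype.ext this)
  · rintro (rfl | rfl) d hd
    · exact (mem_inf.mp hd).1
    · exact (mem_inf.mp hd).2

theorem EA.u_norm (_h : EA T) {u : G} (huu : u * u = 1) : u ∈ normalizer ((DD (oo T) u : Subgroup G) : Set G) := by
  apply normalizer_of_conj
  intro x hx
  have hx' := mem_inf.mp hx
  have h1 : x • oo T = oo T := hx'.1
  have h2 : x • (u • oo T) = u • oo T := hx'.2
  have hi : u⁻¹ = u := inv_eq_self_of_mul huu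
  refine mem_inf.mpr ⟨?_, ?_⟩
  · rw [mem_stabilizer_iff, hi, mul_smul, mul_smul, h2, smul_smul, huu, one_smul]
  · rw [mem_stabilizer_iff, hi, mul_smul, mul_smul, smul_smul u u, huu, one_smul, h1]

theorem EA.normD (h : EA T) {u : G} (huu : u * u = 1) (hu : u • oo T ≠ oo T) :
    normalizer ((DD (oo T) u : Subgroup G) : Set G) = DD (oo T) u ⊔ zpowers u := by
  apply le_antisymm
  · intro g hg
    have hfix : ∀ x : G ⧸ NT T, (∀ d ∈ DD (oo T) u, d • x = x) → (∀ d ∈ DD (oo T) u, d • (g • x) = g • x) := by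
      intro x hx d hd
      have h1 : g⁻¹ * d * g⁻¹⁻¹ ∈ DD (oo T) u := (mem_normalizer_iff.mp (Subgroup.inv_mem _ hg) d).mp hd
      rw [inv_inv] at h1
      have h2 := hx _ h1
      simp only [mul_smul] at h2
      have h3 : g⁻¹ • (d • g • x) = g⁻¹ • (g • x) := by
        rw [h2, inv_smul_smul]
      exact smul_left_cancel _ h3
    have h1 := (h.fixD huu hu (g • oo T)).mp (hfix _ (fun d hd => (mem_inf.mp hd).1))
    have h2 := (h.fixD huu hu (g • (u • oo T))).mp (hfix _ (fun d hd => (mem_inf.mp hd).2))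
    rcases h1 with h1 | h1
    · have h3 : g • (u • oo T) ≠ oo T := by
        intro h3
        have h5 : g • (u • oo T) = g • oo T := by rw [h3, h1]
        exact hu (smul_left_cancel _ h5)
      have h4 := h2.resolve_left h3
      exact (le_sup_left : DD (oo T) u ≤ _) (mem_inf.mpr ⟨h1, h4⟩)
    · have h3 : g • (u • oo T) ≠ u • oo T := by
        intro h3
        have h5 : g • (u • oo T) = g • oo T := by rw [h3, h1]
        exact hu (smul_left_cancel _ h5)
      have h4 := h2.resolve_right h3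
      have h5 : u * g ∈ DD (oo T) u := by
        refine mem_inf.mpr ⟨?_, ?_⟩
        · rw [mem_stabilizer_iff, mul_smul, h1, smul_smul, huu, one_smul]
        · rw [mem_stabilizer_iff, mul_smul, h4]
      have h6 : g = u * (u * g) := by
        rw [← mul_assoc, huu, one_mul]
      rw [h6]
      exact mul_mem ((le_sup_right : zpowers u ≤ _) (mem_zpowers u)) ((le_sup_left : DD (oo T) u ≤ _) h5)
  · apply sup_le
    · exact le_normalizer
    · exact Subgroup.zpowers_le.mpr (h.u_norm huu)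

theorem EA.mk_eq (_h : EA T) (g : G) : (QuotientGroup.mk g : G ⧸ NT T) = g • oo T := by
  rw [SE.smul_mk, mul_one]

end ea

end Cfsg.Agent.H05
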