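import Mathlib
import Cfsg.Prelude.Def_CaseTheorems
import Cfsg.Prelude.Def_TwoFusion
import Cfsg.Agent.Lib.H13.Basic

set_option autoImplicit false
set_option linter.unusedSectionVars false
set_option linter.unusedVariables false
set_option linter.unusedSimpArgs false

namespace Cfsg.Agent.H05.Sect

open Cfsg Cfsg.Agent.H13
open scoped Pointwise

variable {G : Type*} [Group G] [Finite G]

/-- criterion for sectional rank in terms of a Sylow subgroup -/
theorem sect_of_sylow (S : Sylow 2 G) (k : ℕ)
    (hyp : ∀ L M : Subgroup G, L ≤ S → M ≤ L → (∀ x ∈ L, ∀ m ∈ M, x * m * x⁻¹ ∈ M) →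
      (∀ x ∈ L, x * x ∈ M) → Nat.card L ≤ 2^k * Nat.card M) :
    SectionalPRankLE 2 k G := by
  intro H N _ A' hab hex
  set φ := QuotientGroup.mk' N with hφ
  set X : Subgroup H := A'.comap φ with hX
  set f : X →* A' := φ.subgroupComap A' with hf
  have hfs : Function.Surjective f :=
    MonoidHom.subgroupComap_surjective_of_surjective _ _ (QuotientGroup.mk'_surjective N)
  have hA'p : IsPGroup 2 A' := by
    intro a
    refine ⟨1, ?_⟩
    apply Subtype.ext
    simpa using hex a a.2
  obtain ⟨R⟩ : Nonempty (Sylow 2 X) := Sylow.nonempty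
  have hmap : (R : Subgroup X).map f = ⊤ := by
    have h1 := (R.mapSurjective hfs).3 (hA'p.to_subgroup ⊤) le_top
    have h2 : ((R.mapSurjective hfs : Sylow 2 A') : Subgroup A') = (R : Subgroup X).map f := rfl
    rw [← h2, ← h1]
  set g : R →* A' := f.comp (R : Subgroup X).subtype with hg
  have hgs : g.range = ⊤ := by
    rw [hg, MonoidHom.range_comp, Subgroup.range_subtype, hmap]
  have hcard : Nat.card g.ker * Nat.card A' = Nat.card R := by
    have h1 := Subgroup.card_mul_index g.ker
    rw [Subgroup.index_ker, hgs, Subgroup.card_top] at h1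
    exact h1
  -- embed into G
  set ι : X →* G := H.subtype.comp X.subtype with hι
  have hιinj : Function.Injective ι := by
    intro a b h
    exact Subtype.ext (Subtype.ext h)
  have hp : IsPGroup 2 ((R : Subgroup X).map ι) := R.2.map ι
  obtain ⟨S', hS'⟩ := hp.exists_le_sylow
  obtain ⟨c, hc⟩ := MulAction.exists_smul_eq G S' S
  set J : R →* G := (MulAut.conj c).toMonoidHom.comp (ι.comp (R : Subgroup X).subtype) with hJ
  have hJinj : Function.Injective J := by
    intro a b h
    have h1 : ι a = ι b := (MulAut.conj c).injective h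
    exact Subtype.ext (hιinj h1)
  set L := J.range with hL
  set M := g.ker.map J with hM
  have hLS : L ≤ S := by
    rintro _ ⟨r, rfl⟩
    have h1 : ι r ∈ S' := hS' ⟨r, r.2, rfl⟩
    have h2 : (S : Subgroup G) = MulAut.conj c • (S' : Subgroup G) := by
      rw [← hc]; exact Sylow.coe_subgroup_smul
    rw [h2]
    exact ⟨_, h1, rfl⟩
  have hML : M ≤ L := by
    rintro _ ⟨k, _, rfl⟩
    exact ⟨k, rfl⟩
  have hnorm : ∀ x ∈ L, ∀ m ∈ M, x * m * x⁻¹ ∈ M := by
    rintro _ ⟨r, rfl⟩ _ ⟨k, hk, rfl⟩
    refine ⟨r * k * r⁻¹, ?_, by simp⟩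
    exact (inferInstance : g.ker.Normal).conj_mem k hk r
  have hsq : ∀ x ∈ L, x * x ∈ M := by
    rintro _ ⟨r, rfl⟩
    refine ⟨r * r, ?_, by simp⟩
    change r * r ∈ g.ker
    rw [MonoidHom.mem_ker, map_mul]
    apply Subtype.ext
    have := hex _ (g r).2
    simpa [sq] using this
  have h := hyp L M hLS hML hnorm hsq
  have e1 : Nat.card L = Nat.card R := by
    rw [hL]
    exact Nat.card_congr (MonoidHom.ofInjective hJinj).symm.toEquiv
  have e2 : Nat.card M = Nat.card g.ker := by
    rw [hM]
    exact Nat.card_congr (Subgroup.equivMapOfInjective _ _ hJinj).symm.toEquiv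
  rw [e1, e2, ← hcard, mul_comm (2^k)] at h
  exact Nat.le_of_mul_le_mul_left h Nat.card_pos

end Cfsg.Agent.H05.Sect
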