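import Cfsg.Agent.Lib.H05.Sect1
import Cfsg.Agent.Lib.H05.Comp2

set_option autoImplicit false
set_option linter.unusedSectionVars false
set_option linter.unusedVariables false
set_option linter.unusedSimpArgs false

namespace Cfsg.Agent.H05.Sect

open Cfsg Cfsg.Agent.H13

variable {G : Type*} [Group G] [Finite G]

theorem relIndex_mul_card {H K : Subgroup G} (h : H ≤ K) : H.relIndex K * Nat.card H = Nat.card K := by
  have h1 := Subgroup.index_mul_card (H.subgroupOf K)
  rw [Nat.card_congr (Subgroup.subgroupOfEquivOfLe h).toEquiv] at h1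
  exact h1

/-- the product formula as an inequality -/
theorem card_mul_le {L D T : Subgroup G} (hLT : L ≤ T) (hDT : D ≤ T) :
    Nat.card L * Nat.card D ≤ Nat.card (L ⊓ D : Subgroup G) * Nat.card T := by
  have h1 := relIndex_mul_card (inf_le_left : L ⊓ D ≤ L)
  have h2 := relIndex_mul_card hDT
  have h3 : (L ⊓ D).relIndex L = D.relIndex L := Subgroup.inf_relIndex_left L D
  have hne : D.relIndex T ≠ 0 := by
    intro h0
    rw [h0, zero_mul] at h2
    exact Nat.card_pos.ne h2
  have h4 : D.relIndex L ≤ D.relIndex T := Subgroup.relIndex_le_of_le_right hLT hne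
  rw [← h1, ← h2, h3]
  calc D.relIndex L * Nat.card (L ⊓ D : Subgroup G) * Nat.card D
      = Nat.card (L ⊓ D : Subgroup G) * (D.relIndex L * Nat.card D) := by ring
    _ ≤ Nat.card (L ⊓ D : Subgroup G) * (D.relIndex T * Nat.card D) := by gcongr

theorem card_mono {A B : Subgroup G} (h : A ≤ B) : Nat.card A ≤ Nat.card B :=
  Subgroup.card_le_of_le h

/-- cyclic groups: squares have index at most 2 -/
theorem cyclic_sq_bound {E M : Subgroup G} (hE : IsCyclic E) (hsq : ∀ x ∈ E, x * x ∈ M) :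
    Nat.card E ≤ 2 * Nat.card (E ⊓ M : Subgroup G) := by
  obtain ⟨⟨c, hc⟩, hgen⟩ := hE.exists_generator
  have hcard : Nat.card E = orderOf c := by
    rw [← Nat.card_zpowers]
    have hall : E = Subgroup.zpowers c := by
      ext x
      constructor
      · intro hx
        obtain ⟨k, hk⟩ := hgen ⟨x, hx⟩
        refine ⟨k, ?_⟩
        have := congrArg Subtype.val hk
        simpa using this
      · rintro ⟨k, rfl⟩
        exact Subgroup.zpow_mem E hc k
    rw [hall]
  have hle : Subgroup.zpowers (c * c) ≤ E ⊓ M := by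
    rw [Subgroup.zpowers_le]
    exact ⟨mul_mem hc hc, hsq c hc⟩
  have h2 := Subgroup.card_le_of_le hle
  rw [Nat.card_zpowers] at h2
  have e : c * c = c ^ 2 := (sq c).symm
  rw [e, orderOf_pow] at h2
  rw [hcard]
  have hpos : 0 < orderOf c := orderOf_pos c
  have h3 : orderOf c ≤ 2 * (orderOf c / Nat.gcd (orderOf c) 2) := by
    have hg : Nat.gcd (orderOf c) 2 ≤ 2 := Nat.le_of_dvd (by norm_num) (Nat.gcd_dvd_right _ _)
    have hd := Nat.div_mul_cancel (Nat.gcd_dvd_left (orderOf c) 2)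
    calc orderOf c = orderOf c / Nat.gcd (orderOf c) 2 * Nat.gcd (orderOf c) 2 := hd.symm
      _ ≤ orderOf c / Nat.gcd (orderOf c) 2 * 2 := Nat.mul_le_mul_left _ hg
      _ = _ := by ring
  omega

/-- direct product case -/
theorem sect_dir {D B T C : Subgroup G} (hDT : D ≤ T) (hBT : B ≤ T) (hcomm : ∀ a ∈ D, ∀ b ∈ B, a * b = b * a)
    (hsup : D ⊔ B = T) (hB4 : Nat.card B = 4) (hCD : C ≤ D) (hCc : IsCyclic C)
    (hC2 : Nat.card D ≤ 2 * Nat.card C)
    {L M : Subgroup G} (hLT : L ≤ T) (hML : M ≤ L) (hsq : ∀ x ∈ L, x * x ∈ M) :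
    Nat.card L ≤ 16 * Nat.card M := by
  -- |T| ≤ |D| |B|
  have hT : Nat.card T ≤ Nat.card D * 4 := by
    rw [← hB4, ← Nat.card_prod]
    have hsurj : Function.Surjective (fun p : D × B =>
        (⟨(p.1 : G) * p.2, hsup ▸ Subgroup.mul_mem _ (Subgroup.mem_sup_left p.1.2) (Subgroup.mem_sup_right p.2.2)⟩ : T)) := by
      rintro ⟨t, ht⟩
      rw [← hsup] at ht
      obtain ⟨a, ha, b, hb, rfl⟩ := Cfsg.Agent.H05.mem_sup_of_commute hcomm ht
      exact ⟨(⟨a, ha⟩, ⟨b, hb⟩), rfl⟩
    exact Nat.card_le_card_of_surjective _ hsurj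
  have hdpos : 0 < Nat.card D := Nat.card_pos
  -- |L| ≤ 4 |L ∩ D|
  have h1 := card_mul_le hLT hDT
  have h2 : Nat.card L ≤ 4 * Nat.card (L ⊓ D : Subgroup G) := by
    have : Nat.card L * Nat.card D ≤ (4 * Nat.card (L ⊓ D : Subgroup G)) * Nat.card D := by
      calc Nat.card L * Nat.card D ≤ Nat.card (L ⊓ D : Subgroup G) * Nat.card T := h1
        _ ≤ Nat.card (L ⊓ D : Subgroup G) * (Nat.card D * 4) := by gcongr
        _ = _ := by ring
    exact Nat.le_of_mul_le_mul_right this hdpos
  -- |L ∩ D| ≤ 2 |L ∩ C|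
  have h3 := card_mul_le (inf_le_right : L ⊓ D ≤ D) hCD
  have hcpos : 0 < Nat.card C := Nat.card_pos
  have h4 : Nat.card (L ⊓ D : Subgroup G) ≤ 2 * Nat.card (L ⊓ D ⊓ C : Subgroup G) := by
    have : Nat.card (L ⊓ D : Subgroup G) * Nat.card C ≤ (2 * Nat.card (L ⊓ D ⊓ C : Subgroup G)) * Nat.card C := by
      calc _ ≤ Nat.card (L ⊓ D ⊓ C : Subgroup G) * Nat.card D := h3
        _ ≤ Nat.card (L ⊓ D ⊓ C : Subgroup G) * (2 * Nat.card C) := by gcongr
        _ = _ := by ring
    exact Nat.le_of_mul_le_mul_right this hcpos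
  -- cyclic part
  set E := L ⊓ D ⊓ C with hE
  have hEC : E ≤ C := inf_le_right
  have hEc : IsCyclic E := by
    have h5 : IsCyclic (E.subgroupOf C) := Subgroup.isCyclic _
    exact isCyclic_of_surjective (Subgroup.subgroupOfEquivOfLe hEC).toMonoidHom
      (Subgroup.subgroupOfEquivOfLe hEC).surjective
  have h6 := cyclic_sq_bound (M := M) hEc (fun x hx => hsq x hx.1.1)
  have h7 : Nat.card (E ⊓ M : Subgroup G) ≤ Nat.card M := Subgroup.card_le_of_le inf_le_right
  omega

/-- involutory action on an elementary abelian group -/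
theorem card_le_fix_sq {V : Subgroup G} (hab : ∀ x ∈ V, ∀ y ∈ V, x * y = y * x) (hex : ∀ x ∈ V, x * x = 1)
    (g : G) (hn : ∀ v ∈ V, g * v * g⁻¹ ∈ V) (hgg : ∀ v ∈ V, g * (g * v * g⁻¹) * g⁻¹ = v) :
    Nat.card V ≤ Nat.card (V ⊓ Subgroup.centralizer ({g} : Set G) : Subgroup G) ^ 2 := by
  let f : V →* V :=
    { toFun := fun v => ⟨v * (g * v * g⁻¹), mul_mem v.2 (hn v v.2)⟩
      map_one' := by
        apply Subtype.ext; simp
      map_mul' := by
        intro x y
        apply Subtype.ext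
        have e1 := hab _ (hn x x.2) y y.2
        simp only [Subgroup.coe_mul]
        calc (x:G) * y * (g * (x * y) * g⁻¹) = x * y * ((g * x * g⁻¹) * (g * y * g⁻¹)) := by group
          _ = x * (y * (g * x * g⁻¹)) * (g * y * g⁻¹) := by group
          _ = x * ((g * x * g⁻¹) * y) * (g * y * g⁻¹) := by rw [e1]
          _ = _ := by group }
  set W := V ⊓ Subgroup.centralizer ({g} : Set G) with hW
  have hker : Nat.card f.ker ≤ Nat.card W := by
    apply Nat.card_le_card_of_injective (fun k : f.ker => (⟨((k:V):G), ?_⟩ : W))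
    · intro a b h
      apply Subtype.ext; apply Subtype.ext
      exact congrArg (fun w : W => (w : G)) h
    · refine Subgroup.mem_inf.mpr ⟨(k:V).2, ?_⟩
      have hk : f k = 1 := k.2
      have hk' : ((k:V):G) * (g * (k:V) * g⁻¹) = 1 := congrArg Subtype.val hk
      have h1 := hex _ (k:V).2
      have h2 : g * ((k:V):G) * g⁻¹ = (k:V) := by
        have := mul_left_cancel (hk'.trans h1.symm)
        exact this
      rw [Subgroup.mem_centralizer_singleton_iff]
      calc ((k:V):G) * g = (g * (k:V) * g⁻¹) * g := by rw [h2]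
        _ = _ := by group
  have hrange : Nat.card f.range ≤ Nat.card W := by
    apply Nat.card_le_card_of_injective (fun k : f.range => (⟨((k:V):G), ?_⟩ : W))
    · intro a b h
      apply Subtype.ext; apply Subtype.ext
      exact congrArg (fun w : W => (w : G)) h
    · refine Subgroup.mem_inf.mpr ⟨(k:V).2, ?_⟩
      obtain ⟨v, hv⟩ := k.2
      have e : ((k:V):G) = v * (g * v * g⁻¹) := by
        rw [← hv]; rfl
      rw [Subgroup.mem_centralizer_singleton_iff, e]
      have e1 := hgg v v.2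
      have e2 := hab _ (hn v v.2) v v.2
      symm
      calc g * ((v:G) * (g * v * g⁻¹)) = (g * v * g⁻¹) * (g * (g * v * g⁻¹) * g⁻¹) * g := by group
        _ = (g * v * g⁻¹) * v * g := by rw [e1]
        _ = v * (g * v * g⁻¹) * g := by rw [e2]
  have h := Subgroup.card_mul_index f.ker
  rw [Subgroup.index_ker] at h
  rw [← h, sq]
  exact Nat.mul_le_mul hker hrange

/-- normalizer growth with an element squaring into the subgroup -/
theorem exists_norm_step {P T : Subgroup G} (hP : IsPGroup 2 P) (hTP : T ≤ P) (hne : T ≠ P) :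
    ∃ g ∈ P, g ∉ T ∧ g ∈ Subgroup.normalizer (T : Set G) ∧ g * g ∈ T := by
  haveI : Fact (Nat.Prime 2) := ⟨Nat.prime_two⟩
  haveI : Group.IsNilpotent P := hP.isNilpotent
  have hlt : T.subgroupOf P < ⊤ := by
    rw [lt_top_iff_ne_top]
    intro h
    apply hne
    exact le_antisymm hTP (Subgroup.subgroupOf_eq_top.mp h)
  have hnc := normalizerCondition_of_isNilpotent (G := P) _ hlt
  obtain ⟨⟨g₀, hg₀P⟩, hg₀N, hg₀T⟩ := SetLike.exists_of_lt hnc
  have hg₀T' : g₀ ∉ T := fun h => hg₀T (Subgroup.mem_subgroupOf.mpr h)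
  have hg₀N' : g₀ ∈ Subgroup.normalizer (T : Set G) := by
    rw [Subgroup.mem_normalizer_iff] at hg₀N ⊢
    intro x
    by_cases hx : x ∈ P
    · have := hg₀N ⟨x, hx⟩
      simpa [Subgroup.mem_subgroupOf] using this
    · constructor
      · intro h; exact absurd (hTP h) hx
      · intro h
        exact absurd (by
          have := hTP h
          have h2 := mul_mem (mul_mem (inv_mem hg₀P) this) hg₀P
          simpa [mul_assoc] using h2) hx
  obtain ⟨K, hK⟩ := hP ⟨g₀, hg₀P⟩
  have hex : ∃ k, g₀ ^ 2 ^ k ∈ T := by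
    refine ⟨K, ?_⟩
    have := congrArg Subtype.val hK
    simp only [Subgroup.coe_pow, Subgroup.coe_one] at this
    rw [this]; exact one_mem _
  classical
  have hk := Nat.find_spec hex
  have hmin := fun m (hm : m < Nat.find hex) => Nat.find_min hex hm
  have hk0 : Nat.find hex ≠ 0 := by
    intro h0
    rw [h0] at hk
    exact hg₀T' (by simpa using hk)
  obtain ⟨j, hj⟩ := Nat.exists_eq_succ_of_ne_zero hk0
  refine ⟨g₀ ^ 2 ^ j, pow_mem hg₀P _, hmin j (by omega), pow_mem hg₀N' _, ?_⟩
  rw [← pow_add, ← two_mul, ← pow_succ']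
  rw [hj] at hk
  exact hk

end Cfsg.Agent.H05.Sect
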