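import Cfsg.Agent.Lib.H05.Sect2
import Cfsg.Agent.Lib.H18.Nilp

set_option autoImplicit false
set_option linter.unusedSectionVars false
set_option linter.unusedVariables false
set_option linter.unusedSimpArgs false
set_option linter.style.haveILetI false

namespace Cfsg.Agent.H05.Sect

open Cfsg Cfsg.Agent.H13

variable {G : Type*} [Group G] [Finite G]

/-- generalised fixed point count -/
theorem card_le_fix_mul {V M : Subgroup G} (hab : ∀ x ∈ V, ∀ y ∈ V, x * y = y * x) (hex : ∀ x ∈ V, x * x = 1)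
    (g : G) (hn : ∀ v ∈ V, g * v * g⁻¹ ∈ V) (hm : ∀ v ∈ V, v * (g * v * g⁻¹) ∈ M) :
    Nat.card V ≤ Nat.card (V ⊓ Subgroup.centralizer ({g} : Set G) : Subgroup G) * Nat.card (V ⊓ M : Subgroup G) := by
  let f : V →* V :=
    { toFun := fun v => ⟨v * (g * v * g⁻¹), mul_mem v.2 (hn v v.2)⟩
      map_one' := by
        apply Subtype.ext; simp
      map_mul' := by
        intro x y
        apply Subtype.ext
        have e1 := hab _ (hn x x.2) y y.2
        simp only [Subgroup.coe_mul]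
        calc (x:G) * y * (g * (x * y) * g⁻¹) = x * y * ((g * x * g⁻¹) * (g * y * g⁻¹)) := by group
          _ = x * (y * (g * x * g⁻¹)) * (g * y * g⁻¹) := by group
          _ = x * ((g * x * g⁻¹) * y) * (g * y * g⁻¹) := by rw [e1]
          _ = _ := by group }
  set W := V ⊓ Subgroup.centralizer ({g} : Set G) with hW
  have hker : Nat.card f.ker ≤ Nat.card W := by
    apply Nat.card_le_card_of_injective (fun k : f.ker => (⟨((k:V):G), ?_⟩ : W))
    · intro a b h
      apply Subtype.ext; apply Subtype.ext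
      exact congrArg (fun w : W => (w : G)) h
    · refine Subgroup.mem_inf.mpr ⟨(k:V).2, ?_⟩
      have hk : f k = 1 := k.2
      have hk' : ((k:V):G) * (g * (k:V) * g⁻¹) = 1 := congrArg Subtype.val hk
      have h1 := hex _ (k:V).2
      have h2 : g * ((k:V):G) * g⁻¹ = (k:V) := by
        have := mul_left_cancel (hk'.trans h1.symm)
        exact this
      rw [Subgroup.mem_centralizer_singleton_iff]
      calc ((k:V):G) * g = (g * (k:V) * g⁻¹) * g := by rw [h2]
        _ = _ := by group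
  have hrange : Nat.card f.range ≤ Nat.card (V ⊓ M : Subgroup G) := by
    apply Nat.card_le_card_of_injective (fun k : f.range => (⟨((k:V):G), ?_⟩ : (V ⊓ M : Subgroup G)))
    · intro a b h
      apply Subtype.ext; apply Subtype.ext
      exact congrArg (fun w : (V ⊓ M : Subgroup G) => (w : G)) h
    · refine Subgroup.mem_inf.mpr ⟨(k:V).2, ?_⟩
      obtain ⟨v, hv⟩ := k.2
      have e : ((k:V):G) = v * (g * v * g⁻¹) := by
        rw [← hv]; rfl
      rw [e]
      exact hm v v.2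
  have h := Subgroup.card_mul_index f.ker
  rw [Subgroup.index_ker] at h
  rw [← h]
  exact Nat.mul_le_mul hker hrange

/-- commutators in a section of exponent 2 -/
theorem comm_mem {L M : Subgroup G} (hML : M ≤ L) (hnorm : ∀ x ∈ L, ∀ m ∈ M, x * m * x⁻¹ ∈ M)
    (hsq : ∀ x ∈ L, x * x ∈ M) {a b : G} (ha : a ∈ L) (hb : b ∈ L) : a * b * a⁻¹ * b⁻¹ ∈ M := by
  have h1 := hsq _ (mul_mem ha hb)
  have h2 := hsq _ (inv_mem ha)
  have h3 := hsq _ (inv_mem hb)
  have h4 := hnorm _ (inv_mem hb) _ h2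
  have e : a * b * a⁻¹ * b⁻¹ = (a * b * (a * b)) * (b⁻¹ * (a⁻¹ * a⁻¹) * b⁻¹⁻¹) * (b⁻¹ * b⁻¹) := by group
  rw [e]
  exact mul_mem (mul_mem h1 h4) h3

/-- the standing hypotheses of the Klein case -/
structure KS (P T B : Subgroup G) : Prop where
  hP : IsPGroup 2 P
  hTP : T ≤ P
  hab : ∀ x ∈ T, ∀ y ∈ T, x * y = y * x
  hex : ∀ x ∈ T, x * x = 1
  h16 : Nat.card T = 16
  hBT : B ≤ T
  h4 : Nat.card B = 4
  star : ∀ g ∈ P, ∀ b ∈ B, b ≠ 1 → g * b = b * g → g ∈ T

variable {P T B : Subgroup G}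

theorem KS.fix_le (K : KS P T B) {g : G} (hg : g ∈ P) (hgT : g ∉ T) :
    Nat.card (T ⊓ Subgroup.centralizer ({g} : Set G) : Subgroup G) ≤ 4 := by
  set X := T ⊓ Subgroup.centralizer ({g} : Set G) with hX
  have hbot : X ⊓ B = ⊥ := by
    rw [eq_bot_iff]
    rintro b ⟨⟨_, hb⟩, hbB⟩
    by_contra hne
    apply hgT
    refine K.star g hg b hbB hne ?_
    exact (Subgroup.mem_centralizer_singleton_iff.mp hb).symm
  have h := card_mul_le (L := X) (D := B) (T := T) inf_le_left K.hBT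
  rw [hbot, K.h4, K.h16, Subgroup.card_bot] at h
  omega

theorem KS.exists_inf (K : KS P T B) {X : Subgroup G} (hXT : X ≤ T) (h8 : 8 ≤ Nat.card X) :
    ∃ b ∈ X, b ∈ B ∧ b ≠ 1 := by
  by_contra hno
  push Not at hno
  have hbot : X ⊓ B = ⊥ := by
    rw [eq_bot_iff]
    rintro b ⟨hb1, hb2⟩
    exact hno b hb1 hb2
  have h := card_mul_le (L := X) (D := B) (T := T) hXT K.hBT
  rw [hbot, K.h4, K.h16, Subgroup.card_bot] at h
  omega

/-- the conjugate of `T` by `y` -/
noncomputable abbrev tc (T : Subgroup G) (y : G) : Subgroup G := T.map (MulAut.conj y).toMonoidHom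

theorem tc_mem {y x : G} : x ∈ tc T y ↔ y⁻¹ * x * y ∈ T := mem_map_conj

theorem tc_card (y : G) : Nat.card (tc T y) = Nat.card T := card_map_conj y T

theorem tc_ab (K : KS P T B) (y : G) : ∀ a ∈ tc T y, ∀ b ∈ tc T y, a * b = b * a := by
  rintro _ ⟨a, ha, rfl⟩ _ ⟨b, hb, rfl⟩
  simp only [MulEquiv.coe_toMonoidHom, MulAut.conj_apply]
  have := K.hab a ha b hb
  calc y * a * y⁻¹ * (y * b * y⁻¹) = y * (a * b) * y⁻¹ := by group
    _ = y * (b * a) * y⁻¹ := by rw [this]
    _ = _ := by group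

theorem tc_ex (K : KS P T B) (y : G) : ∀ a ∈ tc T y, a * a = 1 := by
  rintro _ ⟨a, ha, rfl⟩
  simp only [MulEquiv.coe_toMonoidHom, MulAut.conj_apply]
  have := K.hex a ha
  calc y * a * y⁻¹ * (y * a * y⁻¹) = y * (a * a) * y⁻¹ := by group
    _ = 1 := by rw [this]; group

theorem tc_le (K : KS P T B) {y : G} (hy : y ∈ P) : tc T y ≤ P := by
  rintro _ ⟨a, ha, rfl⟩
  simp only [MulEquiv.coe_toMonoidHom, MulAut.conj_apply]
  exact mul_mem (mul_mem hy (K.hTP ha)) (inv_mem hy)

/-- a large intersection forces equality -/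
theorem KS.tc_eq (K : KS P T B) {y : G} (hy : y ∈ P) (h8 : 8 ≤ Nat.card (tc T y ⊓ T : Subgroup G)) :
    tc T y = T := by
  obtain ⟨b, hb1, hb2, hb3⟩ := K.exists_inf (X := tc T y ⊓ T) inf_le_right h8
  have hle : tc T y ≤ T := by
    intro u hu
    exact K.star u (tc_le K hy hu) b hb2 hb3 (tc_ab K y u hu b hb1.1)
  apply Subgroup.eq_of_le_of_card_ge hle
  rw [tc_card]

/-- the normalizer of `T` in `P` -/
noncomputable abbrev nN (P T : Subgroup G) : Subgroup G := P ⊓ Subgroup.normalizer (T : Set G)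

theorem KS.T_le_nN (K : KS P T B) : T ≤ nN P T := by
  intro t ht
  refine Subgroup.mem_inf.mpr ⟨K.hTP ht, ?_⟩
  rw [Subgroup.mem_normalizer_iff]
  intro x
  constructor
  · intro hx; exact mul_mem (mul_mem ht hx) (inv_mem ht)
  · intro hx
    have := mul_mem (mul_mem (inv_mem ht) hx) ht
    simpa [mul_assoc] using this

theorem conj_mem_T {y t : G} (hy : y ∈ nN P T) (ht : t ∈ T) : y * t * y⁻¹ ∈ T :=
  (Subgroup.mem_normalizer_iff.mp hy.2 t).mp ht

theorem KS.card_nN (K : KS P T B) : Nat.card (nN P T) ≤ 64 := by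
  classical
  set N := nN P T with hN
  haveI : Fact (Nat.Prime 2) := ⟨Nat.prime_two⟩
  have hNp : IsPGroup 2 N := K.hP.to_le inf_le_left
  haveI : Group.IsNilpotent N := hNp.isNilpotent
  have hTN := K.T_le_nN
  set T₁ : Subgroup N := T.subgroupOf N with hT₁
  have hT₁n : T₁.Normal := by
    constructor
    intro t ht g
    rw [hT₁, Subgroup.mem_subgroupOf] at ht ⊢
    exact conj_mem_T g.2 ht
  have hT₁c : Nat.card T₁ = 16 := by
    rw [← K.h16]
    exact Nat.card_congr (Subgroup.subgroupOfEquivOfLe hTN).toEquiv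
  have hT₁ab : IsMulCommutative T₁ := by
    refine ⟨⟨fun a b => ?_⟩⟩
    apply Subtype.ext; apply Subtype.ext
    have ha := Subgroup.mem_subgroupOf.mp a.2
    have hb := Subgroup.mem_subgroupOf.mp b.2
    exact K.hab _ ha _ hb
  obtain ⟨V, hVT, hVn, hV8⟩ := Cfsg.Agent.H18.exists_normal_le_card_eq (G := N) hT₁n hT₁ab
    (d := 8) (by rw [hT₁c]; norm_num)
  have hVab : IsMulCommutative V := by
    refine ⟨⟨fun a b => ?_⟩⟩
    apply Subtype.ext; apply Subtype.ext
    have ha := Subgroup.mem_subgroupOf.mp (hVT a.2)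
    have hb := Subgroup.mem_subgroupOf.mp (hVT b.2)
    exact K.hab _ ha _ hb
  obtain ⟨V', hV'V, hV'n, hV'4⟩ := Cfsg.Agent.H18.exists_normal_le_card_eq (G := N) hVn hVab
    (d := 4) (by rw [hV8]; norm_num)
  -- the image of V in G
  set Vm := V.map N.subtype with hVm
  have hVmT : Vm ≤ T := by
    rintro _ ⟨v, hv, rfl⟩
    exact Subgroup.mem_subgroupOf.mp (hVT hv)
  have hVmc : Nat.card Vm = 8 := by
    rw [← hV8]
    exact Nat.card_congr (Subgroup.equivMapOfInjective _ _ N.subtype_injective).symm.toEquiv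
  obtain ⟨b₀, hb₁, hb₂, hb₃⟩ := K.exists_inf hVmT (by omega)
  obtain ⟨⟨b₀', hb₀'N⟩, hb₀'V, hb₀'e⟩ := hb₁
  simp only [Subgroup.subtype_apply] at hb₀'e
  subst hb₀'e
  set β : N := ⟨b₀', hb₀'N⟩ with hβ
  have hβV : β ∈ V := hb₀'V
  -- V/V' has order 2
  have hidx : V'.relIndex V = 2 := by
    have h1 := relIndex_mul_card hV'V
    rw [hV8, hV'4] at h1
    omega
  have hcomm : ∀ g : N, β⁻¹ * (g * β * g⁻¹) ∈ V' := by
    intro g
    have hgβ : g * β * g⁻¹ ∈ V := hVn.conj_mem β hβV g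
    have hi : (V'.subgroupOf V).index = 2 := hidx
    have h2 : ∀ x y : V, x ∉ V'.subgroupOf V → y ∉ V'.subgroupOf V → x * y ∈ V'.subgroupOf V := by
      intro x y hx hy
      exact (Subgroup.mul_mem_iff_of_index_two hi).mpr (iff_of_false hx hy)
    by_cases hβ' : β ∈ V'
    · have : g * β * g⁻¹ ∈ V' := hV'n.conj_mem β hβ' g
      exact mul_mem (inv_mem hβ') this
    · have h3 : g * β * g⁻¹ ∉ V' := by
        intro h4
        apply hβ'
        have := hV'n.conj_mem _ h4 g⁻¹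
        simpa [mul_assoc] using this
      have h4 := h2 ⟨β⁻¹, inv_mem hβV⟩ ⟨g * β * g⁻¹, hgβ⟩ (by
        intro h5
        apply hβ'
        have := Subgroup.mem_subgroupOf.mp h5
        simpa using inv_mem this) (by
        intro h5
        exact h3 (Subgroup.mem_subgroupOf.mp h5))
      exact Subgroup.mem_subgroupOf.mp h4
  -- injection of N/T₁ into V'
  have hle : Nat.card (N ⧸ T₁) ≤ 4 := by
    rw [← hV'4]
    apply Nat.card_le_card_of_injective (fun q : N ⧸ T₁ =>
      (⟨β⁻¹ * (q.out * β * q.out⁻¹), hcomm q.out⟩ : V'))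
    intro q q' hqq
    have h1 : β⁻¹ * (q.out * β * q.out⁻¹) = β⁻¹ * (q'.out * β * q'.out⁻¹) :=
      congrArg (fun w : V' => (w : N)) hqq
    have h2 : q.out * β * q.out⁻¹ = q'.out * β * q'.out⁻¹ := mul_left_cancel h1
    have h3 : q.out⁻¹ * q'.out ∈ T₁ := by
      refine Subgroup.mem_subgroupOf.mpr ?_
      have hc : (q.out⁻¹ * q'.out) * β = β * (q.out⁻¹ * q'.out) := by
        calc (q.out⁻¹ * q'.out) * β = q.out⁻¹ * (q'.out * β * q'.out⁻¹) * q'.out := by group
          _ = q.out⁻¹ * (q.out * β * q.out⁻¹) * q'.out := by rw [h2]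
          _ = _ := by group
      have hc' := congrArg (fun w : N => (w : G)) hc
      simp only [Subgroup.coe_mul] at hc'
      exact K.star _ ((q.out⁻¹ * q'.out).2.1) b₀' hb₂ hb₃ (by simpa using hc')
    have h4 := QuotientGroup.eq.mpr h3
    rwa [QuotientGroup.out_eq', QuotientGroup.out_eq'] at h4
  have h5 := Subgroup.card_mul_index T₁
  rw [hT₁c] at h5
  have h6 : T₁.index = Nat.card (N ⧸ T₁) := rfl
  rw [← h5, h6]
  omega

end Cfsg.Agent.H05.Sect
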