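import Cfsg.Agent.Lib.H05.Sect3

set_option autoImplicit false
set_option linter.unusedSectionVars false
set_option linter.unusedVariables false
set_option linter.unusedSimpArgs false
set_option linter.style.haveILetI false

namespace Cfsg.Agent.H05.Sect

open Cfsg Cfsg.Agent.H13

variable {G : Type*} [Group G] [Finite G]
variable {P T B : Subgroup G}

/-- an element normalizing `N_P(T)` but not in it -/
structure KH (P T B : Subgroup G) (h : G) : Prop where
  K : KS P T B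
  hP : h ∈ P
  hN : h ∉ nN P T
  hn : h ∈ Subgroup.normalizer (nN P T : Set G)

variable {h : G}

theorem KH.conj_N (H : KH P T B h) {n : G} (hn : n ∈ nN P T) : h * n * h⁻¹ ∈ nN P T :=
  (Subgroup.mem_normalizer_iff.mp H.hn n).mp hn

theorem KH.conj_N' (H : KH P T B h) {n : G} (hn : n ∈ nN P T) : h⁻¹ * n * h ∈ nN P T := by
  apply (Subgroup.mem_normalizer_iff.mp H.hn _).mpr
  simpa [mul_assoc] using hn

theorem KH.R_le (H : KH P T B h) : tc T h ≤ nN P T := by
  rintro _ ⟨t, ht, rfl⟩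
  exact H.conj_N (H.K.T_le_nN ht)

theorem KH.R_norm (H : KH P T B h) {n r : G} (hn : n ∈ nN P T) (hr : r ∈ tc T h) :
    n * r * n⁻¹ ∈ tc T h := by
  rw [tc_mem] at hr ⊢
  have h1 := conj_mem_T (H.conj_N' hn) hr
  have e : h⁻¹ * (n * r * n⁻¹) * h = h⁻¹ * n * h * (h⁻¹ * r * h) * (h⁻¹ * n * h)⁻¹ := by group
  rw [e]
  exact h1

theorem KH.R_ne (H : KH P T B h) : tc T h ≠ T := by
  intro he
  apply H.hN
  exact Subgroup.mem_inf.mpr ⟨H.hP, mem_normalizer_of_map_conj_eq he⟩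

theorem KH.exists_r (H : KH P T B h) : ∃ r ∈ tc T h, r ∉ T := by
  by_contra hno
  push Not at hno
  apply H.R_ne
  apply Subgroup.eq_of_le_of_card_ge (fun x hx => hno x hx)
  rw [tc_card]

/-- every element of `N` not in `T`: the intersection `T ∩ R` is its fixed points -/
theorem KH.card_F_le (H : KH P T B h) : Nat.card (T ⊓ tc T h : Subgroup G) ≤ 4 := by
  obtain ⟨r, hr, hrT⟩ := H.exists_r
  have hrP : r ∈ P := tc_le H.K H.hP hr
  refine le_trans (Subgroup.card_le_of_le ?_) (H.K.fix_le hrP hrT)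
  intro x hx
  refine Subgroup.mem_inf.mpr ⟨hx.1, ?_⟩
  rw [Subgroup.mem_centralizer_singleton_iff]
  exact tc_ab H.K h x hx.2 r hr

/-- the product set as a subgroup -/
def yY' (H : KH P T B h) : Subgroup G where
  carrier := {x | ∃ t ∈ T, ∃ r ∈ tc T h, x = t * r}
  one_mem' := ⟨1, one_mem _, 1, one_mem _, by simp⟩
  mul_mem' := by
    rintro _ _ ⟨t, ht, r, hr, rfl⟩ ⟨t', ht', r', hr', rfl⟩
    have h1 : r * t' * r⁻¹ ∈ T := conj_mem_T (H.R_le hr) ht'
    exact ⟨t * (r * t' * r⁻¹), mul_mem ht h1, r * r', mul_mem hr hr', by group⟩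
  inv_mem' := by
    rintro _ ⟨t, ht, r, hr, rfl⟩
    have h1 : r⁻¹ * t⁻¹ * r⁻¹⁻¹ ∈ T := conj_mem_T (inv_mem (H.R_le hr)) (inv_mem ht)
    exact ⟨r⁻¹ * t⁻¹ * r⁻¹⁻¹, h1, r⁻¹, inv_mem hr, by group⟩

theorem KH.card_facts (H : KH P T B h) :
    Nat.card (T ⊓ tc T h : Subgroup G) = 4 ∧ Nat.card (nN P T) = 64 ∧
      ∀ n ∈ nN P T, ∃ t ∈ T, ∃ r ∈ tc T h, n = t * r := by
  set Y := yY' H with hY
  have hTY : T ≤ Y := fun t ht => ⟨t, ht, 1, one_mem _, by simp⟩
  have hRY : tc T h ≤ Y := fun r hr => ⟨1, one_mem _, r, hr, by simp⟩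
  have hYN : Y ≤ nN P T := by
    rintro _ ⟨t, ht, r, hr, rfl⟩
    exact mul_mem (H.K.T_le_nN ht) (H.R_le hr)
  have h1 := card_mul_le hTY hRY
  rw [tc_card, H.K.h16] at h1
  have h2 := H.card_F_le
  have h3 := H.K.card_nN
  have h4 := Subgroup.card_le_of_le hYN
  have hF : Nat.card (T ⊓ tc T h : Subgroup G) = 4 := by
    by_contra hne
    have : Nat.card (T ⊓ tc T h : Subgroup G) ≤ 3 := by omega
    have := Nat.mul_le_mul this (h4.trans h3)
    omega
  have hYc : 64 ≤ Nat.card Y := by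
    rw [hF] at h1
    omega
  refine ⟨hF, by omega, ?_⟩
  have hYN' : Y = nN P T := Subgroup.eq_of_le_of_card_ge hYN (by omega)
  intro n hn
  rw [← hYN'] at hn
  exact hn

theorem KH.no_comm (H : KH P T B h) {t r : G} (ht : t ∈ T) (hr : r ∈ tc T h) (htR : t ∉ tc T h)
    (hrT : r ∉ T) : t * r ≠ r * t := by
  intro hc
  have hrP : r ∈ P := tc_le H.K H.hP hr
  have hle : T ⊓ tc T h ≤ T ⊓ Subgroup.centralizer ({r} : Set G) := by
    intro x hx
    refine Subgroup.mem_inf.mpr ⟨hx.1, ?_⟩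
    rw [Subgroup.mem_centralizer_singleton_iff]
    exact tc_ab H.K h x hx.2 r hr
  have heq := Subgroup.eq_of_le_of_card_ge hle (by
    rw [H.card_facts.1]; exact H.K.fix_le hrP hrT)
  have : t ∈ T ⊓ Subgroup.centralizer ({r} : Set G) :=
    Subgroup.mem_inf.mpr ⟨ht, Subgroup.mem_centralizer_singleton_iff.mpr hc⟩
  rw [← heq] at this
  exact htR this.2

theorem KH.invol (H : KH P T B h) {n : G} (hn : n ∈ nN P T) (hs : n * n = 1) : n ∈ T ∨ n ∈ tc T h := by
  obtain ⟨t, ht, r, hr, rfl⟩ := H.card_facts.2.2 n hn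
  by_cases htR : t ∈ tc T h
  · right; exact mul_mem htR hr
  by_cases hrT : r ∈ T
  · left; exact mul_mem ht hrT
  exfalso
  apply H.no_comm ht hr htR hrT
  have h1 := H.K.hex t ht
  have h2 := tc_ex H.K h r hr
  have e1 : t⁻¹ = t := inv_eq_of_mul_eq_one_left h1
  have e2 : r⁻¹ = r := inv_eq_of_mul_eq_one_left h2
  have e3 : t * r = (t * r)⁻¹ := eq_inv_of_mul_eq_one_left hs
  rw [e3, mul_inv_rev, e1, e2]

theorem KH.elem (H : KH P T B h) {E : Subgroup G} (hE : E ≤ nN P T) (hex : ∀ x ∈ E, x * x = 1) :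
    E ≤ T ∨ E ≤ tc T h := by
  by_contra hno
  push Not at hno
  obtain ⟨h1, h2⟩ := hno
  obtain ⟨a, ha, haT⟩ := Set.not_subset.mp h1
  obtain ⟨b, hb, hbR⟩ := Set.not_subset.mp h2
  have haR : a ∈ tc T h := (H.invol (hE ha) (hex a ha)).resolve_left haT
  have hbT : b ∈ T := (H.invol (hE hb) (hex b hb)).resolve_right hbR
  rcases H.invol (hE (mul_mem ha hb)) (hex _ (mul_mem ha hb)) with h3 | h3
  · apply haT
    have := mul_mem h3 (inv_mem hbT)
    simpa using this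
  · apply hbR
    have := mul_mem (inv_mem haR) h3
    simpa using this

theorem KH.tc_cases (H : KH P T B h) {w : G} (hwP : w ∈ P)
    (hwN : w ∈ Subgroup.normalizer (nN P T : Set G)) : tc T w = T ∨ tc T w = tc T h := by
  have hle : tc T w ≤ nN P T := by
    rintro _ ⟨t, ht, rfl⟩
    exact (Subgroup.mem_normalizer_iff.mp hwN _).mp (H.K.T_le_nN ht)
  rcases H.elem hle (tc_ex H.K w) with h1 | h1
  · left
    exact Subgroup.eq_of_le_of_card_ge h1 (by rw [tc_card])
  · right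
    exact Subgroup.eq_of_le_of_card_ge h1 (by rw [tc_card, tc_card])

theorem KH.mem_cases (H : KH P T B h) {w : G} (hwP : w ∈ P)
    (hwN : w ∈ Subgroup.normalizer (nN P T : Set G)) : h⁻¹ * w ∈ nN P T ∨ w ∈ nN P T := by
  rcases H.tc_cases hwP hwN with h1 | h1
  · right
    exact Subgroup.mem_inf.mpr ⟨hwP, mem_normalizer_of_map_conj_eq h1⟩
  · left
    refine Subgroup.mem_inf.mpr ⟨mul_mem (inv_mem H.hP) hwP, mem_normalizer_of_map_conj_eq ?_⟩
    have := map_conj_mul h⁻¹ w T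
    rw [← this]
    change (tc T w).map _ = T
    rw [h1]
    exact map_conj_inv_map_conj h T

/-- `P` normalizes `N_P(T)` -/
theorem KH.P_norm (H : KH P T B h) : P ≤ Subgroup.normalizer (nN P T : Set G) := by
  by_contra hno
  set Q := P ⊓ Subgroup.normalizer (nN P T : Set G) with hQ
  have hQP : Q ≤ P := inf_le_left
  have hne : Q ≠ P := by
    intro he
    apply hno
    intro x hx
    have hx' : x ∈ Q := by rw [he]; exact hx
    exact hx'.2
  obtain ⟨y, hyP, hyQ, hyn, -⟩ := exists_norm_step H.K.hP hQP hne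
  have hNQ : nN P T ≤ Q := by
    intro n hn
    exact Subgroup.mem_inf.mpr ⟨hn.1, Subgroup.le_normalizer hn⟩
  have hhQ : h ∈ Q := Subgroup.mem_inf.mpr ⟨H.hP, H.hn⟩
  -- |Q| ≤ 2 |N|
  have hidx : (nN P T).relIndex Q ∣ 2 := by
    rw [Subgroup.relIindex_dvd_two_iff']
    refine ⟨h⁻¹, inv_mem hhQ, ?_⟩
    intro b hb
    exact H.mem_cases hb.1 hb.2
  have hQc : Nat.card Q ≤ 2 * Nat.card (nN P T) := by
    rw [← relIndex_mul_card hNQ]
    exact Nat.mul_le_mul_right _ (Nat.le_of_dvd (by norm_num) hidx)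
  have hTy : tc T y ≤ Q := by
    rintro _ ⟨t, ht, rfl⟩
    exact (Subgroup.mem_normalizer_iff.mp hyn _).mp (hNQ (H.K.T_le_nN ht))
  set X := tc T y ⊓ nN P T with hX
  have hXc : 8 ≤ Nat.card X := by
    have h1 := card_mul_le hTy hNQ
    rw [tc_card, H.K.h16] at h1
    have h2 : 16 * Nat.card (nN P T) ≤ (Nat.card X * 2) * Nat.card (nN P T) := by
      calc _ ≤ Nat.card X * Nat.card Q := h1
        _ ≤ Nat.card X * (2 * Nat.card (nN P T)) := by gcongr
        _ = _ := by ring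
    have := Nat.le_of_mul_le_mul_right h2 Nat.card_pos
    omega
  rcases H.elem (E := X) inf_le_right (fun x hx => tc_ex H.K y x hx.1) with h1 | h1
  · have h2 : 8 ≤ Nat.card (tc T y ⊓ T : Subgroup G) :=
      hXc.trans (Subgroup.card_le_of_le (le_inf inf_le_left h1))
    have h3 := H.K.tc_eq hyP h2
    apply hyQ
    exact hNQ (Subgroup.mem_inf.mpr ⟨hyP, mem_normalizer_of_map_conj_eq h3⟩)
  · -- conjugate by h⁻¹
    set y' := h⁻¹ * y with hy'
    have hy'P : y' ∈ P := mul_mem (inv_mem H.hP) hyP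
    have h2 : X.map (MulAut.conj h⁻¹).toMonoidHom ≤ tc T y' ⊓ T := by
      rintro _ ⟨x, hx, rfl⟩
      simp only [MulEquiv.coe_toMonoidHom, MulAut.conj_apply, inv_inv]
      refine Subgroup.mem_inf.mpr ⟨?_, ?_⟩
      · rw [tc_mem]
        have := tc_mem.mp hx.1
        have e : y'⁻¹ * (h⁻¹ * x * h) * y' = y⁻¹ * x * y := by rw [hy']; group
        rw [e]; exact this
      · exact tc_mem.mp (h1 hx)
    have h3 : 8 ≤ Nat.card (tc T y' ⊓ T : Subgroup G) := by
      have := Subgroup.card_le_of_le h2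
      rw [card_map_conj] at this
      omega
    have h4 := H.K.tc_eq hy'P h3
    have h5 : y' ∈ nN P T := Subgroup.mem_inf.mpr ⟨hy'P, mem_normalizer_of_map_conj_eq h4⟩
    apply hyQ
    have e : y = h * y' := by rw [hy']; group
    rw [e]
    exact mul_mem hhQ (hNQ h5)

theorem KH.card_P (H : KH P T B h) : (nN P T).relIndex P ∣ 2 := by
  rw [Subgroup.relIindex_dvd_two_iff']
  refine ⟨h⁻¹, inv_mem H.hP, ?_⟩
  intro b hb
  exact H.mem_cases hb (H.P_norm hb)

theorem KH.sq_mem (H : KH P T B h) : h * h ∈ nN P T := by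
  have h1 := H.mem_cases (mul_mem H.hP H.hP) (mul_mem H.hn H.hn)
  rcases h1 with h1 | h1
  · exfalso
    apply H.hN
    simpa using h1
  · exact h1

theorem KH.conj_R (H : KH P T B h) {r : G} (hr : r ∈ tc T h) : h * r * h⁻¹ ∈ T := by
  have h1 := tc_mem.mp hr
  have h2 := H.sq_mem
  have h3 := conj_mem_T h2 h1
  have e : h * h * (h⁻¹ * r * h) * (h * h)⁻¹ = h * r * h⁻¹ := by group
  rwa [e] at h3

theorem KH.conj_R' (H : KH P T B h) {t : G} (ht : t ∈ T) : h⁻¹ * t * h ∈ tc T h := by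
  have h2 := inv_mem H.sq_mem
  have h3 := conj_mem_T h2 ht
  rw [tc_mem]
  have e : h⁻¹ * (h⁻¹ * t * h) * h = (h * h)⁻¹ * t * (h * h)⁻¹⁻¹ := by
    simp only [mul_inv_rev, inv_inv, mul_assoc]
  rw [e]
  exact h3

end Cfsg.Agent.H05.Sect
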