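import Cfsg.Agent.Lib.H05.Sect4

set_option autoImplicit false
set_option linter.unusedSectionVars false
set_option linter.unusedVariables false
set_option linter.unusedSimpArgs false
set_option linter.style.haveILetI false

namespace Cfsg.Agent.H05.Sect

open Cfsg Cfsg.Agent.H13

variable {G : Type*} [Group G] [Finite G]
variable {P T B : Subgroup G} {h : G}

/-- a proper subgroup has at most half the order -/
theorem two_mul_card_le {A C : Subgroup G} (h : A ≤ C) (hne : ¬ C ≤ A) : 2 * Nat.card A ≤ Nat.card C := by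
  rw [← relIndex_mul_card h]
  apply Nat.mul_le_mul_right
  have h1 : A.relIndex C ≠ 0 := by
    intro he
    have h3 := relIndex_mul_card h
    rw [he, zero_mul] at h3
    exact (Nat.card_pos (α := C)).ne h3
  have h2 : A.relIndex C ≠ 1 := by
    intro he
    exact hne (Subgroup.relIndex_eq_one.mp he)
  omega

theorem KS.fix_bound (K : KS P T B) {L M V : Subgroup G} (hML : M ≤ L)
    (hnorm : ∀ x ∈ L, ∀ m ∈ M, x * m * x⁻¹ ∈ M) (hsq : ∀ x ∈ L, x * x ∈ M)
    (hV : V ≤ T) (hVL : V ≤ L) {y : G} (hyL : y ∈ L) (hyP : y ∈ P) (hyT : y ∉ T)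
    (hn : ∀ v ∈ V, y * v * y⁻¹ ∈ V) : Nat.card V ≤ 4 * Nat.card (V ⊓ M : Subgroup G) := by
  have h1 := card_le_fix_mul (V := V) (M := M) (fun a ha b hb => K.hab a (hV ha) b (hV hb))
    (fun a ha => K.hex a (hV ha)) y hn (by
      intro v hv
      have h2 := comm_mem hML hnorm hsq (hVL hv) hyL
      have h3 : v⁻¹ = v := inv_eq_of_mul_eq_one_left (K.hex v (hV hv))
      rw [h3] at h2
      have e : v * (y * v * y⁻¹) = v * y * v * y⁻¹ := by group
      rw [e]; exact h2)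
  have h2 := K.fix_le hyP hyT
  have h3 : Nat.card (V ⊓ Subgroup.centralizer ({y} : Set G) : Subgroup G) ≤ 4 :=
    (Subgroup.card_le_of_le (inf_le_inf_right _ hV)).trans h2
  exact h1.trans (Nat.mul_le_mul_right _ h3)

/-- Claim A -/
theorem KS.claimA' (K : KS P T B) {L M : Subgroup G} (hLN : L ≤ nN P T) (hML : M ≤ L)
    (hnorm : ∀ x ∈ L, ∀ m ∈ M, x * m * x⁻¹ ∈ M) (hsq : ∀ x ∈ L, x * x ∈ M)
    {y : G} (hy : y ∈ L) (hyT : y ∉ T) :
    Nat.card (L ⊓ T : Subgroup G) ≤ 4 * Nat.card ((L ⊓ T : Subgroup G) ⊓ M : Subgroup G) ∧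
      Nat.card L ≤ 4 * Nat.card (L ⊓ T : Subgroup G) := by
  constructor
  · refine K.fix_bound hML hnorm hsq inf_le_right inf_le_left hy (hLN hy).1 hyT ?_
    intro v hv
    exact Subgroup.mem_inf.mpr ⟨mul_mem (mul_mem hy hv.1) (inv_mem hy), conj_mem_T (hLN hy) hv.2⟩
  · have h1 := card_mul_le hLN K.T_le_nN
    rw [K.h16] at h1
    have h2 := K.card_nN
    have h3 : Nat.card L * 16 ≤ (4 * Nat.card (L ⊓ T : Subgroup G)) * 16 := by
      calc _ ≤ _ := h1
        _ ≤ Nat.card (L ⊓ T : Subgroup G) * 64 := Nat.mul_le_mul_left _ h2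
        _ = _ := by ring
    exact Nat.le_of_mul_le_mul_right h3 (by norm_num)

theorem KS.claimA (K : KS P T B) {L M : Subgroup G} (hLN : L ≤ nN P T) (hML : M ≤ L)
    (hnorm : ∀ x ∈ L, ∀ m ∈ M, x * m * x⁻¹ ∈ M) (hsq : ∀ x ∈ L, x * x ∈ M) :
    Nat.card L ≤ 16 * Nat.card M := by
  by_cases hLT : L ≤ T
  · have h1 := Subgroup.card_le_of_le hLT
    rw [K.h16] at h1
    have h2 : 0 < Nat.card M := Nat.card_pos
    nlinarith
  · obtain ⟨y, hy, hyT⟩ := Set.not_subset.mp hLT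
    obtain ⟨h1, h2⟩ := K.claimA' hLN hML hnorm hsq hy hyT
    have h3 : Nat.card ((L ⊓ T : Subgroup G) ⊓ M : Subgroup G) ≤ Nat.card M :=
      Subgroup.card_le_of_le inf_le_right
    omega

/-- Claim B -/
theorem KH.claimB (H : KH P T B h) {L M : Subgroup G} (hLP : L ≤ P) (hML : M ≤ L) (hh : h ∈ L)
    (hnorm : ∀ x ∈ L, ∀ m ∈ M, x * m * x⁻¹ ∈ M) (hsq : ∀ x ∈ L, x * x ∈ M) :
    Nat.card L ≤ 16 * Nat.card M := by
  have K := H.K
  set N := nN P T with hN
  have hNP : N ≤ P := inf_le_left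
  set L₁ := L ⊓ N with hL₁
  have hL₁L : L₁ ≤ L := inf_le_left
  have hL₁N : L₁ ≤ N := inf_le_right
  have hM0 : 0 < Nat.card M := Nat.card_pos
  have hc1 : Nat.card L ≤ 2 * Nat.card L₁ := by
    have h1 := card_mul_le hLP hNP
    have h2 := H.card_P
    have h3 : Nat.card P ≤ 2 * Nat.card N := by
      rw [← relIndex_mul_card hNP]
      exact Nat.mul_le_mul_right _ (Nat.le_of_dvd (by norm_num) h2)
    have h4 : Nat.card L * Nat.card N ≤ (2 * Nat.card L₁) * Nat.card N := by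
      calc _ ≤ Nat.card L₁ * Nat.card P := h1
        _ ≤ Nat.card L₁ * (2 * Nat.card N) := Nat.mul_le_mul_left _ h3
        _ = _ := by ring
    exact Nat.le_of_mul_le_mul_right h4 Nat.card_pos
  by_cases hMN : M ≤ N
  swap
  · -- `M` not inside `N`
    set M₀ := M ⊓ N with hM₀
    have h1 : 2 * Nat.card M₀ ≤ Nat.card M := two_mul_card_le inf_le_left (fun hle => hMN (hle.trans inf_le_right))
    have h2 : Nat.card L₁ ≤ 16 * Nat.card M₀ := by
      refine K.claimA hL₁N ?_ ?_ ?_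
      · exact inf_le_inf_right _ hML
      · intro x hx m hm
        exact Subgroup.mem_inf.mpr ⟨hnorm x hx.1 m hm.1, (mul_mem (mul_mem hx.2 hm.2) (inv_mem hx.2))⟩
      · intro x hx
        exact Subgroup.mem_inf.mpr ⟨hsq x hx.1, mul_mem hx.2 hx.2⟩
    omega
  have hML₁ : M ≤ L₁ := le_inf hML hMN
  have hnorm₁ : ∀ x ∈ L₁, ∀ m ∈ M, x * m * x⁻¹ ∈ M := fun x hx m hm => hnorm x hx.1 m hm
  have hsq₁ : ∀ x ∈ L₁, x * x ∈ M := fun x hx => hsq x hx.1
  have hhT : h ∉ T := fun hhT => H.hN (K.T_le_nN hhT)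
  have hnL₁ : ∀ v ∈ L₁, h * v * h⁻¹ ∈ L₁ := fun v hv =>
    Subgroup.mem_inf.mpr ⟨mul_mem (mul_mem hh hv.1) (inv_mem hh), H.conj_N hv.2⟩
  by_cases hL₁T : L₁ ≤ T
  · have h1 := K.fix_bound hML hnorm hsq hL₁T hL₁L hh H.hP hhT hnL₁
    have h2 : Nat.card (L₁ ⊓ M : Subgroup G) ≤ Nat.card M := Subgroup.card_le_of_le inf_le_right
    omega
  obtain ⟨y', hy', hy'T⟩ := Set.not_subset.mp hL₁T
  obtain ⟨h1, h2⟩ := K.claimA' hL₁N hML₁ hnorm₁ hsq₁ hy' hy'T
  set L₀ := L₁ ⊓ T with hL₀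
  by_cases hMT : M ≤ L₀
  swap
  · have h3 : 2 * Nat.card (L₀ ⊓ M : Subgroup G) ≤ Nat.card M :=
      two_mul_card_le inf_le_right (fun hle => hMT (hle.trans inf_le_left))
    omega
  -- `M ≤ L₀`
  have hMT' : M ≤ T := hMT.trans inf_le_right
  have hMR : M ≤ tc T h := by
    intro m hm
    rw [tc_mem]
    apply hMT'
    have := hnorm _ (inv_mem hh) m hm
    simpa using this
  have hL₀F : L₀ ≤ T ⊓ tc T h := by
    intro t ht
    refine Subgroup.mem_inf.mpr ⟨ht.2, ?_⟩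
    -- `h t h⁻¹ ∈ T ⊓ R`
    have ht1 : t ∈ L := ht.1.1
    have h4 := comm_mem hML hnorm hsq ht1 hh
    have h5 : t⁻¹ = t := inv_eq_of_mul_eq_one_left (K.hex t ht.2)
    rw [h5] at h4
    have h6 := hMT' h4
    have e : h * t * h⁻¹ = t⁻¹ * (t * h * t * h⁻¹) := by group
    have h7 : h * t * h⁻¹ ∈ T := by
      rw [e]; exact mul_mem (inv_mem ht.2) h6
    -- `t = h⁻¹ (h t h⁻¹) h ∈ R`
    have h8 := H.conj_R' h7
    have e2 : h⁻¹ * (h * t * h⁻¹) * h = t := by group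
    rwa [e2] at h8
  have hL₀c : Nat.card L₀ ≤ 4 := (Subgroup.card_le_of_le hL₀F).trans H.card_F_le
  by_cases hMbot : 2 ≤ Nat.card M
  · omega
  have hM1 : Nat.card M = 1 := by omega
  exfalso
  have hMb : M = ⊥ := Subgroup.eq_bot_of_card_eq M hM1
  have hex : ∀ x ∈ L₁, x * x = 1 := by
    intro x hx
    have := hsq₁ x hx
    rw [hMb] at this
    exact this
  rcases H.elem hL₁N hex with h3 | h3
  · exact hL₁T h3
  · apply hL₁T
    intro x hx
    have h4 := hnL₁ _ (Subgroup.inv_mem L₁ hx)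
    have := tc_mem.mp (h3 (hnL₁ _ hx))
    have e : h⁻¹ * (h * x * h⁻¹) * h = x := by group
    rwa [e] at this

/-- The bound in the Klein case. -/
theorem KS.bound (K : KS P T B) {L M : Subgroup G} (hLP : L ≤ P) (hML : M ≤ L)
    (hnorm : ∀ x ∈ L, ∀ m ∈ M, x * m * x⁻¹ ∈ M) (hsq : ∀ x ∈ L, x * x ∈ M) :
    Nat.card L ≤ 16 * Nat.card M := by
  by_cases hLN : L ≤ nN P T
  · exact K.claimA hLN hML hnorm hsq
  · obtain ⟨y, hy, hyN⟩ := Set.not_subset.mp hLN
    have hne : nN P T ≠ P := by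
      intro he
      exact hyN (by rw [he]; exact hLP hy)
    obtain ⟨g, hgP, hgN, hgn, -⟩ := exists_norm_step K.hP (inf_le_left : nN P T ≤ P) hne
    have H0 : KH P T B g := ⟨K, hgP, hgN, hgn⟩
    have H : KH P T B y := ⟨K, hLP hy, hyN, H0.P_norm (hLP hy)⟩
    exact H.claimB hLP hML hy hnorm hsq

end Cfsg.Agent.H05.Sect
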