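import Cfsg.Agent.Lib.H05.Sect5

set_option autoImplicit false
set_option linter.unusedSectionVars false
set_option linter.unusedVariables false
set_option linter.unusedSimpArgs false
set_option linter.style.haveILetI false

namespace Cfsg.Agent.H05.Sect

open Cfsg Cfsg.Agent.H13

variable {G : Type*} [Group G] [Finite G]

/-- a Sylow-type condition: elements of a `2`-group over `T` inside `C` lie in `T` -/
theorem star_of {P T C : Subgroup G} (hP : IsPGroup 2 P) (hTP : T ≤ P) (hTC : T ≤ C)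
    (hodd : Odd (T.relIndex C)) {g : G} (hg : g ∈ P) (hgC : g ∈ C) : g ∈ T := by
  haveI : Fact (Nat.Prime 2) := ⟨Nat.prime_two⟩
  set Q := P ⊓ C with hQ
  have hTQ : T ≤ Q := le_inf hTP hTC
  have hQC : Q ≤ C := inf_le_right
  have h1 := Subgroup.relIndex_mul_relIndex T Q C hTQ hQC
  have h2 : Odd (T.relIndex Q) := by
    rw [← h1] at hodd
    exact (Nat.odd_mul.mp hodd).1
  have hQ2 : IsPGroup 2 Q := hP.to_le inf_le_left
  obtain ⟨n, hn⟩ := IsPGroup.iff_card.mp hQ2
  have h3 : T.relIndex Q ∣ 2 ^ n := by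
    rw [← hn, ← relIndex_mul_card hTQ]
    exact Dvd.intro _ rfl
  obtain ⟨k, hk, hk2⟩ := (Nat.dvd_prime_pow Nat.prime_two).mp h3
  have h4 : k = 0 := by
    by_contra hk0
    rw [hk2] at h2
    exact (Nat.not_even_iff_odd.mpr h2) ((Nat.even_pow.mpr ⟨even_two, hk0⟩))
  rw [h4, pow_zero] at hk2
  have h5 : Q ≤ T := Subgroup.relIndex_eq_one.mp hk2
  exact h5 (Subgroup.mem_inf.mpr ⟨hg, hgC⟩)

/-- common facts on `T = D × B` -/
theorem T_comm {D B T : Subgroup G} (hcomm : ∀ a ∈ D, ∀ b ∈ B, a * b = b * a) (hsup : D ⊔ B = T)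
    (hDc : ∀ x ∈ D, ∀ y ∈ D, x * y = y * x) (hBc : ∀ x ∈ B, ∀ y ∈ B, x * y = y * x) :
    ∀ x ∈ T, ∀ y ∈ T, x * y = y * x := by
  intro x hx y hy
  rw [← hsup] at hx hy
  obtain ⟨a, ha, b, hb, rfl⟩ := Cfsg.Agent.H05.mem_sup_of_commute hcomm hx
  obtain ⟨a', ha', b', hb', rfl⟩ := Cfsg.Agent.H05.mem_sup_of_commute hcomm hy
  calc a * b * (a' * b') = a * (b * a') * b' := by group
    _ = a * (a' * b) * b' := by rw [hcomm a' ha' b hb]
    _ = (a * a') * (b * b') := by group
    _ = (a' * a) * (b' * b) := by rw [hDc a ha a' ha', hBc b hb b' hb']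
    _ = a' * (a * b') * b := by group
    _ = a' * (b' * a) * b := by rw [hcomm a ha b' hb']
    _ = _ := by group

theorem T_ex {D B T : Subgroup G} (hcomm : ∀ a ∈ D, ∀ b ∈ B, a * b = b * a) (hsup : D ⊔ B = T)
    (hDe : ∀ x ∈ D, x * x = 1) (hBe : ∀ x ∈ B, x * x = 1) : ∀ x ∈ T, x * x = 1 := by
  intro x hx
  rw [← hsup] at hx
  obtain ⟨a, ha, b, hb, rfl⟩ := Cfsg.Agent.H05.mem_sup_of_commute hcomm hx
  calc a * b * (a * b) = a * (b * a) * b := by group
    _ = a * (a * b) * b := by rw [hcomm a ha b hb]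
    _ = (a * a) * (b * b) := by group
    _ = 1 := by rw [hDe a ha, hBe b hb]; simp

theorem T_card_le {D B T : Subgroup G} (hcomm : ∀ a ∈ D, ∀ b ∈ B, a * b = b * a) (hsup : D ⊔ B = T) :
    Nat.card T ≤ Nat.card D * Nat.card B := by
  rw [← Nat.card_prod]
  have hsurj : Function.Surjective (fun p : D × B =>
      (⟨(p.1 : G) * p.2, hsup ▸ Subgroup.mul_mem _ (Subgroup.mem_sup_left p.1.2) (Subgroup.mem_sup_right p.2.2)⟩ : T)) := by
    rintro ⟨t, ht⟩
    rw [← hsup] at ht
    obtain ⟨a, ha, b, hb, rfl⟩ := Cfsg.Agent.H05.mem_sup_of_commute hcomm ht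
    exact ⟨(⟨a, ha⟩, ⟨b, hb⟩), rfl⟩
  exact Nat.card_le_card_of_surjective _ hsurj

/-- The Klein case. -/
theorem sect_klein {D B T : Subgroup G} (hT : IsPGroup 2 T) (hDT : D ≤ T) (hBT : B ≤ T)
    (hcomm : ∀ a ∈ D, ∀ b ∈ B, a * b = b * a) (hbot : D ⊓ B = ⊥) (hsup : D ⊔ B = T)
    (hB4 : Nat.card B = 4) (hBe : ∀ x ∈ B, x * x = 1) (hBc : ∀ x ∈ B, ∀ y ∈ B, x * y = y * x)
    (hD4 : Nat.card D = 4) (hDe : ∀ x ∈ D, x * x = 1) (hDc : ∀ x ∈ D, ∀ y ∈ D, x * y = y * x)
    (hTb : ∀ b ∈ B, b ≠ 1 → T ≤ Subgroup.centralizer ({b} : Set G) ∧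
      Odd (T.relIndex (Subgroup.centralizer ({b} : Set G)))) :
    SectionalPRankLE 2 4 G := by
  haveI : Fact (Nat.Prime 2) := ⟨Nat.prime_two⟩
  obtain ⟨S, hS⟩ := IsPGroup.exists_le_sylow hT
  have K : KS (S : Subgroup G) T B := by
    refine ⟨S.isPGroup', hS, T_comm hcomm hsup hDc hBc, T_ex hcomm hsup hDe hBe, ?_, hBT, hB4, ?_⟩
    · have h1 := T_card_le hcomm hsup
      have h2 := card_mul_le hDT hBT
      rw [hbot, Subgroup.card_bot, hD4, hB4] at h2
      rw [hD4, hB4] at h1
      omega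
    · intro g hg b hb hne hc
      obtain ⟨h1, h2⟩ := hTb b hb hne
      refine star_of S.isPGroup' hS h1 h2 hg ?_
      rw [Subgroup.mem_centralizer_singleton_iff]
      exact hc
  refine sect_of_sylow S 4 ?_
  intro L M hLS hML hnorm hsq
  have := K.bound hLS hML hnorm hsq
  simpa using this

/-- `Ω₁(Z(T))` -/
def V₁ (T : Subgroup G) : Subgroup G where
  carrier := {v | v ∈ T ∧ v * v = 1 ∧ ∀ t ∈ T, v * t = t * v}
  one_mem' := ⟨one_mem _, by simp, by simp⟩
  mul_mem' := by
    rintro a b ⟨ha, ha2, ha3⟩ ⟨hb, hb2, hb3⟩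
    refine ⟨mul_mem ha hb, ?_, ?_⟩
    · calc a * b * (a * b) = a * (b * a) * b := by group
        _ = a * (a * b) * b := by rw [ha3 b hb]
        _ = (a * a) * (b * b) := by group
        _ = 1 := by rw [ha2, hb2]; simp
    · intro t ht
      calc a * b * t = a * (b * t) := by group
        _ = a * (t * b) := by rw [hb3 t ht]
        _ = (a * t) * b := by group
        _ = (t * a) * b := by rw [ha3 t ht]
        _ = _ := by group
  inv_mem' := by
    rintro a ⟨ha, ha2, ha3⟩
    have e : a⁻¹ = a := inv_eq_of_mul_eq_one_left ha2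
    rw [e]
    exact ⟨ha, ha2, ha3⟩

/-- The nonabelian case. -/
theorem sect_nonab {D B T : Subgroup G} (hT : IsPGroup 2 T) (hDT : D ≤ T) (hBT : B ≤ T)
    (hcomm : ∀ a ∈ D, ∀ b ∈ B, a * b = b * a) (hsup : D ⊔ B = T)
    (hB4 : Nat.card B = 4) (hBe : ∀ x ∈ B, x * x = 1) (hBc : ∀ x ∈ B, ∀ y ∈ B, x * y = y * x)
    {c t : G} (hc : c ∈ D) (ht : t ∈ D) (hct : c * t ≠ t * c) (hcard : Nat.card D ≤ 2 * orderOf c)
    (hTb : ∀ b ∈ B, b ≠ 1 → T ≤ Subgroup.centralizer ({b} : Set G) ∧
      Odd (T.relIndex (Subgroup.centralizer ({b} : Set G)))) :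
    SectionalPRankLE 2 4 G := by
  haveI : Fact (Nat.Prime 2) := ⟨Nat.prime_two⟩
  obtain ⟨S, hS⟩ := IsPGroup.exists_le_sylow hT
  set C := Subgroup.zpowers c with hC
  have hCD : C ≤ D := by
    rw [hC, Subgroup.zpowers_le]; exact hc
  have hCcard : Nat.card C = orderOf c := Nat.card_zpowers c
  have hC2 : Nat.card D ≤ 2 * Nat.card C := by rw [hCcard]; exact hcard
  have hCc : IsCyclic C := by rw [hC]; infer_instance
  have hTS : T = S := by
    by_contra hne
    obtain ⟨g, hgS, hgT, hgn, hgg⟩ := exists_norm_step S.isPGroup' hS hne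
    set V := V₁ T with hV
    have hstar : ∀ b ∈ B, b ≠ 1 → g * b = b * g → False := by
      intro b hb hne hc
      obtain ⟨h1, h2⟩ := hTb b hb hne
      refine hgT (star_of S.isPGroup' hS h1 h2 hgS ?_)
      rw [Subgroup.mem_centralizer_singleton_iff]
      exact hc
    have hVT : V ≤ T := fun v hv => hv.1
    have hBV : B ≤ V := by
      intro b hb
      refine ⟨hBT hb, hBe b hb, ?_⟩
      intro u hu
      rw [← hsup] at hu
      obtain ⟨a, ha, b', hb', rfl⟩ := Cfsg.Agent.H05.mem_sup_of_commute hcomm hu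
      calc b * (a * b') = (b * a) * b' := by group
        _ = (a * b) * b' := by rw [hcomm a ha b hb]
        _ = a * (b * b') := by group
        _ = a * (b' * b) := by rw [hBc b hb b' hb']
        _ = _ := by group
    -- the index-two structure of `C` in `D`
    have hidx : C.relIndex D ∣ 2 := by
      have h1 := relIndex_mul_card hCD
      have h2 : C.relIndex D ≤ 2 := by
        have h3 : 0 < Nat.card C := Nat.card_pos
        by_contra h4
        have h5 : 3 ≤ C.relIndex D := by omega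
        have := Nat.mul_le_mul_right (Nat.card C) h5
        omega
      have h6 : C.relIndex D ≠ 0 := by
        intro h0
        rw [h0, zero_mul] at h1
        exact (Nat.card_pos (α := D)).ne h1
      have : C.relIndex D = 1 ∨ C.relIndex D = 2 := by omega
      rcases this with h | h <;> rw [h] <;> norm_num
    obtain ⟨a, ha, hab⟩ := Subgroup.relIindex_dvd_two_iff'.mp hidx
    have hCcomm : ∀ u ∈ C, c * u = u * c := by
      rintro _ ⟨k, rfl⟩
      exact (Commute.zpow_right (Commute.refl c) k).eq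
    have htC : t ∉ C := fun h => hct (hCcomm t h)
    have hZ : ∀ v ∈ D, c * v = v * c → v ∈ C := by
      intro v hv hvc
      by_contra hvC
      have h1 := (hab v hv).resolve_right hvC
      have h2 := (hab t ht).resolve_right htC
      have h3 : v⁻¹ * t ∈ C := by
        have := mul_mem (inv_mem h1) h2
        have e : (a * v)⁻¹ * (a * t) = v⁻¹ * t := by group
        rwa [e] at this
      have h4 := hCcomm _ h3
      apply hct
      have h5 : c * v⁻¹ = v⁻¹ * c := by
        have : Commute c v := hvc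
        exact (this.inv_right).eq
      have e : t = v * (v⁻¹ * t) := by group
      rw [e]
      calc c * (v * (v⁻¹ * t)) = (c * v) * (v⁻¹ * t) := by group
        _ = v * c * (v⁻¹ * t) := by rw [hvc]
        _ = v * (c * (v⁻¹ * t)) := by group
        _ = v * ((v⁻¹ * t) * c) := by rw [h4]
        _ = _ := by group
    -- size of `V ∩ D`
    have hVD : Nat.card (V ⊓ D : Subgroup G) ≤ 2 := by
      have h1 : (V ⊓ D : Subgroup G) ≤ C := by
        rintro v ⟨hv1, hv2⟩
        apply hZ v hv2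
        exact (hv1.2.2 c (hDT hc)).symm
      have h2 : IsCyclic (V ⊓ D : Subgroup G) := by
        have h5 : IsCyclic ((V ⊓ D : Subgroup G).subgroupOf C) := Subgroup.isCyclic _
        exact isCyclic_of_surjective (Subgroup.subgroupOfEquivOfLe h1).toMonoidHom
          (Subgroup.subgroupOfEquivOfLe h1).surjective
      have h3 := cyclic_sq_bound (M := ⊥) h2 (fun x hx => hx.1.2.1)
      rw [inf_bot_eq, Subgroup.card_bot] at h3
      omega
    -- size of `V`
    have hTle := T_card_le hcomm hsup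
    rw [hB4] at hTle
    have hVc : Nat.card V ≤ 8 := by
      have h1 := card_mul_le hVT hDT
      have h3 : Nat.card V * Nat.card D ≤ 8 * Nat.card D := by
        calc _ ≤ Nat.card (V ⊓ D : Subgroup G) * Nat.card T := h1
          _ ≤ 2 * (Nat.card D * 4) := Nat.mul_le_mul hVD hTle
          _ = _ := by ring
      exact Nat.le_of_mul_le_mul_right h3 Nat.card_pos
    have hVc4 : 4 ≤ Nat.card V := by
      rw [← hB4]; exact Subgroup.card_le_of_le hBV
    -- action of `g`
    have hab : ∀ x ∈ V, ∀ y ∈ V, x * y = y * x := fun x hx y hy => hx.2.2 y (hVT hy)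
    have hex : ∀ x ∈ V, x * x = 1 := fun x hx => hx.2.1
    have hnV : ∀ v ∈ V, g * v * g⁻¹ ∈ V := by
      intro v hv
      refine ⟨(Subgroup.mem_normalizer_iff.mp hgn _).mp hv.1, ?_, ?_⟩
      · calc g * v * g⁻¹ * (g * v * g⁻¹) = g * (v * v) * g⁻¹ := by group
          _ = 1 := by rw [hv.2.1]; group
      · intro u hu
        have h1 : g⁻¹ * u * g ∈ T := by
          have := (Subgroup.mem_normalizer_iff.mp hgn _).mpr (by simpa [mul_assoc] using hu : g * (g⁻¹ * u * g) * g⁻¹ ∈ T)
          exact this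
        have h2 := hv.2.2 _ h1
        calc g * v * g⁻¹ * u = g * (v * (g⁻¹ * u * g)) * g⁻¹ := by group
          _ = g * ((g⁻¹ * u * g) * v) * g⁻¹ := by rw [h2]
          _ = _ := by group
    have hgg' : ∀ v ∈ V, g * (g * v * g⁻¹) * g⁻¹ = v := by
      intro v hv
      have h1 := hv.2.2 _ hgg
      calc g * (g * v * g⁻¹) * g⁻¹ = (g * g) * v * (g * g)⁻¹ := by group
        _ = v * (g * g) * (g * g)⁻¹ := by rw [h1]
        _ = v := by group
    have h1 := card_le_fix_sq hab hex g hnV hgg'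
    set W := V ⊓ Subgroup.centralizer ({g} : Set G) with hW
    have hWB : W ⊓ B = ⊥ := by
      rw [eq_bot_iff]
      rintro b ⟨⟨_, hb1⟩, hb2⟩
      by_contra hne
      exact hstar b hb2 hne (Subgroup.mem_centralizer_singleton_iff.mp hb1).symm
    have h2 : Nat.card W * Nat.card B ≤ Nat.card (W ⊓ B : Subgroup G) * Nat.card V :=
      card_mul_le inf_le_left hBV
    rw [hWB, hB4, Subgroup.card_bot] at h2
    have h3 : Nat.card W ≤ 2 := by omega
    have h4 : Nat.card V ≤ 4 := by
      calc _ ≤ _ := h1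
        _ ≤ 2 ^ 2 := Nat.pow_le_pow_left h3 2
        _ = 4 := by norm_num
    have h5 : Nat.card W ≤ 1 := by omega
    have h6 : Nat.card V ≤ 1 := by
      calc _ ≤ _ := h1
        _ ≤ 1 ^ 2 := Nat.pow_le_pow_left h5 2
        _ = 1 := by norm_num
    omega
  refine sect_of_sylow S 4 ?_
  intro L M hLS hML hnorm hsq
  have := sect_dir hDT hBT hcomm hsup hB4 hCD hCc hC2 (L := L) (M := M) (by rw [hTS]; exact hLS) hML hsq
  simpa using this

end Cfsg.Agent.H05.Sect
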