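import Cfsg.Agent.Lib.H05.Sig2

/-!
# Signalizer functors: maximal `q`-subgroups, Sylow subgroups of the fixed points, `q`-group functors
-/

set_option autoImplicit false
set_option linter.style.haveILetI false
set_option linter.unusedSectionVars false

namespace Cfsg.Agent.H05

open Subgroup Cfsg
open scoped commutatorElement Pointwise

section sig3
variable {G : Type*} [Group G] [Finite G] {p : ℕ} [hp : Fact p.Prime] {A : Subgroup G}
  {θ : G → Subgroup G}

theorem pgroup_of_elem (hA : IsElementaryAbelian p A) : IsPGroup p A := by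
  intro x
  refine ⟨1, ?_⟩
  rw [pow_one]
  exact Subtype.ext (hA.2 x x.2)

theorem card_A_coprime (hA : IsElementaryAbelian p A) {X : Subgroup G} (hX : (Nat.card X).Coprime p) :
    (Nat.card A).Coprime (Nat.card X) := by
  obtain ⟨k, hk⟩ := IsPGroup.iff_card.mp (pgroup_of_elem hA)
  rw [hk]
  exact Nat.Coprime.pow_left _ hX.symm

theorem sigInf_mem_family (hθ : IsSolvableSignalizerFunctor p A θ) {B : Subgroup G} (hB : B ≤ A)
    (hB1 : B ≠ ⊥) : signalizerInf B θ ∈ signalizerFamily p A θ := by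
  obtain ⟨b, hb, hb1⟩ : ∃ b ∈ B, b ≠ 1 := by
    by_contra hcon
    push Not at hcon
    exact hB1 (eq_bot_iff.mpr fun x hx => by simpa using hcon x hx)
  have hle : signalizerInf B θ ≤ θ b := fun x hx => mem_sigInf.mp hx b hb hb1
  refine sf_le (sf_theta hθ (hB hb) hb1) hle ?_
  intro c hc u hu
  rw [mem_sigInf] at hu ⊢
  intro a ha ha1
  exact hθ.1.2.2.1 a (hB ha) ha1 c hc u (hu a ha ha1)

theorem sf_exists_sylow (hA : IsElementaryAbelian p A) {q : ℕ} [Fact q.Prime] {H : Subgroup G}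
    (hH : H ∈ signalizerFamily p A θ) :
    ∃ S : Sylow q H, ((S : Subgroup H).map H.subtype) ∈ signalizerFamily p A θ := by
  obtain ⟨S, hS⟩ := H01.exists_invariant_sylow (sf_normalizer hH) (card_A_coprime hA (sf_card_coprime hH))
    (Or.inr hH.1) q
  refine ⟨S, sf_le hH ?_ ?_⟩
  · rintro _ ⟨x, -, rfl⟩
    exact x.2
  · intro b hb u hu
    exact (mem_normalizer_iff.mp (hS hb) u).mp hu

theorem sf_sylow_le (hA : IsElementaryAbelian p A) {q : ℕ} [Fact q.Prime] {H U : Subgroup G}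
    (hH : H ∈ signalizerFamily p A θ) (hUH : U ≤ H) (hU : IsPGroup q U)
    (hUA : A ≤ normalizer (U : Set G)) :
    ∃ S : Sylow q H, U ≤ (S : Subgroup H).map H.subtype ∧
      ((S : Subgroup H).map H.subtype) ∈ signalizerFamily p A θ := by
  obtain ⟨S, hUS, hS⟩ := H01.invariant_subgroup_le_invariant_sylow (sf_normalizer hH)
    (card_A_coprime hA (sf_card_coprime hH)) (Or.inr hH.1) q U hUH hU hUA
  refine ⟨S, hUS, sf_le hH ?_ ?_⟩
  · rintro _ ⟨x, -, rfl⟩
    exact x.2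
  · intro b hb u hu
    exact (mem_normalizer_iff.mp (hS hb) u).mp hu

/-- A `q`-subgroup of `H` containing the image of a Sylow subgroup equals it. -/
theorem sylow_map_eq {q : ℕ} [Fact q.Prime] {H R : Subgroup G} (S : Sylow q H)
    (hle : (S : Subgroup H).map H.subtype ≤ R) (hRH : R ≤ H) (hR : IsPGroup q R) :
    (S : Subgroup H).map H.subtype = R := by
  have h1 : IsPGroup q (R.subgroupOf H) := isPGroup_subgroupOf' hR
  have h2 : (S : Subgroup H) ≤ R.subgroupOf H := fun x hx => by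
    rw [mem_subgroupOf]
    exact hle ⟨x, hx, rfl⟩
  have h3 := S.is_maximal' h1 h2
  rw [← h3]
  ext x
  constructor
  · rintro ⟨y, hy, rfl⟩
    exact mem_subgroupOf.mp hy
  · intro hx
    exact ⟨⟨x, hRH hx⟩, mem_subgroupOf.mpr hx, rfl⟩

theorem maxQ_of_hyps {q : ℕ} {Q : Subgroup G} (hQW : Q ∈ signalizerFamily p A θ) (hQq : IsPGroup q Q)
    (hQmax : ∀ R ∈ signalizerFamily p A θ, IsPGroup q R → Q ≤ R → R = Q) : IsMaxQ p A θ q Q :=
  ⟨hQW, hQq, hQmax⟩

/-- S1284 (a). -/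
theorem maxQ_sylow (hA : IsElementaryAbelian p A) (hA3 : p ^ 3 ≤ Nat.card A)
    (hθ : IsSolvableSignalizerFunctor p A θ) {q : ℕ} [Fact q.Prime] {Q H : Subgroup G}
    (hQ : IsMaxQ p A θ q Q) (hH : H ∈ signalizerFamily p A θ) :
    ∃ c ∈ signalizerInf A θ, ∃ S : Sylow q H,
      (S : Subgroup H).map H.subtype = Q.map (MulAut.conj c).toMonoidHom ⊓ H := by
  obtain ⟨S, hS⟩ := sf_exists_sylow (q := q) hA hH
  have hSq : IsPGroup q ((S : Subgroup H).map H.subtype) := S.2.map _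
  obtain ⟨Q', hSQ', hQ'⟩ := exists_maxQ hS hSq
  obtain ⟨c, hc, hce⟩ := transitivity hA hA3 hθ hQ hQ'
  refine ⟨c, hc, S, ?_⟩
  rw [hce]
  apply sylow_map_eq S
  · refine le_inf hSQ' ?_
    rintro _ ⟨x, -, rfl⟩
    exact x.2
  · exact inf_le_right
  · exact hQ'.2.1.to_le inf_le_left

/-- S1284 (b). -/
theorem maxQ_sylow_fix (hA : IsElementaryAbelian p A) (hA3 : p ^ 3 ≤ Nat.card A)
    (hθ : IsSolvableSignalizerFunctor p A θ) {q : ℕ} [Fact q.Prime] {Q B : Subgroup G}
    (hQ : IsMaxQ p A θ q Q) (hB : B ≤ A) (hB1 : B ≠ ⊥) :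
    ∃ S : Sylow q (signalizerInf B θ),
      (S : Subgroup (signalizerInf B θ)).map (signalizerInf B θ).subtype = Q ⊓ centralizer (B : Set G) := by
  set W := signalizerInf B θ with hW
  have hWF : W ∈ signalizerFamily p A θ := sigInf_mem_family hθ hB hB1
  have hUW : Q ⊓ centralizer (B : Set G) ≤ W := by
    intro x hx
    rw [hW, mem_sigInf]
    intro b hb hb1
    have h1 := (mem_inf.mp hx).1
    have h2 := (mem_inf.mp hx).2
    have h3 : x ∈ Q ⊓ centralizer {b} := mem_inf.mpr ⟨h1, mem_C.mpr (mem_centralizer_iff.mp h2 b hb)⟩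
    exact hQ.1.2.2.2 b (hB hb) hb1 h3
  have hcommA : ∀ b ∈ A, ∀ b' ∈ A, b * b' = b' * b := fun b hb b' hb' =>
    congrArg (fun z : A => (z : G)) (hA.1.is_comm.comm (⟨b, hb⟩ : A) ⟨b', hb'⟩)
  have hAU : A ≤ normalizer ((Q ⊓ centralizer (B : Set G) : Subgroup G) : Set G) := by
    intro a ha
    apply normalizer_of_conj
    intro x hx
    refine mem_inf.mpr ⟨(mem_normalizer_iff.mp (sf_normalizer hQ.1 ha) x).mp (mem_inf.mp hx).1, ?_⟩
    rw [mem_centralizer_iff]
    intro b hb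
    have h1 := mem_centralizer_iff.mp (mem_inf.mp hx).2 b hb
    have h2 := hcommA a ha b (hB hb)
    have h3 : b * a⁻¹ = a⁻¹ * b := (Commute.inv_right (show Commute b a from h2.symm)).eq
    calc b * (a * x * a⁻¹) = (b * a) * x * a⁻¹ := by group
      _ = a * (b * x) * a⁻¹ := by rw [h2.symm]; group
      _ = a * (x * b) * a⁻¹ := by rw [h1]
      _ = a * x * (b * a⁻¹) := by group
      _ = a * x * a⁻¹ * b := by rw [h3]; group
  obtain ⟨S, hUS, hS⟩ := sf_sylow_le (q := q) hA hWF hUW (hQ.2.1.to_le inf_le_left) hAU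
  refine ⟨S, ?_⟩
  have hSq : IsPGroup q ((S : Subgroup W).map W.subtype) := S.2.map _
  obtain ⟨Q', hSQ', hQ'⟩ := exists_maxQ hS hSq
  obtain ⟨c, hc, hce⟩ := transitivity hA hA3 hθ hQ' hQ
  refine le_antisymm ?_ hUS
  have hcB : ∀ b ∈ B, b * c = c * b := fun b hb => sigInf_comm hθ.1 le_rfl hc (hB hb)
  -- `S^c ≤ Q ⊓ C(B)` so has the same order
  have hSC : (S : Subgroup W).map W.subtype ≤ centralizer (B : Set G) := by
    rintro _ ⟨x, -, rfl⟩
    rw [mem_centralizer_iff]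
    intro b hb
    exact sigInf_comm hθ.1 hB x.2 hb
  have hmap : ((S : Subgroup W).map W.subtype).map (MulAut.conj c).toMonoidHom ≤ Q ⊓ centralizer (B : Set G) := by
    rintro _ ⟨x, hx, rfl⟩
    refine mem_inf.mpr ⟨?_, ?_⟩
    · rw [← hce]
      exact ⟨x, hSQ' hx, rfl⟩
    · rw [mem_centralizer_iff]
      intro b hb
      have h1 := mem_centralizer_iff.mp (hSC hx) b hb
      have h2 := hcB b hb
      have h3 : b * c⁻¹ = c⁻¹ * b := (Commute.inv_right (show Commute b c from h2)).eq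
      simp only [MulEquiv.coe_toMonoidHom, MulAut.conj_apply]
      calc b * (c * x * c⁻¹) = (b * c) * x * c⁻¹ := by group
        _ = c * (b * x) * c⁻¹ := by rw [h2]; group
        _ = c * (x * b) * c⁻¹ := by rw [h1]
        _ = c * x * (b * c⁻¹) := by group
        _ = c * x * c⁻¹ * b := by rw [h3]; group
  have hcard : Nat.card (((S : Subgroup W).map W.subtype).map (MulAut.conj c).toMonoidHom) =
      Nat.card ((S : Subgroup W).map W.subtype) :=
    Subgroup.card_map_of_injective (MulAut.conj c).injective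
  have hle := Subgroup.card_le_of_le hmap
  rw [hcard] at hle
  exact (Subgroup.eq_of_le_of_card_ge hUS hle).symm.le

/-- If all `θ a` are `q`-groups, so is every member of the family. -/
theorem sf_isPGroup (hA : IsElementaryAbelian p A) (hA3 : p ^ 3 ≤ Nat.card A) {q : ℕ} [hq : Fact q.Prime]
    (hq' : ∀ a ∈ A, a ≠ 1 → IsPGroup q (θ a)) {X : Subgroup G} (hX : X ∈ signalizerFamily p A θ) :
    IsPGroup q X := by
  rw [IsPGroup.iff_card]
  have hne : Nat.card X ≠ 0 := Nat.card_pos.ne'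
  refine ⟨_, Nat.eq_prime_pow_of_unique_prime_dvd hne ?_⟩
  intro r hr hrd
  by_contra hrq
  haveI : Fact r.Prime := ⟨hr⟩
  obtain ⟨S, hS⟩ := sf_exists_sylow (q := r) hA hX
  have hSr : IsPGroup r ((S : Subgroup X).map X.subtype) := S.2.map _
  have hSbot : (S : Subgroup X).map X.subtype = ⊥ := by
    rw [gen_hyp hA (sf_card_coprime hS) (sf_normalizer hS), eq_bot_iff]
    refine iSup_le ?_
    rintro ⟨B, hB⟩
    obtain ⟨a, ha, ha1⟩ := exists_mem_inf_hyp hA hA3 hB hB
    have hale := (mem_inf.mp ha).1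
    intro x hx
    have h1 := (mem_inf.mp hx).1
    have h2 := (mem_inf.mp hx).2
    have h3 : x ∈ (S : Subgroup X).map X.subtype ⊓ centralizer {a} :=
      mem_inf.mpr ⟨h1, mem_C.mpr (mem_centralizer_iff.mp h2 a hale)⟩
    have h4 : x ∈ θ a := hS.2.2.2 a (hB.1 hale) ha1 h3
    obtain ⟨k, hk⟩ := hSr ⟨x, h1⟩
    obtain ⟨l, hl⟩ := hq' a (hB.1 hale) ha1 ⟨x, h4⟩
    have hk' : x ^ r ^ k = 1 := by simpa using congrArg Subtype.val hk
    have hl' : x ^ q ^ l = 1 := by simpa using congrArg Subtype.val hl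
    have hcop : Nat.Coprime (r ^ k) (q ^ l) :=
      Nat.Coprime.pow _ _ ((Nat.coprime_primes hr hq.out).mpr hrq)
    have hd := Nat.dvd_gcd (orderOf_dvd_of_pow_eq_one hk') (orderOf_dvd_of_pow_eq_one hl')
    rw [hcop] at hd
    rw [mem_bot, ← orderOf_eq_one_iff]
    exact Nat.dvd_one.mp hd
  apply S.ne_bot_of_dvd_card hrd
  exact (Subgroup.map_eq_bot_iff_of_injective _ X.subtype_injective).mp hSbot

/-- S1285. -/
theorem complete_of_qgroups (hA : IsElementaryAbelian p A) (hA3 : p ^ 3 ≤ Nat.card A)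
    (hθ : IsSolvableSignalizerFunctor p A θ) {q : ℕ} [hq : Fact q.Prime]
    (hq' : ∀ a ∈ A, a ≠ 1 → IsPGroup q (θ a)) : IsCompleteSignalizerFunctor p A θ := by
  have hAne : A ≠ ⊥ := by
    intro h
    rw [h] at hA3
    simp at hA3
    have := hp.out.one_lt
    nlinarith [Nat.pow_lt_pow_left this (by norm_num : 3 ≠ 0)]
  have hbot : (⊥ : Subgroup G) ∈ signalizerFamily p A θ := by
    refine ⟨inferInstance, ?_, ?_, ?_⟩
    · simpa using hp.out.one_lt.ne'
    · intro b _ u hu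
      rw [mem_bot] at hu ⊢
      simp [hu]
    · intro a _ _
      exact inf_le_left.trans bot_le
  obtain ⟨Q, -, hQ⟩ := exists_maxQ hbot (IsPGroup.of_bot (p := q))
  have hAF := sigInf_mem_family hθ le_rfl hAne
  have hWq := sf_isPGroup hA hA3 hq' hAF
  have hWQ : ∀ Q', IsMaxQ p A θ q Q' → signalizerInf A θ ≤ Q' := by
    intro Q' hQ'
    obtain ⟨S, hS⟩ := maxQ_sylow_fix hA hA3 hθ hQ' le_rfl hAne
    have h1 : (S : Subgroup (signalizerInf A θ)) = ⊤ := by
      have hp1 : IsPGroup q (⊤ : Subgroup (signalizerInf A θ)) :=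
        IsPGroup.of_equiv hWq (Subgroup.topEquiv.symm)
      exact (S.is_maximal' hp1 le_top).symm
    have h2 : signalizerInf A θ ≤ Q' ⊓ centralizer (A : Set G) := by
      rw [← hS, h1, ← MonoidHom.range_eq_map, range_subtype]
    exact h2.trans inf_le_left
  have huniq : ∀ Q', IsMaxQ p A θ q Q' → Q' = Q := by
    intro Q' hQ'
    obtain ⟨c, hc, hce⟩ := transitivity hA hA3 hθ hQ hQ'
    rw [← hce]
    have hcQ : c ∈ Q := hWQ Q hQ hc
    ext x
    rw [H13.mem_map_conj]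
    constructor
    · intro hx
      have h1 := mul_mem (mul_mem hcQ hx) (inv_mem hcQ)
      have h2 : c * (c⁻¹ * x * c) * c⁻¹ = x := by group
      rwa [h2] at h1
    · intro hx
      exact mul_mem (mul_mem (inv_mem hcQ) hx) hcQ
  refine ⟨hθ.1, Q, hQ.1.2.2.1, hQ.1.2.1, ?_⟩
  intro a ha ha1
  apply le_antisymm (hQ.1.2.2.2 a ha ha1)
  refine le_inf ?_ (hθ.1.1 a ha ha1)
  obtain ⟨Q', hQ'le, hQ'⟩ := exists_maxQ (sf_theta hθ ha ha1) (hq' a ha ha1)
  rw [← huniq Q' hQ']
  exact hQ'le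

/-- S1288. -/
theorem le_pp_of_hyp {H : Type*} [Group H] [Finite H] {A K U : Subgroup H} {q : ℕ} [hq : Fact q.Prime]
    (hA : IsElementaryAbelian p A) (hA2 : p ^ 2 ≤ Nat.card A) (hK : ¬ p ∣ Nat.card K)
    (hKs : Group.IsSolvable K) (hAK : A ≤ normalizer (K : Set H)) (hUK : U ≤ K) (hUq : ¬ q ∣ Nat.card U)
    (hcomm : ∀ B : Subgroup H, B ≤ A → B.relIndex A = p → ¬ q ∣ Nat.card ↥⁅U, K ⊓ centralizer (B : Set H)⁆) :
    U ≤ (pPrimeCore q K).map K.subtype := by
  have hAne : A ≠ ⊥ := by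
    intro h
    rw [h] at hA2
    simp at hA2
    have := hp.out.one_lt
    nlinarith
  apply le_pp_of_fix hA (card_coprime_of_not_dvd hK) hKs hAK hUK (card_coprime_of_not_dvd hUq)
  have key : ∀ B : Subgroup H, B ≤ A → IsCoatom (B.subgroupOf A) → ∀ u ∈ U,
      ∀ t ∈ K ⊓ centralizer (B : Set H), (orderOf ⁅u, t⁆).Coprime q := by
    intro B hBA hB u hu t ht
    have h1 := hcomm B hBA (relIndex_eq_of_isCoatom hA hB)
    have h2 : ⁅u, t⁆ ∈ ⁅U, K ⊓ centralizer (B : Set H)⁆ := commutator_mem_commutator hu ht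
    have h3 : orderOf ⁅u, t⁆ ∣ Nat.card ↥⁅U, K ⊓ centralizer (B : Set H)⁆ := by
      have := orderOf_dvd_natCard (⟨_, h2⟩ : ↥⁅U, K ⊓ centralizer (B : Set H)⁆)
      rwa [Subgroup.orderOf_mk] at this
    exact Nat.Coprime.coprime_dvd_left h3 (card_coprime_of_not_dvd h1)
  rintro B ⟨hBA, hB⟩ u hu t ht
  rcases hB with hB | hB
  · obtain ⟨B', hB'A, hB'⟩ := exists_hyp_of_ne_bot hAne
    refine key B' hB'A hB' u hu t (mem_inf.mpr ⟨(mem_inf.mp ht).1, ?_⟩)
    rw [mem_centralizer_iff]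
    intro b hb
    have h2 := (mem_inf.mp ht).2
    rw [hB] at h2
    exact mem_centralizer_iff.mp h2 b (hB'A hb)
  · exact key B hBA hB u hu t ht

end sig3

end Cfsg.Agent.H05
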