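import Cfsg.Agent.Lib.H05.PComp3

/-! Solvable groups have trivial `p`-layer. -/

set_option autoImplicit false

namespace Cfsg.Agent.H05

open Subgroup Cfsg

variable {G : Type*} [Group G] [Finite G] {p : ℕ} [Fact p.Prime]

theorem pLayer_eq_bot_of_solvable (h : Group.IsSolvable G) : pLayer p G = ⊥ := by
  rw [eq_bot_iff]
  refine sSup_le ?_
  intro K hK
  have hd := pcomp_dvd hK
  have hp := pcomp_perfect hK
  obtain ⟨m, hm⟩ := (Group.isSolvable_def G).mp h
  have key : ∀ n : ℕ, K ≤ derivedSeries G n := by
    intro n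
    induction n with
    | zero => exact le_top
    | succ n ih =>
      rw [derivedSeries_succ, ← hp]
      exact Subgroup.commutator_mono ih ih
  have hbot : K = ⊥ := le_bot_iff.mp (hm ▸ key m)
  exfalso
  rw [hbot, Subgroup.card_bot] at hd
  exact (Fact.out : p.Prime).one_lt.ne' (Nat.dvd_one.mp hd)

end Cfsg.Agent.H05
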