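import Mathlib
import Cfsg.Prelude.Def_LieRecognition
import Cfsg.Agent.Lib.H05.SuzA1

/-!
# The 2-groups of type A
-/

set_option autoImplicit false
set_option linter.style.haveILetI false
set_option linter.unusedSectionVars false

namespace Cfsg.Agent.H05.SuzA

open Subgroup Cfsg Matrix

variable {F : Type*} [Field F] (φ : F →+* F)

/-- The matrix. -/
def MA (x y : F) : Matrix (Fin 3) (Fin 3) F := !![1, 0, 0; x, 1, 0; y, φ x, 1]

theorem MA_mul (x y x' y' : F) : MA φ x y * MA φ x' y' = MA φ (x + x') (y + y' + φ x * x') := by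
  ext i j
  fin_cases i <;> fin_cases j <;> simp [MA, Matrix.mul_apply, Fin.sum_univ_three, map_add] <;> ring

theorem MA_zero : MA φ (0 : F) 0 = 1 := by
  ext i j
  fin_cases i <;> fin_cases j <;> simp [MA]

/-- The unit. -/
def gA (x y : F) : GL (Fin 3) F :=
  ⟨MA φ x y, MA φ (-x) (-y + φ x * x), by
    rw [MA_mul, ← MA_zero φ]
    congr 1 <;> ring, by
    rw [MA_mul, ← MA_zero φ]
    simp⟩

theorem gA_coe (x y : F) : (gA φ x y : Matrix (Fin 3) (Fin 3) F) = MA φ x y := rfl

/-- Characterization of membership. -/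
theorem mem_typeA (g : GL (Fin 3) F) :
    g ∈ suzukiTypeA F φ ↔ ∃ x y : F, (g : Matrix (Fin 3) (Fin 3) F) = MA φ x y := by
  constructor
  · intro hg
    let W : Subgroup (GL (Fin 3) F) :=
      { carrier := {g | ∃ x y : F, (g : Matrix (Fin 3) (Fin 3) F) = MA φ x y}
        one_mem' := ⟨0, 0, by rw [MA_zero]; rfl⟩
        mul_mem' := by
          rintro a b ⟨x, y, h1⟩ ⟨x', y', h2⟩
          refine ⟨x + x', y + y' + φ x * x', ?_⟩
          rw [Units.val_mul, h1, h2, MA_mul]
        inv_mem' := by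
          rintro a ⟨x, y, h1⟩
          refine ⟨-x, -y + φ x * x, ?_⟩
          have h2 : a = gA φ x y := Units.ext h1
          rw [h2]
          rfl }
    have hle : suzukiTypeA F φ ≤ W := by
      rw [suzukiTypeA, Subgroup.closure_le]
      rintro a ⟨x, y, h⟩
      exact ⟨x, y, h⟩
    exact hle hg
  · rintro ⟨x, y, h⟩
    exact Subgroup.subset_closure ⟨x, y, h⟩

theorem gA_mem (x y : F) : gA φ x y ∈ suzukiTypeA F φ := (mem_typeA φ _).mpr ⟨x, y, rfl⟩

theorem MA_10 (x y : F) : MA φ x y 1 0 = x := by simp [MA]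
theorem MA_20 (x y : F) : MA φ x y 2 0 = y := by simp [MA]

/-- The projection. -/
def piA : suzukiTypeA F φ →* Multiplicative F :=
  MonoidHom.mk' (fun g => Multiplicative.ofAdd ((((g : GL (Fin 3) F) : Matrix (Fin 3) (Fin 3) F)) 1 0)) (by
    rintro ⟨a, ha⟩ ⟨b, hb⟩
    obtain ⟨x, y, h1⟩ := (mem_typeA φ a).mp ha
    obtain ⟨x', y', h2⟩ := (mem_typeA φ b).mp hb
    simp only [Subgroup.coe_mul, Units.val_mul]
    rw [h1, h2, MA_mul, MA_10, MA_10, MA_10]
    rfl)

/-- The central coordinate. -/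
def iotaA (g : suzukiTypeA F φ) : Multiplicative F :=
  Multiplicative.ofAdd (((g : GL (Fin 3) F) : Matrix (Fin 3) (Fin 3) F) 2 0)

theorem coords (g : suzukiTypeA F φ) :
    ((g : GL (Fin 3) F) : Matrix (Fin 3) (Fin 3) F) =
      MA φ (Multiplicative.toAdd (piA φ g)) (Multiplicative.toAdd (iotaA φ g)) := by
  obtain ⟨x, y, h1⟩ := (mem_typeA φ g).mp g.2
  have h2 : Multiplicative.toAdd (piA φ g) = x := by
    change ((g : GL (Fin 3) F) : Matrix (Fin 3) (Fin 3) F) 1 0 = x
    rw [h1, MA_10]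
  have h3 : Multiplicative.toAdd (iotaA φ g) = y := by
    change ((g : GL (Fin 3) F) : Matrix (Fin 3) (Fin 3) F) 2 0 = y
    rw [h1, MA_20]
  rw [h2, h3, h1]

theorem A_ext {g h : suzukiTypeA F φ} (h1 : piA φ g = piA φ h) (h2 : iotaA φ g = iotaA φ h) : g = h := by
  apply Subtype.ext
  apply Units.ext
  rw [coords φ g, coords φ h, h1, h2]

theorem iotaA_mul (g h : suzukiTypeA F φ) :
    iotaA φ (g * h) = iotaA φ g * iotaA φ h *
      Multiplicative.ofAdd (φ (Multiplicative.toAdd (piA φ g)) * Multiplicative.toAdd (piA φ h)) := by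
  have h1 : (((g * h : suzukiTypeA F φ) : GL (Fin 3) F) : Matrix (Fin 3) (Fin 3) F) =
      ((g : GL (Fin 3) F) : Matrix (Fin 3) (Fin 3) F) * ((h : GL (Fin 3) F) : Matrix (Fin 3) (Fin 3) F) := rfl
  change Multiplicative.ofAdd ((((g * h : suzukiTypeA F φ) : GL (Fin 3) F) : Matrix (Fin 3) (Fin 3) F) 2 0) = _
  rw [h1, coords φ g, coords φ h, MA_mul, MA_20]
  rfl

variable [Fintype F] [CharP F 2]

/-- The recognition of type A by squares. -/
theorem typeA_iso {P : Type*} [Group P] [Finite P] (π : P →* Multiplicative F) (hπ : Function.Surjective π)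
    (ι : P → Multiplicative F)
    (hιmul : ∀ x y, π x = 1 → π y = 1 → ι (x * y) = ι x * ι y)
    (hιinj : ∀ x, π x = 1 → ι x = 1 → x = 1)
    (hιsurj : ∀ b, ∃ x, π x = 1 ∧ ι x = b)
    (hc : ∀ z, π z = 1 → ∀ x, z * x = x * z)
    (hsq : ∀ x, ι (x * x) = Multiplicative.ofAdd (Multiplicative.toAdd (π x) * φ (Multiplicative.toAdd (π x)))) :
    Nonempty (P ≃* suzukiTypeA F φ) := by
  classical
  haveI : Finite (GL (Fin 3) F) := inferInstance
  have h2 : ∀ v : Multiplicative F, v * v = 1 := by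
    intro v
    have h3 : Multiplicative.toAdd v + Multiplicative.toAdd v = 0 := CharTwo.add_self_eq_zero _
    exact h3
  refine iso_of_squares π (piA φ) hπ ?_ ι (iotaA φ) hιmul ?_ hιinj ?_ hιsurj ?_ hc ?_ h2 h2 ?_
  · intro v
    exact ⟨⟨gA φ (Multiplicative.toAdd v) 0, gA_mem φ _ _⟩, by
      change Multiplicative.ofAdd (MA φ (Multiplicative.toAdd v) 0 1 0) = v
      rw [MA_10]
      rfl⟩
  · intro x y hx hy
    rw [iotaA_mul, hx]
    simp
  · intro x hx hy
    apply A_ext φ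
    · rw [hx, map_one]
    · rw [hy]
      have h1 : iotaA φ (1 : suzukiTypeA F φ) = 1 := by
        change Multiplicative.ofAdd ((1 : Matrix (Fin 3) (Fin 3) F) 2 0) = 1
        simp
      rw [h1]
  · intro b
    refine ⟨⟨gA φ 0 (Multiplicative.toAdd b), gA_mem φ _ _⟩, ?_, ?_⟩
    · change Multiplicative.ofAdd (MA φ 0 (Multiplicative.toAdd b) 1 0) = 1
      rw [MA_10]
      rfl
    · change Multiplicative.ofAdd (MA φ 0 (Multiplicative.toAdd b) 2 0) = b
      rw [MA_20]
      rfl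
  · intro z hz x
    apply A_ext φ
    · rw [map_mul, map_mul, hz, one_mul, mul_one]
    · rw [iotaA_mul, iotaA_mul, hz]
      simp [mul_comm]
  · intro x y hxy
    rw [hsq, iotaA_mul, hxy]
    have h4 : iotaA φ y * iotaA φ y = 1 := h2 _
    rw [h4, one_mul, mul_comm (Multiplicative.toAdd (piA φ y))]

end Cfsg.Agent.H05.SuzA
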