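import Mathlib
import Cfsg.Agent.Lib.H16.EndField

/-!
# Field coordinates for a group with a cyclic automorphism group regular on nonzero elements
-/

set_option autoImplicit false
set_option linter.style.haveILetI false
set_option linter.unusedSectionVars false

namespace Cfsg.Agent.H05.SuzA

open Cfsg.Agent.H16

theorem field_coord {W F : Type*} [AddCommGroup W] [Finite W] [Field F] [Fintype F]
    (hF : Nat.card F = Nat.card W) (τ : AddMonoid.End W)
    (htr : ∀ u v : W, u ≠ 0 → v ≠ 0 → ∃ i : ℕ, (τ ^ i) u = v) (v₀ : W) (hv₀ : v₀ ≠ 0) :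
    ∃ (ι : W ≃+ F) (ω : F), ι v₀ = 1 ∧ ∀ v, ι (τ v) = ω * ι v := by
  classical
  haveI : Nontrivial W := ⟨⟨v₀, 0, hv₀⟩⟩
  have hirr : ∀ U : AddSubgroup W, (∀ u ∈ U, τ u ∈ U) → U = ⊥ ∨ U = ⊤ := by
    intro U hU
    rcases U.bot_or_exists_ne_zero with h | ⟨u, hu, hu0⟩
    · exact Or.inl h
    · right
      have hpow : ∀ i : ℕ, ∀ x ∈ U, (τ ^ i) x ∈ U := by
        intro i
        induction i with
        | zero => intro x hx; simpa using hx
        | succ i ih =>
          intro x hx
          rw [pow_succ']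
          exact hU _ (ih x hx)
      rw [eq_top_iff]
      intro v _
      by_cases hv : v = 0
      · rw [hv]; exact U.zero_mem
      · obtain ⟨i, rfl⟩ := htr u v hu0 hv
        exact hpow i u hu
  letI : CommRing (Subring.closure ({τ} : Set (AddMonoid.End W))) :=
    Subring.closureCommRingOfComm (op_comm τ)
  haveI := op_isDomain τ hirr
  haveI := op_finite τ
  letI : Fintype (Subring.closure ({τ} : Set (AddMonoid.End W))) := Fintype.ofFinite _
  letI iR : Field (Subring.closure ({τ} : Set (AddMonoid.End W))) :=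
    Fintype.fieldOfDomain (Subring.closure ({τ} : Set (AddMonoid.End W)))
  let R := Subring.closure ({τ} : Set (AddMonoid.End W))
  let f : R →+ W :=
    { toFun := fun r => (r : AddMonoid.End W) v₀
      map_zero' := rfl
      map_add' := fun a b => rfl }
  have hf : Function.Bijective f := by
    constructor
    · rw [injective_iff_map_eq_zero]
      intro r hr
      by_contra hne
      have h0 : (r : AddMonoid.End W) ≠ 0 := fun h => hne (Subtype.ext h)
      exact hv₀ (op_inj hirr r.2 h0 hr)
    · intro w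
      obtain ⟨r, hr, hrv⟩ := op_surj hirr hv₀ w
      exact ⟨⟨r, hr⟩, hrv⟩
  let E : R ≃+ W := AddEquiv.ofBijective f hf
  have hc : Fintype.card R = Fintype.card F := by
    rw [← Nat.card_eq_fintype_card, ← Nat.card_eq_fintype_card, hF]
    exact Nat.card_congr E.toEquiv
  let e : R ≃+* F := FiniteField.ringEquivOfCardEq hc
  let τR : R := ⟨τ, Subring.subset_closure rfl⟩
  refine ⟨E.symm.trans e.toAddEquiv, e τR, ?_, ?_⟩
  · have h1 : E.symm v₀ = 1 := by
      rw [AddEquiv.symm_apply_eq]
      rfl
    change e (E.symm v₀) = 1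
    rw [h1, map_one]
  · intro v
    obtain ⟨r, rfl⟩ := E.surjective v
    change e (E.symm (τ (E r))) = e τR * e (E.symm (E r))
    rw [AddEquiv.symm_apply_apply, ← map_mul]
    congr 1
    rw [AddEquiv.symm_apply_eq]
    rfl

/-- The multiplicative version. -/
theorem field_coord_mul {W F : Type*} [CommGroup W] [Finite W] [Field F] [Fintype F]
    (hF : Nat.card F = Nat.card W) (f : W →* W)
    (htr : ∀ u v : W, u ≠ 1 → v ≠ 1 → ∃ i : ℕ, f^[i] u = v) (v₀ : W) (hv₀ : v₀ ≠ 1) :
    ∃ (ι : W → F) (ω : F), Function.Bijective ι ∧ (∀ u v, ι (u * v) = ι u + ι v) ∧ ι v₀ = 1 ∧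
      ∀ v, ι (f v) = ω * ι v := by
  let τ : AddMonoid.End (Additive W) := MonoidHom.toAdditive f
  have hτ : ∀ (i : ℕ) (u : W), (τ ^ i) (Additive.ofMul u) = Additive.ofMul (f^[i] u) := by
    intro i
    induction i with
    | zero => intro u; rfl
    | succ i ih =>
      intro u
      rw [pow_succ, Function.iterate_succ_apply]
      change (τ ^ i) (τ (Additive.ofMul u)) = _
      exact ih (f u)
  obtain ⟨ι, ω, h1, h2⟩ := field_coord (W := Additive W) (F := F) (by rw [hF]; rfl) τ (by
    intro u v hu hv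
    obtain ⟨i, hi⟩ := htr (Additive.toMul u) (Additive.toMul v) hu hv
    exact ⟨i, by
      have := hτ i (Additive.toMul u)
      rw [hi] at this
      exact this⟩) (Additive.ofMul v₀) hv₀
  refine ⟨fun w => ι (Additive.ofMul w), ω, ?_, ?_, h1, ?_⟩
  · exact ι.bijective.comp Additive.ofMul.bijective
  · intro u v
    exact ι.map_add _ _
  · intro v
    exact h2 (Additive.ofMul v)

/-- The version for a group given to be commutative. -/
theorem field_coord_grp {W F : Type*} [Group W] [Finite W] [Field F] [Fintype F]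
    (hW : ∀ a b : W, a * b = b * a)
    (hF : Nat.card F = Nat.card W) (f : W →* W)
    (htr : ∀ u v : W, u ≠ 1 → v ≠ 1 → ∃ i : ℕ, f^[i] u = v) (v₀ : W) (hv₀ : v₀ ≠ 1) :
    ∃ (ι : W → F) (ω : F), Function.Bijective ι ∧ (∀ u v, ι (u * v) = ι u + ι v) ∧ ι v₀ = 1 ∧
      ∀ v, ι (f v) = ω * ι v := by
  letI : CommGroup W := { (inferInstance : Group W) with mul_comm := hW }
  exact field_coord_mul hF f htr v₀ hv₀

end Cfsg.Agent.H05.SuzA
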