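import Mathlib
import Cfsg.Agent.Lib.H05.FieldAut2

/-!
# Equivariant quadratic maps on a finite field of characteristic two
-/

set_option autoImplicit false
set_option linter.style.haveILetI false
set_option linter.unusedSectionVars false

namespace Cfsg.Agent.H05.SuzA

open Cfsg.Agent.H05

variable {F : Type*} [Field F] [Fintype F] [CharP F 2]

/-- Only one pair of automorphisms occurs in an equivariant quadratic map. -/
theorem exists_pair (s : F → F) (ζ ω : F) (hω : ω ≠ 0)
    (hq : ∀ x y z : F, s (x + y + z) + s (x + y) + s (x + z) + s (y + z) + s x + s y + s z = 0)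
    (hs : ∀ x, s (ζ * x) = ω * s x) (h1 : s 1 ≠ 0) (hζ : ζ ≠ 0) :
    ∃ σ τ : F ≃+* F, ω = σ ζ * τ ζ := by
  classical
  obtain ⟨S, c, hc⟩ := quad_form s hq
  by_contra hno
  push Not at hno
  set n := Fintype.card F - 1 with hn
  have hcard : Fintype.card F = n + 1 := by
    have := Fintype.card_pos (α := F)
    omega
  have hpow : ∀ i : ℕ, s (ζ ^ i) = ω ^ i * s 1 := by
    intro i
    induction i with
    | zero => simp
    | succ i ih => rw [pow_succ', hs, ih, pow_succ']; ring
  have hsum1 : ∑ i ∈ Finset.range n, (ω⁻¹) ^ i * s (ζ ^ i) = (n : F) * s 1 := by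
    have : ∀ i ∈ Finset.range n, (ω⁻¹) ^ i * s (ζ ^ i) = s 1 := by
      intro i _
      rw [hpow, ← mul_assoc, ← mul_pow, inv_mul_cancel₀ hω, one_pow, one_mul]
    rw [Finset.sum_congr rfl this]
    simp
  have hnF : (n : F) = 1 := by
    have h2 : ((Fintype.card F : ℕ) : F) = 0 := Nat.cast_card_eq_zero F
    rw [hcard] at h2
    push_cast at h2
    have h3 : (n : F) = -1 := eq_neg_of_add_eq_zero_left h2
    rw [h3]
    exact CharTwo.neg_eq 1
  have hsum2 : ∑ i ∈ Finset.range n, (ω⁻¹) ^ i * s (ζ ^ i) = 0 := by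
    have h3 : ∀ i, (ω⁻¹) ^ i * s (ζ ^ i) = ∑ p ∈ S, c p * (ω⁻¹ * (p.1 ζ * p.2 ζ)) ^ i := by
      intro i
      rw [hc, Finset.mul_sum]
      apply Finset.sum_congr rfl
      intro p _
      rw [map_pow, map_pow, mul_pow, mul_pow]
      ring
    simp_rw [h3]
    rw [Finset.sum_comm]
    apply Finset.sum_eq_zero
    intro p _
    rw [← Finset.mul_sum]
    have hy : ω⁻¹ * (p.1 ζ * p.2 ζ) ≠ 1 := by
      intro h4
      apply hno p.1 p.2
      have h5 := congrArg (fun w => ω * w) h4
      simp only [mul_one, ← mul_assoc, mul_inv_cancel₀ hω, one_mul] at h5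
      exact h5.symm
    have hy0 : ω⁻¹ * (p.1 ζ * p.2 ζ) ≠ 0 := by
      apply mul_ne_zero (inv_ne_zero hω)
      exact mul_ne_zero ((map_ne_zero _).mpr hζ) ((map_ne_zero _).mpr hζ)
    have h6 := FiniteField.pow_card_sub_one_eq_one _ hy0
    have h7 := geom_sum_mul (ω⁻¹ * (p.1 ζ * p.2 ζ)) n
    rw [← hn] at h6
    rw [h6, sub_self] at h7
    have h8 := (mul_eq_zero.mp h7).resolve_right (sub_ne_zero.mpr hy)
    rw [h8, mul_zero]
  rw [hsum1, hnF, one_mul] at hsum2
  exact h1 hsum2

/-- Normal form of the map. -/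
theorem normal_form (s : F → F) (ζ ω : F) (hω : ω ≠ 0)
    (hq : ∀ x y z : F, s (x + y + z) + s (x + y) + s (x + z) + s (y + z) + s x + s y + s z = 0)
    (hs : ∀ x, s (ζ * x) = ω * s x) (h1 : s 1 ≠ 0) (hζ : ζ ≠ 0)
    (hprim : ∀ x : F, x ≠ 0 → ∃ i : ℕ, x = ζ ^ i) :
    ∃ (θ φ : F ≃+* F) (c : F), c ≠ 0 ∧ ∀ x, c * θ (s x) = x * φ x := by
  obtain ⟨σ, τ, hω'⟩ := exists_pair s ζ ω hω hq hs h1 hζ
  let θ : F ≃+* F := σ.symm
  let φ : F ≃+* F := τ.trans σ.symm
  have hθω : θ ω = ζ * φ ζ := by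
    rw [hω', map_mul]
    simp [θ, φ]
  have h2 : θ (s 1) ≠ 0 := (map_ne_zero _).mpr h1
  refine ⟨θ, φ, (θ (s 1))⁻¹, inv_ne_zero h2, ?_⟩
  have hpow : ∀ i : ℕ, (θ (s 1))⁻¹ * θ (s (ζ ^ i)) = ζ ^ i * φ (ζ ^ i) := by
    intro i
    induction i with
    | zero => simp [inv_mul_cancel₀ h2]
    | succ i ih =>
      rw [pow_succ', hs, map_mul, hθω, map_mul]
      calc (θ (s 1))⁻¹ * (ζ * φ ζ * θ (s (ζ ^ i))) = ζ * φ ζ * ((θ (s 1))⁻¹ * θ (s (ζ ^ i))) := by ring
        _ = ζ * φ ζ * (ζ ^ i * φ (ζ ^ i)) := by rw [ih]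
        _ = _ := by ring
  intro x
  by_cases hx : x = 0
  · subst hx
    have h3 := hq 0 0 0
    simp only [add_zero] at h3
    have h4 : s 0 + s 0 = 0 := CharTwo.add_self_eq_zero _
    have h5 : s 0 = 0 := by
      have h6 : s 0 + s 0 + s 0 + s 0 + s 0 + s 0 + s 0 = s 0 := by
        simp only [h4, zero_add, CharTwo.add_self_eq_zero]
      rw [h6] at h3
      exact h3
    rw [h5]
    simp
  · obtain ⟨i, rfl⟩ := hprim x hx
    exact hpow i

/-- If `x ↦ x φ(x)` is injective, the automorphism `φ` has odd order. -/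
theorem odd_order (φ : F ≃+* F) (hinj : ∀ x y : F, x * φ x = y * φ y → x = y) : Odd (orderOf φ) := by
  classical
  haveI : Finite (F ≃+* F) := finite_aut
  by_contra hodd
  rw [Nat.not_odd_iff_even] at hodd
  obtain ⟨m, hm⟩ := hodd
  have hpos : 0 < orderOf φ := orderOf_pos φ
  -- Dedekind
  have hded : ∃ u : F, ∑ i ∈ Finset.range (orderOf φ), (φ ^ i) u ≠ 0 := by
    by_contra hno
    push Not at hno
    have hli := li_aut (F := F)
    rw [linearIndependent_iff'] at hli
    have hinjOn : Set.InjOn (fun i : ℕ => φ ^ i) (Finset.range (orderOf φ) : Set ℕ) := by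
      intro a ha b hb hab
      have ha' : a < orderOf φ := by simpa using ha
      have hb' : b < orderOf φ := by simpa using hb
      exact pow_injOn_Iio_orderOf (by simpa using ha') (by simpa using hb') hab
    have h0 := hli ((Finset.range (orderOf φ)).image (fun i : ℕ => φ ^ i)) (fun _ => 1) (by
      ext u
      rw [Finset.sum_image hinjOn]
      simp only [one_smul, Finset.sum_apply, Pi.zero_apply]
      exact hno u) (1 : F ≃+* F) (by
        rw [Finset.mem_image]
        exact ⟨0, by simpa using hpos, by simp⟩)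
    exact one_ne_zero h0
  obtain ⟨u, hu⟩ := hded
  set y := ∑ j ∈ Finset.range m, (φ ^ (2 * j)) u with hy
  have hφm : φ ^ (2 * m) = 1 := by
    have : 2 * m = orderOf φ := by omega
    rw [this, pow_orderOf_eq_one]
  have happly : ∀ (k : ℕ) (v : F), φ ((φ ^ k) v) = (φ ^ (k + 1)) v := by
    intro k v
    rw [pow_succ']
    rfl
  have hφy : φ y = ∑ j ∈ Finset.range m, (φ ^ (2 * j + 1)) u := by
    rw [hy, map_sum]
    apply Finset.sum_congr rfl
    intro j _
    exact happly _ _
  have hφ2y : φ (φ y) = y := by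
    rw [hφy, map_sum]
    have h1 : ∀ j ∈ Finset.range m, φ ((φ ^ (2 * j + 1)) u) = (φ ^ (2 * (j + 1))) u := by
      intro j _
      rw [happly]
      congr 2
    rw [Finset.sum_congr rfl h1]
    have h2 := Finset.sum_range_succ' (fun j => (φ ^ (2 * j)) u) m
    have h3 := Finset.sum_range_succ (fun j => (φ ^ (2 * j)) u) m
    rw [h3, hφm] at h2
    simp only [mul_zero, pow_zero] at h2
    exact (add_right_cancel h2).symm
  have hsum : y + φ y = ∑ i ∈ Finset.range (orderOf φ), (φ ^ i) u := by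
    have key : ∀ (g : ℕ → F) (k : ℕ), ∑ i ∈ Finset.range (2 * k), g i =
        ∑ j ∈ Finset.range k, g (2 * j) + ∑ j ∈ Finset.range k, g (2 * j + 1) := by
      intro g k
      induction k with
      | zero => simp
      | succ k ih =>
        rw [show 2 * (k + 1) = 2 * k + 1 + 1 by ring, Finset.sum_range_succ, Finset.sum_range_succ, ih,
          Finset.sum_range_succ, Finset.sum_range_succ]
        ring
    rw [hφy, hy, show orderOf φ = 2 * m by omega]
    exact (key (fun i => (φ ^ i) u) m).symm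
  have hne : φ y ≠ y := by
    intro h
    rw [← hsum, h] at hu
    exact hu (CharTwo.add_self_eq_zero _)
  have hy0 : y ≠ 0 := by
    intro h
    apply hne
    rw [h, map_zero]
  have hφy0 : φ y ≠ 0 := (map_ne_zero _).mpr hy0
  have h1 : (y / φ y) * φ (y / φ y) = 1 * φ 1 := by
    rw [map_div₀, hφ2y, map_one, one_mul]
    field_simp
  have h2 := hinj _ _ h1
  rw [div_eq_one_iff_eq hφy0] at h2
  exact hne h2.symm

end Cfsg.Agent.H05.SuzA
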