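import Mathlib
import Cfsg.Prelude.Def_LieRecognition

/-!
# Suzuki 2-groups of order `q²`: the quotient by the centre
-/

set_option autoImplicit false
set_option linter.style.haveILetI false
set_option linter.unusedSectionVars false

namespace Cfsg.Agent.H05.SuzA

open Subgroup Cfsg

variable {P : Type*} [Group P] [Finite P]

theorem exists_invol_zpowers (h2 : IsPGroup 2 P) {x : P} (hx : x ≠ 1) : ∃ y ∈ zpowers x, y ≠ 1 ∧ y * y = 1 := by
  classical
  haveI : Fact (Nat.Prime 2) := ⟨Nat.prime_two⟩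
  have h1 : IsPGroup 2 (zpowers x) := h2.to_subgroup _
  have hdvd : 2 ∣ Nat.card (zpowers x) := by
    rcases h1.card_eq_or_dvd with h3 | h3
    · exfalso
      rw [Nat.card_zpowers] at h3
      exact hx (orderOf_eq_one_iff.mp h3)
    · exact h3
  obtain ⟨y, hy⟩ := exists_prime_orderOf_dvd_card' 2 hdvd
  have hy' : orderOf (y : P) = 2 := by rw [Subgroup.orderOf_coe]; exact hy
  refine ⟨y, y.2, ?_, ?_⟩
  · intro h4
    rw [h4, orderOf_one] at hy'
    omega
  · have := pow_orderOf_eq_one (y : P)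
    rwa [hy', pow_two] at this

theorem fpf_of_reg (h2 : IsPGroup 2 P) (K : Subgroup (MulAut P))
    (hreg : ∀ x y : P, x ≠ 1 → x * x = 1 → y ≠ 1 → y * y = 1 → ∃! k : K, (k : MulAut P) x = y)
    {k : K} (hk : k ≠ 1) {x : P} (hx : x ≠ 1) : (k : MulAut P) x ≠ x := by
  intro hfix
  obtain ⟨y, hy, hy1, hyy⟩ := exists_invol_zpowers h2 hx
  obtain ⟨j, rfl⟩ := hy
  have h1 : (k : MulAut P) (x ^ j) = x ^ j := by rw [map_zpow, hfix]
  obtain ⟨k₀, -, hu⟩ := hreg _ _ hy1 hyy hy1 hyy
  have h3 := hu k h1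
  have h4 := hu 1 rfl
  exact hk (h3.trans h4.symm)

theorem aut_center (k : MulAut P) {z : P} (hz : z ∈ center P) : k z ∈ center P := by
  rw [mem_center_iff] at hz ⊢
  intro g
  obtain ⟨g', rfl⟩ := k.surjective g
  rw [← map_mul, ← map_mul, hz]

/-- Fixed points on the quotient by the centre lift. -/
theorem quot_fpf (k : MulAut P) (hk : ∀ x : P, x ≠ 1 → k x ≠ x) {x : P} (h : k x * x⁻¹ ∈ center P) :
    x ∈ center P := by
  let f : center P → center P := fun z => ⟨k z * (z : P)⁻¹, mul_mem (aut_center k z.2) (inv_mem z.2)⟩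
  have hf : Function.Injective f := by
    intro a b hab
    have h1 : k a * (a : P)⁻¹ = k b * (b : P)⁻¹ := congrArg Subtype.val hab
    have h2 : k ((b : P)⁻¹ * a) = (b : P)⁻¹ * a := by
      have h3 : k (a : P) = k b * (b : P)⁻¹ * a := by
        rw [← h1]
        group
      rw [map_mul, map_inv, h3]
      group
    by_contra hne
    have h4 : (b : P)⁻¹ * a ≠ 1 := by
      intro h5
      apply hne
      apply Subtype.ext
      exact (inv_mul_eq_one.mp h5).symm
    exact hk _ h4 h2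
  obtain ⟨z, hz⟩ := (Finite.injective_iff_surjective.mp hf) ⟨_, h⟩
  have hz' : k z * (z : P)⁻¹ = k x * x⁻¹ := congrArg Subtype.val hz
  have h2 : k ((z : P)⁻¹ * x) = (z : P)⁻¹ * x := by
    have h3 : k x = k z * (z : P)⁻¹ * x := by
      rw [hz']
      group
    rw [map_mul, map_inv, h3]
    group
  by_contra hne
  have h4 : (z : P)⁻¹ * x ≠ 1 := by
    intro h5
    apply hne
    rw [← inv_mul_eq_one.mp h5]
    exact z.2
  exact hk _ h4 h2

theorem comm_center {a b : P} (h : a * b ∈ center P) : b * a ∈ center P := by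
  have h1 := mem_center_iff.mp h a
  have h2 : b * a = a * b := by
    have h3 : a * (b * a) = a * (a * b) := by
      calc a * (b * a) = (a * b) * a := by group
        _ = a * (a * b) := h1.symm
    exact mul_left_cancel h3
  rw [h2]
  exact h

theorem card_ne_one {X : Type*} [Finite X] (a : X) : Nat.card {b : X // b ≠ a} + 1 = Nat.card X := by
  classical
  have h2 := Nat.card_congr (Equiv.optionSubtypeNe a)
  rw [Finite.card_option] at h2
  exact h2

/-- The orbit statement on the quotient. -/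
theorem quot_trans (h2 : IsPGroup 2 P)
    (hZ : ∀ x : P, (x ≠ 1 ∧ x * x = 1) ↔ (x ∈ center P ∧ x ≠ 1))
    (K : Subgroup (MulAut P))
    (hreg : ∀ x y : P, x ≠ 1 → x * x = 1 → y ≠ 1 → y * y = 1 → ∃! k : K, (k : MulAut P) x = y)
    (hcard : Nat.card P = Nat.card (center P) ^ 2) {z₀ : P} (hz₀ : z₀ ≠ 1) (hz₀z : z₀ * z₀ = 1)
    {x y : P} (hx : x ∉ center P) (hy : y ∉ center P) : ∃ k : K, (k : MulAut P) x * y⁻¹ ∈ center P := by
  classical
  let Z := center P
  let V := P ⧸ Z
  have hV : Nat.card V = Nat.card Z := by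
    have h1 := Subgroup.card_eq_card_quotient_mul_card_subgroup Z
    rw [hcard, pow_two] at h1
    exact Nat.eq_of_mul_eq_mul_right Nat.card_pos h1.symm
  let g : K → {v : V // v ≠ 1} := fun k => ⟨((k : MulAut P) x : P), by
    intro h3
    have h4 : (k : MulAut P) x ∈ Z := (QuotientGroup.eq_one_iff _).mp h3
    apply hx
    have h5 := aut_center (k : MulAut P)⁻¹ h4
    simpa using h5⟩
  have hg : Function.Injective g := by
    intro k l hkl
    have h3 : (((k : MulAut P) x : P) : V) = (((l : MulAut P) x : P) : V) := congrArg Subtype.val hkl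
    rw [QuotientGroup.eq] at h3
    -- `l⁻¹ k` fixes `x` modulo the centre
    by_contra hne
    have hlk : l⁻¹ * k ≠ 1 := by
      intro h4
      apply hne
      exact (inv_mul_eq_one.mp h4).symm
    have h5 : ((l⁻¹ * k : K) : MulAut P) x * x⁻¹ ∈ center P := by
      have h6 := aut_center (l : MulAut P)⁻¹ h3
      have h7 : (l : MulAut P)⁻¹ (((k : MulAut P) x)⁻¹ * (l : MulAut P) x) =
          (((l⁻¹ * k : K) : MulAut P) x)⁻¹ * x := by
        rw [map_mul, map_inv]
        simp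
      rw [h7] at h6
      have h8 : x⁻¹ * ((l⁻¹ * k : K) : MulAut P) x ∈ center P := by
        have h9 := inv_mem h6
        simpa using h9
      exact comm_center h8
    exact hx (quot_fpf _ (fun w hw => fpf_of_reg h2 K hreg hlk hw) h5)
  have hcK : Nat.card K = Nat.card {b : Z // b ≠ 1} := by
    have hz₀Z : z₀ ∈ Z := ((hZ z₀).mp ⟨hz₀, hz₀z⟩).1
    let e : K → {b : Z // b ≠ 1} := fun k => ⟨⟨(k : MulAut P) z₀, aut_center _ hz₀Z⟩, by
      intro h3
      have h4 : (k : MulAut P) z₀ = 1 := congrArg Subtype.val h3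
      exact hz₀ ((map_eq_one_iff _ (MulEquiv.injective _)).mp h4)⟩
    apply Nat.card_congr (Equiv.ofBijective e ⟨?_, ?_⟩)
    · intro k l hkl
      have h3 : (k : MulAut P) z₀ = (l : MulAut P) z₀ := congrArg (fun w : {b : Z // b ≠ 1} => ((w : Z) : P)) hkl
      have hne : (k : MulAut P) z₀ ≠ 1 := fun h => hz₀ ((map_eq_one_iff _ (MulEquiv.injective _)).mp h)
      have hinv : (k : MulAut P) z₀ * (k : MulAut P) z₀ = 1 := by rw [← map_mul, hz₀z, map_one]
      obtain ⟨k₀, -, hu⟩ := hreg _ _ hz₀ hz₀z hne hinv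
      exact (hu k rfl).trans (hu l h3.symm).symm
    · rintro ⟨⟨w, hw⟩, hw1⟩
      have hw1' : w ≠ 1 := fun h => hw1 (Subtype.ext h)
      have hww : w * w = 1 := ((hZ w).mpr ⟨hw, hw1'⟩).2
      obtain ⟨k, hk, -⟩ := hreg _ _ hz₀ hz₀z hw1' hww
      exact ⟨k, Subtype.ext (Subtype.ext hk)⟩
  have hcV : Nat.card {v : V // v ≠ 1} = Nat.card {b : Z // b ≠ 1} := by
    have h3 := card_ne_one (1 : V)
    have h4 := card_ne_one (1 : Z)
    omega
  have hbij : Function.Bijective g := by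
    haveI : Finite {v : V // v ≠ 1} := inferInstance
    exact hg.bijective_of_nat_card_le (by rw [hcK, hcV])
  have hy1 : (y : V) ≠ 1 := by
    intro h3
    exact hy ((QuotientGroup.eq_one_iff _).mp h3)
  obtain ⟨k, hk⟩ := hbij.2 ⟨y, hy1⟩
  refine ⟨k, ?_⟩
  have h3 : (((k : MulAut P) x : P) : V) = (y : V) := congrArg Subtype.val hk
  rw [QuotientGroup.eq] at h3
  have h4 : y⁻¹ * (k : MulAut P) x ∈ center P := by
    have h9 := inv_mem h3
    simpa using h9
  exact comm_center h4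

/-- All squares are central. -/
theorem sq_central (h2 : IsPGroup 2 P)
    (hZ : ∀ x : P, (x ≠ 1 ∧ x * x = 1) ↔ (x ∈ center P ∧ x ≠ 1))
    (K : Subgroup (MulAut P))
    (hreg : ∀ x y : P, x ≠ 1 → x * x = 1 → y ≠ 1 → y * y = 1 → ∃! k : K, (k : MulAut P) x = y)
    (hcard : Nat.card P = Nat.card (center P) ^ 2) {z₀ : P} (hz₀ : z₀ ≠ 1) (hz₀z : z₀ * z₀ = 1)
    (hnab : ∃ x y : P, x * y ≠ y * x) : ∀ x : P, x * x ∈ center P := by
  classical
  haveI : Fact (Nat.Prime 2) := ⟨Nat.prime_two⟩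
  have hne : ∃ u : P, u ∉ center P := by
    obtain ⟨u, v, huv⟩ := hnab
    refine ⟨u, fun hu => huv ?_⟩
    exact (mem_center_iff.mp hu v).symm
  obtain ⟨u, hu⟩ := hne
  let V := P ⧸ center P
  have hVp : IsPGroup 2 V := h2.to_quotient _
  have hVnt : (u : V) ≠ 1 := fun h => hu ((QuotientGroup.eq_one_iff _).mp h)
  haveI : Nontrivial V := ⟨⟨_, _, hVnt⟩⟩
  have hdvd : 2 ∣ Nat.card V := by
    rcases hVp.card_eq_or_dvd with h3 | h3
    · exact absurd h3 Finite.one_lt_card.ne'
    · exact h3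
  obtain ⟨v₁, hv₁⟩ := exists_prime_orderOf_dvd_card' 2 hdvd
  obtain ⟨x₁, rfl⟩ := QuotientGroup.mk_surjective v₁
  have hx₁ : x₁ ∉ center P := by
    intro h3
    have : ((x₁ : P) : V) = 1 := (QuotientGroup.eq_one_iff _).mpr h3
    rw [this, orderOf_one] at hv₁
    omega
  have hx₁2 : x₁ * x₁ ∈ center P := by
    have h3 := pow_orderOf_eq_one ((x₁ : P) : V)
    rw [hv₁, pow_two, ← QuotientGroup.mk_mul, QuotientGroup.eq_one_iff] at h3
    exact h3
  intro x
  by_cases hx : x ∈ center P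
  · exact mul_mem hx hx
  · obtain ⟨k, hk⟩ := quot_trans h2 hZ K hreg hcard hz₀ hz₀z hx₁ hx
    set w := (k : MulAut P) x₁ * x⁻¹ with hw
    have hx' : x = w⁻¹ * (k : MulAut P) x₁ := by rw [hw]; group
    have h3 : (k : MulAut P) x₁ * (k : MulAut P) x₁ ∈ center P := by
      rw [← map_mul]
      exact aut_center _ hx₁2
    have h4 := mem_center_iff.mp (inv_mem hk)
    rw [hx']
    have h5 : w⁻¹ * (k : MulAut P) x₁ * (w⁻¹ * (k : MulAut P) x₁) = w⁻¹ * w⁻¹ * ((k : MulAut P) x₁ * (k : MulAut P) x₁) := by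
      calc w⁻¹ * (k : MulAut P) x₁ * (w⁻¹ * (k : MulAut P) x₁) = w⁻¹ * ((k : MulAut P) x₁ * w⁻¹) * (k : MulAut P) x₁ := by group
        _ = w⁻¹ * (w⁻¹ * (k : MulAut P) x₁) * (k : MulAut P) x₁ := by rw [h4]
        _ = _ := by group
    rw [h5]
    exact mul_mem (mul_mem (inv_mem hk) (inv_mem hk)) h3

end Cfsg.Agent.H05.SuzA
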