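import Mathlib
import Cfsg.Agent.Lib.H05.SuzA2
import Cfsg.Agent.Lib.H05.SuzA3
import Cfsg.Agent.Lib.H05.SuzA4
import Cfsg.Agent.Lib.H05.SuzA5
import Cfsg.Agent.S1137

/-!
# Suzuki 2-groups of order `q²` are of type A
-/

set_option autoImplicit false
set_option linter.style.haveILetI false
set_option linter.unusedSectionVars false
set_option maxHeartbeats 1000000

namespace Cfsg.Agent.H05.SuzA

open Subgroup Cfsg

/-- The coordinates: a Suzuki 2-group of order `q²` has the following shape. -/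
theorem coordinates {P : Type*} [Group P] [Finite P] {F : Type*} [Field F] [Fintype F] [CharP F 2]
    (h2 : IsPGroup 2 P) (hnab : ∃ x y : P, x * y ≠ y * x)
    (hZ : ∀ x : P, (x ≠ 1 ∧ x * x = 1) ↔ (x ∈ center P ∧ x ≠ 1))
    (hZ2 : ∀ z ∈ center P, z * z = 1)
    (K : Subgroup (MulAut P)) (hcyc : IsCyclic K)
    (hreg : ∀ x y : P, x ≠ 1 → x * x = 1 → y ≠ 1 → y * y = 1 → ∃! k : K, (k : MulAut P) x = y)
    (hcard : Nat.card P = Nat.card (center P) ^ 2) {z₀ : P} (hz₀ : z₀ ≠ 1) (hz₀z : z₀ * z₀ = 1)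
    (hF : Nat.card F = Nat.card (center P)) :
    ∃ (φ : F ≃+* F), φ ≠ RingEquiv.refl F ∧ Odd (orderOf φ) ∧ Nonempty (P ≃* suzukiTypeA F (φ : F →+* F)) := by
  classical
  haveI : Finite (MulAut P) := Finite.of_injective (fun f : MulAut P => (f : P → P)) DFunLike.coe_injective
  have hsq := sq_central h2 hZ K hreg hcard hz₀ hz₀z hnab
  obtain ⟨a, ha⟩ := hcyc.exists_generator
  set A : MulAut P := (a : MulAut P) with hA
  have hpowk : ∀ k : K, ∃ i : ℕ, (k : MulAut P) = A ^ i := by
    intro k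
    have h1 : k ∈ Submonoid.powers a := mem_powers_iff_mem_zpowers.mpr (ha k)
    obtain ⟨i, hi⟩ := h1
    exact ⟨i, by rw [← hi]; rfl⟩
  -- the action on the centre
  let fZ : center P →* center P := MonoidHom.mk' (fun z => ⟨A z, aut_center A z.2⟩) (by
    intro x y
    apply Subtype.ext
    exact map_mul A _ _)
  have hfZ : ∀ (i : ℕ) (u : center P), ((fZ^[i] u : center P) : P) = (A ^ i) u := by
    intro i
    induction i with
    | zero => intro u; rfl
    | succ i ih =>
      intro u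
      rw [Function.iterate_succ_apply, ih, pow_succ]
      rfl
  have htrZ : ∀ u v : center P, u ≠ 1 → v ≠ 1 → ∃ i : ℕ, fZ^[i] u = v := by
    intro u v hu hv
    have hu' : (u : P) ≠ 1 := fun h => hu (Subtype.ext h)
    have hv' : (v : P) ≠ 1 := fun h => hv (Subtype.ext h)
    obtain ⟨k, hk, -⟩ := hreg u v hu' (hZ2 u u.2) hv' (hZ2 v v.2)
    obtain ⟨i, hi⟩ := hpowk k
    refine ⟨i, Subtype.ext ?_⟩
    rw [hfZ, ← hi, hk]
  -- the action on the quotient
  let V := P ⧸ center P
  have hVsq : ∀ v : V, v * v = 1 := by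
    intro v
    obtain ⟨x, rfl⟩ := QuotientGroup.mk_surjective v
    rw [← QuotientGroup.mk_mul, QuotientGroup.eq_one_iff]
    exact hsq x
  have hVc : ∀ u v : V, u * v = v * u := by
    intro u v
    calc u * v = u * v * (v * u) * (v * u) := by rw [mul_assoc (u * v), hVsq, mul_one]
      _ = u * (v * v) * u * (v * u) := by simp only [mul_assoc]
      _ = v * u := by rw [hVsq, mul_one, hVsq, one_mul]
  let fV : V →* V := QuotientGroup.map (center P) (center P) A.toMonoidHom (fun z hz => aut_center A hz)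
  have hfV1 : ∀ x : P, fV (x : V) = ((A x : P) : V) := fun x => rfl
  have hfV : ∀ (i : ℕ) (x : P), fV^[i] (x : V) = (((A ^ i) x : P) : V) := by
    intro i
    induction i with
    | zero => intro u; rfl
    | succ i ih =>
      intro u
      rw [Function.iterate_succ_apply, hfV1, ih, pow_succ]
      rfl
  have htrV : ∀ u v : V, u ≠ 1 → v ≠ 1 → ∃ i : ℕ, fV^[i] u = v := by
    intro u v hu hv
    obtain ⟨x, rfl⟩ := QuotientGroup.mk_surjective u
    obtain ⟨y, rfl⟩ := QuotientGroup.mk_surjective v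
    have hx : x ∉ center P := fun h => hu ((QuotientGroup.eq_one_iff _).mpr h)
    have hy : y ∉ center P := fun h => hv ((QuotientGroup.eq_one_iff _).mpr h)
    obtain ⟨k, hk⟩ := quot_trans h2 hZ K hreg hcard hz₀ hz₀z hx hy
    obtain ⟨i, hi⟩ := hpowk k
    refine ⟨i, ?_⟩
    rw [hfV, ← hi]
    rw [QuotientGroup.eq]
    have h3 := inv_mem hk
    have h4 : y * ((k : MulAut P) x)⁻¹ ∈ center P := by simpa using h3
    exact comm_center (by simpa using h4)
  have hVcard : Nat.card V = Nat.card (center P) := by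
    have h1 := Subgroup.card_eq_card_quotient_mul_card_subgroup (center P)
    rw [hcard, pow_two] at h1
    exact Nat.eq_of_mul_eq_mul_right Nat.card_pos h1.symm
  -- base points
  obtain ⟨g₀, hg₀⟩ : ∃ g₀ : P, g₀ ∉ center P := by
    obtain ⟨u, v, huv⟩ := hnab
    refine ⟨u, fun hu => huv ?_⟩
    exact (mem_center_iff.mp hu v).symm
  have hv₀ : ((g₀ : P) : V) ≠ 1 := fun h => hg₀ ((QuotientGroup.eq_one_iff _).mp h)
  have hz₀c : z₀ ∈ center P := ((hZ z₀).mp ⟨hz₀, hz₀z⟩).1
  have hz₀' : (⟨z₀, hz₀c⟩ : center P) ≠ 1 := fun h => hz₀ (congrArg Subtype.val h)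
  obtain ⟨ιZ, ω, hιZb, hιZa, hιZ1, hιZf⟩ := field_coord_grp (W := center P) (F := F)
    (fun a b => Subtype.ext (mem_center_iff.mp b.2 (a : P))) hF fZ htrZ _ hz₀'
  obtain ⟨ιV, ζ, hιVb, hιVa, hιV1, hιVf⟩ := field_coord_grp (W := V) (F := F)
    hVc (by rw [hF, hVcard]) fV htrV _ hv₀
  have hιZ0 : ιZ 1 = 0 := by
    have h1 := hιZa 1 1
    rw [mul_one] at h1
    exact left_eq_add.mp h1
  have hιV0 : ιV 1 = 0 := by
    have h1 := hιVa 1 1
    rw [mul_one] at h1
    exact left_eq_add.mp h1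
  -- the central coordinate, extended by zero
  let ι₀ : P → F := fun g => if h : g ∈ center P then ιZ ⟨g, h⟩ else 0
  have hι₀ : ∀ (g : P) (h : g ∈ center P), ι₀ g = ιZ ⟨g, h⟩ := fun g h => dif_pos h
  have hι₀mul : ∀ x y : P, x ∈ center P → y ∈ center P → ι₀ (x * y) = ι₀ x + ι₀ y := by
    intro x y hx hy
    rw [hι₀ _ hx, hι₀ _ hy, hι₀ _ (mul_mem hx hy), ← hιZa]
    rfl
  have hι₀inj : ∀ x : P, x ∈ center P → ι₀ x = 0 → x = 1 := by
    intro x hx h0
    rw [hι₀ _ hx, ← hιZ0] at h0
    exact congrArg Subtype.val (hιZb.1 h0)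
  have hι₀1 : ι₀ 1 = 0 := by
    rw [hι₀ 1 (one_mem _)]
    exact hιZ0
  -- the projection
  let π : P →* Multiplicative F := MonoidHom.mk' (fun g => Multiplicative.ofAdd (ιV (g : V))) (by
    intro a b
    rw [QuotientGroup.mk_mul, hιVa]
    rfl)
  have hπv : ∀ g : P, Multiplicative.toAdd (π g) = ιV (g : V) := fun _ => rfl
  have hπker : ∀ g : P, π g = 1 ↔ g ∈ center P := by
    intro g
    constructor
    · intro h
      have h1 : ιV (g : V) = 0 := by
        rw [← hπv, h]
        rfl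
      rw [← hιV0] at h1
      exact (QuotientGroup.eq_one_iff _).mp (hιVb.1 h1)
    · intro h
      have h1 : (g : V) = 1 := (QuotientGroup.eq_one_iff _).mpr h
      apply Multiplicative.toAdd.injective
      rw [hπv, h1, hιV0]
      rfl
  have hπs : ∀ x : F, ∃ p : P, Multiplicative.toAdd (π p) = x := by
    intro x
    obtain ⟨v, hv⟩ := hιVb.2 x
    obtain ⟨p, rfl⟩ := QuotientGroup.mk_surjective v
    exact ⟨p, hv⟩
  choose sec hsec using hπs
  let s : F → F := fun x => ι₀ (sec x * sec x)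
  have hsπ : ∀ g : P, s (Multiplicative.toAdd (π g)) = ι₀ (g * g) := by
    intro g
    have h1 : π (sec (Multiplicative.toAdd (π g))) = π g := Multiplicative.toAdd.injective (hsec _)
    set p := sec (Multiplicative.toAdd (π g)) with hp
    have h2 : p⁻¹ * g ∈ center P := by
      rw [← hπker, map_mul, map_inv, h1, inv_mul_cancel]
    have h3 : g = p * (p⁻¹ * g) := by group
    set z := p⁻¹ * g with hz
    have h4 : g * g = p * p := by
      rw [h3]
      have h5 := mem_center_iff.mp h2 p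
      calc p * z * (p * z) = p * (z * p) * z := by group
        _ = p * (p * z) * z := by rw [h5]
        _ = p * p * (z * z) := by group
        _ = p * p := by rw [hZ2 z h2, mul_one]
    rw [h4]
  -- commutators
  have hκc : ∀ x y : P, y⁻¹ * x⁻¹ * y * x ∈ center P := by
    intro x y
    rw [← QuotientGroup.eq_one_iff, QuotientGroup.mk_mul, QuotientGroup.mk_mul, QuotientGroup.mk_mul,
      QuotientGroup.mk_inv, QuotientGroup.mk_inv]
    have h1 := hVc (y : V) (x : V)
    calc ((y : V))⁻¹ * (x : V)⁻¹ * (y : V) * (x : V) = (y : V)⁻¹ * (x : V)⁻¹ * ((y : V) * (x : V)) := by group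
      _ = (y : V)⁻¹ * (x : V)⁻¹ * ((x : V) * (y : V)) := by rw [h1]
      _ = 1 := by group
  let κ : P → P → F := fun g h => ι₀ (h⁻¹ * g⁻¹ * h * g)
  have hsqmul : ∀ g h : P, ι₀ ((g * h) * (g * h)) = ι₀ (g * g) + ι₀ (h * h) + κ g h := by
    intro g h
    have hc := hκc g h
    set c := h⁻¹ * g⁻¹ * h * g with hcd
    have h1 : h * g = g * h * c := by rw [hcd]; group
    have h3 := mem_center_iff.mp hc h
    have h4 : (g * h) * (g * h) = (g * g) * (h * h) * c := by
      calc (g * h) * (g * h) = g * (h * g) * h := by group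
        _ = g * (g * h * c) * h := by rw [h1]
        _ = g * g * h * (c * h) := by group
        _ = g * g * h * (h * c) := by rw [← h3]
        _ = _ := by group
    rw [h4, hι₀mul _ _ (mul_mem (hsq g) (hsq h)) hc, hι₀mul _ _ (hsq g) (hsq h)]
  have hκmul : ∀ g h k : P, κ (g * h) k = κ g k + κ h k := by
    intro g h k
    have hc1 := hκc g k
    have hc2 := hκc h k
    rw [show κ (g * h) k = ι₀ (k⁻¹ * (g * h)⁻¹ * k * (g * h)) from rfl,
      show κ g k = ι₀ (k⁻¹ * g⁻¹ * k * g) from rfl, show κ h k = ι₀ (k⁻¹ * h⁻¹ * k * h) from rfl,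
      ← hι₀mul _ _ hc1 hc2]
    congr 1
    set c1 := k⁻¹ * g⁻¹ * k * g with hc1d
    set c2 := k⁻¹ * h⁻¹ * k * h with hc2d
    have h1 : k * g = g * k * c1 := by rw [hc1d]; group
    have h2 : k * h = h * k * c2 := by rw [hc2d]; group
    have h3 : k * (g * h) = (g * h) * k * (c1 * c2) := by
      have h4 := mem_center_iff.mp hc1 h
      calc k * (g * h) = (k * g) * h := by group
        _ = g * k * (c1 * h) := by rw [h1]; group
        _ = g * k * (h * c1) := by rw [← h4]
        _ = g * (k * h) * c1 := by group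
        _ = g * (h * k * c2) * c1 := by rw [h2]
        _ = g * h * k * (c2 * c1) := by group
        _ = g * h * k * (c1 * c2) := by rw [mem_center_iff.mp hc1 c2]
    calc k⁻¹ * (g * h)⁻¹ * k * (g * h) = k⁻¹ * (g * h)⁻¹ * (k * (g * h)) := by group
      _ = k⁻¹ * (g * h)⁻¹ * ((g * h) * k * (c1 * c2)) := by rw [h3]
      _ = c1 * c2 := by group
  have h2F : (2 : F) = 0 := CharP.cast_eq_zero F 2
  have hq : ∀ x y z : F, s (x + y + z) + s (x + y) + s (x + z) + s (y + z) + s x + s y + s z = 0 := by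
    intro x y z
    have hxe : x = Multiplicative.toAdd (π (sec x)) := (hsec x).symm
    have hye : y = Multiplicative.toAdd (π (sec y)) := (hsec y).symm
    have hze : z = Multiplicative.toAdd (π (sec z)) := (hsec z).symm
    set a := sec x
    set b := sec y
    set c := sec z
    have e1 : x + y = Multiplicative.toAdd (π (a * b)) := by
      rw [map_mul, toAdd_mul, ← hxe, ← hye]
    have e2 : x + z = Multiplicative.toAdd (π (a * c)) := by
      rw [map_mul, toAdd_mul, ← hxe, ← hze]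
    have e3 : y + z = Multiplicative.toAdd (π (b * c)) := by
      rw [map_mul, toAdd_mul, ← hye, ← hze]
    have e4 : x + y + z = Multiplicative.toAdd (π (a * b * c)) := by
      rw [map_mul, toAdd_mul, ← e1, ← hze]
    rw [e4, e1, e2, e3, hxe, hye, hze, hsπ, hsπ, hsπ, hsπ, hsπ, hsπ, hsπ, hsqmul (a * b) c, hsqmul a b, hsqmul a c,
      hsqmul b c, hκmul]
    linear_combination (2 * ι₀ (a * a) + 2 * ι₀ (b * b) + 2 * ι₀ (c * c) + κ a b + κ a c + κ b c) * h2F
  have hs : ∀ x : F, s (ζ * x) = ω * s x := by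
    intro x
    have h1 : ζ * x = Multiplicative.toAdd (π (A (sec x))) := by
      rw [hπv, ← hfV1, hιVf, ← hπv, hsec]
    rw [h1]
    rw [hsπ, ← map_mul]
    have h3 : s x = ι₀ (sec x * sec x) := rfl
    rw [h3, hι₀ _ (hsq _), hι₀ _ (aut_center A (hsq _)), ← hιZf]
    rfl
  have h1s : s 1 ≠ 0 := by
    have h1 : (1 : F) = Multiplicative.toAdd (π g₀) := by rw [hπv, hιV1]
    rw [h1, hsπ]
    intro h0
    have h3 := hι₀inj _ (hsq g₀) h0
    have hg1 : g₀ ≠ 1 := by
      rintro rfl
      exact hg₀ (one_mem _)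
    exact hg₀ ((hZ g₀).mp ⟨hg1, h3⟩).1
  have hω0 : ω ≠ 0 := by
    intro h0
    have h1 := hιZf ⟨z₀, hz₀c⟩
    rw [h0, zero_mul, ← hιZ0] at h1
    have h3 := hιZb.1 h1
    have h4 : A z₀ = 1 := congrArg Subtype.val h3
    exact hz₀ ((map_eq_one_iff _ (MulEquiv.injective _)).mp h4)
  have hζ0 : ζ ≠ 0 := by
    intro h0
    have h1 := hιVf (g₀ : V)
    rw [h0, zero_mul, ← hιV0] at h1
    have h3 := hιVb.1 h1
    rw [hfV1, QuotientGroup.eq_one_iff] at h3
    apply hg₀
    have h4 := aut_center A⁻¹ h3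
    simpa using h4
  have hprimζ : ∀ x : F, x ≠ 0 → ∃ i : ℕ, x = ζ ^ i := by
    intro x hx
    obtain ⟨v, rfl⟩ := hιVb.2 x
    have hv : v ≠ 1 := by
      rintro rfl
      exact hx hιV0
    obtain ⟨i, rfl⟩ := htrV _ _ hv₀ hv
    refine ⟨i, ?_⟩
    have key : ∀ (j : ℕ) (u : V), ιV (fV^[j] u) = ζ ^ j * ιV u := by
      intro j
      induction j with
      | zero => intro u; simp
      | succ j ih =>
        intro u
        rw [Function.iterate_succ_apply, ih, hιVf, pow_succ, mul_assoc]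
    rw [key, hιV1, mul_one]
  have hprimω : ∀ x : F, x ≠ 0 → ∃ i : ℕ, x = ω ^ i := by
    intro x hx
    obtain ⟨v, rfl⟩ := hιZb.2 x
    have hv : v ≠ 1 := by
      rintro rfl
      exact hx hιZ0
    obtain ⟨i, rfl⟩ := htrZ _ _ hz₀' hv
    refine ⟨i, ?_⟩
    have key : ∀ (j : ℕ) (u : center P), ιZ (fZ^[j] u) = ω ^ j * ιZ u := by
      intro j
      induction j with
      | zero => intro u; simp
      | succ j ih =>
        intro u
        rw [Function.iterate_succ_apply, ih, hιZf, pow_succ, mul_assoc]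
    rw [key, hιZ1, mul_one]
  obtain ⟨θ, φ, c, hc0, hform⟩ := normal_form s ζ ω hω0 hq hs h1s hζ0 hprimζ
  -- `s` is injective
  have hs0 : s 0 = 0 := by
    have h1 := hsπ 1
    rw [mul_one, hι₀1, map_one] at h1
    exact h1
  have hspow : ∀ i : ℕ, s (ζ ^ i) = ω ^ i * s 1 := by
    intro i
    induction i with
    | zero => simp
    | succ i ih => rw [pow_succ', hs, ih, pow_succ']; ring
  have hssurj : Function.Surjective s := by
    intro y
    by_cases hy : y = 0
    · exact ⟨0, by rw [hy, hs0]⟩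
    · obtain ⟨i, hi⟩ := hprimω (y / s 1) (div_ne_zero hy h1s)
      refine ⟨ζ ^ i, ?_⟩
      rw [hspow, ← hi]
      field_simp
  have hsinj := Finite.injective_iff_surjective.mpr hssurj
  refine ⟨φ, ?_, ?_, ?_⟩
  · intro hφ
    obtain ⟨u, v, huv⟩ := hnab
    apply huv
    have hadd : ∀ g : P, c * θ (ι₀ (g * g)) = Multiplicative.toAdd (π g) * Multiplicative.toAdd (π g) := by
      intro g
      rw [← hsπ, hform, hφ]
      rfl
    have h3 : c * θ (ι₀ ((u * v) * (u * v))) = c * θ (ι₀ (u * u) + ι₀ (v * v)) := by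
      rw [hadd, map_add, mul_add, hadd, hadd, map_mul, toAdd_mul]
      linear_combination (Multiplicative.toAdd (π u) * Multiplicative.toAdd (π v)) * h2F
    have h4 := θ.injective (mul_left_cancel₀ hc0 h3)
    rw [← hι₀mul _ _ (hsq u) (hsq v)] at h4
    -- the two squares agree
    have h5 : ((u * u) * (v * v))⁻¹ * ((u * v) * (u * v)) ∈ center P := by
      exact mul_mem (inv_mem (mul_mem (hsq u) (hsq v))) (hsq _)
    have h6 : ι₀ (((u * u) * (v * v))⁻¹ * ((u * v) * (u * v))) = 0 := by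
      have h7 := hι₀mul _ _ (mul_mem (hsq u) (hsq v)) h5
      rw [mul_inv_cancel_left, h4] at h7
      have h8 := left_eq_add.mp h7
      exact h8
    have h7 := hι₀inj _ h5 h6
    rw [inv_mul_eq_one] at h7
    have h8 : u * (v * u) * v = u * (u * v) * v := by
      calc u * (v * u) * v = (u * v) * (u * v) := by group
        _ = (u * u) * (v * v) := h7.symm
        _ = _ := by group
    have h9 : (v * u) = (u * v) := by
      have h10 := mul_right_cancel h8
      exact mul_left_cancel h10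
    exact h9.symm
  · apply odd_order
    intro x y hxy
    rw [← hform, ← hform] at hxy
    exact hsinj (θ.injective (mul_left_cancel₀ hc0 hxy))
  · refine typeA_iso (φ : F →+* F) π ?_ (fun g => Multiplicative.ofAdd (c * θ (ι₀ g))) ?_ ?_ ?_ ?_ ?_
    · intro v
      exact ⟨sec (Multiplicative.toAdd v), Multiplicative.toAdd.injective (hsec _)⟩
    · intro x y hx hy
      rw [hπker] at hx hy
      rw [hι₀mul _ _ hx hy, map_add, mul_add]
      rfl
    · intro x hx hy
      rw [hπker] at hx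
      have h3 : c * θ (ι₀ x) = 0 := Multiplicative.ofAdd.injective hy
      have h4 := (mul_eq_zero.mp h3).resolve_left hc0
      have h5 : ι₀ x = 0 := (map_eq_zero θ).mp h4
      exact hι₀inj _ hx h5
    · intro b
      obtain ⟨z, hz⟩ := hιZb.2 (θ.symm (c⁻¹ * Multiplicative.toAdd b))
      refine ⟨z, (hπker _).mpr z.2, ?_⟩
      apply Multiplicative.toAdd.injective
      change c * θ (ι₀ z) = Multiplicative.toAdd b
      rw [hι₀ _ z.2]
      have h3 : ιZ ⟨(z : P), z.2⟩ = θ.symm (c⁻¹ * Multiplicative.toAdd b) := hz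
      rw [h3, RingEquiv.apply_symm_apply]
      field_simp
    · intro z hz x
      exact (mem_center_iff.mp ((hπker z).mp hz) x).symm
    · intro x
      apply Multiplicative.toAdd.injective
      change c * θ (ι₀ (x * x)) = Multiplicative.toAdd (π x) * φ (Multiplicative.toAdd (π x))
      rw [← hsπ, hform]

/-- The statement. -/
theorem main {P : Type*} [Group P] (hP : IsSuzukiTwoGroup P)
    (hcard : Nat.card P = Nat.card (Subgroup.center P) ^ 2) :
    ∃ (F : Type) (_ : Field F) (_ : Fintype F) (φ : F ≃+* F), Fintype.card F = Nat.card (Subgroup.center P) ∧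
      φ ≠ RingEquiv.refl F ∧ Odd (orderOf φ) ∧ Nonempty (P ≃* suzukiTypeA F (φ : F →+* F)) := by
  classical
  obtain ⟨hZ, hZ2⟩ := Cfsg.Agent.S1137.result hP
  obtain ⟨hfin, h2, hnab, hne, K, hcyc, hreg⟩ := hP
  haveI := hfin
  haveI : Fact (Nat.Prime 2) := ⟨Nat.prime_two⟩
  obtain ⟨u, v, huv, hu1, huu, hv1, hvv⟩ := hne
  have hu : u ∈ center P := ((hZ u).mp ⟨hu1, huu⟩).1
  obtain ⟨n, hn⟩ := IsPGroup.iff_card.mp (h2.to_subgroup (center P))
  have hn0 : n ≠ 0 := by
    rintro rfl
    rw [pow_zero] at hn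
    have h3 : Subsingleton (center P) := (Nat.card_eq_one_iff_unique.mp hn).1
    have h4 : (⟨u, hu⟩ : center P) = 1 := Subsingleton.elim _ _
    exact hu1 (congrArg Subtype.val h4)
  have hcG : Nat.card (GaloisField 2 n) = 2 ^ n := GaloisField.card 2 n hn0
  haveI : Finite (GaloisField 2 n) := Nat.finite_of_card_ne_zero (by rw [hcG]; positivity)
  letI : Fintype (GaloisField 2 n) := Fintype.ofFinite _
  have hcG' : Fintype.card (GaloisField 2 n) = 2 ^ n := by rw [← Nat.card_eq_fintype_card, hcG]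
  haveI : CharP (GaloisField 2 n) 2 := charP_of_card_eq_prime_pow hcG'
  obtain ⟨φ, h1, h3, h4⟩ := coordinates (F := GaloisField 2 n) h2 hnab hZ hZ2 K hcyc hreg hcard hu1 huu (by rw [hcG, hn])
  exact ⟨GaloisField 2 n, inferInstance, inferInstance, φ, by rw [hcG', hn], h1, h3, h4⟩

end Cfsg.Agent.H05.SuzA
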